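import Cfsg.Prelude.Def_LieExceptional

set_option autoImplicit false

namespace Cfsg.Agent.Lib.Helper2.BN

variable {G : Type*} [Group G] (P : Cfsg.BNPair G)

/-- the double coset `B x B` -/
abbrev dc (x : G) : Set G := DoubleCoset.doubleCoset x (P.B : Set G) P.B

theorem mem_dc {x y : G} : y ∈ dc P x ↔ ∃ b ∈ P.B, ∃ b' ∈ P.B, y = b * x * b' := by
  rw [DoubleCoset.mem_doubleCoset]; rfl

theorem mem_dc_self (x : G) : x ∈ dc P x := DoubleCoset.mem_doubleCoset_self _ _ x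

theorem dc_eq {x y : G} (h : y ∈ dc P x) : dc P y = dc P x := DoubleCoset.doubleCoset_eq_of_mem h

theorem mem_dc_symm {x y : G} (h : y ∈ dc P x) : x ∈ dc P y := by
  rw [dc_eq P h]; exact mem_dc_self P x

theorem mem_dc_trans {x y z : G} (h1 : y ∈ dc P x) (h2 : z ∈ dc P y) : z ∈ dc P x := by
  rw [← dc_eq P h1]; exact h2

theorem mul_mem_dc {x y b b' : G} (h : y ∈ dc P x) (hb : b ∈ P.B) (hb' : b' ∈ P.B) :
    b * y * b' ∈ dc P x := by
  obtain ⟨c, hc, c', hc', rfl⟩ := (mem_dc P).mp h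
  exact (mem_dc P).mpr ⟨b * c, P.B.mul_mem hb hc, c' * b', P.B.mul_mem hc' hb', by group⟩

theorem left_mem_dc {x y b : G} (h : y ∈ dc P x) (hb : b ∈ P.B) : b * y ∈ dc P x := by
  simpa using mul_mem_dc P h hb P.B.one_mem

theorem right_mem_dc {x y b : G} (h : y ∈ dc P x) (hb : b ∈ P.B) : y * b ∈ dc P x := by
  simpa using mul_mem_dc P h P.B.one_mem hb

theorem mem_dc_of_rel {x y : G} (h : x⁻¹ * y ∈ P.B) : y ∈ dc P x :=
  (mem_dc P).mpr ⟨1, P.B.one_mem, x⁻¹ * y, h, by group⟩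

theorem inv_mem_dc {x y : G} (h : y ∈ dc P x) : y⁻¹ ∈ dc P x⁻¹ := by
  obtain ⟨c, hc, c', hc', rfl⟩ := (mem_dc P).mp h
  exact (mem_dc P).mpr ⟨c'⁻¹, P.B.inv_mem hc', c⁻¹, P.B.inv_mem hc, by group⟩

theorem mem_dc_B {x b : G} (hb : b ∈ P.B) : x ∈ dc P b ↔ x ∈ P.B := by
  constructor
  · intro h
    obtain ⟨c, hc, c', hc', rfl⟩ := (mem_dc P).mp h
    exact P.B.mul_mem (P.B.mul_mem hc hb) hc'
  · intro h
    exact (mem_dc P).mpr ⟨x * b⁻¹, P.B.mul_mem h (P.B.inv_mem hb), 1, P.B.one_mem, by group⟩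

theorem mem_dc_one {x : G} : x ∈ dc P 1 ↔ x ∈ P.B := mem_dc_B P P.B.one_mem

/-! ### basic facts on `S`, `H = B ⊓ N` -/

theorem S_mem_N {s : G} (hs : s ∈ P.S) : s ∈ P.N := P.subset hs

theorem ss_mem_B {s : G} (hs : s ∈ P.S) : s * s ∈ P.B := P.sq_mem s hs

theorem ss_mem_N {s : G} (hs : s ∈ P.S) : s * s ∈ P.N := P.N.mul_mem (P.subset hs) (P.subset hs)

theorem conjN {n t : G} (hn : n ∈ P.N) (ht : t ∈ P.B) (htN : t ∈ P.N) : n * t * n⁻¹ ∈ P.B :=
  P.conj_mem n hn t ⟨ht, htN⟩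

theorem conjN' {n t : G} (hn : n ∈ P.N) (ht : t ∈ P.B) (htN : t ∈ P.N) : n⁻¹ * t * n ∈ P.B := by
  simpa using conjN P (P.N.inv_mem hn) ht htN

theorem T3 {s n b : G} (hs : s ∈ P.S) (hn : n ∈ P.N) (hb : b ∈ P.B) :
    s * b * n ∈ dc P (s * n) ∨ s * b * n ∈ dc P n := P.mul_mem_union s hs n hn b hb

theorem T3' {s n x : G} (hs : s ∈ P.S) (hn : n ∈ P.N) (hx : x ∈ dc P n) :
    s * x ∈ dc P (s * n) ∨ s * x ∈ dc P n := by
  obtain ⟨c, hc, c', hc', rfl⟩ := (mem_dc P).mp hx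
  have e : s * (c * n * c') = s * c * n * c' := by group
  rw [e]
  rcases T3 P hs hn hc with h | h
  · exact Or.inl (right_mem_dc P h hc')
  · exact Or.inr (right_mem_dc P h hc')

theorem T3inv {s n x : G} (hs : s ∈ P.S) (hn : n ∈ P.N) (hx : x ∈ dc P n) :
    s⁻¹ * x ∈ dc P (s * n) ∨ s⁻¹ * x ∈ dc P n := by
  have e : s⁻¹ * x = s * ((s * s)⁻¹ * x) := by group
  rw [e]
  exact T3' P hs hn (left_mem_dc P hx (P.B.inv_mem (ss_mem_B P hs)))

/-! ### words -/

theorem prod_mem_closure {J : Set G} {L : List G} (hL : ∀ x ∈ L, x ∈ J) :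
    L.prod ∈ Subgroup.closure J :=
  Subgroup.list_prod_mem _ (fun x hx => Subgroup.subset_closure (hL x hx))

theorem prod_mem_N {L : List G} (hL : ∀ x ∈ L, x ∈ P.S) : L.prod ∈ P.N :=
  Subgroup.list_prod_mem _ (fun x hx => P.subset (hL x hx))

theorem closure_le_N {J : Set G} (hJ : J ⊆ P.S) : Subgroup.closure J ≤ P.N :=
  (Subgroup.closure_le _).mpr (fun x hx => P.subset (hJ hx))

/-- Every element of `⟨J⟩ (B ⊓ N)` is a `J`-word times an element of `B ⊓ N`. -/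
theorem exists_word_of_mem {J : Set G} (hJ : J ⊆ P.S) {n : G}
    (hn : n ∈ Subgroup.closure J ⊔ (P.B ⊓ P.N)) :
    ∃ L : List G, (∀ x ∈ L, x ∈ J) ∧ L.prod⁻¹ * n ∈ P.B := by
  have hle : Subgroup.closure J ⊔ (P.B ⊓ P.N) ≤ P.N :=
    sup_le (closure_le_N P hJ) inf_le_right
  have key : ∀ n ∈ Subgroup.closure (J ∪ ((P.B ⊓ P.N : Subgroup G) : Set G)),
      ∃ L : List G, (∀ x ∈ L, x ∈ J) ∧ L.prod⁻¹ * n ∈ P.B := by
    intro n hn
    induction hn using Subgroup.closure_induction'' with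
    | mem x hx =>
      rcases hx with hx | hx
      · exact ⟨[x], by simpa using hx, by simp⟩
      · exact ⟨[], by simp, by simpa using hx.1⟩
    | inv_mem x hx =>
      rcases hx with hx | hx
      · refine ⟨[x], by simpa using hx, ?_⟩
        have e : [x].prod⁻¹ * x⁻¹ = (x * x)⁻¹ := by simp
        rw [e]; exact P.B.inv_mem (ss_mem_B P (hJ hx))
      · exact ⟨[], by simp, by simpa using P.B.inv_mem hx.1⟩
    | one => exact ⟨[], by simp, by simp⟩
    | mul x y hx hy ihx ihy =>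
      obtain ⟨L1, hL1, h1⟩ := ihx
      obtain ⟨L2, hL2, h2⟩ := ihy
      refine ⟨L1 ++ L2, ?_, ?_⟩
      · intro z hz
        rcases List.mem_append.mp hz with hz | hz
        · exact hL1 z hz
        · exact hL2 z hz
      · have hxN : x ∈ P.N := by
          have : Subgroup.closure (J ∪ ((P.B ⊓ P.N : Subgroup G) : Set G)) ≤ P.N := by
            rw [Subgroup.closure_le]
            rintro z (hz | hz)
            · exact P.subset (hJ hz)
            · exact hz.2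
          exact this hx
        have hL1N : L1.prod ∈ P.N := prod_mem_N P (fun z hz => hJ (hL1 z hz))
        have hL2N : L2.prod ∈ P.N := prod_mem_N P (fun z hz => hJ (hL2 z hz))
        have h1N : L1.prod⁻¹ * x ∈ P.N := P.N.mul_mem (P.N.inv_mem hL1N) hxN
        have e : (L1 ++ L2).prod⁻¹ * (x * y) =
            (L2.prod⁻¹ * (L1.prod⁻¹ * x) * L2.prod) * (L2.prod⁻¹ * y) := by
          rw [List.prod_append]; group
        rw [e]
        exact P.B.mul_mem (conjN' P hL2N h1 h1N) h2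
  apply key
  rw [Subgroup.closure_union, Subgroup.closure_eq]
  exact hn

theorem exists_word {n : G} (hn : n ∈ P.N) :
    ∃ L : List G, (∀ x ∈ L, x ∈ P.S) ∧ L.prod⁻¹ * n ∈ P.B := by
  apply exists_word_of_mem P (le_refl _)
  rw [P.closure_sup]; exact hn

/-! ### `G = B N B` -/

theorem exists_mem_dc (g : G) : ∃ n ∈ P.N, g ∈ dc P n := by
  -- left multiplication by generators preserves the union of double cosets
  have hS : ∀ s ∈ P.S, ∀ x : G, (∃ n ∈ P.N, x ∈ dc P n) → ∃ n ∈ P.N, s * x ∈ dc P n := by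
    rintro s hs x ⟨n, hn, hx⟩
    rcases T3' P hs hn hx with h | h
    · exact ⟨s * n, P.N.mul_mem (P.subset hs) hn, h⟩
    · exact ⟨n, hn, h⟩
  have hB : ∀ b ∈ P.B, ∀ x : G, (∃ n ∈ P.N, x ∈ dc P n) → ∃ n ∈ P.N, b * x ∈ dc P n := by
    rintro b hb x ⟨n, hn, hx⟩
    exact ⟨n, hn, left_mem_dc P hx hb⟩
  have hW : ∀ L : List G, (∀ x ∈ L, x ∈ P.S) → ∀ x : G, (∃ n ∈ P.N, x ∈ dc P n) →
      ∃ n ∈ P.N, L.prod * x ∈ dc P n := by
    intro L
    induction L with
    | nil => intro _ x hx; simpa using hx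
    | cons s L ih =>
      intro hL x hx
      have h1 := ih (fun z hz => hL z (List.mem_cons_of_mem _ hz)) x hx
      have h2 := hS s (hL s List.mem_cons_self) _ h1
      rw [List.prod_cons, mul_assoc]; exact h2
  have hN : ∀ m ∈ P.N, ∀ x : G, (∃ n ∈ P.N, x ∈ dc P n) → ∃ n ∈ P.N, m * x ∈ dc P n := by
    intro m hm x hx
    obtain ⟨L, hL, h1⟩ := exists_word P hm
    have h2 := hB _ h1 x hx
    have h3 := hW L hL _ h2
    have e : L.prod * (L.prod⁻¹ * m * x) = m * x := by group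
    rwa [e] at h3
  have hall : ∀ g ∈ Subgroup.closure ((P.B : Set G) ∪ P.N), ∀ x : G,
      (∃ n ∈ P.N, x ∈ dc P n) → ∃ n ∈ P.N, g * x ∈ dc P n := by
    intro g hg
    induction hg using Subgroup.closure_induction'' with
    | mem y hy =>
      rcases hy with hy | hy
      · exact hB y hy
      · exact hN y hy
    | inv_mem y hy =>
      rcases hy with hy | hy
      · exact hB _ (P.B.inv_mem hy)
      · exact hN _ (P.N.inv_mem hy)
    | one => intro x hx; simpa using hx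
    | mul y z _ _ ihy ihz =>
      intro x hx
      rw [mul_assoc]; exact ihy _ (ihz x hx)
  have hg : g ∈ Subgroup.closure ((P.B : Set G) ∪ P.N) := by
    rw [Subgroup.closure_union, Subgroup.closure_eq, Subgroup.closure_eq, P.sup_eq_top]
    exact Subgroup.mem_top g
  have := hall g hg 1 ⟨1, P.N.one_mem, mem_dc_self P 1⟩
  simpa using this

end Cfsg.Agent.Lib.Helper2.BN
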