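import Cfsg.Agent.Lib.Helper2.BN

set_option autoImplicit false

namespace Cfsg.Agent.Lib.Helper2.BN

variable {G : Type*} [Group G] (P : Cfsg.BNPair G)

/-- The length of (the class of) `g` with respect to the distinguished generators. -/
noncomputable def len (g : G) : ℕ :=
  sInf {k | ∃ L : List G, (∀ x ∈ L, x ∈ P.S) ∧ L.length = k ∧ L.prod⁻¹ * g ∈ P.B}

theorem len_le {g : G} {L : List G} (hL : ∀ x ∈ L, x ∈ P.S) (h : L.prod⁻¹ * g ∈ P.B) :
    len P g ≤ L.length := Nat.sInf_le ⟨L, hL, rfl, h⟩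

theorem len_spec {n : G} (hn : n ∈ P.N) :
    ∃ L : List G, (∀ x ∈ L, x ∈ P.S) ∧ L.length = len P n ∧ L.prod⁻¹ * n ∈ P.B := by
  obtain ⟨L, hL, h⟩ := exists_word P hn
  exact Nat.sInf_mem
    (s := {k | ∃ L : List G, (∀ x ∈ L, x ∈ P.S) ∧ L.length = k ∧ L.prod⁻¹ * n ∈ P.B})
    ⟨L.length, L, hL, rfl, h⟩

theorem len_congr {x y : G} (h : x⁻¹ * y ∈ P.B) : len P x = len P y := by
  unfold len
  congr 1
  ext k
  constructor
  · rintro ⟨L, hL, hk, h1⟩
    refine ⟨L, hL, hk, ?_⟩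
    have e : L.prod⁻¹ * y = L.prod⁻¹ * x * (x⁻¹ * y) := by group
    rw [e]; exact P.B.mul_mem h1 h
  · rintro ⟨L, hL, hk, h1⟩
    refine ⟨L, hL, hk, ?_⟩
    have e : L.prod⁻¹ * x = L.prod⁻¹ * y * (x⁻¹ * y)⁻¹ := by group
    rw [e]; exact P.B.mul_mem h1 (P.B.inv_mem h)

theorem len_mul_B {g b : G} (hb : b ∈ P.B) : len P (g * b) = len P g :=
  (len_congr P (by simpa using hb)).symm

theorem len_eq_zero {n : G} (hn : n ∈ P.N) : len P n = 0 ↔ n ∈ P.B := by
  constructor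
  · intro h
    obtain ⟨L, hL, hk, h1⟩ := len_spec P hn
    rw [h, List.length_eq_zero_iff] at hk
    subst hk
    simpa using h1
  · intro h
    have := len_le P (L := []) (g := n) (by simp) (by simpa using h)
    simpa using this

theorem len_H_mul {t n : G} (ht : t ∈ P.B) (htN : t ∈ P.N) (hn : n ∈ P.N) :
    len P (t * n) = len P n := by
  refine (len_congr P ?_).symm
  have e : n⁻¹ * (t * n) = n⁻¹ * t * n := by group
  rw [e]; exact conjN' P hn ht htN

theorem len_s_mul_le {s n : G} (hs : s ∈ P.S) (hn : n ∈ P.N) : len P (s * n) ≤ len P n + 1 := by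
  obtain ⟨L, hL, hk, h1⟩ := len_spec P hn
  have := len_le P (L := s :: L) (g := s * n) (by
    intro x hx
    rcases List.mem_cons.mp hx with rfl | hx
    · exact hs
    · exact hL x hx) (by
    have e : (s :: L).prod⁻¹ * (s * n) = L.prod⁻¹ * n := by rw [List.prod_cons]; group
    rw [e]; exact h1)
  rw [List.length_cons, hk] at this; exact this

theorem len_ss_mul {s n : G} (hs : s ∈ P.S) (hn : n ∈ P.N) : len P (s * (s * n)) = len P n := by
  rw [← mul_assoc]; exact len_H_mul P (ss_mem_B P hs) (ss_mem_N P hs) hn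

theorem len_le_s_mul {s n : G} (hs : s ∈ P.S) (hn : n ∈ P.N) : len P n ≤ len P (s * n) + 1 := by
  have := len_s_mul_le P hs (P.N.mul_mem (P.subset hs) hn)
  rwa [len_ss_mul P hs hn] at this

theorem len_mul_s_le {s n : G} (hs : s ∈ P.S) (hn : n ∈ P.N) : len P (n * s) ≤ len P n + 1 := by
  obtain ⟨L, hL, hk, h1⟩ := len_spec P hn
  have hLN := prod_mem_N P hL
  have := len_le P (L := L ++ [s]) (g := n * s) (by
    intro x hx
    rcases List.mem_append.mp hx with hx | hx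
    · exact hL x hx
    · rw [List.mem_singleton] at hx; rw [hx]; exact hs) (by
    have e : (L ++ [s]).prod⁻¹ * (n * s) = s⁻¹ * (L.prod⁻¹ * n) * s := by
      rw [List.prod_append, List.prod_singleton]; group
    rw [e]; exact conjN' P (P.subset hs) h1 (P.N.mul_mem (P.N.inv_mem hLN) hn))
  rw [List.length_append, List.length_singleton, hk] at this; exact this

theorem len_mul_ss {s n : G} (hs : s ∈ P.S) : len P (n * s * s) = len P n := by
  rw [mul_assoc]; exact len_mul_B P (ss_mem_B P hs)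

theorem len_le_mul_s {s n : G} (hs : s ∈ P.S) (hn : n ∈ P.N) : len P n ≤ len P (n * s) + 1 := by
  have := len_mul_s_le P hs (P.N.mul_mem hn (P.subset hs))
  rwa [len_mul_ss P hs] at this

theorem exists_left_decomp {n : G} {k : ℕ} (hn : n ∈ P.N) (hk : len P n = k + 1) :
    ∃ s ∈ P.S, ∃ n1 ∈ P.N, n = s * n1 ∧ len P n1 = k := by
  obtain ⟨L, hL, hLk, h1⟩ := len_spec P hn
  rw [hk] at hLk
  match L, hL, hLk, h1 with
  | [], _, hLk, _ => simp at hLk
  | s :: L0, hL, hLk, h1 =>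
    have hs : s ∈ P.S := hL s List.mem_cons_self
    have hL0 : ∀ x ∈ L0, x ∈ P.S := fun x hx => hL x (List.mem_cons_of_mem _ hx)
    have hn1 : s⁻¹ * n ∈ P.N := P.N.mul_mem (P.N.inv_mem (P.subset hs)) hn
    refine ⟨s, hs, s⁻¹ * n, hn1, by group, ?_⟩
    have h2 : len P (s⁻¹ * n) ≤ k := by
      have := len_le P (L := L0) (g := s⁻¹ * n) hL0 (by
        have e : L0.prod⁻¹ * (s⁻¹ * n) = (s :: L0).prod⁻¹ * n := by rw [List.prod_cons]; group
        rw [e]; exact h1)
      simp at hLk; omega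
    have h3 := len_s_mul_le P hs hn1
    have e : s * (s⁻¹ * n) = n := by group
    rw [e, hk] at h3
    omega

theorem exists_right_decomp {n : G} {k : ℕ} (hn : n ∈ P.N) (hk : len P n = k + 1) :
    ∃ s ∈ P.S, ∃ n1 ∈ P.N, n = n1 * s ∧ len P n1 = k := by
  obtain ⟨L, hL, hLk, h1⟩ := len_spec P hn
  rw [hk] at hLk
  have hne : L ≠ [] := by rintro rfl; simp at hLk
  obtain ⟨L0, s, rfl⟩ : ∃ L0 s, L = L0 ++ [s] :=
    ⟨L.dropLast, L.getLast hne, (List.dropLast_append_getLast hne).symm⟩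
  have hs : s ∈ P.S := hL s (by simp)
  have hL0 : ∀ x ∈ L0, x ∈ P.S := fun x hx => hL x (by simp [hx])
  have hn1 : n * s⁻¹ ∈ P.N := P.N.mul_mem hn (P.N.inv_mem (P.subset hs))
  refine ⟨s, hs, n * s⁻¹, hn1, by group, ?_⟩
  have hLN := prod_mem_N P hL
  have h2 : len P (n * s⁻¹) ≤ k := by
    have := len_le P (L := L0) (g := n * s⁻¹) hL0 (by
      have e : L0.prod⁻¹ * (n * s⁻¹) = s * ((L0 ++ [s]).prod⁻¹ * n) * s⁻¹ := by
        rw [List.prod_append, List.prod_singleton]; group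
      rw [e]; exact conjN P (P.subset hs) h1 (P.N.mul_mem (P.N.inv_mem hLN) hn))
    simp at hLk; omega
  have h3 := len_mul_s_le P hs hn1
  have e : n * s⁻¹ * s = n := by group
  rw [e, hk] at h3
  omega

/-! ### Bruhat uniqueness -/

theorem bruhat_aux : ∀ k : ℕ, ∀ n ∈ P.N, ∀ n' ∈ P.N, len P n = k → k ≤ len P n' →
    n' ∈ dc P n → n⁻¹ * n' ∈ P.B := by
  intro k
  induction k with
  | zero =>
    intro n hn n' hn' hk _ h
    have hnB := (len_eq_zero P hn).mp hk
    have := (mem_dc_B P hnB).mp h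
    exact P.B.mul_mem (P.B.inv_mem hnB) this
  | succ k ih =>
    intro n hn n' hn' hk hle h
    obtain ⟨s, hs, n1, hn1, rfl, hk1⟩ := exists_left_decomp P hn hk
    have h1 : s * n1 ∈ dc P n' := mem_dc_symm P h
    have h2 := T3inv P hs hn' h1
    have e : s⁻¹ * (s * n1) = n1 := by group
    rw [e] at h2
    rcases h2 with h2 | h2
    · have hsn' : s * n' ∈ P.N := P.N.mul_mem (P.subset hs) hn'
      have h3 := ih n1 hn1 (s * n') hsn' hk1 (by have := len_le_s_mul P hs hn'; omega)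
        (mem_dc_symm P h2)
      have e2 : (s * n1)⁻¹ * n' = (n1⁻¹ * (s * n')) * (n'⁻¹ * (s * s)⁻¹ * n') := by group
      rw [e2]
      exact P.B.mul_mem h3 (conjN' P hn' (P.B.inv_mem (ss_mem_B P hs))
        (P.N.inv_mem (ss_mem_N P hs)))
    · exfalso
      have h3 := ih n1 hn1 n' hn' hk1 (by omega) (mem_dc_symm P h2)
      have := len_congr P h3
      omega

theorem bruhat {n n' : G} (hn : n ∈ P.N) (hn' : n' ∈ P.N) (h : n' ∈ dc P n) :
    n⁻¹ * n' ∈ P.B := by
  rcases le_total (len P n) (len P n') with hle | hle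
  · exact bruhat_aux P _ n hn n' hn' rfl hle h
  · have := bruhat_aux P _ n' hn' n hn rfl hle (mem_dc_symm P h)
    have e : n⁻¹ * n' = (n'⁻¹ * n)⁻¹ := by group
    rw [e]; exact P.B.inv_mem this

theorem dc_eq_iff {n n' : G} (hn : n ∈ P.N) (hn' : n' ∈ P.N) :
    dc P n = dc P n' ↔ n⁻¹ * n' ∈ P.B := by
  constructor
  · intro h
    apply bruhat P hn hn'
    rw [h]; exact mem_dc_self P n'
  · intro h
    exact (dc_eq P (mem_dc_of_rel P h)).symm

/-! ### `S` avoids `B` -/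

theorem S_not_mem_B {s : G} (hs : s ∈ P.S) : s ∉ P.B := by
  intro h
  apply P.conj_ne s hs
  ext x
  constructor
  · rintro ⟨b, hb, rfl⟩
    exact P.B.mul_mem (P.B.mul_mem h hb) h
  · intro hx
    exact ⟨s⁻¹ * x * s⁻¹, P.B.mul_mem (P.B.mul_mem (P.B.inv_mem h) hx) (P.B.inv_mem h), by group⟩

theorem exists_sbs_not_mem {s : G} (hs : s ∈ P.S) : ∃ b ∈ P.B, s * b * s ∉ P.B := by
  by_contra hcon
  push_neg at hcon
  apply P.conj_ne s hs
  ext x
  constructor
  · rintro ⟨b, hb, rfl⟩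
    exact hcon b hb
  · intro hx
    refine ⟨s⁻¹ * x * s⁻¹, ?_, by group⟩
    have hx' : s * ((s * s)⁻¹ * x * (s * s)⁻¹) * s ∈ P.B :=
      hcon _ (P.B.mul_mem (P.B.mul_mem (P.B.inv_mem (ss_mem_B P hs)) hx)
        (P.B.inv_mem (ss_mem_B P hs)))
    have e : s * ((s * s)⁻¹ * x * (s * s)⁻¹) * s = s⁻¹ * x * s⁻¹ := by group
    rw [e] at hx'
    exact hx'

theorem not_conj_mem_B {s n : G} (hs : s ∈ P.S) (hn : n ∈ P.N) : n⁻¹ * (s * n) ∉ P.B := by
  intro h
  apply S_not_mem_B P hs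
  have hN : n⁻¹ * (s * n) ∈ P.N := P.N.mul_mem (P.N.inv_mem hn) (P.N.mul_mem (P.subset hs) hn)
  have := conjN P hn h hN
  have e : n * (n⁻¹ * (s * n)) * n⁻¹ = s := by group
  rwa [e] at this

theorem len_S {s : G} (hs : s ∈ P.S) : len P s = 1 := by
  have h1 : len P s ≤ 1 := by
    have := len_le P (L := [s]) (g := s) (by simpa using hs) (by simp)
    simpa using this
  have h2 : len P s ≠ 0 := fun h => S_not_mem_B P hs ((len_eq_zero P (P.subset hs)).mp h)
  omega

end Cfsg.Agent.Lib.Helper2.BN
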