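import Cfsg.Agent.Lib.Helper2.BN2

set_option autoImplicit false

namespace Cfsg.Agent.Lib.Helper2.BN

variable {G : Type*} [Group G] (P : Cfsg.BNPair G)

theorem T3r {s n x : G} (hs : s ∈ P.S) (hn : n ∈ P.N) (hx : x ∈ dc P n) :
    x * s ∈ dc P (n * s) ∨ x * s ∈ dc P n := by
  have h1 := T3inv P hs (P.N.inv_mem hn) (inv_mem_dc P hx)
  rcases h1 with h | h
  · left
    have h2 := inv_mem_dc P h
    have e : (s⁻¹ * x⁻¹)⁻¹ = x * s := by group
    rw [e] at h2
    refine mem_dc_trans P (mem_dc_of_rel P ?_) h2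
    have e2 : (n * s)⁻¹ * (s * n⁻¹)⁻¹ = (s * s)⁻¹ := by group
    rw [e2]; exact P.B.inv_mem (ss_mem_B P hs)
  · right
    have h2 := inv_mem_dc P h
    have e : (s⁻¹ * x⁻¹)⁻¹ = x * s := by group
    rw [e, inv_inv] at h2
    exact h2

theorem T3r_inv {s n x : G} (hs : s ∈ P.S) (hn : n ∈ P.N) (hx : x ∈ dc P n) :
    x * s⁻¹ ∈ dc P (n * s) ∨ x * s⁻¹ ∈ dc P n := by
  have e : x * s⁻¹ = (x * (s * s)⁻¹) * s := by group
  rw [e]
  exact T3r P hs hn (right_mem_dc P hx (P.B.inv_mem (ss_mem_B P hs)))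

/-! ### Lemma A -/

theorem lemA_aux : ∀ k : ℕ, ∀ n ∈ P.N, len P n = k → ∀ s ∈ P.S, len P n ≤ len P (s * n) →
    ∀ b ∈ P.B, s * b * n ∈ dc P (s * n) := by
  intro k
  induction k with
  | zero =>
    intro n hn hk s hs _ b hb
    have hnB := (len_eq_zero P hn).mp hk
    apply mem_dc_of_rel
    have e : (s * n)⁻¹ * (s * b * n) = n⁻¹ * b * n := by group
    rw [e]; exact P.B.mul_mem (P.B.mul_mem (P.B.inv_mem hnB) hb) hnB
  | succ k ih =>
    intro n hn hk s hs hle b hb
    by_contra hcon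
    have h1 : s * b * n ∈ dc P n := (T3 P hs hn hb).resolve_left hcon
    obtain ⟨r, hr, n1, hn1, rfl, hk1⟩ := exists_right_decomp P hn hk
    have hsn1 : s * n1 ∈ P.N := P.N.mul_mem (P.subset hs) hn1
    have h2 := T3r_inv P hr (P.N.mul_mem hn1 (P.subset hr)) h1
    have e : s * b * (n1 * r) * r⁻¹ = s * b * n1 := by group
    rw [e] at h2
    have h3 : s * b * n1 ∈ dc P (s * n1) := by
      apply ih n1 hn1 hk1 s hs _ b hb
      have := len_mul_s_le P hr hsn1
      have e2 : s * n1 * r = s * (n1 * r) := by group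
      rw [e2] at this
      omega
    rcases h2 with h2 | h2
    · -- s b n1 ∈ dc (n1 r r) = dc n1
      have h4 : n1 * r * r ∈ dc P n1 := by
        apply mem_dc_of_rel
        have e3 : n1⁻¹ * (n1 * r * r) = r * r := by group
        rw [e3]; exact ss_mem_B P hr
      have h5 : s * b * n1 ∈ dc P n1 := mem_dc_trans P h4 h2
      have h6 : s * n1 ∈ dc P n1 := mem_dc_trans P h5 (mem_dc_symm P h3)
      exact not_conj_mem_B P hs hn1 (bruhat P hn1 hsn1 h6)
    · have h6 : s * n1 ∈ dc P (n1 * r) := mem_dc_trans P h2 (mem_dc_symm P h3)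
      have hn1r : n1 * r ∈ P.N := P.N.mul_mem hn1 (P.subset hr)
      have h7 := bruhat P hn1r hsn1 h6
      have h7N : (n1 * r)⁻¹ * (s * n1) ∈ P.N := P.N.mul_mem (P.N.inv_mem hn1r) hsn1
      -- len (s n1 r) = len n1
      have h8 : len P n1 = len P (s * (n1 * r)) := by
        apply len_congr
        have e4 : n1⁻¹ * (s * (n1 * r)) = (r * ((n1 * r)⁻¹ * (s * n1)) * r⁻¹) * (r * r) := by group
        rw [e4]
        exact P.B.mul_mem (conjN P (P.subset hr) h7 h7N) (ss_mem_B P hr)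
      omega

theorem lemA {s n b : G} (hs : s ∈ P.S) (hn : n ∈ P.N) (hb : b ∈ P.B)
    (h : len P n ≤ len P (s * n)) : s * b * n ∈ dc P (s * n) :=
  lemA_aux P _ n hn rfl s hs h b hb

theorem lemB {s n : G} (hs : s ∈ P.S) (hn : n ∈ P.N) (h : len P (s * n) ≤ len P n) :
    ∃ b ∈ P.B, s * b * n ∈ dc P n := by
  obtain ⟨b0, hb0, hb0'⟩ := exists_sbs_not_mem P hs
  have h1 := T3 P hs (P.subset hs) hb0
  rcases h1 with h1 | h1
  · exact absurd ((mem_dc_B P (ss_mem_B P hs)).mp h1) hb0'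
  · obtain ⟨b1, hb1, b2, hb2, h2⟩ := (mem_dc P).mp h1
    refine ⟨b0, hb0, ?_⟩
    have hsn : s * n ∈ P.N := P.N.mul_mem (P.subset hs) hn
    have h3 : s * (b2 * (s * s)⁻¹) * (s * n) ∈ dc P (s * (s * n)) :=
      lemA P hs hsn (P.B.mul_mem hb2 (P.B.inv_mem (ss_mem_B P hs)))
        (by rw [len_ss_mul P hs hn]; exact h)
    have h4 : s * (s * n) ∈ dc P n := by
      apply mem_dc_of_rel
      have e : n⁻¹ * (s * (s * n)) = n⁻¹ * (s * s) * n := by group
      rw [e]; exact conjN' P hn (ss_mem_B P hs) (ss_mem_N P hs)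
    have h5 := left_mem_dc P (mem_dc_trans P h4 h3) hb1
    have e : b1 * (s * (b2 * (s * s)⁻¹) * (s * n)) = (b1 * s * b2) * s⁻¹ * n := by group
    rw [e, ← h2] at h5
    have e2 : s * b0 * s * s⁻¹ * n = s * b0 * n := by group
    rwa [e2] at h5

theorem len_s_mul_ne {s n : G} (hs : s ∈ P.S) (hn : n ∈ P.N) : len P (s * n) ≠ len P n := by
  intro h
  obtain ⟨b, hb, h1⟩ := lemB P hs hn (le_of_eq h)
  have h2 := lemA P hs hn hb (le_of_eq h.symm)
  have h3 : s * n ∈ dc P n := mem_dc_trans P h1 (mem_dc_symm P h2)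
  exact not_conj_mem_B P hs hn (bruhat P hn (P.N.mul_mem (P.subset hs) hn) h3)

theorem len_s_mul {s n : G} (hs : s ∈ P.S) (hn : n ∈ P.N) :
    len P (s * n) = len P n + 1 ∨ len P (s * n) + 1 = len P n := by
  have h1 := len_s_mul_le P hs hn
  have h2 := len_le_s_mul P hs hn
  have h3 := len_s_mul_ne P hs hn
  omega

/-! ### inversion -/

theorem rev_prod_rel : ∀ L : List G, (∀ x ∈ L, x ∈ P.S) → L.reverse.prod⁻¹ * L.prod⁻¹ ∈ P.B := by
  intro L
  induction L with
  | nil => intro _; simp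
  | cons s L ih =>
    intro hL
    have hs : s ∈ P.S := hL s List.mem_cons_self
    have hL0 : ∀ x ∈ L, x ∈ P.S := fun x hx => hL x (List.mem_cons_of_mem _ hx)
    have h0 := ih hL0
    have hLr : ∀ x ∈ L.reverse, x ∈ P.S := fun x hx => hL0 x (List.mem_reverse.mp hx)
    have h0N : L.reverse.prod⁻¹ * L.prod⁻¹ ∈ P.N :=
      P.N.mul_mem (P.N.inv_mem (prod_mem_N P hLr)) (P.N.inv_mem (prod_mem_N P hL0))
    have e : (s :: L).reverse.prod⁻¹ * (s :: L).prod⁻¹ =
        (s⁻¹ * (L.reverse.prod⁻¹ * L.prod⁻¹) * s) * (s * s)⁻¹ := by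
      rw [List.reverse_cons, List.prod_append, List.prod_singleton, List.prod_cons]; group
    rw [e]
    exact P.B.mul_mem (conjN' P (P.subset hs) h0 h0N) (P.B.inv_mem (ss_mem_B P hs))

theorem len_inv_le {n : G} (hn : n ∈ P.N) : len P n⁻¹ ≤ len P n := by
  obtain ⟨L, hL, hk, h1⟩ := len_spec P hn
  have hLr : ∀ x ∈ L.reverse, x ∈ P.S := fun x hx => hL x (List.mem_reverse.mp hx)
  have h2 : L.reverse.prod⁻¹ * n⁻¹ ∈ P.B := by
    have e : L.reverse.prod⁻¹ * n⁻¹ =
        (L.reverse.prod⁻¹ * (L.prod⁻¹ * n)⁻¹ * L.reverse.prod) * (L.reverse.prod⁻¹ * L.prod⁻¹) := by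
      group
    rw [e]
    exact P.B.mul_mem (conjN' P (prod_mem_N P hLr) (P.B.inv_mem h1)
      (P.N.inv_mem (P.N.mul_mem (P.N.inv_mem (prod_mem_N P hL)) hn))) (rev_prod_rel P L hL)
  have := len_le P hLr h2
  rw [List.length_reverse, hk] at this
  exact this

theorem len_inv {n : G} (hn : n ∈ P.N) : len P n⁻¹ = len P n := by
  apply le_antisymm (len_inv_le P hn)
  have := len_inv_le P (P.N.inv_mem hn)
  rwa [inv_inv] at this

theorem len_s_mul_inv {s n : G} (hs : s ∈ P.S) (hn : n ∈ P.N) :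
    len P (s * n⁻¹) = len P (n * s) := by
  have h1 : len P (s * n⁻¹) = len P (s * n⁻¹)⁻¹ :=
    (len_inv P (P.N.mul_mem (P.subset hs) (P.N.inv_mem hn))).symm
  rw [h1]
  symm
  apply len_congr
  have e : (n * s)⁻¹ * (s * n⁻¹)⁻¹ = (s * s)⁻¹ := by group
  rw [e]; exact P.B.inv_mem (ss_mem_B P hs)

theorem lemA_r {s n b : G} (hs : s ∈ P.S) (hn : n ∈ P.N) (hb : b ∈ P.B)
    (h : len P n ≤ len P (n * s)) : n * b * s ∈ dc P (n * s) := by
  have h1 : s * ((s * s)⁻¹ * b⁻¹) * n⁻¹ ∈ dc P (s * n⁻¹) :=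
    lemA P hs (P.N.inv_mem hn) (P.B.mul_mem (P.B.inv_mem (ss_mem_B P hs)) (P.B.inv_mem hb))
      (by rw [len_s_mul_inv P hs hn, len_inv P hn]; exact h)
  have h2 := inv_mem_dc P h1
  have e : (s * ((s * s)⁻¹ * b⁻¹) * n⁻¹)⁻¹ = n * b * s := by group
  rw [e] at h2
  refine mem_dc_trans P (mem_dc_of_rel P ?_) h2
  have e2 : (n * s)⁻¹ * (s * n⁻¹)⁻¹ = (s * s)⁻¹ := by group
  rw [e2]; exact P.B.inv_mem (ss_mem_B P hs)

theorem lemB_r {s n : G} (hs : s ∈ P.S) (hn : n ∈ P.N) (h : len P (n * s) ≤ len P n) :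
    ∃ b ∈ P.B, n * b * s ∈ dc P n := by
  obtain ⟨b, hb, h1⟩ := lemB P hs (P.N.inv_mem hn)
    (by rw [len_s_mul_inv P hs hn, len_inv P hn]; exact h)
  have h2 := inv_mem_dc P h1
  rw [inv_inv] at h2
  refine ⟨b⁻¹ * (s * s)⁻¹, P.B.mul_mem (P.B.inv_mem hb) (P.B.inv_mem (ss_mem_B P hs)), ?_⟩
  have e : n * (b⁻¹ * (s * s)⁻¹) * s = (s * b * n⁻¹)⁻¹ := by group
  rw [e]; exact h2

/-! ### exchange and deletion -/

theorem exchange : ∀ L : List G, (∀ x ∈ L, x ∈ P.S) → L.length = len P L.prod →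
    ∀ s ∈ P.S, len P (s * L.prod) ≤ len P L.prod →
    ∃ L1 L2 : List G, ∃ s' : G, L = L1 ++ s' :: L2 ∧ (s * L.prod)⁻¹ * (L1 ++ L2).prod ∈ P.B := by
  intro L
  induction L using List.reverseRecOn with
  | nil =>
    intro _ _ s hs h
    exfalso
    have h1 : len P (1 : G) = 0 := (len_eq_zero P P.N.one_mem).mpr P.B.one_mem
    simp only [List.prod_nil, mul_one] at h
    rw [h1, len_S P hs] at h
    omega
  | append_singleton L0 r ih =>
    intro hL hlen s hs h
    have hr : r ∈ P.S := hL r (by simp)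
    have hL0 : ∀ x ∈ L0, x ∈ P.S := fun x hx => hL x (by simp [hx])
    have hn0 : L0.prod ∈ P.N := prod_mem_N P hL0
    rw [List.prod_append, List.prod_singleton] at hlen h ⊢
    rw [List.length_append, List.length_singleton] at hlen
    have hred0 : L0.length = len P L0.prod := by
      have h1 := len_le P (L := L0) (g := L0.prod) hL0 (by simp)
      have h2 := len_mul_s_le P hr hn0
      omega
    have hsn0 : s * L0.prod ∈ P.N := P.N.mul_mem (P.subset hs) hn0
    by_cases hcase : len P (s * L0.prod) ≤ len P L0.prod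
    · obtain ⟨L1, L2, s', hLeq, h1⟩ := ih hL0 hred0 s hs hcase
      refine ⟨L1, L2 ++ [r], s', by rw [hLeq]; simp, ?_⟩
      have hN : (s * L0.prod)⁻¹ * (L1 ++ L2).prod ∈ P.N := by
        refine P.N.mul_mem (P.N.inv_mem hsn0) (prod_mem_N P ?_)
        intro x hx
        apply hL0
        rw [hLeq]
        rcases List.mem_append.mp hx with hx | hx
        · exact List.mem_append_left _ hx
        · exact List.mem_append_right _ (List.mem_cons_of_mem _ hx)
      have e : (s * (L0.prod * r))⁻¹ * (L1 ++ (L2 ++ [r])).prod =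
          r⁻¹ * ((s * L0.prod)⁻¹ * (L1 ++ L2).prod) * r := by
        rw [← List.append_assoc, List.prod_append, List.prod_singleton]; group
      rw [e]
      exact conjN' P (P.subset hr) h1 hN
    · have hcase := not_le.mp hcase
      refine ⟨L0, [], r, rfl, ?_⟩
      rw [List.append_nil]
      have hk : len P (s * L0.prod * r) ≤ len P (s * L0.prod) := by
        have e : s * L0.prod * r = s * (L0.prod * r) := by group
        rw [e]
        have := len_s_mul_le P hs hn0
        omega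
      obtain ⟨b, hb, h1⟩ := lemB_r P hr hsn0 hk
      have h2 : L0.prod * b * r ∈ dc P (L0.prod * r) :=
        lemA_r P hr hn0 hb (by omega)
      have hn0r : L0.prod * r ∈ P.N := P.N.mul_mem hn0 (P.subset hr)
      have h3 := T3' P hs hn0r h2
      have e : s * (L0.prod * b * r) = s * L0.prod * b * r := by group
      rw [e] at h3
      rcases h3 with h3 | h3
      · exfalso
        have h4 : s * (L0.prod * r) ∈ dc P (s * L0.prod) := mem_dc_trans P h1 (mem_dc_symm P h3)
        have h5 := bruhat P hsn0 (P.N.mul_mem (P.subset hs) hn0r) h4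
        have e2 : (s * L0.prod)⁻¹ * (s * (L0.prod * r)) = r := by group
        rw [e2] at h5
        exact S_not_mem_B P hr h5
      · have h4 : L0.prod * r ∈ dc P (s * L0.prod) := mem_dc_trans P h1 (mem_dc_symm P h3)
        have h5 := bruhat P hsn0 hn0r h4
        have h5N : (s * L0.prod)⁻¹ * (L0.prod * r) ∈ P.N := P.N.mul_mem (P.N.inv_mem hsn0) hn0r
        have e2 : (s * (L0.prod * r))⁻¹ * L0.prod =
            (r⁻¹ * ((s * L0.prod)⁻¹ * (L0.prod * r)) * r) * (r * r)⁻¹ := by group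
        rw [e2]
        exact P.B.mul_mem (conjN' P (P.subset hr) h5 h5N) (P.B.inv_mem (ss_mem_B P hr))

theorem exists_reduced : ∀ L : List G, (∀ x ∈ L, x ∈ P.S) →
    ∃ L' : List G, (∀ x ∈ L', x ∈ L) ∧ L'.length = len P L.prod ∧ L'.prod⁻¹ * L.prod ∈ P.B := by
  intro L
  induction L with
  | nil =>
    intro _
    exact ⟨[], by simp, by
      simp only [List.length_nil, List.prod_nil]
      exact ((len_eq_zero P P.N.one_mem).mpr P.B.one_mem).symm, by simp⟩
  | cons s L0 ih =>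
    intro hL
    have hs : s ∈ P.S := hL s List.mem_cons_self
    have hL0 : ∀ x ∈ L0, x ∈ P.S := fun x hx => hL x (List.mem_cons_of_mem _ hx)
    obtain ⟨L0', hsub, hlen, hrel⟩ := ih hL0
    have hL0' : ∀ x ∈ L0', x ∈ P.S := fun x hx => hL0 x (hsub x hx)
    have hn0 : L0.prod ∈ P.N := prod_mem_N P hL0
    have hn0' : L0'.prod ∈ P.N := prod_mem_N P hL0'
    have hlc : len P L0'.prod = len P L0.prod := len_congr P hrel
    have hlc2 : len P (s * L0'.prod) = len P (s * L0.prod) := by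
      apply len_congr
      have e : (s * L0'.prod)⁻¹ * (s * L0.prod) = L0'.prod⁻¹ * L0.prod := by group
      rw [e]; exact hrel
    rw [List.prod_cons]
    rcases len_s_mul P hs hn0 with h | h
    · refine ⟨s :: L0', ?_, ?_, ?_⟩
      · intro x hx
        rcases List.mem_cons.mp hx with rfl | hx
        · exact List.mem_cons_self
        · exact List.mem_cons_of_mem _ (hsub x hx)
      · rw [List.length_cons, hlen, h]
      · have e : (s :: L0').prod⁻¹ * (s * L0.prod) = L0'.prod⁻¹ * L0.prod := by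
          rw [List.prod_cons]; group
        rw [e]; exact hrel
    · obtain ⟨L1, L2, s', hLeq, h1⟩ := exchange P L0' hL0' (by rw [hlen, hlc]) s hs
        (by rw [hlc2, hlc]; omega)
      refine ⟨L1 ++ L2, ?_, ?_, ?_⟩
      · intro x hx
        apply List.mem_cons_of_mem
        apply hsub
        rw [hLeq]
        rcases List.mem_append.mp hx with hx | hx
        · exact List.mem_append_left _ hx
        · exact List.mem_append_right _ (List.mem_cons_of_mem _ hx)
      · have : L0'.length = (L1 ++ L2).length + 1 := by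
          rw [hLeq]; simp only [List.length_append, List.length_cons]; omega
        omega
      · have e : (L1 ++ L2).prod⁻¹ * (s * L0.prod) =
            ((s * L0'.prod)⁻¹ * (L1 ++ L2).prod)⁻¹ * (L0'.prod⁻¹ * L0.prod) := by group
        rw [e]
        exact P.B.mul_mem (P.B.inv_mem h1) hrel

/-- A distinguished generator congruent to a `J`-word lies in `J`. -/
theorem mem_of_rel_word {J : Set G} (hJ : J ⊆ P.S) {s : G} (hs : s ∈ P.S) {L : List G}
    (hL : ∀ x ∈ L, x ∈ J) (h : L.prod⁻¹ * s ∈ P.B) : s ∈ J := by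
  obtain ⟨L', hsub, hlen, hrel⟩ := exists_reduced P L (fun x hx => hJ (hL x hx))
  rw [len_congr P h, len_S P hs] at hlen
  obtain ⟨s', rfl⟩ := List.length_eq_one_iff.mp hlen
  have hs'J : s' ∈ J := hL s' (hsub s' (by simp))
  have h2 : s'⁻¹ * s ∈ P.B := by
    have e : s'⁻¹ * s = ([s'].prod⁻¹ * L.prod) * (L.prod⁻¹ * s) := by
      rw [List.prod_singleton]; group
    rw [e]; exact P.B.mul_mem hrel h
  have := P.inj s' (hJ hs'J) s hs h2
  rw [← this]; exact hs'J

/-! ### Lemma C -/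

theorem first_letter_mem {s n1 : G} (hs : s ∈ P.S) (hn1 : n1 ∈ P.N)
    (h : len P n1 ≤ len P (s * n1)) {M : Subgroup G} (hB : P.B ≤ M)
    (hM : ∀ b ∈ P.B, (s * n1) * b * (s * n1)⁻¹ ∈ M) : s ∈ M := by
  have hsn1 : s * n1 ∈ P.N := P.N.mul_mem (P.subset hs) hn1
  obtain ⟨b, hb, h1⟩ := lemB P hs hsn1 (by rw [len_ss_mul P hs hn1]; exact h)
  obtain ⟨b1, hb1, b2, hb2, h2⟩ := (mem_dc P).mp h1
  have e : s = b1 * ((s * n1) * b2 * (s * n1)⁻¹) * b⁻¹ := by
    calc s = (s * b * (s * n1)) * (s * n1)⁻¹ * b⁻¹ := by group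
      _ = (b1 * (s * n1) * b2) * (s * n1)⁻¹ * b⁻¹ := by rw [h2]
      _ = b1 * ((s * n1) * b2 * (s * n1)⁻¹) * b⁻¹ := by group
  have h3 : b1 * ((s * n1) * b2 * (s * n1)⁻¹) * b⁻¹ ∈ M :=
    M.mul_mem (M.mul_mem (hB hb1) (hM b2 hb2)) (hB (P.B.inv_mem hb))
  rw [← e] at h3
  exact h3

theorem mem_of_conj_le : ∀ k : ℕ, ∀ n ∈ P.N, len P n = k → ∀ M : Subgroup G, P.B ≤ M →
    (∀ b ∈ P.B, n * b * n⁻¹ ∈ M) → n ∈ M := by
  intro k
  induction k with
  | zero =>
    intro n hn hk M hB _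
    exact hB ((len_eq_zero P hn).mp hk)
  | succ k ih =>
    intro n hn hk M hB hM
    obtain ⟨s, hs, n1, hn1, rfl, hk1⟩ := exists_left_decomp P hn hk
    have hsM : s ∈ M := first_letter_mem P hs hn1 (by omega) hB hM
    have hn1M : n1 ∈ M := by
      apply ih n1 hn1 hk1 M hB
      intro b hb
      have := M.mul_mem (M.mul_mem (M.inv_mem hsM) (hM b hb)) hsM
      have e : s⁻¹ * (s * n1 * b * (s * n1)⁻¹) * s = n1 * b * n1⁻¹ := by group
      rwa [e] at this
    exact M.mul_mem hsM hn1M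

theorem mem_of_conj_le' {n : G} (hn : n ∈ P.N) {M : Subgroup G} (hB : P.B ≤ M)
    (hM : ∀ b ∈ P.B, n * b * n⁻¹ ∈ M) : n ∈ M :=
  mem_of_conj_le P _ n hn rfl M hB hM

theorem letters_mem : ∀ L : List G, (∀ x ∈ L, x ∈ P.S) → L.length = len P L.prod →
    ∀ M : Subgroup G, P.B ≤ M → L.prod ∈ M → ∀ x ∈ L, x ∈ M := by
  intro L
  induction L with
  | nil => intro _ _ M _ _ x hx; simp at hx
  | cons s L0 ih =>
    intro hL hlen M hB hM
    have hs : s ∈ P.S := hL s List.mem_cons_self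
    have hL0 : ∀ x ∈ L0, x ∈ P.S := fun x hx => hL x (List.mem_cons_of_mem _ hx)
    have hn0 : L0.prod ∈ P.N := prod_mem_N P hL0
    rw [List.prod_cons] at hlen hM
    rw [List.length_cons] at hlen
    have hred0 : L0.length = len P L0.prod := by
      have h1 := len_le P (L := L0) (g := L0.prod) hL0 (by simp)
      have h2 := len_s_mul_le P hs hn0
      omega
    have hsM : s ∈ M := by
      apply first_letter_mem P hs hn0 (by omega) hB
      intro b hb
      exact M.mul_mem (M.mul_mem hM (hB hb)) (M.inv_mem hM)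
    have hn0M : L0.prod ∈ M := by
      have := M.mul_mem (M.inv_mem hsM) hM
      have e : s⁻¹ * (s * L0.prod) = L0.prod := by group
      rwa [e] at this
    intro x hx
    rcases List.mem_cons.mp hx with rfl | hx
    · exact hsM
    · exact ih hL0 hred0 M hB hn0M x hx

/-! ### parabolic subgroups -/

theorem B_le_parabolic (J : Set G) : P.B ≤ P.parabolic J := le_sup_left

theorem closure_le_parabolic (J : Set G) : Subgroup.closure J ≤ P.parabolic J := le_sup_right

theorem mem_parabolic_iff {J : Set G} (hJ : J ⊆ P.S) (g : G) :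
    g ∈ P.parabolic J ↔ ∃ n ∈ Subgroup.closure J, g ∈ dc P n := by
  constructor
  · intro hg
    have hcl := closure_le_N P hJ
    have hS : ∀ s ∈ J, ∀ x : G, (∃ n ∈ Subgroup.closure J, x ∈ dc P n) →
        ∃ n ∈ Subgroup.closure J, s * x ∈ dc P n := by
      rintro s hs x ⟨n, hn, hx⟩
      rcases T3' P (hJ hs) (hcl hn) hx with h | h
      · exact ⟨s * n, (Subgroup.closure J).mul_mem (Subgroup.subset_closure hs) hn, h⟩
      · exact ⟨n, hn, h⟩
    have hSi : ∀ s ∈ J, ∀ x : G, (∃ n ∈ Subgroup.closure J, x ∈ dc P n) →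
        ∃ n ∈ Subgroup.closure J, s⁻¹ * x ∈ dc P n := by
      rintro s hs x ⟨n, hn, hx⟩
      rcases T3inv P (hJ hs) (hcl hn) hx with h | h
      · exact ⟨s * n, (Subgroup.closure J).mul_mem (Subgroup.subset_closure hs) hn, h⟩
      · exact ⟨n, hn, h⟩
    have hB : ∀ b ∈ P.B, ∀ x : G, (∃ n ∈ Subgroup.closure J, x ∈ dc P n) →
        ∃ n ∈ Subgroup.closure J, b * x ∈ dc P n := by
      rintro b hb x ⟨n, hn, hx⟩
      exact ⟨n, hn, left_mem_dc P hx hb⟩
    have hall : ∀ g ∈ Subgroup.closure ((P.B : Set G) ∪ J), ∀ x : G,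
        (∃ n ∈ Subgroup.closure J, x ∈ dc P n) → ∃ n ∈ Subgroup.closure J, g * x ∈ dc P n := by
      intro g hg
      induction hg using Subgroup.closure_induction'' with
      | mem y hy =>
        rcases hy with hy | hy
        · exact hB y hy
        · exact hS y hy
      | inv_mem y hy =>
        rcases hy with hy | hy
        · exact hB _ (P.B.inv_mem hy)
        · exact hSi y hy
      | one => intro x hx; simpa using hx
      | mul y z _ _ ihy ihz =>
        intro x hx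
        rw [mul_assoc]; exact ihy _ (ihz x hx)
    have hg' : g ∈ Subgroup.closure ((P.B : Set G) ∪ J) := by
      rw [Subgroup.closure_union, Subgroup.closure_eq]
      exact hg
    have := hall g hg' 1 ⟨1, (Subgroup.closure J).one_mem, mem_dc_self P 1⟩
    simpa using this
  · rintro ⟨n, hn, hg⟩
    obtain ⟨b, hb, b', hb', rfl⟩ := (mem_dc P).mp hg
    exact (P.parabolic J).mul_mem ((P.parabolic J).mul_mem (B_le_parabolic P J hb)
      (closure_le_parabolic P J hn)) (B_le_parabolic P J hb')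

/-- A distinguished generator lying in the parabolic `P_J` belongs to `J`. -/
theorem mem_of_mem_parabolic {J : Set G} (hJ : J ⊆ P.S) {s : G} (hs : s ∈ P.S)
    (h : s ∈ P.parabolic J) : s ∈ J := by
  obtain ⟨n, hn, hsn⟩ := (mem_parabolic_iff P hJ s).mp h
  have hnN := closure_le_N P hJ hn
  have h1 := bruhat P hnN (P.subset hs) hsn
  obtain ⟨L, hL, h2⟩ := exists_word_of_mem P hJ (Subgroup.mem_sup_left hn : n ∈ Subgroup.closure J ⊔ (P.B ⊓ P.N))
  apply mem_of_rel_word P hJ hs hL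
  have e : L.prod⁻¹ * s = (L.prod⁻¹ * n) * (n⁻¹ * s) := by group
  rw [e]; exact P.B.mul_mem h2 h1

end Cfsg.Agent.Lib.Helper2.BN
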