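import Cfsg.Agent.Lib.Helper2.BN3

set_option autoImplicit false

namespace Cfsg.Agent.Lib.Helper2.BN

variable {G : Type*} [Group G] (P : Cfsg.BNPair G)

/-- Every subgroup containing `B` is a standard parabolic. -/
theorem exists_parabolic_eq (M : Subgroup G) (hM : P.B ≤ M) :
    M = P.parabolic {s | s ∈ P.S ∧ s ∈ M} := by
  apply le_antisymm
  · intro g hg
    obtain ⟨n, hn, hgn⟩ := exists_mem_dc P g
    obtain ⟨b, hb, b', hb', rfl⟩ := (mem_dc P).mp hgn
    have hnM : n ∈ M := by
      have := M.mul_mem (M.mul_mem (M.inv_mem (hM hb)) hg) (M.inv_mem (hM hb'))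
      have e : b⁻¹ * (b * n * b') * b'⁻¹ = n := by group
      rwa [e] at this
    obtain ⟨L, hL, hlen, hrel⟩ := len_spec P hn
    have hLM : L.prod ∈ M := by
      have := M.mul_mem hnM (M.inv_mem (hM hrel))
      have e : n * (L.prod⁻¹ * n)⁻¹ = L.prod := by group
      rwa [e] at this
    have hred : L.length = len P L.prod := by
      rw [hlen]; symm; apply len_congr
      have e : L.prod⁻¹ * n = L.prod⁻¹ * n := rfl
      exact hrel
    have hlet := letters_mem P L hL hred M hM hLM
    have hLJ : L.prod ∈ P.parabolic {s | s ∈ P.S ∧ s ∈ M} :=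
      closure_le_parabolic P _ (prod_mem_closure (fun x hx => ⟨hL x hx, hlet x hx⟩))
    have hnJ : n ∈ P.parabolic {s | s ∈ P.S ∧ s ∈ M} := by
      have := (P.parabolic {s | s ∈ P.S ∧ s ∈ M}).mul_mem hLJ (B_le_parabolic P _ hrel)
      have e : L.prod * (L.prod⁻¹ * n) = n := by group
      rwa [e] at this
    exact (P.parabolic _).mul_mem ((P.parabolic _).mul_mem (B_le_parabolic P _ hb) hnJ)
      (B_le_parabolic P _ hb')
  · apply sup_le hM
    rw [Subgroup.closure_le]
    intro s hs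
    exact hs.2

theorem parabolic_mono {J K : Set G} (h : J ⊆ K) : P.parabolic J ≤ P.parabolic K :=
  sup_le_sup_left (Subgroup.closure_mono h) _

theorem parabolic_le_iff {J K : Set G} (hJ : J ⊆ P.S) (hK : K ⊆ P.S) :
    P.parabolic J ≤ P.parabolic K ↔ J ⊆ K := by
  constructor
  · intro h s hs
    exact mem_of_mem_parabolic P hK (hJ hs)
      (h (closure_le_parabolic P J (Subgroup.subset_closure hs)))
  · exact parabolic_mono P

theorem parabolic_inf {J K : Set G} (hJ : J ⊆ P.S) (hK : K ⊆ P.S) :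
    P.parabolic J ⊓ P.parabolic K = P.parabolic (J ∩ K) := by
  apply le_antisymm
  · rintro g ⟨hgJ, hgK⟩
    obtain ⟨n, hn, hgn⟩ := (mem_parabolic_iff P hJ g).mp hgJ
    obtain ⟨b, hb, b', hb', rfl⟩ := (mem_dc P).mp hgn
    have hnK : n ∈ P.parabolic K := by
      have := (P.parabolic K).mul_mem ((P.parabolic K).mul_mem
        ((P.parabolic K).inv_mem (B_le_parabolic P K hb)) hgK)
        ((P.parabolic K).inv_mem (B_le_parabolic P K hb'))
      have e : b⁻¹ * (b * n * b') * b'⁻¹ = n := by group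
      rwa [e] at this
    obtain ⟨L, hL, hrel⟩ := exists_word_of_mem P hJ
      (Subgroup.mem_sup_left hn : n ∈ Subgroup.closure J ⊔ (P.B ⊓ P.N))
    obtain ⟨L', hsub, hlen, hrel'⟩ := exists_reduced P L (fun x hx => hJ (hL x hx))
    have hL'S : ∀ x ∈ L', x ∈ P.S := fun x hx => hJ (hL x (hsub x hx))
    have hrel2 : L'.prod⁻¹ * n ∈ P.B := by
      have e : L'.prod⁻¹ * n = (L'.prod⁻¹ * L.prod) * (L.prod⁻¹ * n) := by group
      rw [e]; exact P.B.mul_mem hrel' hrel
    have hL'K : L'.prod ∈ P.parabolic K := by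
      have := (P.parabolic K).mul_mem hnK ((P.parabolic K).inv_mem (B_le_parabolic P K hrel2))
      have e : n * (L'.prod⁻¹ * n)⁻¹ = L'.prod := by group
      rwa [e] at this
    have hred : L'.length = len P L'.prod := by
      rw [hlen]; symm; exact len_congr P hrel'
    have hlet := letters_mem P L' hL'S hred (P.parabolic K) (B_le_parabolic P K) hL'K
    have hL'JK : L'.prod ∈ P.parabolic (J ∩ K) :=
      closure_le_parabolic P _ (prod_mem_closure (fun x hx =>
        ⟨hL x (hsub x hx), mem_of_mem_parabolic P hK (hL'S x hx) (hlet x hx)⟩))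
    have hnJK : n ∈ P.parabolic (J ∩ K) := by
      have := (P.parabolic (J ∩ K)).mul_mem hL'JK (B_le_parabolic P _ hrel2)
      have e : L'.prod * (L'.prod⁻¹ * n) = n := by group
      rwa [e] at this
    exact (P.parabolic _).mul_mem ((P.parabolic _).mul_mem (B_le_parabolic P _ hb) hnJK)
      (B_le_parabolic P _ hb')
  · exact le_inf (parabolic_mono P Set.inter_subset_left) (parabolic_mono P Set.inter_subset_right)

/-- If `g` conjugates `B` into a subgroup `M ⊇ B` then `g ∈ M`. -/
theorem mem_of_conj_B_le {g : G} {M : Subgroup G} (hB : P.B ≤ M)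
    (h : ∀ b ∈ P.B, g * b * g⁻¹ ∈ M) : g ∈ M := by
  obtain ⟨n, hn, hgn⟩ := exists_mem_dc P g
  obtain ⟨b, hb, b', hb', rfl⟩ := (mem_dc P).mp hgn
  have hnM : n ∈ M := by
    apply mem_of_conj_le' P hn hB
    intro c hc
    have h1 := h (b'⁻¹ * c * b') (P.B.mul_mem (P.B.mul_mem (P.B.inv_mem hb') hc) hb')
    have h2 := M.mul_mem (M.mul_mem (M.inv_mem (hB hb)) h1) (hB hb)
    have e : b⁻¹ * (b * n * b' * (b'⁻¹ * c * b') * (b * n * b')⁻¹) * b = n * c * n⁻¹ := by group
    rwa [e] at h2
  exact M.mul_mem (M.mul_mem (hB hb) hnM) (hB hb')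

end Cfsg.Agent.Lib.Helper2.BN
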