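import Cfsg.Agent.Lib.Helper2.BN4

set_option autoImplicit false

namespace Cfsg.Agent.Lib.Helper2.BN

variable {G : Type*} [Group G] (P : Cfsg.BNPair G)

theorem closure_singleton_cases {s : G} (hs : s ∈ P.S) :
    ∀ m ∈ Subgroup.closure ({s} : Set G), m ∈ P.B ∨ s⁻¹ * m ∈ P.B := by
  have hJ : ({s} : Set G) ⊆ P.S := Set.singleton_subset_iff.mpr hs
  intro m hm
  induction hm using Subgroup.closure_induction'' with
  | mem x hx => right; rw [Set.mem_singleton_iff.mp hx]; simp
  | inv_mem x hx =>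
    right; rw [Set.mem_singleton_iff.mp hx]
    have e : s⁻¹ * s⁻¹ = (s * s)⁻¹ := by group
    rw [e]; exact P.B.inv_mem (ss_mem_B P hs)
  | one => left; exact P.B.one_mem
  | mul x y hx hy ihx ihy =>
    have hxN := closure_le_N P hJ hx
    have hyN := closure_le_N P hJ hy
    have hsN := P.subset hs
    rcases ihx with hx1 | hx1
    · rcases ihy with hy1 | hy1
      · left; exact P.B.mul_mem hx1 hy1
      · right
        have e : s⁻¹ * (x * y) = (s⁻¹ * x * s) * (s⁻¹ * y) := by group
        rw [e]; exact P.B.mul_mem (conjN' P hsN hx1 hxN) hy1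
    · rcases ihy with hy1 | hy1
      · right
        have e : s⁻¹ * (x * y) = (s⁻¹ * x) * y := by group
        rw [e]; exact P.B.mul_mem hx1 hy1
      · left
        have e : x * y = (s * (s⁻¹ * x) * s⁻¹) * (s * s) * (s⁻¹ * y) := by group
        rw [e]
        exact P.B.mul_mem (P.B.mul_mem (conjN P hsN hx1 (P.N.mul_mem (P.N.inv_mem hsN) hxN))
          (ss_mem_B P hs)) hy1

theorem len_two {r s : G} (hr : r ∈ P.S) (hs : s ∈ P.S) (hne : r ≠ s) : len P (r * s) = 2 := by
  have h1 := len_s_mul P hr (P.subset hs)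
  rw [len_S P hs] at h1
  rcases h1 with h1 | h1
  · exact h1
  · exfalso
    have h0 : len P (r * s) = 0 := by omega
    have hB := (len_eq_zero P (P.N.mul_mem (P.subset hr) (P.subset hs))).mp h0
    apply hne
    apply P.inj r hr s hs
    have e : r⁻¹ * s = (r * r)⁻¹ * (r * s) := by group
    rw [e]; exact P.B.mul_mem (P.B.inv_mem (ss_mem_B P hr)) hB

theorem mem_of_dc_mem {M : Subgroup G} (hB : P.B ≤ M) {y m : G} (hy : y ∈ M) (h : y ∈ dc P m) :
    m ∈ M := by
  obtain ⟨b, hb, b', hb', rfl⟩ := (mem_dc P).mp h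
  have := M.mul_mem (M.mul_mem (M.inv_mem (hB hb)) hy) (M.inv_mem (hB hb'))
  have e : b⁻¹ * (b * m * b') * b'⁻¹ = m := by group
  rwa [e] at this

/-- For a normal subgroup `K` with `B K = P_I`, the generators in `I` commute modulo `B` with those
outside `I`. -/
theorem comm_mem_B_of_normal {K : Subgroup G} (hK : K.Normal) {I : Set G} (hI : I ⊆ P.S)
    (hBK : P.B ⊔ K = P.parabolic I) {σ ρ : G} (hσ : σ ∈ I) (hρ : ρ ∈ P.S) (hρI : ρ ∉ I) :
    σ * ρ * σ⁻¹ * ρ⁻¹ ∈ P.B := by
  haveI := hK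
  have hσS : σ ∈ P.S := hI hσ
  have hσN := P.subset hσS
  have hρN := P.subset hρ
  have hne : ρ ≠ σ := fun h => hρI (h ▸ hσ)
  have hBI := B_le_parabolic P I
  have hσP : σ ∈ P.parabolic I := closure_le_parabolic P I (Subgroup.subset_closure hσ)
  have hρP : ρ ∉ P.parabolic I := fun h => hρI (mem_of_mem_parabolic P hI hρ h)
  have hσBK : σ ∈ P.B ⊔ K := by rw [hBK]; exact hσP
  obtain ⟨b, hb, k, hk, hbk⟩ := Subgroup.mem_sup_of_normal_right.mp hσBK
  have hk' : k = b⁻¹ * σ := by rw [← hbk]; group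
  have hconj : ρ * b⁻¹ * σ * ρ⁻¹ ∈ P.parabolic I := by
    have h1 : ρ * k * ρ⁻¹ ∈ K := hK.conj_mem k hk ρ
    have h2 : ρ * k * ρ⁻¹ ∈ P.B ⊔ K := Subgroup.mem_sup_right h1
    rw [hBK, hk'] at h2
    have e : ρ * (b⁻¹ * σ) * ρ⁻¹ = ρ * b⁻¹ * σ * ρ⁻¹ := by group
    rwa [e] at h2
  have hl2 : len P (ρ * σ) = 2 := len_two P hρ hσS hne
  have hl2' : len P (σ * ρ) = 2 := len_two P hσS hρ (Ne.symm hne)
  have hρσN : ρ * σ ∈ P.N := P.N.mul_mem hρN hσN
  have hx : ρ * b⁻¹ * σ ∈ dc P (ρ * σ) :=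
    lemA P hρ hσN (P.B.inv_mem hb) (by rw [hl2, len_S P hσS]; omega)
  rcases T3r_inv P hρ hρσN hx with h | h
  · -- ρσρ ∈ P_I
    have hm : ρ * σ * ρ ∈ P.parabolic I := mem_of_dc_mem P hBI hconj h
    have hmN : ρ * σ * ρ ∈ P.N := P.N.mul_mem hρσN hρN
    have hσρN : σ * ρ ∈ P.N := P.N.mul_mem hσN hρN
    have hassoc : ρ * σ * ρ = ρ * (σ * ρ) := by group
    rcases len_s_mul P hρ hσρN with h3 | h3
    · exfalso
      have hprod : [ρ, σ, ρ].prod = ρ * σ * ρ := by simp [mul_assoc]
      have hmem := letters_mem P [ρ, σ, ρ] (by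
          intro x hx
          simp only [List.mem_cons, List.not_mem_nil, or_false] at hx
          rcases hx with rfl | rfl | rfl
          · exact hρ
          · exact hσS
          · exact hρ) (by rw [hprod, hassoc, h3, hl2']; rfl) (P.parabolic I) hBI
        (by rw [hprod]; exact hm) ρ (by simp)
      exact hρP hmem
    · have h1 : len P (ρ * σ * ρ) = 1 := by rw [hassoc]; omega
      obtain ⟨L, hL, hlen, hrel⟩ := len_spec P hmN
      rw [h1] at hlen
      obtain ⟨τ, rfl⟩ := List.length_eq_one_iff.mp hlen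
      have hτ : τ ∈ P.S := hL τ (by simp)
      have hτN := P.subset hτ
      rw [List.prod_singleton] at hrel
      have hrelN : τ⁻¹ * (ρ * σ * ρ) ∈ P.N := P.N.mul_mem (P.N.inv_mem hτN) hmN
      have hτP : τ ∈ P.parabolic I := by
        have := (P.parabolic I).mul_mem hm ((P.parabolic I).inv_mem (hBI hrel))
        have e : ρ * σ * ρ * (τ⁻¹ * (ρ * σ * ρ))⁻¹ = τ := by group
        rwa [e] at this
      have hτI : τ ∈ I := mem_of_mem_parabolic P hI hτ hτP
      -- τρ ≡ ρσ
      have hrel2 : (ρ * σ)⁻¹ * (τ * ρ) ∈ P.B := by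
        have e : (ρ * σ)⁻¹ * (τ * ρ) = (ρ * (τ⁻¹ * (ρ * σ * ρ))⁻¹ * ρ⁻¹) * (ρ * ρ) := by group
        rw [e]
        exact P.B.mul_mem (conjN P hρN (P.B.inv_mem hrel) (P.N.inv_mem hrelN)) (ss_mem_B P hρ)
      have hlτρ : len P (τ * ρ) = 2 := by rw [← len_congr P hrel2, hl2]
      have hJ' : ({ρ, σ} : Set G) ⊆ P.S := by
        rintro z (rfl | rfl)
        · exact hρ
        · exact hσS
      have hρσM : ρ * σ ∈ P.parabolic {ρ, σ} :=
        closure_le_parabolic P _ ((Subgroup.closure _).mul_mem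
          (Subgroup.subset_closure (Set.mem_insert _ _))
          (Subgroup.subset_closure (Set.mem_insert_of_mem _ rfl)))
      have hτρM : τ * ρ ∈ P.parabolic {ρ, σ} := by
        have := (P.parabolic {ρ, σ}).mul_mem hρσM (B_le_parabolic P _ hrel2)
        have e : ρ * σ * ((ρ * σ)⁻¹ * (τ * ρ)) = τ * ρ := by group
        rwa [e] at this
      have hprod : [τ, ρ].prod = τ * ρ := by simp
      have hτM := letters_mem P [τ, ρ] (by
          intro x hx
          simp only [List.mem_cons, List.not_mem_nil, or_false] at hx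
          rcases hx with rfl | rfl
          · exact hτ
          · exact hρ) (by rw [hprod, hlτρ]; rfl) (P.parabolic {ρ, σ}) (B_le_parabolic P _)
        (by rw [hprod]; exact hτρM) τ (by simp)
      have hτ' := mem_of_mem_parabolic P hJ' hτ hτM
      have hτσ : τ = σ := by
        rcases hτ' with h5 | h5
        · exact absurd (h5 ▸ hτI) hρI
        · exact h5
      rw [hτσ] at hrel hrelN
      have e : σ * ρ * σ⁻¹ * ρ⁻¹ = σ * ((ρ * ρ) * (σ⁻¹ * (ρ * σ * ρ))⁻¹) * σ⁻¹ := by group
      rw [e]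
      exact conjN P hσN (P.B.mul_mem (ss_mem_B P hρ) (P.B.inv_mem hrel))
        (P.N.mul_mem (ss_mem_N P hρ) (P.N.inv_mem hrelN))
  · exfalso
    have hm : ρ * σ ∈ P.parabolic I := mem_of_dc_mem P hBI hconj h
    apply hρP
    have := (P.parabolic I).mul_mem hm ((P.parabolic I).inv_mem hσP)
    have e : ρ * σ * σ⁻¹ = ρ := by group
    rwa [e] at this

theorem tits_simple [Nontrivial G] (hirr : P.Irreducible) (hsolv : Group.IsSolvable P.B)
    (hperf : commutator G = ⊤) (hcore : P.B.normalCore = ⊥) : IsSimpleGroup G := by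
  refine { toNontrivial := inferInstance, eq_bot_or_eq_top_of_normal := fun K hK => ?_ }
  haveI := hK
  have hI : {s | s ∈ P.S ∧ s ∈ P.B ⊔ K} ⊆ P.S := fun s hs => hs.1
  have hBK := exists_parabolic_eq P (P.B ⊔ K) le_sup_left
  by_cases hne : ({s | s ∈ P.S ∧ s ∈ P.B ⊔ K} : Set G).Nonempty
  · by_cases hne' : (P.S \ {s | s ∈ P.S ∧ s ∈ P.B ⊔ K}).Nonempty
    · exfalso
      obtain ⟨s, hs, s', hs', hcomm⟩ := hirr _ hI hne hne'
      exact hcomm (comm_mem_B_of_normal P hK hI hBK hs hs'.1 hs'.2)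
    · right
      rw [Set.not_nonempty_iff_eq_empty, Set.sdiff_eq_empty] at hne'
      have hS : Subgroup.closure P.S ≤ P.B ⊔ K := by
        rw [Subgroup.closure_le]
        intro s hs
        exact (hne' hs).2
      have hN : P.N ≤ P.B ⊔ K := by
        rw [← P.closure_sup]
        exact sup_le hS (inf_le_left.trans le_sup_left)
      have htop : P.B ⊔ K = ⊤ := by
        rw [eq_top_iff, ← P.sup_eq_top]
        exact sup_le le_sup_left hN
      by_contra hKtop
      have hnt : Nontrivial (G ⧸ K) := by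
        rw [← not_subsingleton_iff_nontrivial]
        intro hsub
        exact hKtop (QuotientGroup.subgroup_eq_top_of_subsingleton K hsub)
      haveI : Group.IsSolvable (G ⧸ K) := by
        haveI := hsolv
        apply Group.isSolvable_of_surjective (f := (QuotientGroup.mk' K).comp P.B.subtype)
        intro q
        obtain ⟨g, rfl⟩ := QuotientGroup.mk_surjective q
        have hg : g ∈ P.B ⊔ K := by rw [htop]; trivial
        obtain ⟨b, hb, k, hk, rfl⟩ := Subgroup.mem_sup_of_normal_right.mp hg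
        refine ⟨⟨b, hb⟩, ?_⟩
        show (QuotientGroup.mk b : G ⧸ K) = QuotientGroup.mk (b * k)
        rw [QuotientGroup.eq]
        simpa using hk
      have hlt := Group.IsSolvable.commutator_lt_top_of_nontrivial (G ⧸ K)
      have htop' : commutator (G ⧸ K) = ⊤ := by
        rw [commutator_def, ← Subgroup.map_top_of_surjective (QuotientGroup.mk' K)
          (QuotientGroup.mk'_surjective K), ← Subgroup.map_commutator, ← commutator_def, hperf]
      exact absurd htop' (ne_of_lt hlt)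
  · left
    rw [Set.not_nonempty_iff_eq_empty] at hne
    rw [hne] at hBK
    have hKB : K ≤ P.B := by
      have h1 : K ≤ P.B ⊔ K := le_sup_right
      rw [hBK] at h1
      have h2 : P.parabolic ∅ = P.B := by
        show P.B ⊔ Subgroup.closure ∅ = P.B
        rw [Subgroup.closure_empty, sup_bot_eq]
      rwa [h2] at h1
    have := Subgroup.normal_le_normalCore.mpr hKB
    rw [hcore] at this
    exact le_bot_iff.mp this

end Cfsg.Agent.Lib.Helper2.BN
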