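import Cfsg.Agent.Lib.Helper2.BN3
import Cfsg.Agent.Lib.Helper2.Mats

set_option autoImplicit false

namespace Cfsg.Agent.Lib.Helper2.BN

open Cfsg.Agent.Lib.Helper2.Mats

variable {G : Type*} [Group G] (P : Cfsg.BNPair G)

/-- the Weyl group -/
abbrev Weyl : Type _ := P.N ⧸ (P.B ⊓ P.N).subgroupOf P.N

theorem weyl_mk_eq_iff (n n' : P.N) :
    (QuotientGroup.mk n : Weyl P) = QuotientGroup.mk n' ↔ (n : G)⁻¹ * (n' : G) ∈ P.B := by
  rw [QuotientGroup.eq, Subgroup.mem_subgroupOf]
  constructor
  · intro h; exact h.1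
  · intro h; exact ⟨h, (n⁻¹ * n').2⟩

/-- the generators of the Weyl group -/
def wgen (s : P.S) : Weyl P := QuotientGroup.mk ⟨(s : G), P.subset s.2⟩

/-- the length function of the Weyl group -/
noncomputable def wlen (w : Weyl P) : ℕ := len P ((Quotient.out w : P.N) : G)

theorem wlen_mk (n : P.N) : wlen P (QuotientGroup.mk n) = len P (n : G) := by
  unfold wlen
  apply len_congr
  have h : (QuotientGroup.mk (Quotient.out (QuotientGroup.mk n : Weyl P)) : Weyl P) =
      QuotientGroup.mk n := QuotientGroup.out_eq' _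
  exact (weyl_mk_eq_iff P _ _).mp h

theorem lst_mem (L : List P.S) : ∀ x ∈ L.map (fun s : P.S => (s : G)), x ∈ P.S := by
  intro x hx
  obtain ⟨s, _, rfl⟩ := List.mem_map.mp hx
  exact s.2

variable [hN : ((P.B ⊓ P.N).subgroupOf P.N).Normal]

theorem wgen_word (L : List P.S) :
    (L.map (wgen P)).prod =
      QuotientGroup.mk ⟨(L.map (fun s : P.S => (s : G))).prod, prod_mem_N P (lst_mem P L)⟩ := by
  induction L with
  | nil => rfl
  | cons s L ih =>
    rw [List.map_cons, List.prod_cons, ih]
    rfl

theorem exists_lift_list (L : List G) (hL : ∀ x ∈ L, x ∈ P.S) :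
    ∃ L' : List P.S, L'.map (fun s : P.S => (s : G)) = L := by
  induction L with
  | nil => exact ⟨[], rfl⟩
  | cons x L ih =>
    obtain ⟨L', hL'⟩ := ih (fun y hy => hL y (List.mem_cons_of_mem _ hy))
    exact ⟨⟨x, hL x List.mem_cons_self⟩ :: L', by rw [List.map_cons, hL']⟩

theorem weyl_exsys : ExSys (wgen P) (wlen P) where
  inv := by
    intro s
    have h1 : (wgen P s * wgen P s : Weyl P) =
        QuotientGroup.mk ((⟨(s : G), P.subset s.2⟩ : P.N) * ⟨(s : G), P.subset s.2⟩) := rfl
    rw [h1, ← QuotientGroup.mk_one, weyl_mk_eq_iff]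
    simp only [Subgroup.coe_mul, Subgroup.coe_one, mul_one]
    exact P.B.inv_mem (P.sq_mem s s.2)
  le := by
    intro L
    rw [wgen_word, wlen_mk]
    have := len_le P (g := (L.map (fun s : P.S => (s : G))).prod) (lst_mem P L) (by simp)
    simpa using this
  ex := by
    intro w
    obtain ⟨n, rfl⟩ := QuotientGroup.mk_surjective w
    obtain ⟨L, hL, hlen, hB⟩ := len_spec P n.2
    obtain ⟨L', rfl⟩ := exists_lift_list P L hL
    refine ⟨L', ?_, ?_⟩
    · rw [wgen_word, weyl_mk_eq_iff]
      exact hB
    · rw [wlen_mk, ← hlen]; simp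
  exch := by
    intro L hred s hle
    have hsw : wgen P s * (L.map (wgen P)).prod = ((s :: L).map (wgen P)).prod := by
      rw [List.map_cons, List.prod_cons]
    rw [hsw, wgen_word, wgen_word, wlen_mk, wlen_mk] at hle
    rw [wgen_word, wlen_mk] at hred
    simp only [List.map_cons, List.prod_cons] at hle
    have hred' : (L.map (fun s : P.S => (s : G))).length =
        len P (L.map (fun s : P.S => (s : G))).prod := by
      rw [List.length_map]; exact hred
    obtain ⟨L1, L2, s', hdec, hB⟩ := exchange P _ (lst_mem P L) hred' (s : G) s.2 hle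
    obtain ⟨M1, M2', hL, hM1, hM2⟩ := List.map_eq_append_iff.mp hdec
    obtain ⟨t, M2, hM2', ht, hM2''⟩ := List.map_eq_cons_iff.mp hM2
    refine ⟨M1, t, M2, by rw [hL, hM2'], ?_⟩
    rw [hsw, wgen_word, wgen_word, weyl_mk_eq_iff]
    simp only [List.map_cons, List.prod_cons, List.map_append]
    rw [hM1, hM2'']
    exact hB

/-- The Weyl group of a BN-pair is a Coxeter system. -/
theorem weyl_coxeter :
    ∃ (M : CoxeterMatrix P.S) (cs : CoxeterSystem M (P.N ⧸ (P.B ⊓ P.N).subgroupOf P.N)),
      ∀ s : P.S, cs.simple s = QuotientGroup.mk (⟨(s : G), P.subset s.2⟩ : P.N) := by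
  have E := weyl_exsys P
  have hinv : ∀ s : P.S, (wgen P s)⁻¹ = wgen P s := fun s =>
    inv_eq_of_mul_eq_one_left (E.inv s)
  let M : CoxeterMatrix P.S :=
    { M := fun s t => orderOf (wgen P s * wgen P t)
      isSymm := by
        apply Matrix.IsSymm.ext
        intro s t
        show orderOf (wgen P t * wgen P s) = orderOf (wgen P s * wgen P t)
        have : wgen P t * wgen P s = (wgen P s * wgen P t)⁻¹ := by
          rw [mul_inv_rev, hinv, hinv]
        rw [this, orderOf_inv]
      diagonal := by
        intro s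
        show orderOf (wgen P s * wgen P s) = 1
        rw [E.inv]; exact orderOf_one
      off_diagonal := by
        intro s t hst h
        have h' : orderOf (wgen P s * wgen P t) = 1 := h
        rw [orderOf_eq_one_iff] at h'
        have h1 : (wgen P s * wgen P t : Weyl P) =
            QuotientGroup.mk ((⟨(s : G), P.subset s.2⟩ : P.N) * ⟨(t : G), P.subset t.2⟩) := rfl
        rw [h1, ← QuotientGroup.mk_one, weyl_mk_eq_iff] at h'
        simp only [Subgroup.coe_mul, Subgroup.coe_one, mul_one] at h'
        have h2 : (s : G) * (t : G) ∈ P.B := by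
          have := P.B.inv_mem h'
          simpa using this
        have h3 : (s : G)⁻¹ * (t : G) ∈ P.B := by
          have e : (s : G)⁻¹ * (t : G) = ((s : G) * (s : G))⁻¹ * ((s : G) * (t : G)) := by group
          rw [e]
          exact P.B.mul_mem (P.B.inv_mem (P.sq_mem s s.2)) h2
        exact hst (Subtype.ext (P.inj s s.2 t t.2 h3)) }
  have hlift : CoxeterMatrix.IsLiftable M (wgen P) := fun s t => pow_orderOf_eq_one _
  let φ : M.Group →* Weyl P := M.toCoxeterSystem.lift ⟨wgen P, hlift⟩
  have hφ : ∀ s, φ (M.simple s) = wgen P s := by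
    intro s
    have := M.toCoxeterSystem.lift_apply_simple hlift s
    simpa using this
  have hφw : ∀ L : List P.S, φ ((L.map M.simple).prod) = (L.map (wgen P)).prod := by
    intro L
    rw [map_list_prod, List.map_map]
    congr 1
    apply List.map_congr_left
    intro s _
    exact hφ s
  have hf : ∀ s, M.simple s * M.simple s = 1 := by
    intro s
    have := M.toCoxeterSystem.simple_mul_simple_self s
    simpa using this
  have hff : ∀ s t, (M.simple s * M.simple t) ^ orderOf (wgen P s * wgen P t) = 1 := by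
    intro s t
    have := M.toCoxeterSystem.simple_mul_simple_pow s t
    simpa using this
  have hsurj : Function.Surjective φ := by
    intro w
    obtain ⟨L, hL, _⟩ := E.ex w
    exact ⟨(L.map M.simple).prod, by rw [hφw, hL]⟩
  have hinj : Function.Injective φ := by
    rw [injective_iff_map_eq_one]
    intro x hx
    obtain ⟨L, rfl⟩ := M.toCoxeterSystem.wordProd_surjective x
    have hw : M.toCoxeterSystem.wordProd L = (L.map M.simple).prod := by
      rw [CoxeterSystem.wordProd, CoxeterMatrix.toCoxeterSystem_simple]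
    rw [hw] at hx ⊢
    have := E.word_indep M.simple hf hff L [] (by rw [← hφw, hx]; simp)
    simpa using this
  refine ⟨M, ⟨(MulEquiv.ofBijective φ ⟨hinj, hsurj⟩).symm⟩, fun s => ?_⟩
  exact hφ s

end Cfsg.Agent.Lib.Helper2.BN
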