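import Cfsg.Agent.Lib.Helper2.ClassTwo

set_option autoImplicit false

namespace Cfsg.Agent.Lib.Helper2

open scoped commutatorElement

section

variable {P : Type*} [Group P]

theorem central_left_comm (c : P) (hc : ∀ w, Commute c w) (u v : P) :
    u * (c * v) = c * (u * v) :=
  (hc u).symm.left_comm v

theorem central_pow (c : P) (hc : ∀ w, Commute c w) (k : ℕ) : ∀ w, Commute (c ^ k) w :=
  fun w => (hc w).pow_left k

/-- `t ^ k * y = s ^ k * (y * t ^ k)` when `t * y = s * (y * t)` with `s` central. -/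
theorem c3_L0 (t y s : P) (hs : ∀ w, Commute s w) (hty : t * y = s * (y * t)) (k : ℕ) :
    t ^ k * y = s ^ k * (y * t ^ k) := by
  induction k with
  | zero => simp
  | succ k ih =>
    calc t ^ (k + 1) * y = t * (t ^ k * y) := by rw [pow_succ', mul_assoc]
      _ = t * (s ^ k * (y * t ^ k)) := by rw [ih]
      _ = s ^ k * (t * (y * t ^ k)) := central_left_comm _ (central_pow s hs k) _ _
      _ = s ^ k * ((t * y) * t ^ k) := by rw [mul_assoc]
      _ = s ^ k * ((s * (y * t)) * t ^ k) := by rw [hty]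
      _ = (s ^ k * s) * (y * (t * t ^ k)) := by simp only [mul_assoc]
      _ = s ^ (k + 1) * (y * t ^ (k + 1)) := by rw [← pow_succ, ← pow_succ']

/-- `(t * y) ^ m = s ^ C(m+1,2) * (y ^ m * t ^ m)`. -/
theorem c3_L1 (t y s : P) (hs : ∀ w, Commute s w) (hty : t * y = s * (y * t)) (m : ℕ) :
    (t * y) ^ m = s ^ ((m + 1).choose 2) * (y ^ m * t ^ m) := by
  induction m with
  | zero => simp
  | succ m ih =>
    have h1 := c3_L0 t y s hs hty (m + 1)
    have hch : (m + 1 + 1).choose 2 = (m + 1).choose 2 + (m + 1) := by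
      rw [Nat.choose_succ_succ' (m + 1) 1, Nat.choose_one_right, add_comm]
    calc (t * y) ^ (m + 1) = (t * y) ^ m * (t * y) := pow_succ _ _
      _ = s ^ ((m + 1).choose 2) * (y ^ m * t ^ m) * (t * y) := by rw [ih]
      _ = s ^ ((m + 1).choose 2) * (y ^ m * (t ^ (m + 1) * y)) := by
        rw [pow_succ t]; simp only [mul_assoc]
      _ = s ^ ((m + 1).choose 2) * (y ^ m * (s ^ (m + 1) * (y * t ^ (m + 1)))) := by rw [h1]
      _ = s ^ ((m + 1).choose 2) * (s ^ (m + 1) * (y ^ m * (y * t ^ (m + 1)))) := by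
        rw [central_left_comm _ (central_pow s hs (m + 1))]
      _ = s ^ ((m + 1 + 1).choose 2) * (y ^ (m + 1) * t ^ (m + 1)) := by
        rw [hch, pow_add s ((m + 1).choose 2) (m + 1), pow_succ y]; simp only [mul_assoc]

/-- `x * y ^ k = (t * y) ^ k * x` when `x * y = t * y * x`. -/
theorem c3_L2 (x y t : P) (hxy : x * y = t * y * x) (k : ℕ) :
    x * y ^ k = (t * y) ^ k * x := by
  have h : SemiconjBy x y (t * y) := hxy
  exact (h.pow_right k)

/-- `x * t ^ k = z ^ k * (t ^ k * x)` when `x * t = z * (t * x)` with `z` central. -/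
theorem c3_L3 (x t z : P) (hz : ∀ w, Commute z w) (hxt : x * t = z * (t * x)) (k : ℕ) :
    x * t ^ k = z ^ k * (t ^ k * x) := by
  have h : SemiconjBy x t (z * t) := by
    show x * t = z * t * x
    rw [hxt, mul_assoc]
  have h2 : x * t ^ k = (z * t) ^ k * x := h.pow_right k
  rw [h2, (hz t).mul_pow, mul_assoc]

/-- `x ^ i * y = z ^ C(i,2) * (t ^ i * y * x ^ i)`. -/
theorem c3_F1 (x y t z : P) (hz : ∀ w, Commute z w) (hxy : x * y = t * y * x)
    (hxt : x * t = z * (t * x)) (i : ℕ) :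
    x ^ i * y = z ^ (i.choose 2) * (t ^ i * y * x ^ i) := by
  induction i with
  | zero => simp
  | succ i ih =>
    have h1 := c3_L3 x t z hz hxt i
    have hch : (i + 1).choose 2 = i.choose 2 + i := by
      rw [Nat.choose_succ_succ' i 1, Nat.choose_one_right, add_comm]
    calc x ^ (i + 1) * y = x * (x ^ i * y) := by rw [pow_succ', mul_assoc]
      _ = x * (z ^ (i.choose 2) * (t ^ i * y * x ^ i)) := by rw [ih]
      _ = z ^ (i.choose 2) * (x * (t ^ i * y * x ^ i)) :=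
        central_left_comm _ (central_pow z hz _) _ _
      _ = z ^ (i.choose 2) * ((x * t ^ i) * y * x ^ i) := by simp only [mul_assoc]
      _ = z ^ (i.choose 2) * ((z ^ i * (t ^ i * x)) * y * x ^ i) := by rw [h1]
      _ = z ^ (i.choose 2) * (z ^ i * (t ^ i * ((x * y) * x ^ i))) := by simp only [mul_assoc]
      _ = z ^ (i.choose 2) * (z ^ i * (t ^ i * ((t * y * x) * x ^ i))) := by rw [hxy]
      _ = z ^ ((i + 1).choose 2) * (t ^ (i + 1) * y * x ^ (i + 1)) := by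
        rw [hch, pow_add z, pow_succ t, pow_succ' x]; simp only [mul_assoc]

theorem c3_shuffle (C S1 Z1 U V W : P) (hZ1 : ∀ w, Commute Z1 w) :
    C * ((S1 * U) * (Z1 * V) * W) = (C * S1 * Z1) * (U * V * W) := by
  have h : U * (Z1 * (V * W)) = Z1 * (U * (V * W)) := central_left_comm Z1 hZ1 U (V * W)
  simp only [mul_assoc]
  rw [h]

theorem c3_step (x y t s z : P) (hz : ∀ w, Commute z w) (hs : ∀ w, Commute s w)
    (hxy : x * y = t * y * x) (hxt : x * t = z * (t * x)) (hty : t * y = s * (y * t))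
    (n a b c : ℕ) (ih : (x * y) ^ n = (s ^ b * z ^ c) * (y ^ n * t ^ a * x ^ n)) :
    (x * y) ^ (n + 1) = (s ^ (b + (n + 1 + 1).choose 2) * z ^ (c + a)) *
      (y ^ (n + 1) * t ^ (n + 1 + a) * x ^ (n + 1)) := by
  have h1 := c3_L2 x y t hxy (n + 1)
  have h2 := c3_L3 x t z hz hxt a
  have h3 := c3_L1 t y s hs hty (n + 1)
  have hC : ∀ w, Commute (s ^ b * z ^ c) w :=
    fun w => ((central_pow s hs _ w).mul_left (central_pow z hz _ w))
  calc (x * y) ^ (n + 1) = (x * y) * (x * y) ^ n := pow_succ' _ _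
    _ = (x * y) * ((s ^ b * z ^ c) * (y ^ n * t ^ a * x ^ n)) := by rw [ih]
    _ = (s ^ b * z ^ c) * ((x * y) * (y ^ n * t ^ a * x ^ n)) := central_left_comm _ hC _ _
    _ = (s ^ b * z ^ c) * ((x * y ^ (n + 1)) * t ^ a * x ^ n) := by
      rw [pow_succ' y]; simp only [mul_assoc]
    _ = (s ^ b * z ^ c) * (((t * y) ^ (n + 1) * x) * t ^ a * x ^ n) := by rw [h1]
    _ = (s ^ b * z ^ c) * ((t * y) ^ (n + 1) * (x * t ^ a) * x ^ n) := by simp only [mul_assoc]
    _ = (s ^ b * z ^ c) * ((s ^ ((n + 1 + 1).choose 2) * (y ^ (n + 1) * t ^ (n + 1))) *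
          (z ^ a * (t ^ a * x)) * x ^ n) := by rw [h2, h3]
    _ = ((s ^ b * z ^ c) * s ^ ((n + 1 + 1).choose 2) * z ^ a) *
          ((y ^ (n + 1) * t ^ (n + 1)) * (t ^ a * x) * x ^ n) :=
      c3_shuffle _ _ _ _ _ _ (central_pow z hz _)
    _ = (s ^ (b + (n + 1 + 1).choose 2) * z ^ (c + a)) *
          (y ^ (n + 1) * t ^ (n + 1 + a) * x ^ (n + 1)) := by
      have e1 : (s ^ b * z ^ c) * s ^ ((n + 1 + 1).choose 2) * z ^ a =
          s ^ (b + (n + 1 + 1).choose 2) * z ^ (c + a) := by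
        rw [pow_add s b, pow_add z c, mul_assoc (s ^ b),
          ((central_pow s hs ((n + 1 + 1).choose 2) (z ^ c)).symm).eq]
        simp only [mul_assoc]
      have e2 : (y ^ (n + 1) * t ^ (n + 1)) * (t ^ a * x) * x ^ n =
          y ^ (n + 1) * t ^ (n + 1 + a) * x ^ (n + 1) := by
        rw [pow_add t (n + 1) a, pow_succ' x]; simp only [mul_assoc]
      rw [e1, e2]

/-- The collection formula in class three. -/
theorem c3_main (x y t s z : P) (hz : ∀ w, Commute z w) (hs : ∀ w, Commute s w)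
    (hxy : x * y = t * y * x) (hxt : x * t = z * (t * x)) (hty : t * y = s * (y * t)) (n : ℕ) :
    (x * y) ^ n = (s ^ ((n + 2).choose 3) * z ^ ((n + 1).choose 3)) *
      (y ^ n * t ^ ((n + 1).choose 2) * x ^ n) := by
  induction n with
  | zero => simp [Nat.choose]
  | succ n ih =>
    have e := c3_step x y t s z hz hs hxy hxt hty n _ _ _ ih
    have ha : n + 1 + (n + 1).choose 2 = (n + 1 + 1).choose 2 := by
      rw [Nat.choose_succ_succ' (n + 1) 1, Nat.choose_one_right]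
    have hb : (n + 2).choose 3 + (n + 1 + 1).choose 2 = (n + 1 + 2).choose 3 := by
      rw [Nat.choose_succ_succ' (n + 2) 2, add_comm]
    have hc : (n + 1).choose 3 + (n + 1).choose 2 = (n + 1 + 1).choose 3 := by
      rw [Nat.choose_succ_succ' (n + 1) 2, add_comm]
    rw [hb, hc, ha] at e
    exact e

theorem c3_central (hcl : ⁅⁅commutator P, (⊤ : Subgroup P)⁆, (⊤ : Subgroup P)⁆ = ⊥) (c : P)
    (hc : c ∈ ⁅commutator P, (⊤ : Subgroup P)⁆) : ∀ w, Commute c w := by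
  have h3 : ⁅commutator P, (⊤ : Subgroup P)⁆ ≤ Subgroup.centralizer ((⊤ : Subgroup P) : Set P) :=
    Subgroup.commutator_eq_bot_iff_le_centralizer.mp hcl
  intro w
  exact ((Subgroup.mem_centralizer_iff.mp (h3 hc)) w (Subgroup.mem_top w)).symm

theorem c3_mem_comm (x y : P) : ⁅x, y⁆ ∈ commutator P := by
  rw [commutator_def]
  exact Subgroup.commutator_mem_commutator (Subgroup.mem_top x) (Subgroup.mem_top y)

theorem c3_z_central (hcl : ⁅⁅commutator P, (⊤ : Subgroup P)⁆, (⊤ : Subgroup P)⁆ = ⊥) (x y : P) :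
    ∀ w, Commute ⁅x, ⁅x, y⁆⁆ w := by
  apply c3_central hcl
  rw [← commutatorElement_inv]
  exact Subgroup.inv_mem _ (Subgroup.commutator_mem_commutator (c3_mem_comm x y) (Subgroup.mem_top x))

theorem c3_s_central (hcl : ⁅⁅commutator P, (⊤ : Subgroup P)⁆, (⊤ : Subgroup P)⁆ = ⊥) (x y : P) :
    ∀ w, Commute ⁅⁅x, y⁆, y⁆ w :=
  c3_central hcl _ (Subgroup.commutator_mem_commutator (c3_mem_comm x y) (Subgroup.mem_top y))

theorem c3_rel_xy (x y : P) : x * y = ⁅x, y⁆ * y * x := by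
  rw [commutatorElement_def]; group

theorem c3_rel_xt (x t : P) : x * t = ⁅x, t⁆ * (t * x) := by
  rw [commutatorElement_def]; group

theorem c3_dvd_choose {p : ℕ} (hpp : p.Prime) (hp : 3 < p) :
    p ∣ p.choose 2 ∧ p ∣ (p + 1).choose 2 ∧ p ∣ (p + 1).choose 3 ∧ p ∣ (p + 2).choose 3 := by
  have h2 : p ∣ p.choose 2 := hpp.dvd_choose_self (by norm_num) (by omega)
  have h3 : p ∣ p.choose 3 := hpp.dvd_choose_self (by norm_num) hp
  have e1 : (p + 1).choose 2 = p + p.choose 2 := by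
    rw [Nat.choose_succ_succ' p 1, Nat.choose_one_right]
  have e2 : (p + 1).choose 3 = p.choose 2 + p.choose 3 := Nat.choose_succ_succ' p 2
  have e3 : (p + 2).choose 3 = (p + 1).choose 2 + (p + 1).choose 3 := Nat.choose_succ_succ' (p + 1) 2
  have d1 : p ∣ (p + 1).choose 2 := e1 ▸ Dvd.dvd.add (dvd_refl p) h2
  have d2 : p ∣ (p + 1).choose 3 := e2 ▸ Dvd.dvd.add h2 h3
  exact ⟨h2, d1, d2, e3 ▸ Dvd.dvd.add d1 d2⟩

theorem pow_eq_one_of_dvd_c3 (c : P) {p k : ℕ} (hc : c ^ p = 1) (hk : p ∣ k) : c ^ k = 1 := by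
  obtain ⟨m, rfl⟩ := hk
  rw [pow_mul, hc, one_pow]

/-- In class at most three with `p > 3`: if the three basic commutators have `p`-th power one
then `(x * y) ^ p = y ^ p * x ^ p`. -/
theorem mul_pow_prime_c3 {p : ℕ} [Fact p.Prime] (hp : 3 < p)
    (hcl : ⁅⁅commutator P, (⊤ : Subgroup P)⁆, (⊤ : Subgroup P)⁆ = ⊥) (x y : P)
    (ht : ⁅x, y⁆ ^ p = 1) (hz : ⁅x, ⁅x, y⁆⁆ ^ p = 1) (hs : ⁅⁅x, y⁆, y⁆ ^ p = 1) :
    (x * y) ^ p = y ^ p * x ^ p := by
  obtain ⟨-, d1, d2, d3⟩ := c3_dvd_choose (Fact.out : p.Prime) hp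
  rw [c3_main x y ⁅x, y⁆ ⁅⁅x, y⁆, y⁆ ⁅x, ⁅x, y⁆⁆ (c3_z_central hcl x y) (c3_s_central hcl x y)
    (c3_rel_xy x y) (c3_rel_xt x _) (c3_rel_xt _ y) p,
    pow_eq_one_of_dvd_c3 _ hs d3, pow_eq_one_of_dvd_c3 _ hz d2, pow_eq_one_of_dvd_c3 _ ht d1]
  simp

/-- In class at most three with `p > 3`: `x ^ p` commutes with `y` if the basic commutators have
`p`-th power one. -/
theorem pow_prime_comm_c3 {p : ℕ} [Fact p.Prime] (hp : 3 < p)
    (hcl : ⁅⁅commutator P, (⊤ : Subgroup P)⁆, (⊤ : Subgroup P)⁆ = ⊥) (x y : P)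
    (ht : ⁅x, y⁆ ^ p = 1) (hz : ⁅x, ⁅x, y⁆⁆ ^ p = 1) : x ^ p * y = y * x ^ p := by
  obtain ⟨d0, -, -, -⟩ := c3_dvd_choose (Fact.out : p.Prime) hp
  rw [c3_F1 x y ⁅x, y⁆ ⁅x, ⁅x, y⁆⁆ (c3_z_central hcl x y) (c3_rel_xy x y) (c3_rel_xt x _) p,
    pow_eq_one_of_dvd_c3 _ hz d0, ht]
  simp

/-- In class at most three with `p > 3`: the basic commutators of two elements of order dividing
`p` have order dividing `p`. -/
theorem commutators_pow_eq_one_c3 {p : ℕ} [Fact p.Prime] (hp : 3 < p)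
    (hcl : ⁅⁅commutator P, (⊤ : Subgroup P)⁆, (⊤ : Subgroup P)⁆ = ⊥) (x y : P)
    (hx : x ^ p = 1) (hy : y ^ p = 1) :
    ⁅x, y⁆ ^ p = 1 ∧ ⁅x, ⁅x, y⁆⁆ ^ p = 1 ∧ ⁅⁅x, y⁆, y⁆ ^ p = 1 := by
  obtain ⟨d0, -, -, -⟩ := c3_dvd_choose (Fact.out : p.Prime) hp
  have hzc := c3_z_central hcl x y
  have hz : ⁅x, ⁅x, y⁆⁆ ^ p = 1 := by
    have h1 := c3_F1 x ⁅x, y⁆ ⁅x, ⁅x, y⁆⁆ 1 (fun w => Commute.one_left w)
      (by rw [mul_assoc]; exact c3_rel_xt x _) (by rw [one_mul]; exact (hzc x).symm.eq) p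
    rw [hx, one_pow, one_mul, one_mul, mul_one] at h1
    exact (mul_eq_right.mp h1.symm)
  have ht : ⁅x, y⁆ ^ p = 1 := by
    have h1 := c3_F1 x y ⁅x, y⁆ ⁅x, ⁅x, y⁆⁆ hzc (c3_rel_xy x y) (c3_rel_xt x _) p
    rw [hx, pow_eq_one_of_dvd_c3 _ hz d0, one_mul, one_mul, mul_one] at h1
    exact (mul_eq_right.mp h1.symm)
  refine ⟨ht, hz, ?_⟩
  have h1 := c3_L0 ⁅x, y⁆ y ⁅⁅x, y⁆, y⁆ (c3_s_central hcl x y) (c3_rel_xt _ y) p
  rw [ht, one_mul, mul_one] at h1
  exact (mul_eq_right.mp h1.symm)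

/-- For `p > 3`, in a group of class at most three, the elements of order dividing `p` generate
a subgroup of exponent dividing `p`. -/
theorem pow_eq_one_of_mem_closure_of_class_three {p : ℕ} [Fact p.Prime] (hp : 3 < p)
    (hcl : ⁅⁅commutator P, (⊤ : Subgroup P)⁆, (⊤ : Subgroup P)⁆ = ⊥) (g : P)
    (hg : g ∈ Subgroup.closure {x : P | x ^ p = 1}) : g ^ p = 1 := by
  induction hg using Subgroup.closure_induction with
  | mem x hx => exact hx
  | one => exact one_pow p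
  | mul a b _ _ iha ihb =>
    obtain ⟨ht, hz, hs⟩ := commutators_pow_eq_one_c3 hp hcl a b iha ihb
    rw [mul_pow_prime_c3 hp hcl a b ht hz hs, iha, ihb, one_mul]
  | inv a _ iha => rw [inv_pow, iha, inv_one]

end

end Cfsg.Agent.Lib.Helper2
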