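import Mathlib
import Cfsg.Prelude.Def_OddOrderChar
import Cfsg.Agent.Lib.Helper2.CharAux2
import Cfsg.Agent.Lib.Lead.CharGC

set_option autoImplicit false

namespace Cfsg.Agent.Lib.Helper2.Coh

open Cfsg Cfsg.Agent.Lib.Lead Cfsg.Agent.Lib.Helper2 Cfsg.Agent.S0177
open scoped ComplexConjugate

section Basic

variable {G : Type*} [Group G] [Fintype G]

/-- `⟨f, f⟩` is the scaled sum of squared norms -/
theorem classInner_self_eq (f : G → ℂ) :
    classInner f f = (((Nat.card G : ℝ)⁻¹ * ∑ g : G, ‖f g‖ ^ 2 : ℝ) : ℂ) := by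
  unfold classInner
  have h1 : ∑ g : G, f g * conj (f g) = ((∑ g : G, ‖f g‖ ^ 2 : ℝ) : ℂ) := by
    push_cast
    apply Finset.sum_congr rfl; intro g _
    rw [Complex.mul_conj, Complex.normSq_eq_norm_sq]; push_cast; rfl
  rw [h1]; push_cast; rfl

theorem classInner_self_re_nonneg (f : G → ℂ) : 0 ≤ (classInner f f).re := by
  rw [classInner_self_eq, Complex.ofReal_re]
  positivity

theorem classInner_self_im (f : G → ℂ) : (classInner f f).im = 0 := by
  rw [classInner_self_eq, Complex.ofReal_im]

theorem eq_zero_of_classInner_self {f : G → ℂ} (h : (classInner f f).re ≤ 0) : f = 0 := by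
  rw [classInner_self_eq, Complex.ofReal_re] at h
  have hpos : (0 : ℝ) < (Nat.card G : ℝ)⁻¹ := by
    have : 0 < Nat.card G := Nat.card_pos
    positivity
  have hsum : ∑ g : G, ‖f g‖ ^ 2 ≤ 0 := by
    by_contra hc
    push Not at hc
    have := mul_pos hpos hc
    linarith
  funext g
  have h3 : ‖f g‖ ^ 2 ≤ ∑ g : G, ‖f g‖ ^ 2 :=
    Finset.single_le_sum (f := fun g => ‖f g‖ ^ 2) (fun g _ => by positivity) (Finset.mem_univ g)
  have h4 : ‖f g‖ ^ 2 ≤ 0 := le_trans h3 hsum
  have h5 : ‖f g‖ = 0 := by nlinarith [norm_nonneg (f g)]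
  simpa using h5

theorem genChar_inner_int {θ φ : G → ℂ} (hθ : IsGeneralizedCharacter G θ)
    (hφ : IsGeneralizedCharacter G φ) : ∃ z : ℤ, classInner θ φ = z := by
  obtain ⟨χ₁, χ₂, h₁, h₂, rfl⟩ := hφ
  obtain ⟨z₁, e₁⟩ := isGenChar_inner_int hθ h₁
  obtain ⟨z₂, e₂⟩ := isGenChar_inner_int hθ h₂
  exact ⟨z₁ - z₂, by rw [classInner_sub_right, e₁, e₂]; push_cast; ring⟩

/-- Bessel's identity for a finite orthonormal system -/
theorem bessel (T : Finset (G → ℂ))
    (hT : ∀ α ∈ T, ∀ β ∈ T, classInner α β = if α = β then 1 else 0) (Y : G → ℂ) :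
    classInner (Y - ∑ α ∈ T, classInner Y α • α) (Y - ∑ α ∈ T, classInner Y α • α) =
      classInner Y Y - ∑ α ∈ T, classInner Y α * conj (classInner Y α) := by
  classical
  obtain ⟨P, hP⟩ : ∃ P : G → ℂ, P = ∑ α ∈ T, classInner Y α • α := ⟨_, rfl⟩
  rw [← hP]
  have h1 : classInner Y P = ∑ α ∈ T, classInner Y α * conj (classInner Y α) := by
    rw [hP, classInner_sum_right]
    apply Finset.sum_congr rfl
    intro α _
    rw [classInner_smul_right, mul_comm]
  have h2 : classInner P Y = ∑ α ∈ T, classInner Y α * conj (classInner Y α) := by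
    rw [hP, classInner_sum_left]
    apply Finset.sum_congr rfl
    intro α _
    rw [classInner_smul_left, classInner_conj_symm Y α]
  have h0 : ∀ α ∈ T, classInner α P = conj (classInner Y α) := by
    intro α hα
    rw [hP, classInner_sum_right]
    have e : ∀ β ∈ T, classInner α (classInner Y β • β) =
        if α = β then conj (classInner Y β) else 0 := by
      intro β hβ
      rw [classInner_smul_right, hT α hα β hβ]
      split_ifs <;> simp
    rw [Finset.sum_congr rfl e, Finset.sum_ite_eq, if_pos hα]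
  have h3 : classInner P P = ∑ α ∈ T, classInner Y α * conj (classInner Y α) := by
    have e : classInner P P = classInner (∑ α ∈ T, classInner Y α • α) P := by rw [← hP]
    rw [e, classInner_sum_left]
    apply Finset.sum_congr rfl
    intro α hα
    rw [classInner_smul_left, h0 α hα]
  rw [classInner_sub_left, classInner_sub_right, classInner_sub_right, h1, h2, h3]
  ring

/-- Bessel's inequality -/
theorem bessel_le (T : Finset (G → ℂ))
    (hT : ∀ α ∈ T, ∀ β ∈ T, classInner α β = if α = β then 1 else 0) (Y : G → ℂ) :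
    (∑ α ∈ T, classInner Y α * conj (classInner Y α)).re ≤ (classInner Y Y).re := by
  have h := classInner_self_re_nonneg (Y - ∑ α ∈ T, classInner Y α • α)
  rw [bessel T hT Y, Complex.sub_re] at h
  linarith

/-- if the Bessel sum exhausts the norm, the vector lies in the span -/
theorem eq_sum_of_bessel (T : Finset (G → ℂ))
    (hT : ∀ α ∈ T, ∀ β ∈ T, classInner α β = if α = β then 1 else 0) (Y : G → ℂ)
    (h : (classInner Y Y).re ≤ (∑ α ∈ T, classInner Y α * conj (classInner Y α)).re) :
    Y = ∑ α ∈ T, classInner Y α • α := by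
  have h0 : Y - ∑ α ∈ T, classInner Y α • α = 0 := by
    apply eq_zero_of_classInner_self
    rw [bessel T hT Y, Complex.sub_re]
    linarith
  exact sub_eq_zero.mp h0

theorem int_le_sq (z : ℤ) : z ≤ z ^ 2 := by
  rcases le_or_gt z 0 with h | h
  · nlinarith [sq_nonneg z]
  · nlinarith

theorem int_neg_le_sq (z : ℤ) : -z ≤ z ^ 2 := by
  rcases le_or_gt 0 z with h | h
  · nlinarith [sq_nonneg z]
  · nlinarith

end Basic

end Cfsg.Agent.Lib.Helper2.Coh
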