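import Mathlib
import Cfsg.Prelude.Def_OddOrderChar
import Cfsg.Agent.Lib.Helper2.Coh1

set_option autoImplicit false

namespace Cfsg.Agent.Lib.Helper2.Coh

open Cfsg Cfsg.Agent.Lib.Lead Cfsg.Agent.Lib.Helper2 Cfsg.Agent.S0177
open scoped ComplexConjugate

section Proj

variable {G : Type*} [Group G] [Fintype G]

/-- inner product of a member of an orthonormal system with a combination -/
theorem inner_mem_comb (T : Finset (G → ℂ))
    (hT : ∀ α ∈ T, ∀ β ∈ T, classInner α β = if α = β then 1 else 0) (c : (G → ℂ) → ℂ)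
    {α : G → ℂ} (hα : α ∈ T) : classInner α (∑ β ∈ T, c β • β) = conj (c α) := by
  classical
  rw [classInner_sum_right]
  have e : ∀ β ∈ T, classInner α (c β • β) = if α = β then conj (c β) else 0 := by
    intro β hβ
    rw [classInner_smul_right, hT α hα β hβ]
    split_ifs <;> simp
  rw [Finset.sum_congr rfl e, Finset.sum_ite_eq, if_pos hα]

theorem inner_comb_comb (T : Finset (G → ℂ))
    (hT : ∀ α ∈ T, ∀ β ∈ T, classInner α β = if α = β then 1 else 0) (c c' : (G → ℂ) → ℂ) :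
    classInner (∑ α ∈ T, c α • α) (∑ β ∈ T, c' β • β) = ∑ α ∈ T, c α * conj (c' α) := by
  rw [classInner_sum_left]
  apply Finset.sum_congr rfl
  intro α hα
  rw [classInner_smul_left, inner_mem_comb T hT c' hα]

theorem inner_any_comb (T : Finset (G → ℂ)) (c : (G → ℂ) → ℂ) (f : G → ℂ) :
    classInner f (∑ β ∈ T, c β • β) = ∑ β ∈ T, conj (c β) * classInner f β := by
  rw [classInner_sum_right]
  apply Finset.sum_congr rfl
  intro β _
  rw [classInner_smul_right]

/-- inner products of sums over subsets of an orthonormal system -/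
theorem inner_sum_subsets (T A B : Finset (G → ℂ))
    (hT : ∀ α ∈ T, ∀ β ∈ T, classInner α β = if α = β then 1 else 0) (hA : A ⊆ T) (hB : B ⊆ T) :
    classInner (∑ α ∈ A, α) (∑ β ∈ B, β) = ((A ∩ B).card : ℂ) := by
  classical
  rw [classInner_sum_left]
  have e : ∀ α ∈ A, classInner α (∑ β ∈ B, β) = if α ∈ B then 1 else 0 := by
    intro α hα
    rw [classInner_sum_right, Finset.sum_congr rfl (fun β hβ => hT α (hA hα) β (hB hβ)),
      Finset.sum_ite_eq]
  rw [Finset.sum_congr rfl e, Finset.sum_boole, Finset.filter_mem_eq_inter]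

end Proj

section Sys

variable {L : Type*} [Group L] [Fintype L] {G : Type*} [Group G] [Fintype G]
  {S : Set (L → ℂ)} {τ : (L → ℂ) → (G → ℂ)} {R : (L → ℂ) → Finset (G → ℂ)}

omit [Fintype L] in
theorem char_one_conj {χ : L → ℂ} (h : IsCharacter L χ) : conj (χ 1) = χ 1 := by
  obtain ⟨n, ρ, rfl⟩ := h
  rw [Representation.char_one]
  simp

theorem char_eq_zero_of_one {χ : L → ℂ} (h : IsCharacter L χ) (h1 : χ 1 = 0) : χ = 0 := by
  obtain ⟨n, ρ, rfl⟩ := h
  funext g
  have hb := norm_char_le ρ g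
  rw [Representation.char_one] at h1
  have h2 : (Module.finrank ℂ (Fin n → ℂ) : ℝ) = 0 := by exact_mod_cast h1
  rw [h2] at hb
  have h3 : ‖ρ.character g‖ = 0 := le_antisymm hb (norm_nonneg _)
  simpa using h3

omit [Group L] [Fintype L] in
theorem sub_mem_zspanOn [Group L] {φ χ : L → ℂ} (hφ : φ ∈ S) (hχ : χ ∈ S) (hdeg : φ 1 = χ 1) :
    φ - χ ∈ zspanOn S {1}ᶜ := by
  refine ⟨Submodule.sub_mem _ (Submodule.subset_span hφ) (Submodule.subset_span hχ), ?_⟩
  intro x hx
  have hx1 : x = 1 := by simpa using hx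
  subst hx1
  show φ 1 - χ 1 = 0
  rw [hdeg, sub_self]

theorem coh_sub_conj_mem (hS : IsCoherenceSystem S τ R) {χ : L → ℂ} (hχ : χ ∈ S) :
    χ - conjFun χ ∈ zspanOn S {1}ᶜ :=
  sub_mem_zspanOn hχ (hS.conj_mem χ hχ) (by
    show χ 1 = conj (χ 1)
    rw [char_one_conj (hS.isCharacter χ hχ)])

theorem coh_one_ne_zero (hS : IsCoherenceSystem S τ R) {χ : L → ℂ} (hχ : χ ∈ S) :
    χ 1 ≠ 0 := by
  intro h1
  have h0 := char_eq_zero_of_one (hS.isCharacter χ hχ) h1
  apply hS.conj_ne χ hχ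
  rw [h0]
  funext x
  simp [conjFun]

/-- the image of a difference of two members of a coherence system of the same degree, not
conjugate to each other, is a signed sum of half of `R φ` and half of `R χ` -/
theorem coh_pair (hS : IsCoherenceSystem S τ R) {φ χ : L → ℂ} (hφ : φ ∈ S) (hχ : χ ∈ S)
    (h1 : φ ≠ χ) (h2 : φ ≠ conjFun χ) (hdeg : φ 1 = χ 1) :
    (∑ α ∈ R φ, classInner (τ (φ - χ)) α = classInner φ φ) ∧
    (∑ α ∈ R φ, classInner (τ (φ - χ)) α * conj (classInner (τ (φ - χ)) α) = classInner φ φ) ∧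
    (∀ γ : G → ℂ, (∀ α ∈ R φ, classInner α γ = 0) → (∀ β ∈ R χ, classInner β γ = 0) →
      classInner (τ (φ - χ)) γ = 0) ∧
    (∀ α ∈ R φ, ∃ z : ℤ, classInner (τ (φ - χ)) α = z) := by
  classical
  obtain ⟨hadd, hsmul, hinner, hgen⟩ := hS.isometry
  have hφc := hS.conj_mem φ hφ
  have hχc := hS.conj_mem χ hχ
  have m1 : φ - χ ∈ zspanOn S {1}ᶜ := sub_mem_zspanOn hφ hχ hdeg
  have m2 := coh_sub_conj_mem hS hφ
  have m3 := coh_sub_conj_mem hS hχ
  have o1 : classInner φ χ = 0 := hS.orthogonal φ hφ χ hχ h1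
  have o2 : classInner χ φ = 0 := hS.orthogonal χ hχ φ hφ (Ne.symm h1)
  have o3 : classInner φ (conjFun φ) = 0 :=
    hS.orthogonal φ hφ _ hφc (Ne.symm (hS.conj_ne φ hφ))
  have o4 : classInner χ (conjFun χ) = 0 :=
    hS.orthogonal χ hχ _ hχc (Ne.symm (hS.conj_ne χ hχ))
  have o5 : classInner φ (conjFun χ) = 0 := hS.orthogonal φ hφ _ hχc h2
  have h2' : χ ≠ conjFun φ := by
    intro e; apply h2; rw [e, conjFun_conjFun]
  have o6 : classInner χ (conjFun φ) = 0 := hS.orthogonal χ hχ _ hφc h2'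
  obtain ⟨Y, hY⟩ : ∃ Y, Y = τ (φ - χ) := ⟨_, rfl⟩
  rw [← hY]
  have hYgen : IsGeneralizedCharacter G Y := hY ▸ hgen _ m1
  have s1 : ∑ α ∈ R φ, classInner Y α = classInner φ φ := by
    rw [← classInner_sum_right, ← hS.sum_eq φ hφ, hY, hinner _ m1 _ m2, classInner_sub_left,
      classInner_sub_right, classInner_sub_right, o3, o2, o6]
    ring
  have s2 : ∑ β ∈ R χ, classInner Y β = - classInner χ χ := by
    rw [← classInner_sum_right, ← hS.sum_eq χ hχ, hY, hinner _ m1 _ m3, classInner_sub_left,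
      classInner_sub_right, classInner_sub_right, o1, o5, o4]
    ring
  have s3 : classInner Y Y = classInner φ φ + classInner χ χ := by
    rw [hY, hinner _ m1 _ m1, classInner_sub_left, classInner_sub_right, classInner_sub_right,
      o1, o2]
    ring
  have hcross : ∀ α ∈ R φ, ∀ β ∈ R χ, classInner α β = 0 :=
    fun α hα β hβ => hS.disjoint χ hχ φ hφ o1 o5 α hα β hβ
  have hdisj : Disjoint (R φ) (R χ) := by
    rw [Finset.disjoint_left]
    intro α hα hα'
    have h0 := hcross α hα α hα'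
    rw [hS.orthonormal φ hφ α hα α hα, if_pos rfl] at h0
    exact one_ne_zero h0
  have hT : ∀ α ∈ R φ ∪ R χ, ∀ β ∈ R φ ∪ R χ, classInner α β = if α = β then 1 else 0 := by
    intro α hα β hβ
    rcases Finset.mem_union.mp hα with hα | hα <;> rcases Finset.mem_union.mp hβ with hβ | hβ
    · exact hS.orthonormal φ hφ α hα β hβ
    · rw [hcross α hα β hβ, if_neg]
      rintro rfl
      exact Finset.disjoint_left.mp hdisj hα hβ
    · rw [classInner_eq_zero_symm (hcross β hβ α hα), if_neg]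
      rintro rfl
      exact Finset.disjoint_left.mp hdisj hβ hα
    · exact hS.orthonormal χ hχ α hα β hβ
  have hint : ∀ α : G → ℂ, ∃ z : ℤ, α ∈ R φ ∪ R χ → classInner Y α = z := by
    intro α
    by_cases hα : α ∈ R φ ∪ R χ
    · have hg : IsGeneralizedCharacter G α := by
        rcases Finset.mem_union.mp hα with h | h
        · exact hS.virtual φ hφ α h
        · exact hS.virtual χ hχ α h
      obtain ⟨z, hz⟩ := genChar_inner_int hYgen hg
      exact ⟨z, fun _ => hz⟩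
    · exact ⟨0, fun h => absurd h hα⟩
  choose z hz using hint
  obtain ⟨nφ, hnφ⟩ := isCharacter_inner_nat (hS.isCharacter φ hφ) (hS.isCharacter φ hφ)
  obtain ⟨nχ, hnχ⟩ := isCharacter_inner_nat (hS.isCharacter χ hχ) (hS.isCharacter χ hχ)
  have hzφ : ∀ α ∈ R φ, classInner Y α = z α := fun α hα => hz α (Finset.mem_union_left _ hα)
  have hzχ : ∀ α ∈ R χ, classInner Y α = z α := fun α hα => hz α (Finset.mem_union_right _ hα)
  have t1 : (∑ α ∈ R φ, z α : ℤ) = nφ := by
    have : ((∑ α ∈ R φ, z α : ℤ) : ℂ) = ((nφ : ℤ) : ℂ) := by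
      push_cast
      rw [← hnφ, ← s1]
      exact Finset.sum_congr rfl (fun α hα => (hzφ α hα).symm)
    exact_mod_cast this
  have t2 : (∑ α ∈ R χ, z α : ℤ) = -nχ := by
    have : ((∑ α ∈ R χ, z α : ℤ) : ℂ) = ((-(nχ : ℤ) : ℤ) : ℂ) := by
      push_cast
      rw [← hnχ, ← s2]
      exact Finset.sum_congr rfl (fun α hα => (hzχ α hα).symm)
    exact_mod_cast this
  have hsq : ∀ w : ℤ, (w : ℂ) * conj (w : ℂ) = ((w ^ 2 : ℤ) : ℂ) := by
    intro w
    rw [map_intCast]
    push_cast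
    ring
  have e1 : ∑ α ∈ R φ ∪ R χ, classInner Y α * conj (classInner Y α) =
      ((∑ α ∈ R φ, (z α) ^ 2 + ∑ α ∈ R χ, (z α) ^ 2 : ℤ) : ℂ) := by
    rw [Finset.sum_union hdisj, Int.cast_add, Int.cast_sum, Int.cast_sum]
    congr 1
    · apply Finset.sum_congr rfl; intro α hα; rw [hzφ α hα, hsq]
    · apply Finset.sum_congr rfl; intro α hα; rw [hzχ α hα, hsq]
  have hbes := bessel_le (R φ ∪ R χ) hT Y
  rw [e1, s3, hnφ, hnχ] at hbes
  have hbes' : (∑ α ∈ R φ, (z α) ^ 2 + ∑ α ∈ R χ, (z α) ^ 2 : ℤ) ≤ nφ + nχ := by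
    rw [Complex.intCast_re, Complex.add_re, Complex.natCast_re, Complex.natCast_re] at hbes
    exact_mod_cast hbes
  have g1 : (∑ α ∈ R φ, z α : ℤ) ≤ ∑ α ∈ R φ, (z α) ^ 2 :=
    Finset.sum_le_sum (fun α _ => int_le_sq (z α))
  have g2 : -(∑ α ∈ R χ, z α : ℤ) ≤ ∑ α ∈ R χ, (z α) ^ 2 := by
    rw [← Finset.sum_neg_distrib]
    exact Finset.sum_le_sum (fun α _ => int_neg_le_sq (z α))
  have q1 : (∑ α ∈ R φ, (z α) ^ 2 : ℤ) = nφ := by linarith
  have q2 : (∑ α ∈ R χ, (z α) ^ 2 : ℤ) = nχ := by linarith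
  have hYeq : Y = ∑ α ∈ R φ ∪ R χ, classInner Y α • α := by
    apply eq_sum_of_bessel _ hT
    rw [e1, s3, hnφ, hnχ, q1, q2]
    simp
  refine ⟨s1, ?_, ?_, ?_⟩
  · rw [hnφ]
    have e2 : ∑ α ∈ R φ, classInner Y α * conj (classInner Y α) =
        ((∑ α ∈ R φ, (z α) ^ 2 : ℤ) : ℂ) := by
      rw [Int.cast_sum]
      apply Finset.sum_congr rfl; intro α hα; rw [hzφ α hα, hsq]
    rw [e2, q1]
    simp
  · intro γ hγ1 hγ2
    rw [hYeq, classInner_sum_left]
    apply Finset.sum_eq_zero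
    intro α hα
    rw [classInner_smul_left]
    rcases Finset.mem_union.mp hα with h | h
    · rw [hγ1 α h, mul_zero]
    · rw [hγ2 α h, mul_zero]
  · intro α hα
    exact ⟨z α, hzφ α hα⟩

end Sys

end Cfsg.Agent.Lib.Helper2.Coh
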