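import Mathlib
import Cfsg.Prelude.Def_OddOrderChar
import Cfsg.Agent.Lib.Helper2.Coh2

set_option autoImplicit false

namespace Cfsg.Agent.Lib.Helper2.Coh

open Cfsg Cfsg.Agent.Lib.Lead Cfsg.Agent.Lib.Helper2 Cfsg.Agent.S0177
open scoped ComplexConjugate

section Ext

variable {L : Type*} [Group L] [Fintype L] {G : Type*} [Group G] [Fintype G]
  {S : Set (L → ℂ)} {τ : (L → ℂ) → (G → ℂ)} {R : (L → ℂ) → Finset (G → ℂ)}

/-- a coherence system all of whose members have the same degree is coherent as soon as one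
member has a suitable image -/
theorem coherent_of_vector (hS : IsCoherenceSystem S τ R)
    (hdeg : ∀ φ ∈ S, ∀ ψ ∈ S, φ 1 = ψ 1) {χ₀ : L → ℂ} (hχ₀ : χ₀ ∈ S) (X₀ : G → ℂ)
    (hX1 : IsGeneralizedCharacter G X₀) (hX2 : classInner X₀ X₀ = classInner χ₀ χ₀)
    (hX3 : ∀ χ ∈ S, classInner (τ (χ - χ₀)) X₀ = classInner (χ - χ₀) χ₀) :
    IsCoherent S {1}ᶜ τ := by
  classical
  obtain ⟨hadd, hsmul, hinner, hgen⟩ := hS.isometry
  have hd : χ₀ 1 ≠ 0 := coh_one_ne_zero hS hχ₀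
  obtain ⟨d, hddef⟩ : ∃ d, d = χ₀ 1 := ⟨_, rfl⟩
  have hd' : d ≠ 0 := hddef ▸ hd
  have h0mem : (0 : L → ℂ) ∈ zspanOn S {1}ᶜ := ⟨Submodule.zero_mem _, fun x _ => rfl⟩
  have hτ0 : τ 0 = 0 := by
    have := hsmul 0 h0mem 0
    simpa using this
  have hm : ∀ α ∈ zspan S, ∃ z : ℤ, α 1 / d = z := by
    intro α hα
    have hα' : α ∈ Submodule.span ℤ S := hα
    induction hα' using Submodule.span_induction with
    | mem x hx => exact ⟨1, by rw [hdeg x hx χ₀ hχ₀, ← hddef, div_self hd']; simp⟩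
    | zero => exact ⟨0, by simp⟩
    | add x y hx hy ihx ihy =>
      obtain ⟨a, ha⟩ := ihx hx
      obtain ⟨b, hb⟩ := ihy hy
      exact ⟨a + b, by rw [Pi.add_apply, add_div, ha, hb]; push_cast; rfl⟩
    | smul n x hx ih =>
      obtain ⟨a, ha⟩ := ih hx
      exact ⟨n * a, by rw [Pi.smul_apply, zsmul_eq_mul, mul_div_assoc, ha]; push_cast; rfl⟩
  have hγmem : ∀ α ∈ zspan S, α - (α 1 / d) • χ₀ ∈ zspanOn S {1}ᶜ := by
    intro α hα
    obtain ⟨z, hz⟩ := hm α hα
    refine ⟨?_, ?_⟩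
    · rw [hz, Int.cast_smul_eq_zsmul]
      exact Submodule.sub_mem _ hα (Submodule.smul_mem _ z (Submodule.subset_span hχ₀))
    · intro x hx
      have hx1 : x = 1 := by simpa using hx
      subst hx1
      show α 1 - (α 1 / d) * χ₀ 1 = 0
      rw [← hddef]
      field_simp
      ring
  have hγadd : ∀ α β : L → ℂ, (α + β) - ((α + β) 1 / d) • χ₀ =
      (α - (α 1 / d) • χ₀) + (β - (β 1 / d) • χ₀) := by
    intro α β
    rw [Pi.add_apply, add_div, add_smul]
    abel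
  have hγsmul : ∀ (n : ℤ) (α : L → ℂ), n • α - ((n • α) 1 / d) • χ₀ =
      n • (α - (α 1 / d) • χ₀) := by
    intro n α
    funext x
    simp only [Pi.sub_apply, Pi.smul_apply, zsmul_eq_mul, smul_eq_mul, Pi.mul_apply,
      Pi.intCast_apply]
    ring
  have hK : ∀ α ∈ zspan S, classInner (τ (α - (α 1 / d) • χ₀)) X₀ =
      classInner (α - (α 1 / d) • χ₀) χ₀ := by
    intro α hα
    have hα' : α ∈ Submodule.span ℤ S := hα
    induction hα' using Submodule.span_induction with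
    | mem x hx =>
      have e : x 1 / d = 1 := by rw [hdeg x hx χ₀ hχ₀, ← hddef, div_self hd']
      rw [e, one_smul]
      exact hX3 x hx
    | zero =>
      have e : (0 : L → ℂ) - ((0 : L → ℂ) 1 / d) • χ₀ = 0 := by
        funext x; simp
      rw [e, hτ0, classInner_zero_left, classInner_zero_left]
    | add x y hx hy ihx ihy =>
      rw [hγadd, hadd _ (hγmem x hx) _ (hγmem y hy), classInner_add_left, classInner_add_left,
        ihx hx, ihy hy]
    | smul n x hx ih =>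
      rw [hγsmul, hsmul _ (hγmem x hx) n, ← Int.cast_smul_eq_zsmul ℂ n (τ _),
        ← Int.cast_smul_eq_zsmul ℂ n (x - _), classInner_smul_left, classInner_smul_left, ih hx]
  refine ⟨⟨χ₀ - conjFun χ₀, coh_sub_conj_mem hS hχ₀, ?_⟩,
    fun α => τ (α - (α 1 / d) • χ₀) + (α 1 / d) • X₀, ⟨?_, ?_, ?_, ?_⟩, ?_⟩
  · exact sub_ne_zero.mpr (Ne.symm (hS.conj_ne χ₀ hχ₀))
  · intro α hα β hβ
    show τ ((α + β) - ((α + β) 1 / d) • χ₀) + ((α + β) 1 / d) • X₀ =
      (τ (α - (α 1 / d) • χ₀) + (α 1 / d) • X₀) + (τ (β - (β 1 / d) • χ₀) + (β 1 / d) • X₀)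
    rw [hγadd, hadd _ (hγmem α hα) _ (hγmem β hβ), Pi.add_apply, add_div, add_smul]
    abel
  · intro α hα n
    show τ (n • α - ((n • α) 1 / d) • χ₀) + ((n • α) 1 / d) • X₀ =
      n • (τ (α - (α 1 / d) • χ₀) + (α 1 / d) • X₀)
    rw [hγsmul, hsmul _ (hγmem α hα) n, smul_add]
    congr 1
    funext x
    simp only [Pi.smul_apply, zsmul_eq_mul, smul_eq_mul, Pi.mul_apply, Pi.intCast_apply]
    ring
  · intro α hα β hβ
    show classInner (τ (α - (α 1 / d) • χ₀) + (α 1 / d) • X₀)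
      (τ (β - (β 1 / d) • χ₀) + (β 1 / d) • X₀) = classInner α β
    have eα : α = (α - (α 1 / d) • χ₀) + (α 1 / d) • χ₀ := by abel
    have eβ : β = (β - (β 1 / d) • χ₀) + (β 1 / d) • χ₀ := by abel
    have r1 : classInner X₀ (τ (β - (β 1 / d) • χ₀)) =
        classInner χ₀ (β - (β 1 / d) • χ₀) := by
      rw [classInner_conj_symm (τ (β - (β 1 / d) • χ₀)) X₀, hK β hβ, ← classInner_conj_symm]
    have lhs : classInner (τ (α - (α 1 / d) • χ₀) + (α 1 / d) • X₀)
        (τ (β - (β 1 / d) • χ₀) + (β 1 / d) • X₀) =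
        classInner (α - (α 1 / d) • χ₀) (β - (β 1 / d) • χ₀) +
        conj (β 1 / d) * classInner (α - (α 1 / d) • χ₀) χ₀ +
        (α 1 / d) * classInner χ₀ (β - (β 1 / d) • χ₀) +
        (α 1 / d) * conj (β 1 / d) * classInner χ₀ χ₀ := by
      rw [classInner_add_left, classInner_add_right, classInner_add_right,
        classInner_smul_left, classInner_smul_left, classInner_smul_right, classInner_smul_right,
        hinner _ (hγmem α hα) _ (hγmem β hβ), hK α hα, r1, hX2]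
      ring
    have rhs : classInner α β =
        classInner (α - (α 1 / d) • χ₀) (β - (β 1 / d) • χ₀) +
        conj (β 1 / d) * classInner (α - (α 1 / d) • χ₀) χ₀ +
        (α 1 / d) * classInner χ₀ (β - (β 1 / d) • χ₀) +
        (α 1 / d) * conj (β 1 / d) * classInner χ₀ χ₀ := by
      conv_lhs => rw [eα, eβ]
      rw [classInner_add_left, classInner_add_right, classInner_add_right,
        classInner_smul_left, classInner_smul_left, classInner_smul_right, classInner_smul_right]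
      ring
    rw [lhs, rhs]
  · intro α hα
    obtain ⟨z, hz⟩ := hm α hα
    show IsGeneralizedCharacter G (τ (α - (α 1 / d) • χ₀) + (α 1 / d) • X₀)
    rw [hz]
    exact gc_add (by rw [← hz]; exact hgen _ (hγmem α hα)) (gcZ_smul z hX1)
  · intro α hα
    have h1 : α 1 = 0 := hα.2 1 (by simp)
    show τ (α - (α 1 / d) • χ₀) + (α 1 / d) • X₀ = τ α
    rw [h1, zero_div, zero_smul, zero_smul, sub_zero, add_zero]

/-- a coherence system all of whose members have the same degree is coherent -/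
theorem coherent_of_deg_eq (hS : IsCoherenceSystem S τ R)
    (hdeg : ∀ φ ∈ S, ∀ ψ ∈ S, φ 1 = ψ 1) : IsCoherent S {1}ᶜ τ := by
  classical
  obtain ⟨hadd, hsmul, hinner, hgen⟩ := hS.isometry
  obtain ⟨χ₀, hχ₀⟩ := hS.nonempty
  have hc₀ := hS.conj_mem χ₀ hχ₀
  have h0mem : (0 : L → ℂ) ∈ zspanOn S {1}ᶜ := ⟨Submodule.zero_mem _, fun x _ => rfl⟩
  have hτ0 : τ 0 = 0 := by
    have := hsmul 0 h0mem 0
    simpa using this
  have hmem : ∀ φ ∈ S, ∀ χ ∈ S, φ - χ ∈ zspanOn S {1}ᶜ :=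
    fun φ hφ χ hχ => sub_mem_zspanOn hφ hχ (hdeg φ hφ χ hχ)
  have hτneg : ∀ φ ∈ S, ∀ χ ∈ S, τ (χ - φ) = - τ (φ - χ) := by
    intro φ hφ χ hχ
    have := hsmul (φ - χ) (hmem φ hφ χ hχ) (-1)
    rw [neg_one_zsmul, neg_one_zsmul, neg_sub] at this
    exact this
  obtain ⟨n₀, hn₀⟩ := isCharacter_inner_nat (hS.isCharacter χ₀ hχ₀) (hS.isCharacter χ₀ hχ₀)
  have o₀ : classInner χ₀ (conjFun χ₀) = 0 :=
    hS.orthogonal χ₀ hχ₀ _ hc₀ (Ne.symm (hS.conj_ne χ₀ hχ₀))
  have o₀' : classInner (conjFun χ₀) χ₀ = 0 := classInner_eq_zero_symm o₀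
  have hRo := hS.orthonormal χ₀ hχ₀
  by_cases hex : ∃ φ ∈ S, φ ≠ χ₀ ∧ φ ≠ conjFun χ₀
  · obtain ⟨φ, hφ, hφ1, hφ2⟩ := hex
    have hφ2' : χ₀ ≠ conjFun φ := by
      intro e; apply hφ2; rw [e, conjFun_conjFun]
    obtain ⟨p1, p2, p3, p4⟩ := coh_pair hS hχ₀ hφ (Ne.symm hφ1) hφ2' (hdeg χ₀ hχ₀ φ hφ)
    obtain ⟨Y, hY⟩ : ∃ Y, Y = τ (χ₀ - φ) := ⟨_, rfl⟩
    rw [← hY] at p1 p2 p3 p4
    have oφ1 : classInner φ χ₀ = 0 := hS.orthogonal φ hφ χ₀ hχ₀ hφ1
    have oφ2 : classInner φ (conjFun χ₀) = 0 := hS.orthogonal φ hφ _ hc₀ hφ2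
    refine coherent_of_vector hS hdeg hχ₀ (∑ α ∈ R χ₀, classInner Y α • α) ?_ ?_ ?_
    · apply gc_sum
      intro α hα
      obtain ⟨z, hz⟩ := p4 α hα
      rw [hz]
      exact gcZ_smul z (hS.virtual χ₀ hχ₀ α hα)
    · rw [inner_comb_comb (R χ₀) hRo, p2]
    · intro χ hχ
      by_cases hχ1 : χ = χ₀
      · rw [hχ1, sub_self, hτ0, classInner_zero_left, classInner_zero_left]
      by_cases hχ2 : χ = conjFun χ₀
      · rw [hχ2, hτneg χ₀ hχ₀ _ hc₀, hS.sum_eq χ₀ hχ₀, classInner_neg_left,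
          classInner_sum_left, Finset.sum_congr rfl
            (fun α hα => inner_mem_comb (R χ₀) hRo (fun α => classInner Y α) hα),
          ← map_sum, p1, hn₀, classInner_sub_left, o₀', hn₀]
        simp
      · have oχ1 : classInner χ χ₀ = 0 := hS.orthogonal χ hχ χ₀ hχ₀ hχ1
        have oχ2 : classInner χ (conjFun χ₀) = 0 := hS.orthogonal χ hχ _ hc₀ hχ2
        have hsplit : τ (χ₀ - χ) = Y + τ (φ - χ) := by
          have e : χ₀ - χ = (χ₀ - φ) + (φ - χ) := by abel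
          rw [e, hadd _ (hmem χ₀ hχ₀ φ hφ) _ (hmem φ hφ χ hχ), hY]
        have hperp : ∀ α ∈ R χ₀, classInner (τ (φ - χ)) α = 0 := by
          intro α hα
          by_cases hχφ : χ = φ
          · rw [hχφ, sub_self, hτ0, classInner_zero_left]
          by_cases hχφ' : χ = conjFun φ
          · rw [hχφ', hS.sum_eq φ hφ, classInner_sum_left]
            apply Finset.sum_eq_zero
            intro β hβ
            exact hS.disjoint χ₀ hχ₀ φ hφ oφ1 oφ2 β hβ α hα
          · have hφχ' : φ ≠ conjFun χ := by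
              intro e; apply hχφ'; rw [e, conjFun_conjFun]
            obtain ⟨-, -, q3, -⟩ := coh_pair hS hφ hχ (Ne.symm hχφ) hφχ' (hdeg φ hφ χ hχ)
            exact q3 α (fun β hβ => hS.disjoint χ₀ hχ₀ φ hφ oφ1 oφ2 β hβ α hα)
              (fun β hβ => hS.disjoint χ₀ hχ₀ χ hχ oχ1 oχ2 β hβ α hα)
        have t1 : classInner Y (∑ α ∈ R χ₀, classInner Y α • α) = classInner χ₀ χ₀ := by
          rw [inner_any_comb, ← p2]
          apply Finset.sum_congr rfl
          intro α _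
          rw [mul_comm]
        have t2 : classInner (τ (φ - χ)) (∑ α ∈ R χ₀, classInner Y α • α) = 0 := by
          rw [inner_any_comb]
          apply Finset.sum_eq_zero
          intro α hα
          rw [hperp α hα, mul_zero]
        rw [hτneg χ₀ hχ₀ χ hχ, hsplit, classInner_neg_left, classInner_add_left, t1, t2,
          add_zero, classInner_sub_left, oχ1, zero_sub]
  · push Not at hex
    have hnorm : classInner (∑ α ∈ R χ₀, α) (∑ α ∈ R χ₀, α) = 2 * (n₀ : ℂ) := by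
      rw [← hS.sum_eq χ₀ hχ₀, hinner _ (coh_sub_conj_mem hS hχ₀) _ (coh_sub_conj_mem hS hχ₀),
        classInner_sub_left, classInner_sub_right, classInner_sub_right, o₀, o₀',
        classInner_conjFun_conjFun, hn₀]
      simp
      ring
    rw [inner_sum_subsets (R χ₀) (R χ₀) (R χ₀) hRo (Finset.Subset.refl _) (Finset.Subset.refl _),
      Finset.inter_self] at hnorm
    have hcard : (R χ₀).card = 2 * n₀ := by exact_mod_cast hnorm
    obtain ⟨R', hR'sub, hR'card⟩ := Finset.exists_subset_card_eq (s := R χ₀) (n := n₀) (by omega)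
    refine coherent_of_vector hS hdeg hχ₀ (∑ α ∈ R', α) ?_ ?_ ?_
    · exact gc_sum _ _ (fun α hα => hS.virtual χ₀ hχ₀ α (hR'sub hα))
    · rw [inner_sum_subsets (R χ₀) R' R' hRo hR'sub hR'sub, Finset.inter_self, hR'card, hn₀]
    · intro χ hχ
      by_cases hχ1 : χ = χ₀
      · rw [hχ1, sub_self, hτ0, classInner_zero_left, classInner_zero_left]
      · have hχ2 : χ = conjFun χ₀ := hex χ hχ hχ1
        rw [hχ2, hτneg χ₀ hχ₀ _ hc₀, hS.sum_eq χ₀ hχ₀, classInner_neg_left,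
          inner_sum_subsets (R χ₀) (R χ₀) R' hRo (Finset.Subset.refl _) hR'sub,
          Finset.inter_eq_right.mpr hR'sub, hR'card, classInner_sub_left, o₀', hn₀]
        simp

end Ext

end Cfsg.Agent.Lib.Helper2.Coh
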