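import Mathlib
import Cfsg.Prelude.Def_OddOrderChar
import Cfsg.Agent.Lib.Helper2.Coh3

set_option autoImplicit false

namespace Cfsg.Agent.Lib.Helper2.Coh

open Cfsg Cfsg.Agent.Lib.Lead Cfsg.Agent.Lib.Helper2 Cfsg.Agent.S0177
open scoped ComplexConjugate

section Lin

variable {L : Type*} [Group L] [Fintype L] {G : Type*} [Group G] [Fintype G]

theorem classInner_zsmul_left (n : ℤ) (f g : G → ℂ) :
    classInner (n • f) g = n * classInner f g := by
  rw [← Int.cast_smul_eq_zsmul ℂ n f, classInner_smul_left]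

theorem classInner_zsmul_right (n : ℤ) (f g : G → ℂ) :
    classInner f (n • g) = n * classInner f g := by
  rw [← Int.cast_smul_eq_zsmul ℂ n g, classInner_smul_right, map_intCast]

omit [Group L] [Fintype L] [Group G] [Fintype G] in
theorem lin_sub {E : Set (L → ℂ)} {f : (L → ℂ) → (G → ℂ)}
    (hadd : ∀ a ∈ E, ∀ b ∈ E, f (a + b) = f a + f b)
    (hsmul : ∀ a ∈ E, ∀ n : ℤ, f (n • a) = n • f a)
    {a b : L → ℂ} (ha : a ∈ E) (hb : b ∈ E) (m n : ℤ) (hma : m • a ∈ E) (hnb : (-n) • b ∈ E) :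
    f (m • a - n • b) = m • f a - n • f b := by
  have e : m • a - n • b = m • a + (-n) • b := by rw [neg_smul, sub_eq_add_neg]
  rw [e, hadd _ hma _ hnb, hsmul a ha, hsmul b hb, neg_smul, sub_eq_add_neg]

omit [Group L] [Fintype L] [Group G] [Fintype G] in
theorem lin_add {E : Set (L → ℂ)} {f : (L → ℂ) → (G → ℂ)}
    (hadd : ∀ a ∈ E, ∀ b ∈ E, f (a + b) = f a + f b)
    (hsmul : ∀ a ∈ E, ∀ n : ℤ, f (n • a) = n • f a)
    {a b : L → ℂ} (ha : a ∈ E) (hb : b ∈ E) (m n : ℤ) (hma : m • a ∈ E) (hnb : n • b ∈ E) :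
    f (m • a + n • b) = m • f a + n • f b := by
  rw [hadd _ hma _ hnb, hsmul a ha, hsmul b hb]

omit [Group L] [Fintype L] in
/-- orthogonality extends from generators to integer spans -/
theorem span_bilin_zero (X Y : Set (L → ℂ)) (f g : (L → ℂ) → (G → ℂ))
    (hfadd : ∀ a ∈ zspan X, ∀ b ∈ zspan X, f (a + b) = f a + f b)
    (hfsmul : ∀ a ∈ zspan X, ∀ n : ℤ, f (n • a) = n • f a)
    (hgadd : ∀ a ∈ zspan Y, ∀ b ∈ zspan Y, g (a + b) = g a + g b)
    (hgsmul : ∀ a ∈ zspan Y, ∀ n : ℤ, g (n • a) = n • g a)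
    (h : ∀ x ∈ X, ∀ y ∈ Y, classInner (f x) (g y) = 0) :
    ∀ a ∈ zspan X, ∀ b ∈ zspan Y, classInner (f a) (g b) = 0 := by
  have hf0 : f 0 = 0 := by
    have := hfsmul 0 (Submodule.zero_mem _) 0
    simpa using this
  have hg0 : g 0 = 0 := by
    have := hgsmul 0 (Submodule.zero_mem _) 0
    simpa using this
  have step : ∀ x ∈ X, ∀ b ∈ zspan Y, classInner (f x) (g b) = 0 := by
    intro x hx b hb
    have hb' : b ∈ Submodule.span ℤ Y := hb
    induction hb' using Submodule.span_induction with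
    | mem y hy => exact h x hx y hy
    | zero => rw [hg0, classInner_zero_right]
    | add u v hu hv ihu ihv =>
      rw [hgadd u hu v hv, classInner_add_right, ihu hu, ihv hv, add_zero]
    | smul n u hu ih =>
      rw [hgsmul u hu n, classInner_zsmul_right, ih hu, mul_zero]
  intro a ha b hb
  have ha' : a ∈ Submodule.span ℤ X := ha
  induction ha' using Submodule.span_induction with
  | mem x hx => exact step x hx b hb
  | zero => rw [hf0, classInner_zero_left]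
  | add u v hu hv ihu ihv =>
    rw [hfadd u hu v hv, classInner_add_left, ihu hu, ihv hv, add_zero]
  | smul n u hu ih =>
    rw [hfsmul u hu n, classInner_zsmul_left, ih hu, mul_zero]

/-- two linear isometries on orthogonal spans with orthogonal images glue to a linear isometry
on the span of the union -/
theorem union_isometry (X Y : Set (L → ℂ)) (σ τ : (L → ℂ) → (G → ℂ))
    (hσ : IsLinearIsometryOn (zspan X) σ) (hτ : IsLinearIsometryOn (zspan Y) τ)
    (hXY : ∀ x ∈ X, ∀ y ∈ Y, classInner x y = 0)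
    (hστ : ∀ x ∈ X, ∀ y ∈ Y, classInner (σ x) (τ y) = 0) :
    ∃ ρ : (L → ℂ) → (G → ℂ), IsLinearIsometryOn (zspan (X ∪ Y)) ρ ∧
      ∀ a ∈ zspan X, ∀ b ∈ zspan Y, ρ (a + b) = σ a + τ b := by
  classical
  obtain ⟨σadd, σsmul, σinner, σgen⟩ := hσ
  obtain ⟨τadd, τsmul, τinner, τgen⟩ := hτ
  have hperp : ∀ a ∈ zspan X, ∀ b ∈ zspan Y, classInner a b = 0 :=
    span_bilin_zero X Y (fun a => a) (fun a => a) (fun _ _ _ _ => rfl) (fun _ _ _ => rfl)
      (fun _ _ _ _ => rfl) (fun _ _ _ => rfl) hXY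
  have hperp' : ∀ a ∈ zspan X, ∀ b ∈ zspan Y, classInner (σ a) (τ b) = 0 :=
    span_bilin_zero X Y σ τ σadd σsmul τadd τsmul hστ
  have huniq : ∀ a ∈ zspan X, ∀ b ∈ zspan Y, ∀ a' ∈ zspan X, ∀ b' ∈ zspan Y,
      a + b = a' + b' → a = a' ∧ b = b' := by
    intro a ha b hb a' ha' b' hb' h
    have hu : a - a' = b' - b := by
      rw [sub_eq_sub_iff_add_eq_add, h, add_comm]
    have hz : a - a' = 0 := by
      apply eq_zero_of_classInner_self
      have h0 : classInner (a - a') (b' - b) = 0 :=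
        hperp _ (Submodule.sub_mem _ ha ha') _ (Submodule.sub_mem _ hb' hb)
      rw [← hu] at h0
      rw [h0]
      simp
    have ha_eq : a = a' := sub_eq_zero.mp hz
    refine ⟨ha_eq, ?_⟩
    rw [ha_eq] at h
    exact add_left_cancel h
  let ρ : (L → ℂ) → (G → ℂ) := fun θ =>
    if h : ∃ p : (L → ℂ) × (L → ℂ), p.1 ∈ zspan X ∧ p.2 ∈ zspan Y ∧ θ = p.1 + p.2 then
      σ (Classical.choose h).1 + τ (Classical.choose h).2 else 0
  have hρ : ∀ a ∈ zspan X, ∀ b ∈ zspan Y, ρ (a + b) = σ a + τ b := by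
    intro a ha b hb
    have h : ∃ p : (L → ℂ) × (L → ℂ), p.1 ∈ zspan X ∧ p.2 ∈ zspan Y ∧ a + b = p.1 + p.2 :=
      ⟨(a, b), ha, hb, rfl⟩
    show (if h : ∃ p : (L → ℂ) × (L → ℂ), p.1 ∈ zspan X ∧ p.2 ∈ zspan Y ∧ a + b = p.1 + p.2 then
      σ (Classical.choose h).1 + τ (Classical.choose h).2 else 0) = _
    rw [dif_pos h]
    obtain ⟨h1, h2, h3⟩ := Classical.choose_spec h
    obtain ⟨e1, e2⟩ := huniq a ha b hb _ h1 _ h2 h3
    rw [← e1, ← e2]
  have hdec : ∀ θ ∈ zspan (X ∪ Y), ∃ a ∈ zspan X, ∃ b ∈ zspan Y, θ = a + b := by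
    intro θ hθ
    have hθ' : θ ∈ Submodule.span ℤ (X ∪ Y) := hθ
    rw [Submodule.span_union, Submodule.mem_sup] at hθ'
    obtain ⟨a, ha, b, hb, hab⟩ := hθ'
    exact ⟨a, ha, b, hb, hab.symm⟩
  refine ⟨ρ, ⟨?_, ?_, ?_, ?_⟩, hρ⟩
  · intro θ hθ θ' hθ'
    obtain ⟨a, ha, b, hb, rfl⟩ := hdec θ hθ
    obtain ⟨a', ha', b', hb', rfl⟩ := hdec θ' hθ'
    have e : a + b + (a' + b') = (a + a') + (b + b') := by abel
    rw [e, hρ _ (Submodule.add_mem _ ha ha') _ (Submodule.add_mem _ hb hb'), hρ a ha b hb,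
      hρ a' ha' b' hb', σadd a ha a' ha', τadd b hb b' hb']
    abel
  · intro θ hθ n
    obtain ⟨a, ha, b, hb, rfl⟩ := hdec θ hθ
    rw [smul_add, hρ _ (Submodule.smul_mem _ n ha) _ (Submodule.smul_mem _ n hb), hρ a ha b hb,
      σsmul a ha n, τsmul b hb n, smul_add]
  · intro θ hθ θ' hθ'
    obtain ⟨a, ha, b, hb, rfl⟩ := hdec θ hθ
    obtain ⟨a', ha', b', hb', rfl⟩ := hdec θ' hθ'
    rw [hρ a ha b hb, hρ a' ha' b' hb', classInner_add_left, classInner_add_right,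
      classInner_add_right, classInner_add_left, classInner_add_right, classInner_add_right,
      σinner a ha a' ha', τinner b hb b' hb', hperp' a ha b' hb',
      classInner_eq_zero_symm (hperp' a' ha' b hb), hperp a ha b' hb',
      classInner_eq_zero_symm (hperp a' ha' b hb)]
  · intro θ hθ
    obtain ⟨a, ha, b, hb, rfl⟩ := hdec θ hθ
    rw [hρ a ha b hb]
    exact gc_add (σgen a ha) (τgen b hb)

end Lin

end Cfsg.Agent.Lib.Helper2.Coh
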