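import Mathlib
import Cfsg.Prelude.Def_OddOrderChar
import Cfsg.Agent.Lib.Helper2.Coh4

set_option autoImplicit false

namespace Cfsg.Agent.Lib.Helper2.Coh

open Cfsg Cfsg.Agent.Lib.Lead Cfsg.Agent.Lib.Helper2 Cfsg.Agent.S0177
open scoped ComplexConjugate

section Closure

variable {L : Type*}

theorem zspanOn_add {S : Set (L → ℂ)} {A : Set L} {a b : L → ℂ} (ha : a ∈ zspanOn S A)
    (hb : b ∈ zspanOn S A) : a + b ∈ zspanOn S A :=
  ⟨Submodule.add_mem _ ha.1 hb.1, fun x hx => by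
    show a x + b x = 0
    rw [ha.2 x hx, hb.2 x hx, add_zero]⟩

theorem zspanOn_zsmul {S : Set (L → ℂ)} {A : Set L} (n : ℤ) {a : L → ℂ} (ha : a ∈ zspanOn S A) :
    n • a ∈ zspanOn S A :=
  ⟨Submodule.smul_mem _ n ha.1, fun x hx => by
    show n • a x = 0
    rw [ha.2 x hx, smul_zero]⟩

theorem zspanOn_mono {X S : Set (L → ℂ)} {A : Set L} (h : X ⊆ S) :
    zspanOn X A ⊆ zspanOn S A :=
  fun _ ha => ⟨Submodule.span_mono h ha.1, ha.2⟩

theorem zspan_mono {X S : Set (L → ℂ)} (h : X ⊆ S) : zspan X ⊆ zspan S :=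
  fun _ ha => Submodule.span_mono h ha

end Closure

section Union

variable {L : Type*} [Group L] [Fintype L] {G : Type*} [Group G] [Fintype G]

omit [Fintype L] in
theorem zspan_irr_one_int {X : Set (L → ℂ)} (hirr : ∀ ξ ∈ X, IsIrrCharacter L ξ) :
    ∀ a ∈ zspan X, ∃ m : ℤ, a 1 = m := by
  intro a ha
  have ha' : a ∈ Submodule.span ℤ X := ha
  induction ha' using Submodule.span_induction with
  | mem x hx =>
    obtain ⟨d, -, hd⟩ := irr_degree_pos (hirr x hx)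
    exact ⟨d, by rw [hd]; simp⟩
  | zero => exact ⟨0, by simp⟩
  | add u v hu hv ihu ihv =>
    obtain ⟨m, hm⟩ := ihu hu
    obtain ⟨n, hn⟩ := ihv hv
    exact ⟨m + n, by rw [Pi.add_apply, hm, hn]; push_cast; rfl⟩
  | smul n u hu ih =>
    obtain ⟨m, hm⟩ := ih hu
    exact ⟨n * m, by rw [Pi.smul_apply, zsmul_eq_mul, hm]; push_cast; rfl⟩

/-- the images under two coherent extensions on disjoint sets of irreducible characters are
orthogonal -/
theorem union_orthogonal (S X Y : Set (L → ℂ)) (hirr : ∀ ξ ∈ S, IsIrrCharacter L ξ)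
    (hXS : X ⊆ S) (hYS : Y ⊆ S) (hXY : Disjoint X Y) (hX2 : ∃ a ∈ X, ∃ b ∈ X, a ≠ b)
    (hY2 : ∃ a ∈ Y, ∃ b ∈ Y, a ≠ b) (α : (L → ℂ) → (G → ℂ))
    (hα : IsLinearIsometryOn (zspanOn S {1}ᶜ) α) (hα1 : ∀ θ ∈ zspanOn S {1}ᶜ, α θ 1 = 0)
    (σ τ : (L → ℂ) → (G → ℂ)) (hσ : IsLinearIsometryOn (zspan X) σ)
    (hσα : ∀ θ ∈ zspanOn X {1}ᶜ, σ θ = α θ) (hτ : IsLinearIsometryOn (zspan Y) τ)
    (hτα : ∀ θ ∈ zspanOn Y {1}ᶜ, τ θ = α θ) :
    ∀ χ ∈ X, ∀ η ∈ Y, classInner (σ χ) (τ η) = 0 := by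
  classical
  obtain ⟨σadd, σsmul, σinner, σgen⟩ := hσ
  obtain ⟨τadd, τsmul, τinner, τgen⟩ := hτ
  obtain ⟨αadd, αsmul, αinner, αgen⟩ := hα
  intro χ hχ η hη
  obtain ⟨χ', hχ', hne⟩ : ∃ χ' ∈ X, χ' ≠ χ := by
    obtain ⟨a, ha, b, hb, hab⟩ := hX2
    by_cases h : a = χ
    · exact ⟨b, hb, fun e => hab (h.trans e.symm)⟩
    · exact ⟨a, ha, h⟩
  obtain ⟨η', hη', hne'⟩ : ∃ η' ∈ Y, η' ≠ η := by
    obtain ⟨a, ha, b, hb, hab⟩ := hY2
    by_cases h : a = η
    · exact ⟨b, hb, fun e => hab (h.trans e.symm)⟩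
    · exact ⟨a, ha, h⟩
  have iχ := hirr χ (hXS hχ)
  have iχ' := hirr χ' (hXS hχ')
  have iη := hirr η (hYS hη)
  have iη' := hirr η' (hYS hη')
  obtain ⟨c, hc, ec⟩ := irr_degree_pos iχ
  obtain ⟨c', hc', ec'⟩ := irr_degree_pos iχ'
  obtain ⟨e, he, ee⟩ := irr_degree_pos iη
  obtain ⟨e', he', ee'⟩ := irr_degree_pos iη'
  have mχ : χ ∈ zspan X := Submodule.subset_span hχ
  have mχ' : χ' ∈ zspan X := Submodule.subset_span hχ'
  have mη : η ∈ zspan Y := Submodule.subset_span hη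
  have mη' : η' ∈ zspan Y := Submodule.subset_span hη'
  have mX : ((c' : ℤ) • χ - (c : ℤ) • χ') ∈ zspanOn X {1}ᶜ := by
    refine ⟨Submodule.sub_mem _ (Submodule.smul_mem _ _ mχ) (Submodule.smul_mem _ _ mχ'), ?_⟩
    intro x hx
    have hx1 : x = 1 := by simpa using hx
    subst hx1
    show ((c' : ℤ) • χ) 1 - ((c : ℤ) • χ') 1 = 0
    rw [Pi.smul_apply, Pi.smul_apply, zsmul_eq_mul, zsmul_eq_mul, ec, ec']
    push_cast
    ring
  have mY : ((e' : ℤ) • η - (e : ℤ) • η') ∈ zspanOn Y {1}ᶜ := by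
    refine ⟨Submodule.sub_mem _ (Submodule.smul_mem _ _ mη) (Submodule.smul_mem _ _ mη'), ?_⟩
    intro x hx
    have hx1 : x = 1 := by simpa using hx
    subst hx1
    show ((e' : ℤ) • η) 1 - ((e : ℤ) • η') 1 = 0
    rw [Pi.smul_apply, Pi.smul_apply, zsmul_eq_mul, zsmul_eq_mul, ee, ee']
    push_cast
    ring
  have eσ : σ ((c' : ℤ) • χ - (c : ℤ) • χ') = (c' : ℤ) • σ χ - (c : ℤ) • σ χ' :=
    lin_sub σadd σsmul mχ mχ' _ _ (Submodule.smul_mem _ _ mχ) (Submodule.smul_mem _ _ mχ')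
  have eτ : τ ((e' : ℤ) • η - (e : ℤ) • η') = (e' : ℤ) • τ η - (e : ℤ) • τ η' :=
    lin_sub τadd τsmul mη mη' _ _ (Submodule.smul_mem _ _ mη) (Submodule.smul_mem _ _ mη')
  have nXY : ∀ x ∈ X, ∀ y ∈ Y, x ≠ y := by
    intro x hx y hy hxy
    exact Set.disjoint_left.mp hXY hx (hxy ▸ hy)
  have oXY : ∀ x ∈ X, ∀ y ∈ Y, classInner x y = 0 := by
    intro x hx y hy
    rw [irr_orthonormal (hirr x (hXS hx)) (hirr y (hYS hy)), if_neg (nXY x hx y hy)]
  have hzero : classInner ((c' : ℤ) • σ χ - (c : ℤ) • σ χ') ((e' : ℤ) • τ η - (e : ℤ) • τ η') = 0 := by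
    rw [← eσ, ← eτ, hσα _ mX, hτα _ mY, αinner _ (zspanOn_mono hXS mX) _ (zspanOn_mono hYS mY)]
    simp only [classInner_sub_left, classInner_sub_right, classInner_zsmul_left,
      classInner_zsmul_right, oXY χ hχ η hη, oXY χ hχ η' hη', oXY χ' hχ' η hη,
      oXY χ' hχ' η' hη']
    ring
  have hA : IsIrrCharacter G (σ χ) ∨ IsIrrCharacter G (-(σ χ)) :=
    genChar_norm_one (σgen χ mχ) (by rw [σinner χ mχ χ mχ, irr_orthonormal iχ iχ, if_pos rfl])
  have hA' : IsIrrCharacter G (σ χ') ∨ IsIrrCharacter G (-(σ χ')) :=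
    genChar_norm_one (σgen χ' mχ') (by
      rw [σinner χ' mχ' χ' mχ', irr_orthonormal iχ' iχ', if_pos rfl])
  have hB : IsIrrCharacter G (τ η) ∨ IsIrrCharacter G (-(τ η)) :=
    genChar_norm_one (τgen η mη) (by rw [τinner η mη η mη, irr_orthonormal iη iη, if_pos rfl])
  have hB' : IsIrrCharacter G (τ η') ∨ IsIrrCharacter G (-(τ η')) :=
    genChar_norm_one (τgen η' mη') (by
      rw [τinner η' mη' η' mη', irr_orthonormal iη' iη', if_pos rfl])
  have oAA' : classInner (σ χ') (σ χ) = 0 := by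
    rw [σinner χ' mχ' χ mχ, irr_orthonormal iχ' iχ, if_neg hne]
  have oBB' : classInner (τ η) (τ η') = 0 := by
    rw [τinner η mη η' mη', irr_orthonormal iη iη', if_neg (Ne.symm hne')]
  by_contra hcon
  rcases signed_irr_cases hA hB with h0 | ⟨s, hs, hBs⟩
  · exact hcon h0
  have hs0 : s ≠ 0 := by rcases hs with rfl | rfl <;> norm_num
  have hsc : conj s = s := by rcases hs with rfl | rfl <;> simp
  have iAB : classInner (σ χ) (τ η) = s := by
    rw [hBs, classInner_smul_right, signed_irr_inner_self hA, hsc, mul_one]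
  have iAB' : classInner (σ χ) (τ η') = 0 := by
    have h1 := oBB'
    rw [hBs, classInner_smul_left] at h1
    exact (mul_eq_zero.mp h1).resolve_left hs0
  have iA'B : classInner (σ χ') (τ η) = 0 := by
    rw [hBs, classInner_smul_right, oAA', mul_zero]
  simp only [classInner_sub_left, classInner_sub_right, classInner_zsmul_left,
    classInner_zsmul_right, iAB, iAB', iA'B] at hzero
  rcases signed_irr_cases hA' hB' with h0 | ⟨t, ht, hBt⟩
  · rw [h0] at hzero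
    have h1 : ((c' : ℤ) : ℂ) * ((e' : ℤ) : ℂ) * s = 0 := by linear_combination hzero
    have hc'0 : ((c' : ℤ) : ℂ) ≠ 0 := by exact_mod_cast hc'.ne'
    have he'0 : ((e' : ℤ) : ℂ) ≠ 0 := by exact_mod_cast he'.ne'
    exact mul_ne_zero (mul_ne_zero hc'0 he'0) hs0 h1
  have htc : conj t = t := by rcases ht with rfl | rfl <;> simp
  have iA'B' : classInner (σ χ') (τ η') = t := by
    rw [hBt, classInner_smul_right, signed_irr_inner_self hA', htc, mul_one]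
  rw [iA'B'] at hzero
  have E1 : (c' : ℂ) * e' * s + c * e * t = 0 := by
    push_cast at hzero
    linear_combination hzero
  have v1 : (c' : ℂ) * σ χ 1 - c * σ χ' 1 = 0 := by
    have h1 := hα1 _ (zspanOn_mono hXS mX)
    rw [← hσα _ mX, eσ] at h1
    have h2 : ((c' : ℤ) • σ χ - (c : ℤ) • σ χ') 1 = (c' : ℂ) * σ χ 1 - c * σ χ' 1 := by
      show ((c' : ℤ) • σ χ) 1 - ((c : ℤ) • σ χ') 1 = _
      rw [Pi.smul_apply, Pi.smul_apply, zsmul_eq_mul, zsmul_eq_mul]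
      push_cast
      ring
    rw [← h2]; exact h1
  have v2 : (e' : ℂ) * τ η 1 - e * τ η' 1 = 0 := by
    have h1 := hα1 _ (zspanOn_mono hYS mY)
    rw [← hτα _ mY, eτ] at h1
    have h2 : ((e' : ℤ) • τ η - (e : ℤ) • τ η') 1 = (e' : ℂ) * τ η 1 - e * τ η' 1 := by
      show ((e' : ℤ) • τ η) 1 - ((e : ℤ) • τ η') 1 = _
      rw [Pi.smul_apply, Pi.smul_apply, zsmul_eq_mul, zsmul_eq_mul]
      push_cast
      ring
    rw [← h2]; exact h1
  have hA1 : σ χ 1 ≠ 0 := signed_irr_one_ne_zero hA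
  have hA'1 : σ χ' 1 ≠ 0 := signed_irr_one_ne_zero hA'
  rw [hBs, hBt] at v2
  simp only [Pi.smul_apply, smul_eq_mul] at v2
  have hc0 : (c : ℂ) ≠ 0 := by exact_mod_cast hc.ne'
  -- eliminate `σ χ' 1`
  have E4 : ((e' : ℂ) * s * c - e * t * c') * σ χ 1 = 0 := by
    have h3 : (c : ℂ) * σ χ' 1 = c' * σ χ 1 := by linear_combination -v1
    linear_combination (c : ℂ) * v2 + (e : ℂ) * t * h3
  have E5 : (e' : ℂ) * s * c - e * t * c' = 0 := (mul_eq_zero.mp E4).resolve_right hA1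
  rcases hs with rfl | rfl <;> rcases ht with rfl | rfl
  · have h5 : ((c' * e' + c * e : ℕ) : ℂ) = 0 := by push_cast; linear_combination E1
    have h6 : c' * e' + c * e = 0 := by exact_mod_cast h5
    have := Nat.mul_pos hc' he'
    omega
  · have h5 : ((e' * c + e * c' : ℕ) : ℂ) = 0 := by push_cast; linear_combination E5
    have h6 : e' * c + e * c' = 0 := by exact_mod_cast h5
    have := Nat.mul_pos he' hc
    omega
  · have h5 : ((e' * c + e * c' : ℕ) : ℂ) = 0 := by push_cast; linear_combination -E5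
    have h6 : e' * c + e * c' = 0 := by exact_mod_cast h5
    have := Nat.mul_pos he' hc
    omega
  · have h5 : ((c' * e' + c * e : ℕ) : ℂ) = 0 := by push_cast; linear_combination -E1
    have h6 : c' * e' + c * e = 0 := by exact_mod_cast h5
    have := Nat.mul_pos hc' he'
    omega

/-- Sibley's union lemma: two coherent sets of irreducible characters linked by one compatible
difference have a coherent union -/
theorem union_coherent (S X Y : Set (L → ℂ)) (hirr : ∀ ξ ∈ S, IsIrrCharacter L ξ)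
    (hXS : X ⊆ S) (hYS : Y ⊆ S) (hXY : Disjoint X Y) (hX2 : ∃ a ∈ X, ∃ b ∈ X, a ≠ b)
    (hY2 : ∃ a ∈ Y, ∃ b ∈ Y, a ≠ b) (α : (L → ℂ) → (G → ℂ))
    (hα : IsLinearIsometryOn (zspanOn S {1}ᶜ) α) (hα1 : ∀ θ ∈ zspanOn S {1}ᶜ, α θ 1 = 0)
    (σ τ : (L → ℂ) → (G → ℂ)) (hσ : IsLinearIsometryOn (zspan X) σ)
    (hσα : ∀ θ ∈ zspanOn X {1}ᶜ, σ θ = α θ) (hτ : IsLinearIsometryOn (zspan Y) τ)
    (hτα : ∀ θ ∈ zspanOn Y {1}ᶜ, τ θ = α θ)
    (hlink : ∃ χ₀ ∈ X, ∃ η₀ ∈ Y,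
      α (χ₀ 1 • η₀ - η₀ 1 • χ₀) = χ₀ 1 • τ η₀ - η₀ 1 • σ χ₀) :
    IsCoherent (X ∪ Y) {1}ᶜ α := by
  classical
  have horth := union_orthogonal S X Y hirr hXS hYS hXY hX2 hY2 α hα hα1 σ τ hσ hσα hτ hτα
  have nXY : ∀ x ∈ X, ∀ y ∈ Y, x ≠ y := by
    intro x hx y hy hxy
    exact Set.disjoint_left.mp hXY hx (hxy ▸ hy)
  have oXY : ∀ x ∈ X, ∀ y ∈ Y, classInner x y = 0 := by
    intro x hx y hy
    rw [irr_orthonormal (hirr x (hXS hx)) (hirr y (hYS hy)), if_neg (nXY x hx y hy)]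
  obtain ⟨ρ, hρiso, hρ⟩ := union_isometry X Y σ τ hσ hτ oXY horth
  obtain ⟨σadd, σsmul, σinner, σgen⟩ := hσ
  obtain ⟨τadd, τsmul, τinner, τgen⟩ := hτ
  obtain ⟨αadd, αsmul, αinner, αgen⟩ := hα
  have hXYS : X ∪ Y ⊆ S := Set.union_subset hXS hYS
  refine ⟨?_, ρ, hρiso, ?_⟩
  · obtain ⟨a, ha, b, hb, hab⟩ := hX2
    have ia := hirr a (hXS ha)
    have ib := hirr b (hXS hb)
    obtain ⟨da, hda, eda⟩ := irr_degree_pos ia
    obtain ⟨db, hdb, edb⟩ := irr_degree_pos ib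
    have ma : a ∈ zspan (X ∪ Y) := Submodule.subset_span (Or.inl ha)
    have mb : b ∈ zspan (X ∪ Y) := Submodule.subset_span (Or.inl hb)
    refine ⟨(db : ℤ) • a - (da : ℤ) • b,
      ⟨Submodule.sub_mem _ (Submodule.smul_mem _ _ ma) (Submodule.smul_mem _ _ mb), ?_⟩, ?_⟩
    · intro x hx
      have hx1 : x = 1 := by simpa using hx
      subst hx1
      show ((db : ℤ) • a) 1 - ((da : ℤ) • b) 1 = 0
      rw [Pi.smul_apply, Pi.smul_apply, zsmul_eq_mul, zsmul_eq_mul, eda, edb]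
      push_cast
      ring
    · intro h0
      have h1 : classInner ((db : ℤ) • a - (da : ℤ) • b) a = 0 := by
        rw [h0, classInner_zero_left]
      rw [classInner_sub_left, classInner_zsmul_left, classInner_zsmul_left,
        irr_orthonormal ia ia, irr_orthonormal ib ia, if_pos rfl, if_neg (Ne.symm hab)] at h1
      have h2 : ((db : ℤ) : ℂ) = 0 := by linear_combination h1
      have h3 : db = 0 := by exact_mod_cast h2
      omega
  · intro θ hθ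
    obtain ⟨χ₀, hχ₀, η₀, hη₀, hw⟩ := hlink
    have iχ₀ := hirr χ₀ (hXS hχ₀)
    have iη₀ := hirr η₀ (hYS hη₀)
    obtain ⟨c, hc, ec⟩ := irr_degree_pos iχ₀
    obtain ⟨e, he, ee⟩ := irr_degree_pos iη₀
    have mχ₀ : χ₀ ∈ zspan X := Submodule.subset_span hχ₀
    have mη₀ : η₀ ∈ zspan Y := Submodule.subset_span hη₀
    have hθ1 : θ 1 = 0 := hθ.2 1 (by simp)
    have hθ' : θ ∈ Submodule.span ℤ (X ∪ Y) := hθ.1
    rw [Submodule.span_union, Submodule.mem_sup] at hθ'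
    obtain ⟨a, ha, b, hb, hab⟩ := hθ'
    have ha' : a ∈ zspan X := ha
    have hb' : b ∈ zspan Y := hb
    obtain ⟨m, hm⟩ := zspan_irr_one_int (fun ξ hξ => hirr ξ (hXS hξ)) a ha'
    have hb1 : b 1 = -(m : ℂ) := by
      have h1 : a 1 + b 1 = 0 := by rw [← Pi.add_apply, hab, hθ1]
      rw [hm] at h1
      linear_combination h1
    -- the three pieces
    have mu : ((c : ℤ) • a - m • χ₀) ∈ zspanOn X {1}ᶜ := by
      refine ⟨Submodule.sub_mem _ (Submodule.smul_mem _ _ ha) (Submodule.smul_mem _ _ mχ₀), ?_⟩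
      intro x hx
      have hx1 : x = 1 := by simpa using hx
      subst hx1
      show ((c : ℤ) • a) 1 - (m • χ₀) 1 = 0
      rw [Pi.smul_apply, Pi.smul_apply, zsmul_eq_mul, zsmul_eq_mul, hm, ec]
      push_cast
      ring
    have mv : ((e : ℤ) • b + m • η₀) ∈ zspanOn Y {1}ᶜ := by
      refine ⟨Submodule.add_mem _ (Submodule.smul_mem _ _ hb) (Submodule.smul_mem _ _ mη₀), ?_⟩
      intro x hx
      have hx1 : x = 1 := by simpa using hx
      subst hx1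
      show ((e : ℤ) • b) 1 + (m • η₀) 1 = 0
      rw [Pi.smul_apply, Pi.smul_apply, zsmul_eq_mul, zsmul_eq_mul, hb1, ee]
      push_cast
      ring
    have ew : χ₀ 1 • η₀ - η₀ 1 • χ₀ = (c : ℤ) • η₀ - (e : ℤ) • χ₀ := by
      rw [ec, ee, ← Int.cast_smul_eq_zsmul ℂ (c : ℤ) η₀, ← Int.cast_smul_eq_zsmul ℂ (e : ℤ) χ₀]
      push_cast
      rfl
    have mw : ((c : ℤ) • η₀ - (e : ℤ) • χ₀) ∈ zspanOn S {1}ᶜ := by
      refine ⟨Submodule.sub_mem _ (Submodule.smul_mem _ _ (Submodule.subset_span (hYS hη₀)))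
        (Submodule.smul_mem _ _ (Submodule.subset_span (hXS hχ₀))), ?_⟩
      intro x hx
      have hx1 : x = 1 := by simpa using hx
      subst hx1
      show ((c : ℤ) • η₀) 1 - ((e : ℤ) • χ₀) 1 = 0
      rw [Pi.smul_apply, Pi.smul_apply, zsmul_eq_mul, zsmul_eq_mul, ec, ee]
      push_cast
      ring
    have muS := zspanOn_mono hXS mu
    have mvS := zspanOn_mono hYS mv
    have hθS : θ ∈ zspanOn S {1}ᶜ := zspanOn_mono hXYS hθ
    have eu : α ((c : ℤ) • a - m • χ₀) = (c : ℤ) • σ a - m • σ χ₀ := by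
      rw [← hσα _ mu]
      exact lin_sub σadd σsmul ha' mχ₀ _ _ (Submodule.smul_mem _ _ ha)
        (Submodule.smul_mem _ _ mχ₀)
    have ev : α ((e : ℤ) • b + m • η₀) = (e : ℤ) • τ b + m • τ η₀ := by
      rw [← hτα _ mv]
      exact lin_add τadd τsmul hb' mη₀ _ _ (Submodule.smul_mem _ _ hb)
        (Submodule.smul_mem _ _ mη₀)
    have ew' : α ((c : ℤ) • η₀ - (e : ℤ) • χ₀) = (c : ℂ) • τ η₀ - (e : ℂ) • σ χ₀ := by
      rw [← ew, hw, ec, ee]
    -- the identity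
    have hid : ((c * e : ℕ) : ℤ) • θ = ((e : ℤ) • ((c : ℤ) • a - m • χ₀) +
        (c : ℤ) • ((e : ℤ) • b + m • η₀)) + (-m) • ((c : ℤ) • η₀ - (e : ℤ) • χ₀) := by
      rw [← hab]
      funext x
      simp only [Pi.add_apply, Pi.sub_apply, Pi.smul_apply, Pi.mul_apply, Pi.neg_apply,
        zsmul_eq_mul, smul_eq_mul, Pi.intCast_apply, Pi.natCast_apply]
      push_cast
      ring
    have h1 : α (((c * e : ℕ) : ℤ) • θ) = ((c * e : ℕ) : ℤ) • α θ := αsmul θ hθS _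
    rw [hid, αadd _ (zspanOn_add (zspanOn_zsmul _ muS) (zspanOn_zsmul _ mvS)) _
      (zspanOn_zsmul _ mw), αadd _ (zspanOn_zsmul _ muS) _ (zspanOn_zsmul _ mvS),
      αsmul _ muS, αsmul _ mvS, αsmul _ mw, eu, ev, ew'] at h1
    have h2 : ρ θ = σ a + τ b := by rw [← hab]; exact hρ a ha' b hb'
    rw [h2]
    funext x
    have h3 := congrFun h1 x
    simp only [Pi.add_apply, Pi.sub_apply, Pi.smul_apply, Pi.mul_apply, Pi.neg_apply,
      zsmul_eq_mul, smul_eq_mul, Pi.intCast_apply, Pi.natCast_apply] at h3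
    push_cast at h3
    have hce : (c : ℂ) * e ≠ 0 := by
      apply mul_ne_zero <;> exact_mod_cast (by omega : (_ : ℕ) ≠ 0)
    have h4 : (c : ℂ) * e * (σ a x + τ b x) = (c : ℂ) * e * α θ x := by
      linear_combination h3
    exact mul_left_cancel₀ hce h4

end Union

end Cfsg.Agent.Lib.Helper2.Coh
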