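import Mathlib
import Cfsg.Prelude.Def_OddOrderChar
import Cfsg.Agent.Lib.Helper2.Coh5

set_option autoImplicit false

namespace Cfsg.Agent.Lib.Helper2.Coh

open Cfsg Cfsg.Agent.Lib.Lead Cfsg.Agent.Lib.Helper2 Cfsg.Agent.S0177
open scoped ComplexConjugate

section ExtIrr

variable {L : Type*} [Group L] [Fintype L] {G : Type*} [Group G] [Fintype G]

/-- extension of coherence by one irreducible character -/
theorem extend_irr (S₀ : Finset (L → ℂ)) (χ : L → ℂ)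
    (hirr : ∀ ξ ∈ S₀, IsIrrCharacter L ξ) (hχ : IsIrrCharacter L χ) (hχS : χ ∉ S₀)
    (d : (L → ℂ) → ℕ) (hd : ∀ ξ ∈ insert χ S₀, ξ 1 = (d ξ : ℂ)) (τ : (L → ℂ) → (G → ℂ))
    (hτ : IsLinearIsometryOn (zspanOn (↑(insert χ S₀) : Set (L → ℂ)) {1}ᶜ) τ)
    (hτ1 : ∀ α ∈ zspanOn (↑(insert χ S₀) : Set (L → ℂ)) {1}ᶜ, τ α 1 = 0)
    (hcoh : IsCoherent (↑S₀ : Set (L → ℂ)) {1}ᶜ τ) (ψ : L → ℂ) (hψ : ψ ∈ S₀)
    (hdvd : d ψ ∣ d χ) (hlt : 2 * d ψ * d χ < ∑ ξ ∈ S₀, d ξ ^ 2) :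
    IsCoherent (↑(insert χ S₀) : Set (L → ℂ)) {1}ᶜ τ := by
  classical
  obtain ⟨⟨α₀, hα₀, hα₀ne⟩, τs, hτs, hagree⟩ := hcoh
  obtain ⟨sadd, ssmul, sinner, sgen⟩ := hτs
  obtain ⟨tadd, tsmul, tinner, tgen⟩ := hτ
  have hsub : (↑S₀ : Set (L → ℂ)) ⊆ ↑(insert χ S₀) := by
    intro x hx
    exact Finset.mem_coe.mpr (Finset.mem_insert_of_mem (Finset.mem_coe.mp hx))
  have hmono := zspanOn_mono (A := ({1}ᶜ : Set L)) hsub
  refine ⟨⟨α₀, hmono hα₀, hα₀ne⟩, ?_⟩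
  have hdpos : ∀ ξ ∈ S₀, 0 < d ξ := by
    intro ξ hξ
    obtain ⟨k, hk, ek⟩ := irr_degree_pos (hirr ξ hξ)
    have h1 := hd ξ (Finset.mem_insert_of_mem hξ)
    rw [ek] at h1
    have h2 : k = d ξ := by exact_mod_cast h1
    omega
  have hdχ := hd χ (Finset.mem_insert_self χ S₀)
  have hdψ := hd ψ (Finset.mem_insert_of_mem hψ)
  obtain ⟨a, ha⟩ := hdvd
  have hψpos := hdpos ψ hψ
  have hapos : 0 < a := by
    obtain ⟨k, hk, ek⟩ := irr_degree_pos hχ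
    have h1 := hdχ
    rw [ek] at h1
    have h2 : k = d χ := by exact_mod_cast h1
    rcases Nat.eq_zero_or_pos a with h0 | h0
    · rw [h0, mul_zero] at ha; omega
    · exact h0
  have mψ0 : ψ ∈ zspan (↑S₀ : Set (L → ℂ)) := Submodule.subset_span (Finset.mem_coe.mpr hψ)
  have mem0 : ∀ ξ ∈ S₀, ξ ∈ zspan (↑S₀ : Set (L → ℂ)) :=
    fun ξ hξ => Submodule.subset_span (Finset.mem_coe.mpr hξ)
  have mχ : χ ∈ zspan (↑(insert χ S₀) : Set (L → ℂ)) :=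
    Submodule.subset_span (Finset.mem_coe.mpr (Finset.mem_insert_self χ S₀))
  have mψ : ψ ∈ zspan (↑(insert χ S₀) : Set (L → ℂ)) := zspan_mono hsub mψ0
  have mβ : χ - (a : ℤ) • ψ ∈ zspanOn (↑(insert χ S₀) : Set (L → ℂ)) {1}ᶜ := by
    refine ⟨Submodule.sub_mem _ mχ (Submodule.smul_mem _ _ mψ), ?_⟩
    intro x hx
    have hx1 : x = 1 := by simpa using hx
    subst hx1
    show χ 1 - ((a : ℤ) • ψ) 1 = 0
    rw [Pi.smul_apply, zsmul_eq_mul, hdχ, hdψ, ha]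
    push_cast
    ring
  have oχ : ∀ ξ ∈ S₀, classInner χ ξ = 0 := by
    intro ξ hξ
    rw [irr_orthonormal hχ (hirr ξ hξ), if_neg]
    rintro rfl
    exact hχS hξ
  have oS : ∀ ξ ∈ S₀, ∀ ξ' ∈ S₀, classInner ξ ξ' = if ξ = ξ' then 1 else 0 :=
    fun ξ hξ ξ' hξ' => irr_orthonormal (hirr ξ hξ) (hirr ξ' hξ')
  have oS' : ∀ ξ ∈ S₀, ∀ ξ' ∈ S₀, classInner (τs ξ) (τs ξ') = if ξ = ξ' then 1 else 0 := by
    intro ξ hξ ξ' hξ'
    rw [sinner ξ (mem0 ξ hξ) ξ' (mem0 ξ' hξ'), oS ξ hξ ξ' hξ']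
  obtain ⟨Z, hZ⟩ : ∃ Z, Z = τ (χ - (a : ℤ) • ψ) + (a : ℤ) • τs ψ := ⟨_, rfl⟩
  have hZgen : IsGeneralizedCharacter G Z := by
    rw [hZ]
    refine gc_add (tgen _ mβ) ?_
    rw [← Int.cast_smul_eq_zsmul ℂ]
    exact gcZ_smul _ (sgen ψ mψ0)
  have hτβ : τ (χ - (a : ℤ) • ψ) = Z - (a : ℤ) • τs ψ := by rw [hZ]; abel
  have hint : ∀ ξ : L → ℂ, ∃ z : ℤ, ξ ∈ S₀ → classInner Z (τs ξ) = z := by
    intro ξ
    by_cases hξ : ξ ∈ S₀
    · obtain ⟨z, hz⟩ := genChar_inner_int hZgen (sgen ξ (mem0 ξ hξ))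
      exact ⟨z, fun _ => hz⟩
    · exact ⟨0, fun h => absurd h hξ⟩
  choose c hc using hint
  have mγ : ∀ ξ ∈ S₀, ((d ψ : ℤ) • ξ - (d ξ : ℤ) • ψ) ∈ zspanOn (↑S₀ : Set (L → ℂ)) {1}ᶜ := by
    intro ξ hξ
    refine ⟨Submodule.sub_mem _ (Submodule.smul_mem _ _ (mem0 ξ hξ))
      (Submodule.smul_mem _ _ mψ0), ?_⟩
    intro x hx
    have hx1 : x = 1 := by simpa using hx
    subst hx1
    show ((d ψ : ℤ) • ξ) 1 - ((d ξ : ℤ) • ψ) 1 = 0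
    rw [Pi.smul_apply, Pi.smul_apply, zsmul_eq_mul, zsmul_eq_mul,
      hd ξ (Finset.mem_insert_of_mem hξ), hdψ]
    push_cast
    ring
  have eγ : ∀ ξ ∈ S₀, τ ((d ψ : ℤ) • ξ - (d ξ : ℤ) • ψ) =
      (d ψ : ℤ) • τs ξ - (d ξ : ℤ) • τs ψ := by
    intro ξ hξ
    rw [← hagree _ (mγ ξ hξ)]
    exact lin_sub sadd ssmul (mem0 ξ hξ) mψ0 _ _ (Submodule.smul_mem _ _ (mem0 ξ hξ))
      (Submodule.smul_mem _ _ mψ0)
  have R1 : ∀ ξ ∈ S₀, (d ψ : ℤ) * c ξ = (d ξ : ℤ) * c ψ := by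
    intro ξ hξ
    have h1 := tinner _ mβ _ (hmono (mγ ξ hξ))
    rw [eγ ξ hξ, hτβ] at h1
    simp only [classInner_sub_left, classInner_sub_right, classInner_zsmul_left,
      classInner_zsmul_right, hc ξ hξ, hc ψ hψ, oS' ψ hψ ξ hξ, oS' ψ hψ ψ hψ, oχ ξ hξ, oχ ψ hψ,
      oS ψ hψ ξ hξ, oS ψ hψ ψ hψ, if_pos rfl] at h1
    have h2 : ((d ψ : ℤ) : ℂ) * (c ξ : ℂ) = ((d ξ : ℤ) : ℂ) * (c ψ : ℂ) := by
      linear_combination h1
    exact_mod_cast h2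
  have hinj : ∀ ξ ∈ S₀, ∀ ξ' ∈ S₀, τs ξ = τs ξ' → ξ = ξ' := by
    intro ξ hξ ξ' hξ' h
    by_contra hne
    have h1 := oS' ξ hξ ξ' hξ'
    rw [if_neg hne, h, oS' ξ' hξ' ξ' hξ', if_pos rfl] at h1
    exact one_ne_zero h1
  have hT : ∀ α ∈ S₀.image τs, ∀ β ∈ S₀.image τs, classInner α β = if α = β then 1 else 0 := by
    intro α hα β hβ
    obtain ⟨ξ, hξ, rfl⟩ := Finset.mem_image.mp hα
    obtain ⟨ξ', hξ', rfl⟩ := Finset.mem_image.mp hβ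
    rw [oS' ξ hξ ξ' hξ']
    by_cases h : ξ = ξ'
    · rw [if_pos h, if_pos (by rw [h])]
    · rw [if_neg h, if_neg (fun e => h (hinj ξ hξ ξ' hξ' e))]
  have eZZ : classInner Z Z = ((1 + 2 * (a : ℤ) * c ψ : ℤ) : ℂ) := by
    have hβ : classInner (τ (χ - (a : ℤ) • ψ)) (τ (χ - (a : ℤ) • ψ)) = 1 + (a : ℂ) ^ 2 := by
      rw [tinner _ mβ _ mβ]
      simp only [classInner_sub_left, classInner_sub_right, classInner_zsmul_left,
        classInner_zsmul_right, oχ ψ hψ, classInner_eq_zero_symm (oχ ψ hψ), oS ψ hψ ψ hψ,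
        if_pos rfl, irr_orthonormal hχ hχ]
      push_cast
      ring
    have h2 : classInner (τ (χ - (a : ℤ) • ψ)) (τs ψ) = (c ψ : ℂ) - a := by
      rw [hτβ, classInner_sub_left, classInner_zsmul_left, hc ψ hψ, oS' ψ hψ ψ hψ, if_pos rfl]
      push_cast
      ring
    have h3 : classInner (τs ψ) (τ (χ - (a : ℤ) • ψ)) = (c ψ : ℂ) - a := by
      rw [classInner_conj_symm (τ (χ - (a : ℤ) • ψ)) (τs ψ), h2]
      simp
    rw [hZ]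
    simp only [classInner_add_left, classInner_add_right, classInner_zsmul_left,
      classInner_zsmul_right, hβ, h2, h3, oS' ψ hψ ψ hψ, if_pos rfl]
    push_cast
    ring
  have esum : ∑ α ∈ S₀.image τs, classInner Z α * conj (classInner Z α) =
      ((∑ ξ ∈ S₀, (c ξ) ^ 2 : ℤ) : ℂ) := by
    rw [Finset.sum_image hinj, Int.cast_sum]
    apply Finset.sum_congr rfl
    intro ξ hξ
    rw [hc ξ hξ, map_intCast]
    push_cast
    ring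
  have hbes := bessel_le (S₀.image τs) hT Z
  rw [esum, eZZ, Complex.intCast_re, Complex.intCast_re] at hbes
  have hbes' : (∑ ξ ∈ S₀, (c ξ) ^ 2 : ℤ) ≤ 1 + 2 * (a : ℤ) * c ψ := by exact_mod_cast hbes
  have hD : (d ψ : ℤ) ^ 2 * ∑ ξ ∈ S₀, (c ξ) ^ 2 =
      (c ψ) ^ 2 * ((∑ ξ ∈ S₀, d ξ ^ 2 : ℕ) : ℤ) := by
    rw [Finset.mul_sum, Nat.cast_sum, Finset.mul_sum]
    apply Finset.sum_congr rfl
    intro ξ hξ
    have r := R1 ξ hξ
    push_cast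
    calc (d ψ : ℤ) ^ 2 * c ξ ^ 2 = ((d ψ : ℤ) * c ξ) ^ 2 := by ring
      _ = ((d ξ : ℤ) * c ψ) ^ 2 := by rw [r]
      _ = c ψ ^ 2 * (d ξ : ℤ) ^ 2 := by ring
  have hDlt : 2 * (a : ℤ) * (d ψ : ℤ) ^ 2 + 1 ≤ ((∑ ξ ∈ S₀, d ξ ^ 2 : ℕ) : ℤ) := by
    have h1 : 2 * a * d ψ ^ 2 + 1 ≤ ∑ ξ ∈ S₀, d ξ ^ 2 := by
      rw [ha] at hlt
      have e : 2 * d ψ * (d ψ * a) = 2 * a * d ψ ^ 2 := by ring
      omega
    exact_mod_cast h1
  have hdψ1 : (1 : ℤ) ≤ d ψ := by exact_mod_cast hψpos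
  have ha1 : (1 : ℤ) ≤ a := by exact_mod_cast hapos
  have hdsq : (0 : ℤ) < (d ψ : ℤ) ^ 2 := by positivity
  have hK : c ψ = 0 := by
    by_contra hK0
    by_cases hK1 : c ψ = 1
    · have h1 : (d ψ : ℤ) ^ 2 * ∑ ξ ∈ S₀, (c ξ) ^ 2 = ((∑ ξ ∈ S₀, d ξ ^ 2 : ℕ) : ℤ) := by
        rw [hD, hK1]; ring
      have hge : 2 * (a : ℤ) + 1 ≤ ∑ ξ ∈ S₀, (c ξ) ^ 2 := by
        by_contra hcon
        have h2 : ∑ ξ ∈ S₀, (c ξ) ^ 2 ≤ 2 * (a : ℤ) := by omega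
        have h3 := mul_le_mul_of_nonneg_left h2 hdsq.le
        linarith
      have heq : ∑ ξ ∈ S₀, (c ξ) ^ 2 = 1 + 2 * (a : ℤ) := by
        rw [hK1] at hbes'
        linarith
      have hZeq : Z = ∑ α ∈ S₀.image τs, classInner Z α • α := by
        apply eq_sum_of_bessel _ hT
        rw [esum, eZZ, hK1, heq]
        simp
      rw [Finset.sum_image hinj] at hZeq
      have hZ1 : Z 1 = (a : ℂ) * τs ψ 1 := by
        rw [hZ]
        show τ (χ - (a : ℤ) • ψ) 1 + ((a : ℤ) • τs ψ) 1 = _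
        rw [hτ1 _ mβ, Pi.smul_apply, zsmul_eq_mul]
        push_cast
        ring
      have R2 : ∀ ξ ∈ S₀, (d ψ : ℂ) * τs ξ 1 = (d ξ : ℂ) * τs ψ 1 := by
        intro ξ hξ
        have h1 := hτ1 _ (hmono (mγ ξ hξ))
        rw [eγ ξ hξ] at h1
        have h2 : ((d ψ : ℤ) • τs ξ - (d ξ : ℤ) • τs ψ) 1 =
            (d ψ : ℂ) * τs ξ 1 - (d ξ : ℂ) * τs ψ 1 := by
          show ((d ψ : ℤ) • τs ξ) 1 - ((d ξ : ℤ) • τs ψ) 1 = _
          rw [Pi.smul_apply, Pi.smul_apply, zsmul_eq_mul, zsmul_eq_mul]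
          push_cast
          ring
        rw [h2] at h1
        linear_combination h1
      have hsum : (d ψ : ℂ) ^ 2 * Z 1 = ((∑ ξ ∈ S₀, d ξ ^ 2 : ℕ) : ℂ) * τs ψ 1 := by
        have hZ1' : Z 1 = ∑ ξ ∈ S₀, classInner Z (τs ξ) * τs ξ 1 := by
          conv_lhs => rw [hZeq]
          rw [Finset.sum_apply]
          rfl
        rw [hZ1', Finset.mul_sum, Nat.cast_sum, Finset.sum_mul]
        apply Finset.sum_congr rfl
        intro ξ hξ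
        have r1 := R1 ξ hξ
        rw [hK1, mul_one] at r1
        have r1' : (d ψ : ℂ) * (c ξ : ℂ) = (d ξ : ℂ) := by exact_mod_cast r1
        rw [hc ξ hξ]
        push_cast
        linear_combination (d ψ : ℂ) * (c ξ : ℂ) * R2 ξ hξ + (d ξ : ℂ) * τs ψ 1 * r1'
      have hψ1 : τs ψ 1 ≠ 0 := signed_irr_one_ne_zero
        (genChar_norm_one (sgen ψ mψ0) (by rw [oS' ψ hψ ψ hψ, if_pos rfl]))
      rw [hZ1] at hsum
      have h5 : ((d ψ : ℂ) ^ 2 * a - ((∑ ξ ∈ S₀, d ξ ^ 2 : ℕ) : ℂ)) * τs ψ 1 = 0 := by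
        linear_combination hsum
      have h6 : (d ψ : ℂ) ^ 2 * a - ((∑ ξ ∈ S₀, d ξ ^ 2 : ℕ) : ℂ) = 0 :=
        (mul_eq_zero.mp h5).resolve_right hψ1
      have h7 : ((d ψ ^ 2 * a : ℕ) : ℂ) = ((∑ ξ ∈ S₀, d ξ ^ 2 : ℕ) : ℂ) := by
        push_cast at h6 ⊢
        linear_combination h6
      have h8 : d ψ ^ 2 * a = ∑ ξ ∈ S₀, d ξ ^ 2 := by exact_mod_cast h7
      rw [ha] at hlt
      nlinarith
    · have hK2 : 2 ≤ c ψ * (c ψ - 1) := by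
        rcases lt_or_gt_of_ne hK0 with h | h
        · nlinarith
        · have : 2 ≤ c ψ := by omega
          nlinarith
      have h1 : (c ψ) ^ 2 * (2 * (a : ℤ) * (d ψ : ℤ) ^ 2 + 1) ≤
          (d ψ : ℤ) ^ 2 * (1 + 2 * (a : ℤ) * c ψ) := by
        calc (c ψ) ^ 2 * (2 * (a : ℤ) * (d ψ : ℤ) ^ 2 + 1)
            ≤ (c ψ) ^ 2 * ((∑ ξ ∈ S₀, d ξ ^ 2 : ℕ) : ℤ) :=
              mul_le_mul_of_nonneg_left hDlt (sq_nonneg _)
          _ = (d ψ : ℤ) ^ 2 * ∑ ξ ∈ S₀, (c ξ) ^ 2 := hD.symm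
          _ ≤ (d ψ : ℤ) ^ 2 * (1 + 2 * (a : ℤ) * c ψ) :=
              mul_le_mul_of_nonneg_left hbes' hdsq.le
      have hA : (0 : ℤ) ≤ (a : ℤ) * (d ψ : ℤ) ^ 2 := by positivity
      have h2 := mul_le_mul_of_nonneg_left hK2 hA
      have h3 : (0 : ℤ) ≤ ((a : ℤ) - 1) * (d ψ : ℤ) ^ 2 :=
        mul_nonneg (by omega) hdsq.le
      nlinarith [sq_nonneg (c ψ)]
  have hc0 : ∀ ξ ∈ S₀, classInner Z (τs ξ) = 0 := by
    intro ξ hξ
    have r := R1 ξ hξ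
    rw [hK, mul_zero] at r
    have h1 : c ξ = 0 := by
      rcases mul_eq_zero.mp r with h | h
      · exfalso
        have : (d ψ : ℤ) ≠ 0 := by exact_mod_cast hψpos.ne'
        exact this h
      · exact h
    rw [hc ξ hξ, h1]
    simp
  have hZ1 : classInner Z Z = 1 := by rw [eZZ, hK]; simp
  have hτ' : IsLinearIsometryOn (zspan ({χ} : Set (L → ℂ))) (fun θ => classInner θ χ • Z) := by
    have hmem : ∀ θ ∈ zspan ({χ} : Set (L → ℂ)), ∃ m : ℤ, θ = m • χ := by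
      intro θ hθ
      obtain ⟨m, hm⟩ := Submodule.mem_span_singleton.mp hθ
      exact ⟨m, hm.symm⟩
    have hval : ∀ m : ℤ, classInner (m • χ) χ = m := by
      intro m
      rw [classInner_zsmul_left, irr_orthonormal hχ hχ, if_pos rfl, mul_one]
    refine ⟨?_, ?_, ?_, ?_⟩
    · intro θ _ θ' _
      show classInner (θ + θ') χ • Z = classInner θ χ • Z + classInner θ' χ • Z
      rw [classInner_add_left, add_smul]
    · intro θ _ n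
      show classInner (n • θ) χ • Z = n • (classInner θ χ • Z)
      rw [classInner_zsmul_left, mul_smul, Int.cast_smul_eq_zsmul]
    · intro θ hθ θ' hθ'
      obtain ⟨m, rfl⟩ := hmem θ hθ
      obtain ⟨n, rfl⟩ := hmem θ' hθ'
      show classInner (classInner (m • χ) χ • Z) (classInner (n • χ) χ • Z) = _
      rw [hval, hval, classInner_smul_left, classInner_smul_right, hZ1, classInner_zsmul_left,
        classInner_zsmul_right, irr_orthonormal hχ hχ, if_pos rfl, map_intCast]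
    · intro θ hθ
      obtain ⟨m, rfl⟩ := hmem θ hθ
      show IsGeneralizedCharacter G (classInner (m • χ) χ • Z)
      rw [hval]
      exact gcZ_smul m hZgen
  obtain ⟨ρ, hρiso, hρ⟩ := union_isometry (↑S₀ : Set (L → ℂ)) {χ} τs
    (fun θ => classInner θ χ • Z) ⟨sadd, ssmul, sinner, sgen⟩ hτ'
    (by
      intro x hx y hy
      rw [Set.mem_singleton_iff] at hy
      subst hy
      exact classInner_eq_zero_symm (oχ x hx))
    (by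
      intro x hx y hy
      rw [Set.mem_singleton_iff] at hy
      subst hy
      show classInner (τs x) (classInner y y • Z) = 0
      rw [classInner_smul_right, classInner_conj_symm Z (τs x), hc0 x hx]
      simp)
  have hins : (↑(insert χ S₀) : Set (L → ℂ)) = ↑S₀ ∪ {χ} := by
    rw [Finset.coe_insert, Set.union_singleton]
  refine ⟨ρ, by rw [hins]; exact hρiso, ?_⟩
  intro θ hθ
  have hθ1 : θ 1 = 0 := hθ.2 1 (by simp)
  have hθ' : θ ∈ Submodule.span ℤ (↑S₀ ∪ {χ} : Set (L → ℂ)) := by rw [← hins]; exact hθ.1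
  rw [Submodule.span_union, Submodule.mem_sup] at hθ'
  obtain ⟨θ₁, hθ₁, θ₂, hθ₂, hsum⟩ := hθ'
  obtain ⟨n, hn⟩ := Submodule.mem_span_singleton.mp hθ₂
  have hθ₁' : θ₁ ∈ zspan (↑S₀ : Set (L → ℂ)) := hθ₁
  have hρθ : ρ θ = τs θ₁ + n • Z := by
    rw [← hsum, hρ θ₁ hθ₁' θ₂ hθ₂, ← hn]
    show τs θ₁ + classInner (n • χ) χ • Z = _
    rw [classInner_zsmul_left, irr_orthonormal hχ hχ, if_pos rfl, mul_one,
      Int.cast_smul_eq_zsmul]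
  have m1 : θ₁ + (n * (a : ℤ)) • ψ ∈ zspanOn (↑S₀ : Set (L → ℂ)) {1}ᶜ := by
    refine ⟨Submodule.add_mem _ hθ₁ (Submodule.smul_mem _ _ mψ0), ?_⟩
    intro x hx
    have hx1 : x = 1 := by simpa using hx
    subst hx1
    have h1 : θ₁ 1 + θ₂ 1 = 0 := by rw [← Pi.add_apply, hsum, hθ1]
    rw [← hn, Pi.smul_apply, zsmul_eq_mul, hdχ, ha] at h1
    show θ₁ 1 + ((n * (a : ℤ)) • ψ) 1 = 0
    rw [Pi.smul_apply, zsmul_eq_mul, hdψ]
    push_cast at h1 ⊢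
    linear_combination h1
  have eθ : θ = (θ₁ + (n * (a : ℤ)) • ψ) + n • (χ - (a : ℤ) • ψ) := by
    rw [← hsum, ← hn, smul_sub, smul_smul]
    abel
  rw [hρθ, eθ, tadd _ (hmono m1) _ (zspanOn_zsmul n mβ), tsmul _ mβ n, ← hagree _ m1,
    sadd θ₁ hθ₁' _ (Submodule.smul_mem _ _ mψ0), ssmul ψ mψ0, hτβ, smul_sub, smul_smul]
  abel

end ExtIrr

end Cfsg.Agent.Lib.Helper2.Coh
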