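import Mathlib
import Cfsg.Prelude.Def_OddOrderChar
import Cfsg.Agent.Lib.Helper2.Coh6

set_option autoImplicit false

namespace Cfsg.Agent.Lib.Helper2.Coh

open Cfsg Cfsg.Agent.Lib.Lead Cfsg.Agent.Lib.Helper2 Cfsg.Agent.S0177
open scoped ComplexConjugate

section Aux

variable {L : Type*} [Group L] [Fintype L] {G : Type*} [Group G] [Fintype G]

omit [Group L] [Fintype L] [Group G] [Fintype G] in
theorem lin_sub_one {X : Set (L → ℂ)} {f : (L → ℂ) → (G → ℂ)}
    (hadd : ∀ a ∈ zspan X, ∀ b ∈ zspan X, f (a + b) = f a + f b)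
    (hsmul : ∀ a ∈ zspan X, ∀ n : ℤ, f (n • a) = n • f a)
    {a b : L → ℂ} (ha : a ∈ zspan X) (hb : b ∈ zspan X) : f (a - b) = f a - f b := by
  have h := lin_sub hadd hsmul ha hb 1 1 (Submodule.smul_mem _ _ ha) (Submodule.smul_mem _ _ hb)
  simpa using h

/-- removing the projection onto a finite orthogonal family -/
theorem proj_orth {ι : Type*} [DecidableEq ι] (S₁ : Finset ι) (f : ι → G → ℂ) (w : ι → ℕ)
    (hf : ∀ φ ∈ S₁, ∀ φ' ∈ S₁, classInner (f φ) (f φ') = if φ = φ' then (w φ : ℂ) else 0)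
    (hw : ∀ φ ∈ S₁, w φ ≠ 0) (Z : G → ℂ) :
    (∀ φ ∈ S₁, classInner (Z - ∑ φ' ∈ S₁, (classInner Z (f φ') / (w φ' : ℂ)) • f φ') (f φ) = 0) ∧
    classInner (Z - ∑ φ' ∈ S₁, (classInner Z (f φ') / (w φ' : ℂ)) • f φ')
      (Z - ∑ φ' ∈ S₁, (classInner Z (f φ') / (w φ' : ℂ)) • f φ') =
      classInner Z Z - ∑ φ ∈ S₁, classInner Z (f φ) * conj (classInner Z (f φ)) / (w φ : ℂ) := by
  obtain ⟨P, hP⟩ : ∃ P : G → ℂ, P = ∑ φ' ∈ S₁, (classInner Z (f φ') / (w φ' : ℂ)) • f φ' :=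
    ⟨_, rfl⟩
  rw [← hP]
  have hw' : ∀ φ ∈ S₁, (w φ : ℂ) ≠ 0 := fun φ hφ => by exact_mod_cast hw φ hφ
  have h1 : ∀ φ ∈ S₁, classInner P (f φ) = classInner Z (f φ) := by
    intro φ hφ
    rw [hP, classInner_sum_left]
    have e : ∀ φ' ∈ S₁, classInner ((classInner Z (f φ') / (w φ' : ℂ)) • f φ') (f φ) =
        if φ = φ' then classInner Z (f φ) else 0 := by
      intro φ' hφ'
      rw [classInner_smul_left, hf φ' hφ' φ hφ]
      by_cases h : φ' = φ
      · subst h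
        rw [if_pos rfl, if_pos rfl, div_mul_cancel₀ _ (hw' φ' hφ')]
      · rw [if_neg h, if_neg (Ne.symm h), mul_zero]
    rw [Finset.sum_congr rfl e, Finset.sum_ite_eq, if_pos hφ]
  have h2 : classInner Z P =
      ∑ φ ∈ S₁, classInner Z (f φ) * conj (classInner Z (f φ)) / (w φ : ℂ) := by
    rw [hP, classInner_sum_right]
    apply Finset.sum_congr rfl
    intro φ _
    rw [classInner_smul_right, map_div₀, map_natCast]
    ring
  have h3 : classInner P P =
      ∑ φ ∈ S₁, classInner Z (f φ) * conj (classInner Z (f φ)) / (w φ : ℂ) := by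
    have e : classInner P P =
        classInner P (∑ φ' ∈ S₁, (classInner Z (f φ') / (w φ' : ℂ)) • f φ') := by rw [← hP]
    rw [e, classInner_sum_right]
    apply Finset.sum_congr rfl
    intro φ hφ
    rw [classInner_smul_right, h1 φ hφ, map_div₀, map_natCast]
    ring
  have h4 : classInner P Z =
      ∑ φ ∈ S₁, classInner Z (f φ) * conj (classInner Z (f φ)) / (w φ : ℂ) := by
    rw [classInner_conj_symm Z P, h2, map_sum]
    apply Finset.sum_congr rfl
    intro φ _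
    rw [map_div₀, map_mul, Complex.conj_conj, map_natCast]
    ring
  refine ⟨?_, ?_⟩
  · intro φ hφ
    rw [classInner_sub_left, h1 φ hφ, sub_self]
  · rw [classInner_sub_left, classInner_sub_right, classInner_sub_right, h2, h3, h4]
    ring

end Aux

section Sys2

variable {L : Type*} [Group L] [Fintype L] {G : Type*} [Group G] [Fintype G]
  {S : Set (L → ℂ)} {τ : (L → ℂ) → (G → ℂ)} {R : (L → ℂ) → Finset (G → ℂ)}

/-- the number of constituents of `τ (φ - conj φ)` -/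
theorem coh_card_R (hS : IsCoherenceSystem S τ R) {φ : L → ℂ} (hφ : φ ∈ S) {n : ℕ}
    (hn : classInner φ φ = n) : (R φ).card = 2 * n := by
  obtain ⟨hadd, hsmul, hinner, hgen⟩ := hS.isometry
  have hφc := hS.conj_mem φ hφ
  have o : classInner φ (conjFun φ) = 0 :=
    hS.orthogonal φ hφ _ hφc (Ne.symm (hS.conj_ne φ hφ))
  have hnorm : classInner (∑ α ∈ R φ, α) (∑ α ∈ R φ, α) = 2 * (n : ℂ) := by
    rw [← hS.sum_eq φ hφ, hinner _ (coh_sub_conj_mem hS hφ) _ (coh_sub_conj_mem hS hφ),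
      classInner_sub_left, classInner_sub_right, classInner_sub_right, o,
      classInner_eq_zero_symm o, classInner_conjFun_conjFun, hn]
    simp
    ring
  rw [inner_sum_subsets (R φ) (R φ) (R φ) (hS.orthonormal φ hφ) (Finset.Subset.refl _)
    (Finset.Subset.refl _), Finset.inter_self] at hnorm
  exact_mod_cast hnorm

/-- a coherent extension maps each member `φ` into the span of `R φ` -/
theorem coh_image_in_span (hS : IsCoherenceSystem S τ R) (X : Set (L → ℂ)) (hXS : X ⊆ S)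
    (hXc : ∀ φ ∈ X, conjFun φ ∈ X) (τs : (L → ℂ) → (G → ℂ))
    (hτs : IsLinearIsometryOn (zspan X) τs) (hagree : ∀ α ∈ zspanOn X {1}ᶜ, τs α = τ α)
    {φ : L → ℂ} (hφ : φ ∈ X) :
    τs φ = ∑ α ∈ R φ, classInner (τs φ) α • α := by
  classical
  obtain ⟨sadd, ssmul, sinner, sgen⟩ := hτs
  have hφS := hXS hφ
  have hφc := hXc φ hφ
  have mφ : φ ∈ zspan X := Submodule.subset_span hφ
  have mφc : conjFun φ ∈ zspan X := Submodule.subset_span hφc
  obtain ⟨n, hn⟩ := isCharacter_inner_nat (hS.isCharacter φ hφS) (hS.isCharacter φ hφS)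
  have hcard := coh_card_R hS hφS hn
  have hRo := hS.orthonormal φ hφS
  have mdiff : φ - conjFun φ ∈ zspanOn X {1}ᶜ :=
    sub_mem_zspanOn hφ hφc (by
      show φ 1 = conj (φ 1)
      rw [char_one_conj (hS.isCharacter φ hφS)])
  have huv : τs φ - τs (conjFun φ) = ∑ α ∈ R φ, α := by
    rw [← hS.sum_eq φ hφS, ← hagree _ mdiff]
    exact (lin_sub_one sadd ssmul mφ mφc).symm
  have nu : classInner (τs φ) (τs φ) = n := by rw [sinner φ mφ φ mφ, hn]
  have nv : classInner (τs (conjFun φ)) (τs (conjFun φ)) = n := by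
    rw [sinner _ mφc _ mφc, classInner_conjFun_conjFun, hn]
    simp
  have hint : ∀ α : G → ℂ, ∃ z : ℤ × ℤ, α ∈ R φ →
      classInner (τs φ) α = z.1 ∧ classInner (τs (conjFun φ)) α = z.2 := by
    intro α
    by_cases hα : α ∈ R φ
    · obtain ⟨z₁, hz₁⟩ := genChar_inner_int (sgen φ mφ) (hS.virtual φ hφS α hα)
      obtain ⟨z₂, hz₂⟩ := genChar_inner_int (sgen _ mφc) (hS.virtual φ hφS α hα)
      exact ⟨(z₁, z₂), fun _ => ⟨hz₁, hz₂⟩⟩
    · exact ⟨(0, 0), fun h => absurd h hα⟩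
  choose z hz using hint
  have hdiff : ∀ α ∈ R φ, (z α).1 - (z α).2 = 1 := by
    intro α hα
    have h1 : classInner (τs φ - τs (conjFun φ)) α = 1 := by
      rw [huv, classInner_sum_left, Finset.sum_congr rfl (fun β hβ => hRo β hβ α hα),
        Finset.sum_ite_eq', if_pos hα]
    rw [classInner_sub_left, (hz α hα).1, (hz α hα).2] at h1
    exact_mod_cast h1
  have hsq : ∀ w : ℤ, (w : ℂ) * conj (w : ℂ) = ((w ^ 2 : ℤ) : ℂ) := by
    intro w
    rw [map_intCast]
    push_cast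
    ring
  have eu : ∑ α ∈ R φ, classInner (τs φ) α * conj (classInner (τs φ) α) =
      ((∑ α ∈ R φ, (z α).1 ^ 2 : ℤ) : ℂ) := by
    rw [Int.cast_sum]
    apply Finset.sum_congr rfl
    intro α hα
    rw [(hz α hα).1, hsq]
  have ev : ∑ α ∈ R φ, classInner (τs (conjFun φ)) α * conj (classInner (τs (conjFun φ)) α) =
      ((∑ α ∈ R φ, (z α).2 ^ 2 : ℤ) : ℂ) := by
    rw [Int.cast_sum]
    apply Finset.sum_congr rfl
    intro α hα
    rw [(hz α hα).2, hsq]
  have bu := bessel_le (R φ) hRo (τs φ)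
  have bv := bessel_le (R φ) hRo (τs (conjFun φ))
  rw [eu, nu, Complex.intCast_re, Complex.natCast_re] at bu
  rw [ev, nv, Complex.intCast_re, Complex.natCast_re] at bv
  have bu' : (∑ α ∈ R φ, (z α).1 ^ 2 : ℤ) ≤ n := by exact_mod_cast bu
  have bv' : (∑ α ∈ R φ, (z α).2 ^ 2 : ℤ) ≤ n := by exact_mod_cast bv
  have hlow : ((R φ).card : ℤ) ≤ ∑ α ∈ R φ, ((z α).1 ^ 2 + (z α).2 ^ 2) := by
    have h1 : ∑ _α ∈ R φ, (1 : ℤ) ≤ ∑ α ∈ R φ, ((z α).1 ^ 2 + (z α).2 ^ 2) := by
      apply Finset.sum_le_sum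
      intro α hα
      have hd := hdiff α hα
      have h2 : (z α).2 = (z α).1 - 1 := by omega
      rw [h2]
      nlinarith [int_le_sq (z α).1]
    simpa using h1
  rw [Finset.sum_add_distrib, hcard] at hlow
  have hequ : (∑ α ∈ R φ, (z α).1 ^ 2 : ℤ) = n := by
    push_cast at hlow
    linarith
  apply eq_sum_of_bessel _ hRo
  rw [eu, nu, hequ]
  simp

end Sys2

end Cfsg.Agent.Lib.Helper2.Coh
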