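import Mathlib
import Cfsg.Prelude.Def_OddOrderChar
import Cfsg.Agent.Lib.Helper2.Coh7

set_option autoImplicit false
set_option maxHeartbeats 1000000

namespace Cfsg.Agent.Lib.Helper2.Coh

open Cfsg Cfsg.Agent.Lib.Lead Cfsg.Agent.Lib.Helper2 Cfsg.Agent.S0177
open scoped ComplexConjugate

section ExtSys

variable {L : Type*} [Group L] [Fintype L] {G : Type*} [Group G] [Fintype G]
  {S : Set (L → ℂ)} {τ : (L → ℂ) → (G → ℂ)} {R : (L → ℂ) → Finset (G → ℂ)}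

/-- extension of coherence inside a coherence system by a pair of conjugate members -/
theorem extend_sys (hS : IsCoherenceSystem S τ R) (d n : (L → ℂ) → ℕ)
    (hd : ∀ φ ∈ S, φ 1 = (d φ : ℂ)) (hn : ∀ φ ∈ S, classInner φ φ = (n φ : ℂ))
    (S₁ : Finset (L → ℂ)) (hS₁ : ↑S₁ ⊆ S) (hS₁c : ∀ φ ∈ S₁, conjFun φ ∈ S₁)
    (hcoh : IsCoherent (↑S₁ : Set (L → ℂ)) {1}ᶜ τ) (χ : L → ℂ) (hχ : χ ∈ S) (hχ₁ : χ ∉ S₁)
    (hχ₂ : conjFun χ ∉ S₁) (χ₁ : L → ℂ) (hχ₁S : χ₁ ∈ S₁) (hdvd : d χ₁ ∣ d χ)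
    (hineq : (2 * d χ * d χ₁ : ℝ) < ∑ φ ∈ S₁, ((d φ : ℝ) ^ 2 / (n φ : ℝ))) :
    IsCoherent (↑S₁ ∪ {χ, conjFun χ} : Set (L → ℂ)) {1}ᶜ τ := by
  classical
  obtain ⟨⟨α₀, hα₀, hα₀ne⟩, τs, hτs, hagree⟩ := hcoh
  have hτs' := hτs
  obtain ⟨sadd, ssmul, sinner, sgen⟩ := hτs
  obtain ⟨tadd, tsmul, tinner, tgen⟩ := hS.isometry
  have hχc := hS.conj_mem χ hχ
  have hUS : (↑S₁ ∪ {χ, conjFun χ} : Set (L → ℂ)) ⊆ S := by
    intro x hx
    rcases hx with hx | hx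
    · exact hS₁ hx
    · rcases hx with rfl | hx
      · exact hχ
      · rw [Set.mem_singleton_iff] at hx
        rw [hx]
        exact hχc
  have hsubU : (↑S₁ : Set (L → ℂ)) ⊆ ↑S₁ ∪ {χ, conjFun χ} := Set.subset_union_left
  have hmono1 := zspanOn_mono (A := ({1}ᶜ : Set L)) hS₁
  have hmonoU := zspanOn_mono (A := ({1}ᶜ : Set L)) hUS
  refine ⟨⟨α₀, zspanOn_mono hsubU hα₀, hα₀ne⟩, ?_⟩
  have memS : ∀ φ ∈ S₁, φ ∈ S := fun φ hφ => hS₁ (Finset.mem_coe.mpr hφ)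
  have mem1 : ∀ φ ∈ S₁, φ ∈ zspan (↑S₁ : Set (L → ℂ)) :=
    fun φ hφ => Submodule.subset_span (Finset.mem_coe.mpr hφ)
  have hχ₁SS := memS χ₁ hχ₁S
  have mχ₁ := mem1 χ₁ hχ₁S
  have hnpos : ∀ φ ∈ S, n φ ≠ 0 := by
    intro φ hφ h0
    have h1 := hn φ hφ
    rw [h0] at h1
    have h2 : φ = 0 := eq_zero_of_classInner_self (by rw [h1]; simp)
    exact coh_one_ne_zero hS hφ (by rw [h2]; rfl)
  have hdpos : ∀ φ ∈ S, d φ ≠ 0 := by
    intro φ hφ h0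
    have h1 := hd φ hφ
    rw [h0] at h1
    exact coh_one_ne_zero hS hφ (by rw [h1]; simp)
  obtain ⟨a, ha⟩ := hdvd
  have hapos : 0 < a := by
    rcases Nat.eq_zero_or_pos a with h0 | h0
    · exfalso
      apply hdpos χ hχ
      rw [ha, h0, mul_zero]
    · exact h0
  have hd₁pos : 0 < d χ₁ := Nat.pos_of_ne_zero (hdpos χ₁ hχ₁SS)
  have hnχ0 : (n χ : ℂ) ≠ 0 := by exact_mod_cast hnpos χ hχ
  have oχ : ∀ φ ∈ S₁, classInner χ φ = 0 := by
    intro φ hφ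
    exact hS.orthogonal χ hχ φ (memS φ hφ) (fun e => hχ₁ (e ▸ hφ))
  have oχc : ∀ φ ∈ S₁, classInner (conjFun χ) φ = 0 := by
    intro φ hφ
    exact hS.orthogonal _ hχc φ (memS φ hφ) (fun e => hχ₂ (e ▸ hφ))
  have oχχc : classInner χ (conjFun χ) = 0 :=
    hS.orthogonal χ hχ _ hχc (Ne.symm (hS.conj_ne χ hχ))
  have nχ := hn χ hχ
  have nχc : classInner (conjFun χ) (conjFun χ) = (n χ : ℂ) := by
    rw [classInner_conjFun_conjFun, nχ]
    simp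
  have oS : ∀ φ ∈ S₁, ∀ φ' ∈ S₁, classInner φ φ' = if φ = φ' then (n φ : ℂ) else 0 := by
    intro φ hφ φ' hφ'
    by_cases h : φ = φ'
    · subst h
      rw [if_pos rfl, hn φ (memS φ hφ)]
    · rw [if_neg h, hS.orthogonal φ (memS φ hφ) φ' (memS φ' hφ') h]
  have oS' : ∀ φ ∈ S₁, ∀ φ' ∈ S₁,
      classInner (τs φ) (τs φ') = if φ = φ' then (n φ : ℂ) else 0 := by
    intro φ hφ φ' hφ'
    rw [sinner φ (mem1 φ hφ) φ' (mem1 φ' hφ'), oS φ hφ φ' hφ']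
  have mβ : χ - (a : ℤ) • χ₁ ∈ zspanOn S {1}ᶜ := by
    refine ⟨Submodule.sub_mem _ (Submodule.subset_span hχ)
      (Submodule.smul_mem _ _ (Submodule.subset_span hχ₁SS)), ?_⟩
    intro x hx
    have hx1 : x = 1 := by simpa using hx
    subst hx1
    show χ 1 - ((a : ℤ) • χ₁) 1 = 0
    rw [Pi.smul_apply, zsmul_eq_mul, hd χ hχ, hd χ₁ hχ₁SS, ha]
    push_cast
    ring
  have mχχc := coh_sub_conj_mem hS hχ
  have A1 : ∀ φ ∈ S₁, ∀ α ∈ R χ, classInner (τs φ) α = 0 := by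
    intro φ hφ α hα
    have hφS := memS φ hφ
    have himg := coh_image_in_span hS (↑S₁ : Set (L → ℂ)) hS₁
      (fun φ hφ => Finset.mem_coe.mpr (hS₁c φ (Finset.mem_coe.mp hφ))) τs hτs' hagree
      (Finset.mem_coe.mpr hφ)
    rw [himg, classInner_sum_left]
    apply Finset.sum_eq_zero
    intro α' hα'
    rw [classInner_smul_left, hS.disjoint χ hχ φ hφS (classInner_eq_zero_symm (oχ φ hφ))
      (classInner_eq_zero_symm (oχc φ hφ)) α' hα' α hα, mul_zero]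
  obtain ⟨Z, hZ⟩ : ∃ Z, Z = τ (χ - (a : ℤ) • χ₁) + (a : ℤ) • τs χ₁ := ⟨_, rfl⟩
  have hZgen : IsGeneralizedCharacter G Z := by
    rw [hZ]
    refine gc_add (tgen _ mβ) ?_
    rw [← Int.cast_smul_eq_zsmul ℂ]
    exact gcZ_smul _ (sgen χ₁ mχ₁)
  have hτβ : τ (χ - (a : ℤ) • χ₁) = Z - (a : ℤ) • τs χ₁ := by rw [hZ]; abel
  have hint : ∀ φ : L → ℂ, ∃ z : ℤ, φ ∈ S₁ → classInner Z (τs φ) = z := by
    intro φ
    by_cases hφ : φ ∈ S₁
    · obtain ⟨z, hz⟩ := genChar_inner_int hZgen (sgen φ (mem1 φ hφ))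
      exact ⟨z, fun _ => hz⟩
    · exact ⟨0, fun h => absurd h hφ⟩
  choose c hc using hint
  have mγ : ∀ φ ∈ S₁,
      ((d χ₁ : ℤ) • φ - (d φ : ℤ) • χ₁) ∈ zspanOn (↑S₁ : Set (L → ℂ)) {1}ᶜ := by
    intro φ hφ
    refine ⟨Submodule.sub_mem _ (Submodule.smul_mem _ _ (mem1 φ hφ))
      (Submodule.smul_mem _ _ mχ₁), ?_⟩
    intro x hx
    have hx1 : x = 1 := by simpa using hx
    subst hx1
    show ((d χ₁ : ℤ) • φ) 1 - ((d φ : ℤ) • χ₁) 1 = 0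
    rw [Pi.smul_apply, Pi.smul_apply, zsmul_eq_mul, zsmul_eq_mul, hd φ (memS φ hφ),
      hd χ₁ hχ₁SS]
    push_cast
    ring
  have eγ : ∀ φ ∈ S₁, τ ((d χ₁ : ℤ) • φ - (d φ : ℤ) • χ₁) =
      (d χ₁ : ℤ) • τs φ - (d φ : ℤ) • τs χ₁ := by
    intro φ hφ
    rw [← hagree _ (mγ φ hφ)]
    exact lin_sub sadd ssmul (mem1 φ hφ) mχ₁ _ _ (Submodule.smul_mem _ _ (mem1 φ hφ))
      (Submodule.smul_mem _ _ mχ₁)
  have R1 : ∀ φ ∈ S₁, (d χ₁ : ℤ) * c φ = (d φ : ℤ) * c χ₁ := by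
    intro φ hφ
    have h1 := tinner _ mβ _ (hmono1 (mγ φ hφ))
    rw [eγ φ hφ, hτβ] at h1
    simp only [classInner_sub_left, classInner_sub_right, classInner_zsmul_left,
      classInner_zsmul_right, hc φ hφ, hc χ₁ hχ₁S, oS' χ₁ hχ₁S φ hφ, oS' χ₁ hχ₁S χ₁ hχ₁S,
      oχ φ hφ, oχ χ₁ hχ₁S, oS χ₁ hχ₁S φ hφ, oS χ₁ hχ₁S χ₁ hχ₁S] at h1
    have h2 : ((d χ₁ : ℤ) : ℂ) * (c φ : ℂ) = ((d φ : ℤ) : ℂ) * (c χ₁ : ℂ) := by
      linear_combination h1
    exact_mod_cast h2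
  have eZZ : classInner Z Z = (((n χ : ℤ) + 2 * (a : ℤ) * c χ₁ : ℤ) : ℂ) := by
    have hβ : classInner (τ (χ - (a : ℤ) • χ₁)) (τ (χ - (a : ℤ) • χ₁)) =
        (n χ : ℂ) + (a : ℂ) ^ 2 * (n χ₁ : ℂ) := by
      rw [tinner _ mβ _ mβ]
      simp only [classInner_sub_left, classInner_sub_right, classInner_zsmul_left,
        classInner_zsmul_right, oχ χ₁ hχ₁S, classInner_eq_zero_symm (oχ χ₁ hχ₁S),
        oS χ₁ hχ₁S χ₁ hχ₁S, nχ]
      push_cast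
      ring
    have h2 : classInner (τ (χ - (a : ℤ) • χ₁)) (τs χ₁) = (c χ₁ : ℂ) - a * (n χ₁ : ℂ) := by
      rw [hτβ, classInner_sub_left, classInner_zsmul_left, hc χ₁ hχ₁S, oS' χ₁ hχ₁S χ₁ hχ₁S,
        if_pos rfl]
      push_cast
      ring
    have h3 : classInner (τs χ₁) (τ (χ - (a : ℤ) • χ₁)) = (c χ₁ : ℂ) - a * (n χ₁ : ℂ) := by
      rw [classInner_conj_symm (τ (χ - (a : ℤ) • χ₁)) (τs χ₁), h2]
      simp
    rw [hZ]
    simp only [classInner_add_left, classInner_add_right, classInner_zsmul_left,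
      classInner_zsmul_right, hβ, h2, h3, oS' χ₁ hχ₁S χ₁ hχ₁S]
    push_cast
    ring
  have hZα : ∀ α ∈ R χ, classInner Z α = classInner (τ (χ - (a : ℤ) • χ₁)) α := by
    intro α hα
    rw [hZ, classInner_add_left, classInner_zsmul_left, A1 χ₁ hχ₁S α hα, mul_zero, add_zero]
  have hZsum : ∑ α ∈ R χ, classInner Z α = (n χ : ℂ) := by
    rw [Finset.sum_congr rfl hZα, ← classInner_sum_right, ← hS.sum_eq χ hχ, tinner _ mβ _ mχχc]
    simp only [classInner_sub_left, classInner_sub_right, classInner_zsmul_left, nχ, oχχc,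
      classInner_eq_zero_symm (oχ χ₁ hχ₁S), classInner_eq_zero_symm (oχc χ₁ hχ₁S)]
    ring
  have hintα : ∀ α : G → ℂ, ∃ z : ℤ, α ∈ R χ → classInner Z α = z := by
    intro α
    by_cases hα : α ∈ R χ
    · obtain ⟨z, hz⟩ := genChar_inner_int hZgen (hS.virtual χ hχ α hα)
      exact ⟨z, fun _ => hz⟩
    · exact ⟨0, fun h => absurd h hα⟩
  choose z hz using hintα
  have hzsum : (∑ α ∈ R χ, z α : ℤ) = n χ := by
    have h1 : ((∑ α ∈ R χ, z α : ℤ) : ℂ) = ((n χ : ℤ) : ℂ) := by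
      push_cast
      rw [← hZsum]
      exact Finset.sum_congr rfl (fun α hα => (hz α hα).symm)
    exact_mod_cast h1
  have hzsq : (n χ : ℤ) ≤ ∑ α ∈ R χ, (z α) ^ 2 := by
    rw [← hzsum]
    exact Finset.sum_le_sum (fun α _ => int_le_sq (z α))
  obtain ⟨hW1, hW2⟩ := proj_orth S₁ τs n oS' (fun φ hφ => hnpos φ (memS φ hφ)) Z
  obtain ⟨W, hWdef⟩ : ∃ W, W = Z - ∑ φ' ∈ S₁, (classInner Z (τs φ') / (n φ' : ℂ)) • τs φ' :=
    ⟨_, rfl⟩
  rw [← hWdef] at hW1 hW2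
  have hWα : ∀ α ∈ R χ, classInner W α = classInner Z α := by
    intro α hα
    rw [hWdef, classInner_sub_left, classInner_sum_left]
    have h0 : ∑ φ' ∈ S₁, classInner ((classInner Z (τs φ') / (n φ' : ℂ)) • τs φ') α = 0 := by
      apply Finset.sum_eq_zero
      intro φ' hφ'
      rw [classInner_smul_left, A1 φ' hφ' α hα, mul_zero]
    rw [h0, sub_zero]
  have bW := bessel_le (R χ) (hS.orthonormal χ hχ) W
  have eWsum : ∑ α ∈ R χ, classInner W α * conj (classInner W α) =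
      ((∑ α ∈ R χ, (z α) ^ 2 : ℤ) : ℂ) := by
    rw [Int.cast_sum]
    apply Finset.sum_congr rfl
    intro α hα
    rw [hWα α hα, hz α hα, map_intCast]
    push_cast
    ring
  have eWW : classInner W W =
      (((n χ : ℝ) + 2 * (a : ℝ) * (c χ₁ : ℝ) - ∑ φ ∈ S₁, ((c φ : ℝ) ^ 2 / (n φ : ℝ)) : ℝ) : ℂ) := by
    rw [hW2, eZZ]
    push_cast
    congr 1
    apply Finset.sum_congr rfl
    intro φ hφ
    rw [hc φ hφ, map_intCast]
    ring
  rw [eWsum, eWW, Complex.intCast_re, Complex.ofReal_re] at bW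
  have hQ : ∑ φ ∈ S₁, ((c φ : ℝ) ^ 2 / (n φ : ℝ)) ≤ 2 * (a : ℝ) * (c χ₁ : ℝ) := by
    have h1 : ((n χ : ℤ) : ℝ) ≤ ((∑ α ∈ R χ, (z α) ^ 2 : ℤ) : ℝ) := by exact_mod_cast hzsq
    push_cast at h1 bW
    linarith
  have hQ' : (d χ₁ : ℝ) ^ 2 * ∑ φ ∈ S₁, ((c φ : ℝ) ^ 2 / (n φ : ℝ)) =
      (c χ₁ : ℝ) ^ 2 * ∑ φ ∈ S₁, ((d φ : ℝ) ^ 2 / (n φ : ℝ)) := by
    rw [Finset.mul_sum, Finset.mul_sum]
    apply Finset.sum_congr rfl
    intro φ hφ
    have r := R1 φ hφ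
    have r' : (d χ₁ : ℝ) * (c φ : ℝ) = (d φ : ℝ) * (c χ₁ : ℝ) := by exact_mod_cast r
    have e1 : (d χ₁ : ℝ) ^ 2 * ((c φ : ℝ) ^ 2 / (n φ : ℝ)) =
        ((d χ₁ : ℝ) * (c φ : ℝ)) ^ 2 / (n φ : ℝ) := by ring
    rw [e1, r']
    ring
  have hK : c χ₁ = 0 := by
    by_contra hK0
    have h2 : 2 * (a : ℝ) * (d χ₁ : ℝ) ^ 2 < ∑ φ ∈ S₁, ((d φ : ℝ) ^ 2 / (n φ : ℝ)) := by
      have e : (2 * d χ * d χ₁ : ℝ) = 2 * (a : ℝ) * (d χ₁ : ℝ) ^ 2 := by
        rw [ha]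
        push_cast
        ring
      rw [← e]
      exact hineq
    have h4 : (c χ₁ : ℝ) ≤ (c χ₁ : ℝ) ^ 2 := by exact_mod_cast int_le_sq (c χ₁)
    have h5 : (0 : ℝ) < (c χ₁ : ℝ) ^ 2 := by
      have : (c χ₁ : ℝ) ≠ 0 := by exact_mod_cast hK0
      positivity
    have hd2 : (0 : ℝ) < (d χ₁ : ℝ) ^ 2 := by
      have : (0 : ℝ) < (d χ₁ : ℝ) := by exact_mod_cast hd₁pos
      positivity
    have ha0 : (0 : ℝ) ≤ (a : ℝ) := by positivity
    have k1 := mul_lt_mul_of_pos_left h2 h5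
    have k2 := mul_le_mul_of_nonneg_left hQ hd2.le
    have k3 := mul_le_mul_of_nonneg_left h4 (mul_nonneg (mul_nonneg (by norm_num : (0:ℝ) ≤ 2) ha0) hd2.le)
    nlinarith
  have hc0 : ∀ φ ∈ S₁, classInner Z (τs φ) = 0 := by
    intro φ hφ
    have r := R1 φ hφ
    rw [hK, mul_zero] at r
    have h1 : c φ = 0 := by
      rcases mul_eq_zero.mp r with h | h
      · exfalso
        have : (d χ₁ : ℤ) ≠ 0 := by exact_mod_cast hd₁pos.ne'
        exact this h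
      · exact h
    rw [hc φ hφ, h1]
    simp
  have hZZ : classInner Z Z = (n χ : ℂ) := by
    rw [eZZ, hK]
    simp
  -- the second vector
  obtain ⟨Z', hZ'⟩ : ∃ Z', Z' = Z - ∑ α ∈ R χ, α := ⟨_, rfl⟩
  have hτχχc : τ (χ - conjFun χ) = Z - Z' := by
    rw [hZ', hS.sum_eq χ hχ]
    abel
  have hZ'gen : IsGeneralizedCharacter G Z' := by
    rw [hZ']
    exact gc_sub hZgen (gc_sum _ _ (fun α hα => hS.virtual χ hχ α hα))
  have hcardR := coh_card_R hS hχ nχ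
  have hRR : classInner (∑ α ∈ R χ, α) (∑ α ∈ R χ, α) = 2 * (n χ : ℂ) := by
    rw [inner_sum_subsets (R χ) (R χ) (R χ) (hS.orthonormal χ hχ) (Finset.Subset.refl _)
      (Finset.Subset.refl _), Finset.inter_self, hcardR]
    push_cast
    ring
  have hZR : classInner Z (∑ α ∈ R χ, α) = (n χ : ℂ) := by
    rw [classInner_sum_right, hZsum]
  have hRZ : classInner (∑ α ∈ R χ, α) Z = (n χ : ℂ) := by
    rw [classInner_conj_symm Z, hZR]
    simp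
  have hZZ' : classInner Z Z' = 0 := by
    rw [hZ', classInner_sub_right, hZZ, hZR, sub_self]
  have hZ'Z : classInner Z' Z = 0 := classInner_eq_zero_symm hZZ'
  have hZ'Z' : classInner Z' Z' = (n χ : ℂ) := by
    rw [hZ', classInner_sub_left, classInner_sub_right, classInner_sub_right, hZZ, hZR, hRZ, hRR]
    ring
  have hsZ : ∀ φ ∈ S₁, classInner (τs φ) Z = 0 :=
    fun φ hφ => classInner_eq_zero_symm (hc0 φ hφ)
  have hsZ' : ∀ φ ∈ S₁, classInner (τs φ) Z' = 0 := by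
    intro φ hφ
    rw [hZ', classInner_sub_right, hsZ φ hφ, classInner_sum_right,
      Finset.sum_eq_zero (fun α hα => A1 φ hφ α hα), sub_zero]
  -- the isometry on the span of `χ` and its conjugate
  obtain ⟨τ', hτ'def⟩ : ∃ τ' : (L → ℂ) → (G → ℂ), τ' = fun θ =>
      (classInner θ χ / (n χ : ℂ)) • Z + (classInner θ (conjFun χ) / (n χ : ℂ)) • Z' := ⟨_, rfl⟩
  have hval : ∀ m k : ℤ, τ' (m • χ + k • conjFun χ) = m • Z + k • Z' := by
    intro m k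
    rw [hτ'def]
    show (classInner (m • χ + k • conjFun χ) χ / (n χ : ℂ)) • Z +
      (classInner (m • χ + k • conjFun χ) (conjFun χ) / (n χ : ℂ)) • Z' = _
    rw [classInner_add_left, classInner_add_left, classInner_zsmul_left, classInner_zsmul_left,
      classInner_zsmul_left, classInner_zsmul_left, nχ, nχc, oχχc,
      classInner_eq_zero_symm oχχc, mul_zero, mul_zero, add_zero, zero_add,
      mul_div_assoc, mul_div_assoc, div_self hnχ0, mul_one, mul_one, Int.cast_smul_eq_zsmul,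
      Int.cast_smul_eq_zsmul]
  have hpair : ∀ θ ∈ zspan ({χ, conjFun χ} : Set (L → ℂ)),
      ∃ m k : ℤ, θ = m • χ + k • conjFun χ := by
    intro θ hθ
    obtain ⟨m, k, hmk⟩ := Submodule.mem_span_pair.mp hθ
    exact ⟨m, k, hmk.symm⟩
  have hτ' : IsLinearIsometryOn (zspan ({χ, conjFun χ} : Set (L → ℂ))) τ' := by
    refine ⟨?_, ?_, ?_, ?_⟩
    · intro θ hθ θ' hθ'
      obtain ⟨m, k, rfl⟩ := hpair θ hθ
      obtain ⟨m', k', rfl⟩ := hpair θ' hθ'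
      have e : m • χ + k • conjFun χ + (m' • χ + k' • conjFun χ) =
          (m + m') • χ + (k + k') • conjFun χ := by
        rw [add_smul, add_smul]
        abel
      rw [e, hval, hval, hval, add_smul, add_smul]
      abel
    · intro θ hθ j
      obtain ⟨m, k, rfl⟩ := hpair θ hθ
      have e : j • (m • χ + k • conjFun χ) = (j * m) • χ + (j * k) • conjFun χ := by
        rw [smul_add, smul_smul, smul_smul]
      rw [e, hval, hval, smul_add, smul_smul, smul_smul]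
    · intro θ hθ θ' hθ'
      obtain ⟨m, k, rfl⟩ := hpair θ hθ
      obtain ⟨m', k', rfl⟩ := hpair θ' hθ'
      rw [hval, hval]
      simp only [classInner_add_left, classInner_add_right, classInner_zsmul_left,
        classInner_zsmul_right, hZZ, hZZ', hZ'Z, hZ'Z', nχ, nχc, oχχc,
        classInner_eq_zero_symm oχχc]
    · intro θ hθ
      obtain ⟨m, k, rfl⟩ := hpair θ hθ
      rw [hval, ← Int.cast_smul_eq_zsmul ℂ m Z, ← Int.cast_smul_eq_zsmul ℂ k Z']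
      exact gc_add (gcZ_smul m hZgen) (gcZ_smul k hZ'gen)
  have hτ'χ : τ' χ = Z := by
    have h := hval 1 0
    simpa using h
  have hτ'χc : τ' (conjFun χ) = Z' := by
    have h := hval 0 1
    simpa using h
  obtain ⟨ρ, hρiso, hρ⟩ := union_isometry (↑S₁ : Set (L → ℂ)) {χ, conjFun χ} τs τ' hτs' hτ'
    (by
      intro x hx y hy
      rcases hy with rfl | hy
      · exact classInner_eq_zero_symm (oχ x hx)
      · rw [Set.mem_singleton_iff] at hy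
        rw [hy]
        exact classInner_eq_zero_symm (oχc x hx))
    (by
      intro x hx y hy
      rcases hy with rfl | hy
      · rw [hτ'χ]
        exact hsZ x hx
      · rw [Set.mem_singleton_iff] at hy
        rw [hy, hτ'χc]
        exact hsZ' x hx)
  refine ⟨ρ, hρiso, ?_⟩
  intro θ hθ
  have hθ1 : θ 1 = 0 := hθ.2 1 (by simp)
  have hθ' : θ ∈ Submodule.span ℤ (↑S₁ ∪ {χ, conjFun χ} : Set (L → ℂ)) := hθ.1
  rw [Submodule.span_union, Submodule.mem_sup] at hθ'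
  obtain ⟨θ₁, hθ₁, θ₂, hθ₂, hsum⟩ := hθ'
  obtain ⟨m, k, hmk⟩ := hpair θ₂ hθ₂
  have hθ₁' : θ₁ ∈ zspan (↑S₁ : Set (L → ℂ)) := hθ₁
  have hρθ : ρ θ = τs θ₁ + (m • Z + k • Z') := by
    rw [← hsum, hρ θ₁ hθ₁' θ₂ hθ₂, hmk, hval]
  have hχc1 : conjFun χ 1 = (d χ : ℂ) := by
    show conj (χ 1) = _
    rw [hd χ hχ]
    simp
  have m1 : θ₁ + ((m + k) * (a : ℤ)) • χ₁ ∈ zspanOn (↑S₁ : Set (L → ℂ)) {1}ᶜ := by
    refine ⟨Submodule.add_mem _ hθ₁ (Submodule.smul_mem _ _ mχ₁), ?_⟩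
    intro x hx
    have hx1 : x = 1 := by simpa using hx
    subst hx1
    have h1 : θ₁ 1 + θ₂ 1 = 0 := by rw [← Pi.add_apply, hsum, hθ1]
    rw [hmk, Pi.add_apply, Pi.smul_apply, Pi.smul_apply, zsmul_eq_mul, zsmul_eq_mul, hd χ hχ,
      hχc1, ha] at h1
    show θ₁ 1 + (((m + k) * (a : ℤ)) • χ₁) 1 = 0
    rw [Pi.smul_apply, zsmul_eq_mul, hd χ₁ hχ₁SS]
    push_cast at h1 ⊢
    linear_combination h1
  have eθ : θ = (θ₁ + ((m + k) * (a : ℤ)) • χ₁) +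
      ((m + k) • (χ - (a : ℤ) • χ₁) + (-k) • (χ - conjFun χ)) := by
    rw [← hsum, hmk]
    funext x
    simp only [Pi.add_apply, Pi.sub_apply, Pi.smul_apply, smul_eq_mul, zsmul_eq_mul,
      Pi.mul_apply, Pi.intCast_apply, Pi.natCast_apply, Pi.neg_apply]
    push_cast
    ring
  have mpart : (m + k) • (χ - (a : ℤ) • χ₁) + (-k) • (χ - conjFun χ) ∈ zspanOn S {1}ᶜ :=
    zspanOn_add (zspanOn_zsmul _ mβ) (zspanOn_zsmul _ mχχc)
  rw [hρθ, eθ, tadd _ (hmono1 m1) _ mpart,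
    tadd _ (zspanOn_zsmul _ mβ) _ (zspanOn_zsmul _ mχχc), tsmul _ mβ, tsmul _ mχχc,
    ← hagree _ m1, sadd θ₁ hθ₁' _ (Submodule.smul_mem _ _ mχ₁), ssmul χ₁ mχ₁, hτβ, hτχχc]
  funext x
  simp only [Pi.add_apply, Pi.sub_apply, Pi.smul_apply, smul_eq_mul, zsmul_eq_mul,
    Pi.mul_apply, Pi.intCast_apply, Pi.natCast_apply, Pi.neg_apply]
  push_cast
  ring

end ExtSys

end Cfsg.Agent.Lib.Helper2.Coh
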