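import Mathlib
import Cfsg.Prelude.Def_OddOrderChar
import Cfsg.Prelude.Def_OddOrderLocal
import Cfsg.Agent.Lib.Lead.CharCodeg
import Cfsg.Agent.Lib.Lead.CharOrtho
import Cfsg.Agent.Lib.Helper2.CharAux
import Cfsg.Agent.Lib.Helper2.Ind
import Cfsg.Agent.Lib.Helper8.SubgroupCount

set_option autoImplicit false

namespace Cfsg.Agent.Lib.Helper2.CycTI

open Cfsg Cfsg.Agent.Lib.Lead Cfsg.Agent.Lib.Helper2
open scoped ComplexConjugate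

section TI

variable {G : Type*} [Group G] {W₁ W₂ : Subgroup G}

theorem w_comm (hW : IsSelfNormalizingCyclic W₁ W₂) {a b : G} (ha : a ∈ W₁ ⊔ W₂)
    (hb : b ∈ W₁ ⊔ W₂) : a * b = b * a := by
  haveI : IsCyclic ↥(W₁ ⊔ W₂) := hW.2.2.2.2.1
  obtain ⟨g, hg⟩ := IsCyclic.exists_generator (α := ↥(W₁ ⊔ W₂))
  obtain ⟨i, hi⟩ := Subgroup.mem_zpowers_iff.mp (hg ⟨a, ha⟩)
  obtain ⟨j, hj⟩ := Subgroup.mem_zpowers_iff.mp (hg ⟨b, hb⟩)
  have h : (⟨a, ha⟩ : ↥(W₁ ⊔ W₂)) * ⟨b, hb⟩ = ⟨b, hb⟩ * ⟨a, ha⟩ := by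
    rw [← hi, ← hj, ← zpow_add, ← zpow_add, add_comm]
  exact congrArg Subtype.val h

theorem mem_of_fix (hW : IsSelfNormalizingCyclic W₁ W₂) {v : G} (hv : v ∈ W₁ ⊔ W₂)
    (h1 : v ∉ W₁) (h2 : v ∉ W₂) {g : G} (hg : g * v * g⁻¹ = v) : g ∈ W₁ ⊔ W₂ := by
  have hN := hW.2.2.2.2.2 {v} (by
    intro x hx
    rw [Set.mem_singleton_iff] at hx
    subst hx
    exact ⟨hv, fun h => h.elim h1 h2⟩) (Set.singleton_nonempty v)
  rw [← hN, Subgroup.mem_set_normalizer_iff]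
  intro h
  simp only [Set.mem_singleton_iff]
  constructor
  · rintro rfl; exact hg
  · intro hh
    have : g * h * g⁻¹ = g * v * g⁻¹ := by rw [hh, hg]
    simpa using this

/-- The TI property of `W \ (W₁ ∪ W₂)`. -/
theorem ti [Finite G] (hW : IsSelfNormalizingCyclic W₁ W₂) {v g : G} (hv : v ∈ W₁ ⊔ W₂)
    (h1 : v ∉ W₁) (h2 : v ∉ W₂) (hv' : g * v * g⁻¹ ∈ W₁ ⊔ W₂) (h1' : g * v * g⁻¹ ∉ W₁)
    (h2' : g * v * g⁻¹ ∉ W₂) : g ∈ W₁ ⊔ W₂ := by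
  haveI : IsCyclic ↥(W₁ ⊔ W₂) := hW.2.2.2.2.1
  -- step A
  have hord : orderOf (g * v * g⁻¹) = orderOf v := by
    have := orderOf_injective (MulAut.conj g).toMonoidHom (MulAut.conj g).injective v
    simpa [MulAut.conj_apply] using this
  have hz : Subgroup.zpowers (⟨v, hv⟩ : ↥(W₁ ⊔ W₂)) = Subgroup.zpowers ⟨g * v * g⁻¹, hv'⟩ := by
    apply Cfsg.Agent.Lib.Helper8.h8_cyclic_subgroup_eq_of_card_eq
    rw [Nat.card_zpowers, Nat.card_zpowers, Subgroup.orderOf_mk, Subgroup.orderOf_mk, hord]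
  obtain ⟨k, hk⟩ : ∃ k : ℤ, v ^ k = g * v * g⁻¹ := by
    have : (⟨g * v * g⁻¹, hv'⟩ : ↥(W₁ ⊔ W₂)) ∈ Subgroup.zpowers (⟨v, hv⟩ : ↥(W₁ ⊔ W₂)) := by
      rw [hz]; exact Subgroup.mem_zpowers _
    obtain ⟨k, hk⟩ := Subgroup.mem_zpowers_iff.mp this
    exact ⟨k, by simpa using congrArg Subtype.val hk⟩
  obtain ⟨j, hj⟩ : ∃ j : ℤ, (g * v * g⁻¹) ^ j = v := by
    have : (⟨v, hv⟩ : ↥(W₁ ⊔ W₂)) ∈ Subgroup.zpowers (⟨g * v * g⁻¹, hv'⟩ : ↥(W₁ ⊔ W₂)) := by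
      rw [← hz]; exact Subgroup.mem_zpowers _
    obtain ⟨j, hj⟩ := Subgroup.mem_zpowers_iff.mp this
    exact ⟨j, by simpa using congrArg Subtype.val hj⟩
  -- step B
  set X : Set G := {y | y ∈ Subgroup.zpowers v ∧ v ∈ Subgroup.zpowers y} with hX
  have hXsub : X ⊆ (↑(W₁ ⊔ W₂) : Set G) \ (↑W₁ ∪ ↑W₂) := by
    intro y hy
    refine ⟨(Subgroup.zpowers_le.mpr hv) hy.1, ?_⟩
    rintro (h | h)
    · exact h1 ((Subgroup.zpowers_le.mpr h) hy.2)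
    · exact h2 ((Subgroup.zpowers_le.mpr h) hy.2)
  have hXne : X.Nonempty := ⟨v, Subgroup.mem_zpowers v, Subgroup.mem_zpowers v⟩
  have hN := hW.2.2.2.2.2 X hXsub hXne
  -- step C
  have helper : ∀ (h : G) (k j : ℤ), h * v * h⁻¹ = v ^ k → (h * v * h⁻¹) ^ j = v →
      ∀ n ∈ X, h * n * h⁻¹ ∈ X := by
    intro h k j hk hj n hn
    obtain ⟨a, ha⟩ := Subgroup.mem_zpowers_iff.mp hn.1
    obtain ⟨b, hb⟩ := Subgroup.mem_zpowers_iff.mp hn.2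
    constructor
    · rw [Subgroup.mem_zpowers_iff]
      refine ⟨k * a, ?_⟩
      rw [← ha, ← conj_zpow, hk, zpow_mul]
    · rw [Subgroup.mem_zpowers_iff]
      refine ⟨b * j, ?_⟩
      rw [zpow_mul, conj_zpow, hb, hj]
  have hg1 : g⁻¹ * v * g⁻¹⁻¹ = v ^ j := by
    have : v = g * v ^ j * g⁻¹ := by rw [← conj_zpow, hj]
    rw [inv_inv]
    calc g⁻¹ * v * g = g⁻¹ * (g * v ^ j * g⁻¹) * g := by rw [← this]
      _ = v ^ j := by group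
  have hg2 : (g⁻¹ * v * g⁻¹⁻¹) ^ k = v := by
    rw [conj_zpow, hk]; group
  rw [← hN, Subgroup.mem_set_normalizer_iff]
  intro n
  constructor
  · intro hn
    exact helper g k j hk.symm hj n hn
  · intro hn
    have := helper g⁻¹ j k hg1 hg2 _ hn
    have e : g⁻¹ * (g * n * g⁻¹) * g⁻¹⁻¹ = n := by group
    rwa [e] at this

end TI

section Ind

variable {G : Type*} [Group G] [Fintype G] {W₁ W₂ : Subgroup G}

/-- Induction from `W` does not change values on `W \ (W₁ ∪ W₂)`. -/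
theorem indFun_eq (hW : IsSelfNormalizingCyclic W₁ W₂) (ψ : ↥(W₁ ⊔ W₂) → ℂ)
    (hψ : ∀ x : ↥(W₁ ⊔ W₂), ((x : G) ∈ W₁ ∨ (x : G) ∈ W₂) → ψ x = 0) (t : ↥(W₁ ⊔ W₂))
    (h1 : (t : G) ∉ W₁) (h2 : (t : G) ∉ W₂) : indFun (W₁ ⊔ W₂) ψ t = ψ t := by
  classical
  unfold indFun
  have hN : (Nat.card ↥(W₁ ⊔ W₂) : ℂ) ≠ 0 := by
    exact_mod_cast (Nat.card_pos (α := ↥(W₁ ⊔ W₂))).ne'
  have hterm : ∀ x : G, extendByZero (W₁ ⊔ W₂) ψ (x⁻¹ * (t : G) * x) =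
      if x ∈ W₁ ⊔ W₂ then ψ t else 0 := by
    intro x
    by_cases hx : x ∈ W₁ ⊔ W₂
    · rw [if_pos hx]
      have e : x⁻¹ * (t : G) * x = (t : G) := by
        have := w_comm hW t.2 hx
        rw [mul_assoc, this, ← mul_assoc, inv_mul_cancel, one_mul]
      rw [e, extendByZero_mem _ _ t.2]
    · rw [if_neg hx]
      by_cases hm : x⁻¹ * (t : G) * x ∈ W₁ ⊔ W₂
      · rw [extendByZero_mem _ _ hm]
        by_cases hm1 : x⁻¹ * (t : G) * x ∈ W₁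
        · exact hψ _ (Or.inl hm1)
        · by_cases hm2 : x⁻¹ * (t : G) * x ∈ W₂
          · exact hψ _ (Or.inr hm2)
          · exfalso
            have e : x⁻¹ * (t : G) * x = x⁻¹ * (t : G) * x⁻¹⁻¹ := by rw [inv_inv]
            rw [e] at hm hm1 hm2
            have := ti hW t.2 h1 h2 hm hm1 hm2
            exact hx (by simpa using (W₁ ⊔ W₂).inv_mem this)
      · exact extendByZero_not_mem _ _ hm
  rw [Finset.sum_congr rfl (fun x _ => hterm x), Finset.sum_ite, Finset.sum_const_zero, add_zero,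
    Finset.sum_const, nsmul_eq_mul]
  have hc : ((Finset.univ.filter (fun x : G => x ∈ W₁ ⊔ W₂)).card : ℂ) =
      (Nat.card ↥(W₁ ⊔ W₂) : ℂ) := by
    rw [Nat.card_eq_fintype_card, Fintype.card_subtype]
  rw [hc, ← mul_assoc, inv_mul_cancel₀ hN, one_mul]

theorem w_isClassFunction (hW : IsSelfNormalizingCyclic W₁ W₂) (ψ : ↥(W₁ ⊔ W₂) → ℂ) :
    IsClassFunction ↥(W₁ ⊔ W₂) ψ := by
  intro g h
  have : h * g * h⁻¹ = g := by
    apply Subtype.ext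
    have := w_comm hW h.2 g.2
    show (h : G) * (g : G) * (h : G)⁻¹ = (g : G)
    rw [this, mul_assoc, mul_inv_cancel, mul_one]
  rw [this]

/-- Induction from `W` is an isometry on functions supported on `W \ (W₁ ∪ W₂)`. -/
theorem classInner_ind_ind (hW : IsSelfNormalizingCyclic W₁ W₂) [Fintype ↥(W₁ ⊔ W₂)]
    (ψ θ : ↥(W₁ ⊔ W₂) → ℂ)
    (hψ : ∀ x : ↥(W₁ ⊔ W₂), ((x : G) ∈ W₁ ∨ (x : G) ∈ W₂) → ψ x = 0)
    (hθ : ∀ x : ↥(W₁ ⊔ W₂), ((x : G) ∈ W₁ ∨ (x : G) ∈ W₂) → θ x = 0) :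
    classInner (indFun (W₁ ⊔ W₂) ψ) (indFun (W₁ ⊔ W₂) θ) = classInner ψ θ := by
  rw [frobenius_reciprocity _ ψ _ (indFun_isClassFunction _ θ)]
  unfold classInner
  congr 1
  apply Finset.sum_congr rfl
  intro n _
  by_cases hn : (n : G) ∈ W₁ ∨ (n : G) ∈ W₂
  · rw [hψ n hn, zero_mul, zero_mul]
  · push Not at hn
    show ψ n * conj (indFun (W₁ ⊔ W₂) θ (n : G)) = ψ n * conj (θ n)
    rw [indFun_eq hW θ hθ n hn.1 hn.2]

end Ind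

section Lin

theorem lin_inner {H : Type*} [Group H] [Fintype H] (ω ω' : H →* ℂˣ) :
    classInner (fun w : H => (ω w : ℂ)) (fun w : H => (ω' w : ℂ)) = if ω = ω' then 1 else 0 := by
  classical
  rw [irr_orthonormal (isIrrCharacter_of_hom ω) (isIrrCharacter_of_hom ω')]
  by_cases h : ω = ω'
  · subst h; simp
  · rw [if_neg h, if_neg]
    intro hh
    apply h
    ext w
    exact congrFun hh w

variable {G : Type*} [Group G] {W₁ W₂ : Subgroup G}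

theorem hom_eq_one (a : ↥(W₁ ⊔ W₂) →* ℂˣ) (h1 : ∀ w : ↥(W₁ ⊔ W₂), (w : G) ∈ W₁ → a w = 1)
    (h2 : ∀ w : ↥(W₁ ⊔ W₂), (w : G) ∈ W₂ → a w = 1) : a = 1 := by
  have hle : W₁ ⊔ W₂ ≤ (a.ker).map (Subgroup.subtype _) := by
    apply sup_le
    · intro x hx
      exact ⟨⟨x, Subgroup.mem_sup_left hx⟩, MonoidHom.mem_ker.mpr (h1 _ hx), rfl⟩
    · intro x hx
      exact ⟨⟨x, Subgroup.mem_sup_right hx⟩, MonoidHom.mem_ker.mpr (h2 _ hx), rfl⟩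
  ext w
  obtain ⟨w', hw', hww⟩ := hle w.2
  have : w' = w := Subtype.ext hww
  rw [← this, MonoidHom.mem_ker.mp hw']
  rfl

/-- independence of characters trivial on `W₂` and on `W₁` -/
theorem hom_indep (a b : ↥(W₁ ⊔ W₂) →* ℂˣ) (ha : ∀ w : ↥(W₁ ⊔ W₂), (w : G) ∈ W₂ → a w = 1)
    (hb : ∀ w : ↥(W₁ ⊔ W₂), (w : G) ∈ W₁ → b w = 1) (hab : a = b) : a = 1 ∧ b = 1 := by
  subst hab
  have := hom_eq_one a hb ha
  exact ⟨this, this⟩

end Lin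

end Cfsg.Agent.Lib.Helper2.CycTI
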