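import Cfsg.Agent.Lib.Helper2.CycTI1

set_option autoImplicit false

namespace Cfsg.Agent.Lib.Helper2.CycTI

open Cfsg Cfsg.Agent.Lib.Lead Cfsg.Agent.Lib.Helper2
open scoped ComplexConjugate

/-- the complex function of a linear character -/
def cf {H : Type*} [Group H] (ω : H →* ℂˣ) : H → ℂ := fun w => (ω w : ℂ)

theorem cf_apply {H : Type*} [Group H] (ω : H →* ℂˣ) (w : H) : cf ω w = (ω w : ℂ) := rfl

theorem cf_one {H : Type*} [Group H] : cf (1 : H →* ℂˣ) = fun _ => 1 := by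
  funext w; simp [cf]

theorem cf_inner {H : Type*} [Group H] [Fintype H] (ω ω' : H →* ℂˣ) [Decidable (ω = ω')] :
    classInner (cf ω) (cf ω') = if ω = ω' then 1 else 0 := by
  have := lin_inner ω ω'
  unfold cf
  rw [this]
  by_cases h : ω = ω'
  · simp [h]
  · simp [h]

theorem cf_inner_self {H : Type*} [Group H] [Fintype H] (ω : H →* ℂˣ) :
    classInner (cf ω) (cf ω) = 1 := by
  classical
  rw [cf_inner, if_pos rfl]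

theorem cf_inner_ne {H : Type*} [Group H] [Fintype H] {ω ω' : H →* ℂˣ} (h : ω ≠ ω') :
    classInner (cf ω) (cf ω') = 0 := by
  classical
  rw [cf_inner, if_neg h]

section

variable {G : Type*} [Group G] {W₁ W₂ : Subgroup G}

theorem alpha_eq (φ ψ : ↥(W₁ ⊔ W₂) →* ℂˣ) :
    (fun w : ↥(W₁ ⊔ W₂) => 1 - (φ w : ℂ) - (ψ w : ℂ) + (φ w : ℂ) * (ψ w : ℂ)) =
      cf 1 - cf φ - cf ψ + cf (φ * ψ) := by
  funext w
  simp [cf]

theorem alpha_supp (φ ψ : ↥(W₁ ⊔ W₂) →* ℂˣ)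
    (hφ₂ : ∀ w : ↥(W₁ ⊔ W₂), (w : G) ∈ W₂ → φ w = 1)
    (hψ₁ : ∀ w : ↥(W₁ ⊔ W₂), (w : G) ∈ W₁ → ψ w = 1) :
    ∀ x : ↥(W₁ ⊔ W₂), ((x : G) ∈ W₁ ∨ (x : G) ∈ W₂) →
      (fun w : ↥(W₁ ⊔ W₂) => 1 - (φ w : ℂ) - (ψ w : ℂ) + (φ w : ℂ) * (ψ w : ℂ)) x = 0 := by
  rintro x (h | h)
  · show 1 - (φ x : ℂ) - (ψ x : ℂ) + (φ x : ℂ) * (ψ x : ℂ) = 0
    rw [hψ₁ x h]; simp
  · show 1 - (φ x : ℂ) - (ψ x : ℂ) + (φ x : ℂ) * (ψ x : ℂ) = 0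
    rw [hφ₂ x h]; simp

theorem hom_ext_sup (a a' : ↥(W₁ ⊔ W₂) →* ℂˣ)
    (h1 : ∀ w : ↥(W₁ ⊔ W₂), (w : G) ∈ W₁ → a w = a' w)
    (h2 : ∀ w : ↥(W₁ ⊔ W₂), (w : G) ∈ W₂ → a w = a' w) : a = a' := by
  have hle : W₁ ⊔ W₂ ≤ (MonoidHom.eqLocus a a').map (Subgroup.subtype _) := by
    apply sup_le
    · intro x hx
      exact ⟨⟨x, Subgroup.mem_sup_left hx⟩, h1 _ hx, rfl⟩
    · intro x hx
      exact ⟨⟨x, Subgroup.mem_sup_right hx⟩, h2 _ hx, rfl⟩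
  ext w
  obtain ⟨w', hw', hww⟩ := hle w.2
  have : w' = w := Subtype.ext hww
  rw [← this]
  exact congrArg Units.val hw'

/-- cross cancellation for characters trivial on `W₂` resp. `W₁` -/
theorem hom_cross (a a' b b' : ↥(W₁ ⊔ W₂) →* ℂˣ)
    (ha : ∀ w : ↥(W₁ ⊔ W₂), (w : G) ∈ W₂ → a w = 1)
    (ha' : ∀ w : ↥(W₁ ⊔ W₂), (w : G) ∈ W₂ → a' w = 1)
    (hb : ∀ w : ↥(W₁ ⊔ W₂), (w : G) ∈ W₁ → b w = 1)
    (hb' : ∀ w : ↥(W₁ ⊔ W₂), (w : G) ∈ W₁ → b' w = 1)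
    (hw : ∀ w, a w * b w = a' w * b' w) : a = a' ∧ b = b' := by
  constructor
  · apply hom_ext_sup
    · intro w hw1
      have := hw w
      rwa [hb w hw1, hb' w hw1, mul_one, mul_one] at this
    · intro w hw2
      rw [ha w hw2, ha' w hw2]
  · apply hom_ext_sup
    · intro w hw1
      rw [hb w hw1, hb' w hw1]
    · intro w hw2
      have := hw w
      rwa [ha w hw2, ha' w hw2, one_mul, one_mul] at this

theorem one_triv {S : Subgroup G} : ∀ w : ↥(W₁ ⊔ W₂), (w : G) ∈ S →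
    (1 : ↥(W₁ ⊔ W₂) →* ℂˣ) w = 1 := fun _ _ => rfl

/-- the inner product of `(1-φ)(1-ψ)` and `(1-φ')(1-ψ')` on `W`. -/
theorem alpha_inner [Fintype ↥(W₁ ⊔ W₂)] (φ φ' ψ ψ' : ↥(W₁ ⊔ W₂) →* ℂˣ)
    (hφ : φ ≠ 1) (hφ' : φ' ≠ 1) (hψ : ψ ≠ 1) (hψ' : ψ' ≠ 1)
    (hφ₂ : ∀ w : ↥(W₁ ⊔ W₂), (w : G) ∈ W₂ → φ w = 1)
    (hφ₂' : ∀ w : ↥(W₁ ⊔ W₂), (w : G) ∈ W₂ → φ' w = 1)
    (hψ₁ : ∀ w : ↥(W₁ ⊔ W₂), (w : G) ∈ W₁ → ψ w = 1)
    (hψ₁' : ∀ w : ↥(W₁ ⊔ W₂), (w : G) ∈ W₁ → ψ' w = 1)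
    [Decidable (φ = φ')] [Decidable (ψ = ψ')] :
    classInner (cf 1 - cf φ - cf ψ + cf (φ * ψ)) (cf 1 - cf φ' - cf ψ' + cf (φ' * ψ')) =
      1 + (if φ = φ' then 1 else 0) + (if ψ = ψ' then 1 else 0) +
        (if φ = φ' then 1 else 0) * (if ψ = ψ' then 1 else 0) := by
  classical
  have f1 : (1 : ↥(W₁ ⊔ W₂) →* ℂˣ) ≠ φ' := fun h => hφ' h.symm
  have f2 : (1 : ↥(W₁ ⊔ W₂) →* ℂˣ) ≠ ψ' := fun h => hψ' h.symm
  have f3 : (1 : ↥(W₁ ⊔ W₂) →* ℂˣ) ≠ φ' * ψ' := fun h =>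
    hφ' (hom_cross 1 φ' 1 ψ' one_triv hφ₂' one_triv hψ₁' (fun w => by have := DFunLike.congr_fun h w; simpa using this)).1.symm
  have f5 : φ ≠ ψ' := fun h =>
    hφ (hom_cross φ 1 1 ψ' hφ₂ one_triv one_triv hψ₁' (fun w => by have := DFunLike.congr_fun h w; simpa using this)).1
  have f6 : φ ≠ φ' * ψ' := fun h =>
    hψ' (hom_cross φ φ' 1 ψ' hφ₂ hφ₂' one_triv hψ₁' (fun w => by have := DFunLike.congr_fun h w; simpa using this)).2.symm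
  have f8 : ψ ≠ φ' := fun h =>
    hφ' (hom_cross 1 φ' ψ 1 one_triv hφ₂' hψ₁ one_triv (fun w => by have := DFunLike.congr_fun h w; simpa using this)).1.symm
  have f9 : ψ ≠ φ' * ψ' := fun h =>
    hφ' (hom_cross 1 φ' ψ ψ' one_triv hφ₂' hψ₁ hψ₁' (fun w => by have := DFunLike.congr_fun h w; simpa using this)).1.symm
  have f10 : φ * ψ ≠ 1 := fun h =>
    hφ (hom_cross φ 1 ψ 1 hφ₂ one_triv hψ₁ one_triv (fun w => by have := DFunLike.congr_fun h w; simpa using this)).1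
  have f11 : φ * ψ ≠ φ' := fun h =>
    hψ (hom_cross φ φ' ψ 1 hφ₂ hφ₂' hψ₁ one_triv (fun w => by have := DFunLike.congr_fun h w; simpa using this)).2
  have f12 : φ * ψ ≠ ψ' := fun h =>
    hφ (hom_cross φ 1 ψ ψ' hφ₂ one_triv hψ₁ hψ₁' (fun w => by have := DFunLike.congr_fun h w; simpa using this)).1
  have g : φ * ψ = φ' * ψ' ↔ φ = φ' ∧ ψ = ψ' := by
    constructor
    · intro h
      exact hom_cross φ φ' ψ ψ' hφ₂ hφ₂' hψ₁ hψ₁'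
        (fun w => by have := DFunLike.congr_fun h w; simpa using this)
    · rintro ⟨rfl, rfl⟩; rfl
  simp only [classInner_add_left, classInner_sub_left, classInner_add_right, classInner_sub_right]
  rw [cf_inner_self, cf_inner_ne f1, cf_inner_ne f2, cf_inner_ne f3, cf_inner_ne hφ,
    cf_inner_ne f5, cf_inner_ne f6, cf_inner_ne hψ, cf_inner_ne f8, cf_inner_ne f9,
    cf_inner_ne f10, cf_inner_ne f11, cf_inner_ne f12, cf_inner φ φ', cf_inner ψ ψ',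
    cf_inner (φ * ψ) (φ' * ψ')]
  by_cases ha : φ = φ'
  · by_cases hb : ψ = ψ'
    · rw [if_pos ha, if_pos hb, if_pos (g.mpr ⟨ha, hb⟩)]; ring
    · rw [if_pos ha, if_neg hb, if_neg (fun h => hb (g.mp h).2)]; ring
  · by_cases hb : ψ = ψ'
    · rw [if_neg ha, if_pos hb, if_neg (fun h => ha (g.mp h).1)]; ring
    · rw [if_neg ha, if_neg hb, if_neg (fun h => ha (g.mp h).1)]; ring

end

section Main

variable {G : Type*} [Group G] [Fintype G] {W₁ W₂ : Subgroup G}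

theorem induced_inner_products (hW : IsSelfNormalizingCyclic W₁ W₂)
    (φ φ' ψ ψ' : ↥(W₁ ⊔ W₂) →* ℂˣ)
    (hφ : φ ≠ 1) (hφ' : φ' ≠ 1) (hψ : ψ ≠ 1) (hψ' : ψ' ≠ 1)
    (hφ₂ : ∀ w : ↥(W₁ ⊔ W₂), (w : G) ∈ W₂ → φ w = 1 ∧ φ' w = 1)
    (hψ₁ : ∀ w : ↥(W₁ ⊔ W₂), (w : G) ∈ W₁ → ψ w = 1 ∧ ψ' w = 1)
    [Decidable (φ = φ')] [Decidable (ψ = ψ')] :
    classInner (indFun (W₁ ⊔ W₂)
        (fun w => 1 - (φ w : ℂ) - (ψ w : ℂ) + (φ w : ℂ) * (ψ w : ℂ))) (fun _ => 1) = 1 ∧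
      classInner (indFun (W₁ ⊔ W₂)
        (fun w => 1 - (φ w : ℂ) - (ψ w : ℂ) + (φ w : ℂ) * (ψ w : ℂ)))
        (indFun (W₁ ⊔ W₂)
          (fun w => 1 - (φ' w : ℂ) - (ψ' w : ℂ) + (φ' w : ℂ) * (ψ' w : ℂ))) =
        1 + (if φ = φ' then 1 else 0) + (if ψ = ψ' then 1 else 0) +
          (if φ = φ' then 1 else 0) * (if ψ = ψ' then 1 else 0) := by
  classical
  letI : Fintype ↥(W₁ ⊔ W₂) := Fintype.ofFinite _
  have a1 := fun w hw => (hφ₂ w hw).1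
  have a2 := fun w hw => (hφ₂ w hw).2
  have b1 := fun w hw => (hψ₁ w hw).1
  have b2 := fun w hw => (hψ₁ w hw).2
  constructor
  · rw [frobenius_reciprocity _ _ _ (fun _ _ => rfl), alpha_eq]
    have e : (fun _ : ↥(W₁ ⊔ W₂) => (1 : ℂ)) = cf 1 := cf_one.symm
    rw [e]
    simp only [classInner_add_left, classInner_sub_left]
    have f10 : φ * ψ ≠ 1 := fun h =>
      hφ (hom_cross φ 1 ψ 1 a1 one_triv b1 one_triv (fun w => by have := DFunLike.congr_fun h w; simpa using this)).1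
    rw [cf_inner_self, cf_inner_ne hφ, cf_inner_ne hψ, cf_inner_ne f10]
    ring
  · rw [classInner_ind_ind hW _ _ (alpha_supp φ ψ a1 b1) (alpha_supp φ' ψ' a2 b2), alpha_eq,
      alpha_eq]
    exact alpha_inner φ φ' ψ ψ' hφ hφ' hψ hψ' a1 a2 b1 b2

end Main

end Cfsg.Agent.Lib.Helper2.CycTI
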