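import Cfsg.Agent.Lib.Helper2.CycTI2
import Cfsg.Agent.Lib.Lead.CharComplete

set_option autoImplicit false

namespace Cfsg.Agent.Lib.Helper2.CycTI

open Cfsg Cfsg.Agent.Lib.Lead Cfsg.Agent.Lib.Helper2
open scoped ComplexConjugate

section

variable {G : Type*} [Group G] {W₁ W₂ : Subgroup G}

theorem centralizer_eq (hW : IsSelfNormalizingCyclic W₁ W₂) {v : G} (hv : v ∈ W₁ ⊔ W₂)
    (h1 : v ∉ W₁) (h2 : v ∉ W₂) : Subgroup.centralizer ({v} : Set G) = W₁ ⊔ W₂ := by
  ext g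
  rw [Subgroup.mem_centralizer_singleton_iff]
  constructor
  · intro h
    apply mem_of_fix hW hv h1 h2 (g := g)
    rw [h, mul_assoc, mul_inv_cancel, mul_one]
  · intro h
    exact w_comm hW h hv

theorem card_hom (hW : IsSelfNormalizingCyclic W₁ W₂) [Finite G] :
    Nat.card (↥(W₁ ⊔ W₂) →* ℂˣ) = Nat.card ↥(W₁ ⊔ W₂) := by
  haveI : IsCyclic ↥(W₁ ⊔ W₂) := hW.2.2.2.2.1
  letI : CommGroup ↥(W₁ ⊔ W₂) := IsCyclic.commGroup
  haveI : NeZero (Monoid.exponent ↥(W₁ ⊔ W₂)) := ⟨Monoid.exponent_ne_zero_of_finite⟩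
  haveI : NeZero ((Monoid.exponent ↥(W₁ ⊔ W₂) : ℕ) : ℂ) :=
    ⟨by exact_mod_cast Monoid.exponent_ne_zero_of_finite⟩
  exact CommGroup.card_monoidHom_of_hasEnoughRootsOfUnity ↥(W₁ ⊔ W₂) ℂ

theorem unit_normSq {H : Type*} [Group H] [Finite H] (ω : H →* ℂˣ) (w : H) :
    Complex.normSq (ω w : ℂ) = 1 := by
  have h1 : ((ω w : ℂˣ) : ℂ) ^ orderOf w = 1 := by
    rw [← Units.val_pow_eq_pow_val, ← map_pow, pow_orderOf_eq_one, map_one, Units.val_one]
  have h2 : ‖((ω w : ℂˣ) : ℂ)‖ = 1 :=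
    Complex.norm_eq_one_of_pow_eq_one h1 (orderOf_pos w).ne'
  rw [Complex.normSq_eq_norm_sq, h2, one_pow]

end

section

variable {G : Type*} [Group G] [Fintype G] {W₁ W₂ : Subgroup G}

theorem vanish (hW : IsSelfNormalizingCyclic W₁ W₂) (χ : (↥(W₁ ⊔ W₂) →* ℂˣ) → (G → ℂ))
    (hχ : IsCyclicTIFamily W₁ W₂ χ) (θ : G → ℂ) (hθ : IsIrrCharacter G θ)
    (horth : ∀ ω, classInner θ (χ ω) = 0) (w : ↥(W₁ ⊔ W₂)) (hw₁ : (w : G) ∉ W₁)
    (hw₂ : (w : G) ∉ W₂) : θ w = 0 := by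
  classical
  haveI : Finite (IrrCharacter G) := irr_finite
  letI : Fintype (IrrCharacter G) := Fintype.ofFinite _
  have hcard := card_hom (G := G) hW
  have hWpos : 0 < Nat.card ↥(W₁ ⊔ W₂) := Nat.card_pos
  haveI : Finite (↥(W₁ ⊔ W₂) →* ℂˣ) := Nat.finite_of_card_ne_zero (by omega)
  letI : Fintype (↥(W₁ ⊔ W₂) →* ℂˣ) := Fintype.ofFinite _
  -- the signed family as irreducible characters
  let s : (↥(W₁ ⊔ W₂) →* ℂˣ) → IrrCharacter G := fun ω =>
    if h : IsIrrCharacter G (χ ω) then ⟨χ ω, h⟩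
    else ⟨-χ ω, (hχ.irr_or_neg ω).resolve_left h⟩
  have hs : ∀ ω, (s ω : G → ℂ) = χ ω ∨ (s ω : G → ℂ) = -χ ω := by
    intro ω
    by_cases h : IsIrrCharacter G (χ ω)
    · left; simp only [s, dif_pos h]
    · right; simp only [s, dif_neg h]
  have hself : ∀ ω, classInner (χ ω) (χ ω) = 1 := by
    intro ω; rw [hχ.orthonormal, if_pos rfl]
  have hne : ∀ ω ω', ω ≠ ω' → classInner (χ ω) (χ ω') = 0 := by
    intro ω ω' h; rw [hχ.orthonormal, if_neg h]
  have hneg : ∀ (a b : G → ℂ), classInner (-a) b = - classInner a b := by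
    intro a b
    have := classInner_smul_left (-1 : ℂ) a b
    simpa using this
  have hsinj : Function.Injective s := by
    intro ω ω' h
    by_contra hn
    have h' : (s ω : G → ℂ) = (s ω' : G → ℂ) := congrArg Subtype.val h
    have h0 := hne ω ω' hn
    have h1 := hself ω'
    rcases hs ω with e1 | e1 <;> rcases hs ω' with e2 | e2
    · rw [e1, e2] at h'
      rw [h', h1] at h0; exact one_ne_zero h0
    · rw [e1, e2] at h'
      rw [h', hneg, h1] at h0; simp at h0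
    · rw [e1, e2] at h'
      have h'' : χ ω = -χ ω' := by rw [← h', neg_neg]
      rw [h'', hneg, h1] at h0; simp at h0
    · rw [e1, e2] at h'
      have h'' : χ ω = χ ω' := neg_injective h'
      rw [h'', h1] at h0; exact one_ne_zero h0
  have hθs : ∀ ω, s ω ≠ ⟨θ, hθ⟩ := by
    intro ω h
    have h' : (s ω : G → ℂ) = θ := congrArg Subtype.val h
    have h0 := horth ω
    rcases hs ω with e1 | e1
    · rw [← h', e1, hself] at h0; exact one_ne_zero h0
    · rw [← h', e1, hneg, hself] at h0; simp at h0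
  have hval : ∀ ω, Complex.normSq ((s ω : G → ℂ) w) = 1 := by
    intro ω
    rcases hs ω with e1 | e1
    · rw [e1, hχ.eq_on ω w hw₁ hw₂]; exact unit_normSq ω w
    · rw [e1, Pi.neg_apply, Complex.normSq_neg, hχ.eq_on ω w hw₁ hw₂]; exact unit_normSq ω w
  -- second orthogonality
  have hso := second_orthogonality (G := G) (w : G) (w : G)
  rw [if_pos (IsConj.refl _), centralizer_eq hW w.2 hw₁ hw₂] at hso
  have hsum : ∑ χ' : IrrCharacter G, Complex.normSq ((χ' : G → ℂ) w) =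
      (Nat.card ↥(W₁ ⊔ W₂) : ℝ) := by
    apply Complex.ofReal_injective
    rw [Complex.ofReal_sum, Complex.ofReal_natCast, ← hso]
    apply Finset.sum_congr rfl
    intro χ' _
    rw [Complex.mul_conj]
  have himg : ∑ χ' ∈ Finset.univ.image s, Complex.normSq ((χ' : G → ℂ) w) =
      (Nat.card ↥(W₁ ⊔ W₂) : ℝ) := by
    rw [Finset.sum_image (fun a _ b _ h => hsinj h)]
    rw [Finset.sum_congr rfl (fun ω _ => hval ω)]
    rw [Finset.sum_const, Finset.card_univ, ← Nat.card_eq_fintype_card, hcard]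
    simp
  have hsplit := Finset.sum_add_sum_compl (Finset.univ.image s)
    (fun χ' : IrrCharacter G => Complex.normSq ((χ' : G → ℂ) w))
  rw [hsum, himg] at hsplit
  have hcompl : ∑ χ' ∈ (Finset.univ.image s)ᶜ, Complex.normSq ((χ' : G → ℂ) w) = 0 := by
    linarith
  have hmem : (⟨θ, hθ⟩ : IrrCharacter G) ∈ (Finset.univ.image s)ᶜ := by
    rw [Finset.mem_compl, Finset.mem_image]
    rintro ⟨ω, _, h⟩
    exact hθs ω h
  have := (Finset.sum_eq_zero_iff_of_nonneg (fun χ' _ => Complex.normSq_nonneg _)).mp hcompl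
    ⟨θ, hθ⟩ hmem
  exact Complex.normSq_eq_zero.mp this

end

end Cfsg.Agent.Lib.Helper2.CycTI
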