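import Cfsg.Agent.Lib.Helper2.CycTI3

set_option autoImplicit false

namespace Cfsg.Agent.Lib.Helper2.CycTI

open Cfsg Cfsg.Agent.Lib.Lead Cfsg.Agent.Lib.Helper2
open scoped ComplexConjugate

section Struct

variable {G : Type*} [Group G] {W₁ W₂ : Subgroup G}

/-- the product map `W₁ × W₂ → G` -/
noncomputable def prodHom (hcomm : ∀ a ∈ W₁, ∀ b ∈ W₂, a * b = b * a) : W₁ × W₂ →* G :=
  MonoidHom.noncommCoprod W₁.subtype W₂.subtype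
    (fun a b => show Commute (W₁.subtype a) (W₂.subtype b) from hcomm a a.2 b b.2)

theorem prodHom_apply (hcomm : ∀ a ∈ W₁, ∀ b ∈ W₂, a * b = b * a) (p : W₁ × W₂) :
    prodHom hcomm p = (p.1 : G) * (p.2 : G) := rfl

theorem prodHom_injective (hdisj : W₁ ⊓ W₂ = ⊥) (hcomm : ∀ a ∈ W₁, ∀ b ∈ W₂, a * b = b * a) :
    Function.Injective (prodHom hcomm) := by
  refine (MonoidHom.noncommCoprod_injective _ _ _).mpr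
    ⟨Subgroup.subtype_injective _, Subgroup.subtype_injective _, ?_⟩
  rw [Subgroup.range_subtype, Subgroup.range_subtype, disjoint_iff, hdisj]

theorem prodHom_range (hcomm : ∀ a ∈ W₁, ∀ b ∈ W₂, a * b = b * a) :
    (prodHom hcomm).range = W₁ ⊔ W₂ := by
  refine (MonoidHom.noncommCoprod_range _ _ _).trans ?_
  rw [Subgroup.range_subtype, Subgroup.range_subtype]

/-- the isomorphism `W₁ × W₂ ≃ W₁ ⊔ W₂` -/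
noncomputable def prodEquiv (hdisj : W₁ ⊓ W₂ = ⊥)
    (hcomm : ∀ a ∈ W₁, ∀ b ∈ W₂, a * b = b * a) : W₁ × W₂ ≃* ↥(W₁ ⊔ W₂) :=
  (MonoidHom.ofInjective (prodHom_injective hdisj hcomm)).trans
    (MulEquiv.subgroupCongr (prodHom_range hcomm))

theorem prodEquiv_apply (hdisj : W₁ ⊓ W₂ = ⊥)
    (hcomm : ∀ a ∈ W₁, ∀ b ∈ W₂, a * b = b * a) (p : W₁ × W₂) :
    ((prodEquiv hdisj hcomm p : ↥(W₁ ⊔ W₂)) : G) = (p.1 : G) * (p.2 : G) := rfl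

theorem prodEquiv_symm_left (hdisj : W₁ ⊓ W₂ = ⊥)
    (hcomm : ∀ a ∈ W₁, ∀ b ∈ W₂, a * b = b * a) (w : ↥(W₁ ⊔ W₂)) (hw : (w : G) ∈ W₁) :
    (prodEquiv hdisj hcomm).symm w = (⟨w, hw⟩, 1) := by
  rw [MulEquiv.symm_apply_eq]
  apply Subtype.ext
  rw [prodEquiv_apply]
  simp

theorem prodEquiv_symm_right (hdisj : W₁ ⊓ W₂ = ⊥)
    (hcomm : ∀ a ∈ W₁, ∀ b ∈ W₂, a * b = b * a) (w : ↥(W₁ ⊔ W₂)) (hw : (w : G) ∈ W₂) :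
    (prodEquiv hdisj hcomm).symm w = (1, ⟨w, hw⟩) := by
  rw [MulEquiv.symm_apply_eq]
  apply Subtype.ext
  rw [prodEquiv_apply]
  simp

/-- the `W₁`-part of a linear character of `W` -/
noncomputable def part₁ (hdisj : W₁ ⊓ W₂ = ⊥) (hcomm : ∀ a ∈ W₁, ∀ b ∈ W₂, a * b = b * a)
    (ω : ↥(W₁ ⊔ W₂) →* ℂˣ) : ↥(W₁ ⊔ W₂) →* ℂˣ :=
  (ω.comp ((prodEquiv hdisj hcomm).toMonoidHom.comp (MonoidHom.inl W₁ W₂))).comp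
    ((MonoidHom.fst W₁ W₂).comp (prodEquiv hdisj hcomm).symm.toMonoidHom)

/-- the `W₂`-part of a linear character of `W` -/
noncomputable def part₂ (hdisj : W₁ ⊓ W₂ = ⊥) (hcomm : ∀ a ∈ W₁, ∀ b ∈ W₂, a * b = b * a)
    (ω : ↥(W₁ ⊔ W₂) →* ℂˣ) : ↥(W₁ ⊔ W₂) →* ℂˣ :=
  (ω.comp ((prodEquiv hdisj hcomm).toMonoidHom.comp (MonoidHom.inr W₁ W₂))).comp
    ((MonoidHom.snd W₁ W₂).comp (prodEquiv hdisj hcomm).symm.toMonoidHom)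

theorem part₁_apply (hdisj : W₁ ⊓ W₂ = ⊥) (hcomm : ∀ a ∈ W₁, ∀ b ∈ W₂, a * b = b * a)
    (ω : ↥(W₁ ⊔ W₂) →* ℂˣ) (w : ↥(W₁ ⊔ W₂)) :
    part₁ hdisj hcomm ω w = ω (prodEquiv hdisj hcomm (((prodEquiv hdisj hcomm).symm w).1, 1)) :=
  rfl

theorem part₂_apply (hdisj : W₁ ⊓ W₂ = ⊥) (hcomm : ∀ a ∈ W₁, ∀ b ∈ W₂, a * b = b * a)
    (ω : ↥(W₁ ⊔ W₂) →* ℂˣ) (w : ↥(W₁ ⊔ W₂)) :
    part₂ hdisj hcomm ω w = ω (prodEquiv hdisj hcomm (1, ((prodEquiv hdisj hcomm).symm w).2)) :=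
  rfl

theorem part₁_triv (hdisj : W₁ ⊓ W₂ = ⊥) (hcomm : ∀ a ∈ W₁, ∀ b ∈ W₂, a * b = b * a)
    (ω : ↥(W₁ ⊔ W₂) →* ℂˣ) (w : ↥(W₁ ⊔ W₂)) (hw : (w : G) ∈ W₂) :
    part₁ hdisj hcomm ω w = 1 := by
  rw [part₁_apply, prodEquiv_symm_right hdisj hcomm w hw]
  have : ((1 : W₁), (1 : W₂)) = (1 : W₁ × W₂) := rfl
  rw [this, map_one, map_one]

theorem part₂_triv (hdisj : W₁ ⊓ W₂ = ⊥) (hcomm : ∀ a ∈ W₁, ∀ b ∈ W₂, a * b = b * a)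
    (ω : ↥(W₁ ⊔ W₂) →* ℂˣ) (w : ↥(W₁ ⊔ W₂)) (hw : (w : G) ∈ W₁) :
    part₂ hdisj hcomm ω w = 1 := by
  rw [part₂_apply, prodEquiv_symm_left hdisj hcomm w hw]
  have : ((1 : W₁), (1 : W₂)) = (1 : W₁ × W₂) := rfl
  rw [this, map_one, map_one]

theorem part_mul (hdisj : W₁ ⊓ W₂ = ⊥) (hcomm : ∀ a ∈ W₁, ∀ b ∈ W₂, a * b = b * a)
    (ω : ↥(W₁ ⊔ W₂) →* ℂˣ) : part₁ hdisj hcomm ω * part₂ hdisj hcomm ω = ω := by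
  ext w
  rw [MonoidHom.mul_apply, part₁_apply, part₂_apply, ← map_mul, ← map_mul]
  congr 3
  rw [Prod.mk_mul_mk, mul_one, one_mul, Prod.mk.eta, MulEquiv.apply_symm_apply]

theorem part₁_eq (hdisj : W₁ ⊓ W₂ = ⊥) (hcomm : ∀ a ∈ W₁, ∀ b ∈ W₂, a * b = b * a)
    (ω : ↥(W₁ ⊔ W₂) →* ℂˣ) (w : ↥(W₁ ⊔ W₂)) (hw : (w : G) ∈ W₁) :
    part₁ hdisj hcomm ω w = ω w := by
  have h := DFunLike.congr_fun (part_mul hdisj hcomm ω) w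
  rw [MonoidHom.mul_apply, part₂_triv hdisj hcomm ω w hw, mul_one] at h
  exact h

theorem part₂_eq (hdisj : W₁ ⊓ W₂ = ⊥) (hcomm : ∀ a ∈ W₁, ∀ b ∈ W₂, a * b = b * a)
    (ω : ↥(W₁ ⊔ W₂) →* ℂˣ) (w : ↥(W₁ ⊔ W₂)) (hw : (w : G) ∈ W₂) :
    part₂ hdisj hcomm ω w = ω w := by
  have h := DFunLike.congr_fun (part_mul hdisj hcomm ω) w
  rw [MonoidHom.mul_apply, part₁_triv hdisj hcomm ω w hw, one_mul] at h
  exact h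

end Struct

end Cfsg.Agent.Lib.Helper2.CycTI
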