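import Cfsg.Agent.Lib.Helper2.CycTI4
import Cfsg.Agent.Lib.Lead.CharPowMap
import Cfsg.Agent.Lib.Lead.TIFrob4

set_option autoImplicit false

namespace Cfsg.Agent.Lib.Helper2.CycTI

open Cfsg Cfsg.Agent.Lib.Lead Cfsg.Agent.Lib.Helper2
open scoped ComplexConjugate

theorem exists_coprime_lift {d N : ℕ} (hN : N ≠ 0) (hd : d ∣ N) {x : ℕ} (hx : x.Coprime d) :
    ∃ m : ℕ, m.Coprime N ∧ m ≡ x [MOD d] := by
  haveI : NeZero N := ⟨hN⟩
  obtain ⟨u, hu⟩ := ZMod.unitsMap_surjective hd (ZMod.unitOfCoprime x hx)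
  refine ⟨(u : ZMod N).val, ZMod.val_coe_unit_coprime u, ?_⟩
  have h1 : ((ZMod.unitsMap hd u : (ZMod d)ˣ) : ZMod d) = (x : ZMod d) := by rw [hu]; rfl
  rw [ZMod.unitsMap_def] at h1
  simp only [Units.coe_map, MonoidHom.coe_coe, ZMod.castHom_apply] at h1
  rw [← ZMod.natCast_eq_natCast_iff, ZMod.natCast_val]
  exact h1

theorem unit_eq_one_of_pow {u : ℂˣ} {m n : ℕ} (hcop : m.Coprime n) (h1 : u ^ m = 1)
    (h2 : u ^ n = 1) : u = 1 := by
  have h3 : orderOf u ∣ Nat.gcd m n :=
    Nat.dvd_gcd (orderOf_dvd_of_pow_eq_one h1) (orderOf_dvd_of_pow_eq_one h2)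
  rw [Nat.Coprime.gcd_eq_one hcop] at h3
  exact orderOf_eq_one_iff.mp (Nat.dvd_one.mp h3)

section Pow

variable {G : Type*} [Group G] [Fintype G]

/-- the power map on functions -/
def pw (m : ℕ) (f : G → ℂ) : G → ℂ := fun g => f (g ^ m)

theorem pw_apply (m : ℕ) (f : G → ℂ) (g : G) : pw m f g = f (g ^ m) := rfl

theorem pw_inner {m : ℕ} (hm : m.Coprime (Nat.card G)) (f h : G → ℂ) :
    classInner (pw m f) (pw m h) = classInner f h := by
  unfold classInner pw
  congr 1
  exact Equiv.sum_comp (powCoprime hm.symm) (fun g => f g * conj (h g))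

theorem pw_indFun (U : Subgroup G) (α : U → ℂ) {m : ℕ} (hm : m.Coprime (Nat.card G)) :
    pw m (indFun U α) = indFun U (fun u => α (u ^ m)) := by
  funext g
  show indFun U α (g ^ m) = _
  unfold indFun
  congr 1
  apply Finset.sum_congr rfl
  intro x _
  have hconj : x⁻¹ * g ^ m * x = (x⁻¹ * g * x) ^ m := by
    have := conj_pow (a := x⁻¹) (b := g) (i := m)
    rw [inv_inv] at this
    exact this.symm
  rw [hconj]
  by_cases hy : x⁻¹ * g * x ∈ U
  · rw [extendByZero_mem U _ (U.pow_mem hy m), extendByZero_mem U _ hy]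
    rfl
  · rw [extendByZero_not_mem U _ hy, extendByZero_not_mem U _]
    intro h
    exact hy (mem_of_pow_mem_of_coprime U hm h)

/-- signed irreducible characters -/
def SIrr (X : G → ℂ) : Prop := IsIrrCharacter G X ∨ IsIrrCharacter G (-X)

theorem sirr_pw {m : ℕ} (hm : m.Coprime (Nat.card G)) {X : G → ℂ} (h : SIrr X) :
    SIrr (pw m X) := by
  rcases h with h | h
  · left; exact isIrrCharacter_pow_coprime h hm
  · right; exact isIrrCharacter_pow_coprime h hm

theorem sirr_tri {X X' : G → ℂ} (h : SIrr X) (h' : SIrr X') :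
    (X = X' ∧ classInner X X' = 1) ∨ (X = -X' ∧ classInner X X' = -1) ∨
      classInner X X' = 0 := by
  classical
  rcases h with h | h <;> rcases h' with h' | h'
  · have := irr_orthonormal h h'
    by_cases e : X = X'
    · left; exact ⟨e, by rw [this, if_pos e]⟩
    · right; right; rw [this, if_neg e]
  · have := irr_orthonormal h h'
    rw [classInner_neg_right] at this
    by_cases e : X = -X'
    · right; left; refine ⟨e, ?_⟩; rw [if_pos e] at this; linear_combination -this
    · right; right; rw [if_neg e] at this; simpa using this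
  · have := irr_orthonormal h h'
    rw [classInner_neg_left] at this
    by_cases e : -X = X'
    · right; left; refine ⟨by rw [← e, neg_neg], ?_⟩; rw [if_pos e] at this
      linear_combination -this
    · right; right; rw [if_neg e] at this; simpa using this
  · have := irr_orthonormal h h'
    rw [classInner_neg_left, classInner_neg_right, neg_neg] at this
    by_cases e : -X = -X'
    · left; exact ⟨neg_injective e, by rw [this, if_pos e]⟩
    · right; right; rw [this, if_neg e]

theorem sirr_excl {X U U' : G → ℂ} (hX : SIrr X) (hU : SIrr U) (o : classInner U U' = 0)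
    (hne : classInner X U ≠ 0) : classInner X U' = 0 := by
  rcases sirr_tri hX hU with ⟨e, _⟩ | ⟨e, _⟩ | e
  · rw [e]; exact o
  · rw [e, classInner_neg_left, o, neg_zero]
  · exact absurd e hne

theorem sirr_select {X U₁ U₂ U₃ U₂' U₃' : G → ℂ} (hX : SIrr X) (h1 : SIrr U₁) (h2 : SIrr U₂)
    (h3 : SIrr U₃)
    (o12 : classInner U₁ U₂ = 0) (o13 : classInner U₁ U₃ = 0)
    (o22 : classInner U₂ U₂' = 0) (o23 : classInner U₂ U₃' = 0)
    (o32 : classInner U₃ U₂' = 0) (o33 : classInner U₃ U₃' = 0)
    (e : classInner X U₁ + classInner X U₂ - classInner X U₃ = 1)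
    (e' : classInner X U₁ + classInner X U₂' - classInner X U₃' = 1) : X = U₁ := by
  by_cases c1 : classInner X U₁ = 0
  · exfalso
    rw [c1, zero_add] at e e'
    by_cases c2 : classInner X U₂ = 0
    · have c3 : classInner X U₃ ≠ 0 := by
        intro h; rw [c2, h] at e; simp at e
      rw [sirr_excl hX h3 o32 c3, sirr_excl hX h3 o33 c3] at e'
      simp at e'
    · rw [sirr_excl hX h2 o22 c2, sirr_excl hX h2 o23 c2] at e'
      simp at e'
  · rw [sirr_excl hX h1 o12 c1, sirr_excl hX h1 o13 c1] at e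
    rcases sirr_tri hX h1 with ⟨e1, _⟩ | ⟨_, e1⟩ | e1
    · exact e1
    · rw [e1] at e; norm_num at e
    · exact absurd e1 c1

end Pow

end Cfsg.Agent.Lib.Helper2.CycTI
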