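import Cfsg.Agent.Lib.Helper2.CycTI5

set_option autoImplicit false

namespace Cfsg.Agent.Lib.Helper2.CycTI

open Cfsg Cfsg.Agent.Lib.Lead Cfsg.Agent.Lib.Helper2
open scoped ComplexConjugate

section Main

variable {G : Type*} [Group G] [Fintype G] {W₁ W₂ : Subgroup G}

theorem hom_apply_pow_card (ω : ↥(W₁ ⊔ W₂) →* ℂˣ) (w : ↥(W₁ ⊔ W₂)) :
    ω w ^ Nat.card ↥(W₁ ⊔ W₂) = 1 := by
  rw [← map_pow, pow_card_eq_one', map_one]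

theorem hom_pow_inj {m : ℕ} (hm : m.Coprime (Nat.card G)) {ω ω' : ↥(W₁ ⊔ W₂) →* ℂˣ}
    (h : ω ^ m = ω' ^ m) : ω = ω' := by
  have hcop : m.Coprime (Nat.card ↥(W₁ ⊔ W₂)) :=
    Nat.Coprime.coprime_dvd_right (Subgroup.card_subgroup_dvd_card _) hm
  apply MonoidHom.ext
  intro w
  have h1 := DFunLike.congr_fun h w
  rw [MonoidHom.pow_apply, MonoidHom.pow_apply] at h1
  have h2 : (ω w * (ω' w)⁻¹) ^ m = 1 := by rw [mul_pow, inv_pow, h1, mul_inv_cancel]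
  have h3 : (ω w * (ω' w)⁻¹) ^ Nat.card ↥(W₁ ⊔ W₂) = 1 := by
    rw [mul_pow, inv_pow, hom_apply_pow_card, hom_apply_pow_card, inv_one, mul_one]
  exact mul_inv_eq_one.mp (unit_eq_one_of_pow hcop h2 h3)

theorem hom_pow_ne_one {m : ℕ} (hm : m.Coprime (Nat.card G)) {ω : ↥(W₁ ⊔ W₂) →* ℂˣ}
    (h : ω ≠ 1) : ω ^ m ≠ 1 := by
  intro h'
  apply h
  apply hom_pow_inj hm
  apply MonoidHom.ext
  intro w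
  have := DFunLike.congr_fun h' w
  simp only [MonoidHom.pow_apply, MonoidHom.one_apply, one_pow] at this ⊢
  exact this

theorem hom_inv_ne (hodd : Odd (Nat.card ↥(W₁ ⊔ W₂))) {ω : ↥(W₁ ⊔ W₂) →* ℂˣ}
    (h : ω ≠ 1) : ω ≠ ω⁻¹ := by
  intro h'
  apply h
  apply MonoidHom.ext
  intro w
  have h1 := DFunLike.congr_fun h' w
  rw [MonoidHom.inv_apply] at h1
  have h2 : ω w ^ 2 = 1 := by
    rw [pow_two]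
    nth_rewrite 2 [h1]
    exact mul_inv_cancel _
  have hcop : Nat.Coprime 2 (Nat.card ↥(W₁ ⊔ W₂)) := by
    rw [Nat.coprime_two_left]
    exact hodd
  exact unit_eq_one_of_pow hcop h2 (hom_apply_pow_card ω w)

theorem hom_inv_ne_one {ω : ↥(W₁ ⊔ W₂) →* ℂˣ} (h : ω ≠ 1) : ω⁻¹ ≠ 1 := by
  intro h'
  apply h
  apply MonoidHom.ext
  intro w
  have h1 := DFunLike.congr_fun h' w
  rw [MonoidHom.inv_apply] at h1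
  have : (ω w)⁻¹ = 1 := h1
  exact inv_eq_one.mp this

theorem exists_hom_ne_one (hW : IsSelfNormalizingCyclic W₁ W₂) {w : ↥(W₁ ⊔ W₂)} (hw : w ≠ 1) :
    ∃ ω : ↥(W₁ ⊔ W₂) →* ℂˣ, ω w ≠ 1 := by
  haveI : IsCyclic ↥(W₁ ⊔ W₂) := hW.2.2.2.2.1
  letI : CommGroup ↥(W₁ ⊔ W₂) := IsCyclic.commGroup
  haveI : NeZero (Monoid.exponent ↥(W₁ ⊔ W₂)) := ⟨Monoid.exponent_ne_zero_of_finite⟩
  haveI : NeZero ((Monoid.exponent ↥(W₁ ⊔ W₂) : ℕ) : ℂ) :=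
    ⟨by exact_mod_cast Monoid.exponent_ne_zero_of_finite⟩
  exact CommGroup.exists_apply_ne_one_of_hasEnoughRootsOfUnity ↥(W₁ ⊔ W₂) ℂ hw

theorem exists_nontriv₁ (hW : IsSelfNormalizingCyclic W₁ W₂) :
    ∃ φ : ↥(W₁ ⊔ W₂) →* ℂˣ, φ ≠ 1 ∧ ∀ w : ↥(W₁ ⊔ W₂), (w : G) ∈ W₂ → φ w = 1 := by
  have hdisj := hW.2.2.1
  have hcomm := hW.2.2.2.1
  obtain ⟨a, ha⟩ := (Subgroup.ne_bot_iff_exists_ne_one).mp hW.1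
  have ha' : (⟨a, Subgroup.mem_sup_left a.2⟩ : ↥(W₁ ⊔ W₂)) ≠ 1 := by
    intro h
    apply ha
    apply Subtype.ext
    exact congrArg (fun x : ↥(W₁ ⊔ W₂) => (x : G)) h
  obtain ⟨ω, hω⟩ := exists_hom_ne_one hW ha'
  refine ⟨part₁ hdisj hcomm ω, ?_, part₁_triv hdisj hcomm ω⟩
  intro h
  apply hω
  rw [← part₁_eq hdisj hcomm ω _ a.2, h]
  rfl

theorem exists_nontriv₂ (hW : IsSelfNormalizingCyclic W₁ W₂) :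
    ∃ ψ : ↥(W₁ ⊔ W₂) →* ℂˣ, ψ ≠ 1 ∧ ∀ w : ↥(W₁ ⊔ W₂), (w : G) ∈ W₁ → ψ w = 1 := by
  have hdisj := hW.2.2.1
  have hcomm := hW.2.2.2.1
  obtain ⟨a, ha⟩ := (Subgroup.ne_bot_iff_exists_ne_one).mp hW.2.1
  have ha' : (⟨a, Subgroup.mem_sup_right a.2⟩ : ↥(W₁ ⊔ W₂)) ≠ 1 := by
    intro h
    apply ha
    apply Subtype.ext
    exact congrArg (fun x : ↥(W₁ ⊔ W₂) => (x : G)) h
  obtain ⟨ω, hω⟩ := exists_hom_ne_one hW ha'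
  refine ⟨part₂ hdisj hcomm ω, ?_, part₂_triv hdisj hcomm ω⟩
  intro h
  apply hω
  rw [← part₂_eq hdisj hcomm ω _ a.2, h]
  rfl

theorem alpha_pow (φ ψ : ↥(W₁ ⊔ W₂) →* ℂˣ) (m : ℕ) :
    (fun u : ↥(W₁ ⊔ W₂) =>
      (fun w : ↥(W₁ ⊔ W₂) => 1 - (φ w : ℂ) - (ψ w : ℂ) + (φ w : ℂ) * (ψ w : ℂ)) (u ^ m)) =
    (fun w : ↥(W₁ ⊔ W₂) =>
      1 - ((φ ^ m) w : ℂ) - ((ψ ^ m) w : ℂ) + ((φ ^ m) w : ℂ) * ((ψ ^ m) w : ℂ)) := by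
  funext u
  simp only [MonoidHom.pow_apply, map_pow]

theorem pw_rel {χ : (↥(W₁ ⊔ W₂) →* ℂˣ) → (G → ℂ)} (hχ : IsCyclicTIFamily W₁ W₂ χ) {m : ℕ}
    (hm : m.Coprime (Nat.card G)) (φ ψ : ↥(W₁ ⊔ W₂) →* ℂˣ) (hφ : φ ≠ 1) (hψ : ψ ≠ 1)
    (hφ₂ : ∀ w : ↥(W₁ ⊔ W₂), (w : G) ∈ W₂ → φ w = 1)
    (hψ₁ : ∀ w : ↥(W₁ ⊔ W₂), (w : G) ∈ W₁ → ψ w = 1) :
    pw m (χ φ) + pw m (χ ψ) - pw m (χ (φ * ψ)) =
      χ (φ ^ m) + χ (ψ ^ m) - χ (φ ^ m * ψ ^ m) := by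
  have hφm : φ ^ m ≠ 1 := hom_pow_ne_one hm hφ
  have hψm : ψ ^ m ≠ 1 := hom_pow_ne_one hm hψ
  have hφm₂ : ∀ w : ↥(W₁ ⊔ W₂), (w : G) ∈ W₂ → (φ ^ m) w = 1 := by
    intro w hw; rw [MonoidHom.pow_apply, hφ₂ w hw, one_pow]
  have hψm₁ : ∀ w : ↥(W₁ ⊔ W₂), (w : G) ∈ W₁ → (ψ ^ m) w = 1 := by
    intro w hw; rw [MonoidHom.pow_apply, hψ₁ w hw, one_pow]
  have e1 := hχ.induced_eq φ ψ hφ hψ hφ₂ hψ₁
  have e2 := hχ.induced_eq (φ ^ m) (ψ ^ m) hφm hψm hφm₂ hψm₁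
  have e3 := pw_indFun (W₁ ⊔ W₂)
    (fun w => 1 - (φ w : ℂ) - (ψ w : ℂ) + (φ w : ℂ) * (ψ w : ℂ)) hm
  rw [alpha_pow, e2, e1] at e3
  funext g
  have := congrFun e3 g
  simp only [pw_apply, Pi.add_apply, Pi.sub_apply] at this ⊢
  linear_combination -this

end Main

end Cfsg.Agent.Lib.Helper2.CycTI
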