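import Cfsg.Agent.Lib.Helper2.CycTI6

set_option autoImplicit false

namespace Cfsg.Agent.Lib.Helper2.CycTI

open Cfsg Cfsg.Agent.Lib.Lead Cfsg.Agent.Lib.Helper2
open scoped ComplexConjugate

section Main

variable {G : Type*} [Group G] [Fintype G] {W₁ W₂ : Subgroup G}

theorem orth₁ {χ : (↥(W₁ ⊔ W₂) →* ℂˣ) → (G → ℂ)} (hχ : IsCyclicTIFamily W₁ W₂ χ)
    (Φ Ψ Ψ' : ↥(W₁ ⊔ W₂) →* ℂˣ) (hΦ : Φ ≠ 1) (hNE : Ψ ≠ Ψ')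
    (hΦ₂ : ∀ w : ↥(W₁ ⊔ W₂), (w : G) ∈ W₂ → Φ w = 1)
    (hΨ₁ : ∀ w : ↥(W₁ ⊔ W₂), (w : G) ∈ W₁ → Ψ w = 1)
    (hΨ₁' : ∀ w : ↥(W₁ ⊔ W₂), (w : G) ∈ W₁ → Ψ' w = 1) (hΨ : Ψ ≠ 1) :
    classInner (χ Φ) (χ Ψ) = 0 ∧ classInner (χ Φ) (χ (Φ * Ψ)) = 0 ∧
    classInner (χ Ψ) (χ Ψ') = 0 ∧ classInner (χ Ψ) (χ (Φ * Ψ')) = 0 ∧
    classInner (χ (Φ * Ψ)) (χ Ψ') = 0 ∧ classInner (χ (Φ * Ψ)) (χ (Φ * Ψ')) = 0 := by
  have f1 : Φ ≠ Ψ := fun h => hΦ (hom_cross Φ 1 1 Ψ hΦ₂ one_triv one_triv hΨ₁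
    (fun w => by have := DFunLike.congr_fun h w; simpa using this)).1
  have f2 : Φ ≠ Φ * Ψ := fun h => hΨ (hom_cross Φ Φ 1 Ψ hΦ₂ hΦ₂ one_triv hΨ₁
    (fun w => by have := DFunLike.congr_fun h w; simpa using this)).2.symm
  have f4 : Ψ ≠ Φ * Ψ' := fun h => hΦ (hom_cross 1 Φ Ψ Ψ' one_triv hΦ₂ hΨ₁ hΨ₁'
    (fun w => by have := DFunLike.congr_fun h w; simpa using this)).1.symm
  have f5 : Φ * Ψ ≠ Ψ' := fun h => hΦ (hom_cross Φ 1 Ψ Ψ' hΦ₂ one_triv hΨ₁ hΨ₁'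
    (fun w => by have := DFunLike.congr_fun h w; simpa using this)).1
  have f6 : Φ * Ψ ≠ Φ * Ψ' := fun h => hNE (hom_cross Φ Φ Ψ Ψ' hΦ₂ hΦ₂ hΨ₁ hΨ₁'
    (fun w => by have := DFunLike.congr_fun h w; simpa using this)).2
  refine ⟨?_, ?_, ?_, ?_, ?_, ?_⟩
  · rw [hχ.orthonormal, if_neg f1]
  · rw [hχ.orthonormal, if_neg f2]
  · rw [hχ.orthonormal, if_neg hNE]
  · rw [hχ.orthonormal, if_neg f4]
  · rw [hχ.orthonormal, if_neg f5]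
  · rw [hχ.orthonormal, if_neg f6]

theorem orth₂ {χ : (↥(W₁ ⊔ W₂) →* ℂˣ) → (G → ℂ)} (hχ : IsCyclicTIFamily W₁ W₂ χ)
    (Ψ Φ Φ' : ↥(W₁ ⊔ W₂) →* ℂˣ) (hΨ : Ψ ≠ 1) (hNE : Φ ≠ Φ')
    (hΨ₁ : ∀ w : ↥(W₁ ⊔ W₂), (w : G) ∈ W₁ → Ψ w = 1)
    (hΦ₂ : ∀ w : ↥(W₁ ⊔ W₂), (w : G) ∈ W₂ → Φ w = 1)
    (hΦ₂' : ∀ w : ↥(W₁ ⊔ W₂), (w : G) ∈ W₂ → Φ' w = 1) (hΦ : Φ ≠ 1) :
    classInner (χ Ψ) (χ Φ) = 0 ∧ classInner (χ Ψ) (χ (Φ * Ψ)) = 0 ∧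
    classInner (χ Φ) (χ Φ') = 0 ∧ classInner (χ Φ) (χ (Φ' * Ψ)) = 0 ∧
    classInner (χ (Φ * Ψ)) (χ Φ') = 0 ∧ classInner (χ (Φ * Ψ)) (χ (Φ' * Ψ)) = 0 := by
  have g1 : Ψ ≠ Φ := fun h => hΦ (hom_cross 1 Φ Ψ 1 one_triv hΦ₂ hΨ₁ one_triv
    (fun w => by have := DFunLike.congr_fun h w; simpa using this)).1.symm
  have g2 : Ψ ≠ Φ * Ψ := fun h => hΦ (hom_cross 1 Φ Ψ Ψ one_triv hΦ₂ hΨ₁ hΨ₁
    (fun w => by have := DFunLike.congr_fun h w; simpa using this)).1.symm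
  have g4 : Φ ≠ Φ' * Ψ := fun h => hΨ (hom_cross Φ Φ' 1 Ψ hΦ₂ hΦ₂' one_triv hΨ₁
    (fun w => by have := DFunLike.congr_fun h w; simpa using this)).2.symm
  have g5 : Φ * Ψ ≠ Φ' := fun h => hΨ (hom_cross Φ Φ' Ψ 1 hΦ₂ hΦ₂' hΨ₁ one_triv
    (fun w => by have := DFunLike.congr_fun h w; simpa using this)).2
  have g6 : Φ * Ψ ≠ Φ' * Ψ := fun h => hNE (hom_cross Φ Φ' Ψ Ψ hΦ₂ hΦ₂' hΨ₁ hΨ₁
    (fun w => by have := DFunLike.congr_fun h w; simpa using this)).1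
  refine ⟨?_, ?_, ?_, ?_, ?_, ?_⟩
  · rw [hχ.orthonormal, if_neg g1]
  · rw [hχ.orthonormal, if_neg g2]
  · rw [hχ.orthonormal, if_neg hNE]
  · rw [hχ.orthonormal, if_neg g4]
  · rw [hχ.orthonormal, if_neg g5]
  · rw [hχ.orthonormal, if_neg g6]

theorem hom_pow_triv (S : Subgroup G) {φ : ↥(W₁ ⊔ W₂) →* ℂˣ} (m : ℕ)
    (h : ∀ w : ↥(W₁ ⊔ W₂), (w : G) ∈ S → φ w = 1) :
    ∀ w : ↥(W₁ ⊔ W₂), (w : G) ∈ S → (φ ^ m) w = 1 := by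
  intro w hw; rw [MonoidHom.pow_apply, h w hw, one_pow]

theorem equiv₁ {χ : (↥(W₁ ⊔ W₂) →* ℂˣ) → (G → ℂ)} (hχ : IsCyclicTIFamily W₁ W₂ χ) {m : ℕ}
    (hm : m.Coprime (Nat.card G))
    (φ ψ ψ' : ↥(W₁ ⊔ W₂) →* ℂˣ) (hφ : φ ≠ 1) (hψ : ψ ≠ 1) (hψ' : ψ' ≠ 1) (hne : ψ ≠ ψ')
    (hφ₂ : ∀ w : ↥(W₁ ⊔ W₂), (w : G) ∈ W₂ → φ w = 1)
    (hψ₁ : ∀ w : ↥(W₁ ⊔ W₂), (w : G) ∈ W₁ → ψ w = 1)
    (hψ₁' : ∀ w : ↥(W₁ ⊔ W₂), (w : G) ∈ W₁ → ψ' w = 1) :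
    pw m (χ φ) = χ (φ ^ m) := by
  have hΦ : φ ^ m ≠ 1 := hom_pow_ne_one hm hφ
  have hΨ : ψ ^ m ≠ 1 := hom_pow_ne_one hm hψ
  have hNE : ψ ^ m ≠ ψ' ^ m := fun h => hne (hom_pow_inj hm h)
  have R := pw_rel hχ hm φ ψ hφ hψ hφ₂ hψ₁
  have R' := pw_rel hχ hm φ ψ' hφ hψ' hφ₂ hψ₁'
  obtain ⟨o1, o2, o3, o4, o5, o6⟩ := orth₁ hχ (φ ^ m) (ψ ^ m) (ψ' ^ m) hΦ hNE
    (hom_pow_triv W₂ m hφ₂) (hom_pow_triv W₁ m hψ₁) (hom_pow_triv W₁ m hψ₁') hΨ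
  obtain ⟨p1, p2, -, -, -, -⟩ := orth₁ hχ φ ψ ψ' hφ hne hφ₂ hψ₁ hψ₁' hψ
  obtain ⟨p1', p2', -, -, -, -⟩ := orth₁ hχ φ ψ' ψ hφ hne.symm hφ₂ hψ₁' hψ₁ hψ'
  have self : classInner (χ φ) (χ φ) = 1 := by rw [hχ.orthonormal, if_pos rfl]
  apply sirr_select (sirr_pw hm (hχ.irr_or_neg φ)) (hχ.irr_or_neg _) (hχ.irr_or_neg _)
    (hχ.irr_or_neg _) o1 o2 o3 o4 o5 o6
  · have : classInner (pw m (χ φ)) (χ (φ ^ m) + χ (ψ ^ m) - χ (φ ^ m * ψ ^ m)) = 1 := by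
      rw [← R, classInner_sub_right, classInner_add_right, pw_inner hm, pw_inner hm,
        pw_inner hm, self, p1, p2]
      ring
    rw [classInner_sub_right, classInner_add_right] at this
    exact this
  · have : classInner (pw m (χ φ)) (χ (φ ^ m) + χ (ψ' ^ m) - χ (φ ^ m * ψ' ^ m)) = 1 := by
      rw [← R', classInner_sub_right, classInner_add_right, pw_inner hm, pw_inner hm,
        pw_inner hm, self, p1', p2']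
      ring
    rw [classInner_sub_right, classInner_add_right] at this
    exact this

theorem equiv₂ {χ : (↥(W₁ ⊔ W₂) →* ℂˣ) → (G → ℂ)} (hχ : IsCyclicTIFamily W₁ W₂ χ) {m : ℕ}
    (hm : m.Coprime (Nat.card G))
    (ψ φ φ' : ↥(W₁ ⊔ W₂) →* ℂˣ) (hψ : ψ ≠ 1) (hφ : φ ≠ 1) (hφ' : φ' ≠ 1) (hne : φ ≠ φ')
    (hψ₁ : ∀ w : ↥(W₁ ⊔ W₂), (w : G) ∈ W₁ → ψ w = 1)
    (hφ₂ : ∀ w : ↥(W₁ ⊔ W₂), (w : G) ∈ W₂ → φ w = 1)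
    (hφ₂' : ∀ w : ↥(W₁ ⊔ W₂), (w : G) ∈ W₂ → φ' w = 1) :
    pw m (χ ψ) = χ (ψ ^ m) := by
  have hΦ : φ ^ m ≠ 1 := hom_pow_ne_one hm hφ
  have hΨ : ψ ^ m ≠ 1 := hom_pow_ne_one hm hψ
  have hNE : φ ^ m ≠ φ' ^ m := fun h => hne (hom_pow_inj hm h)
  have R := pw_rel hχ hm φ ψ hφ hψ hφ₂ hψ₁
  have R' := pw_rel hχ hm φ' ψ hφ' hψ hφ₂' hψ₁
  obtain ⟨o1, o2, o3, o4, o5, o6⟩ := orth₂ hχ (ψ ^ m) (φ ^ m) (φ' ^ m) hΨ hNE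
    (hom_pow_triv W₁ m hψ₁) (hom_pow_triv W₂ m hφ₂) (hom_pow_triv W₂ m hφ₂') hΦ
  obtain ⟨p1, p2, -, -, -, -⟩ := orth₂ hχ ψ φ φ' hψ hne hψ₁ hφ₂ hφ₂' hφ
  obtain ⟨p1', p2', -, -, -, -⟩ := orth₂ hχ ψ φ' φ hψ hne.symm hψ₁ hφ₂' hφ₂ hφ'
  have self : classInner (χ ψ) (χ ψ) = 1 := by rw [hχ.orthonormal, if_pos rfl]
  apply sirr_select (sirr_pw hm (hχ.irr_or_neg ψ)) (hχ.irr_or_neg _) (hχ.irr_or_neg _)
    (hχ.irr_or_neg _) o1 o2 o3 o4 o5 o6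
  · have : classInner (pw m (χ ψ)) (χ (φ ^ m) + χ (ψ ^ m) - χ (φ ^ m * ψ ^ m)) = 1 := by
      rw [← R, classInner_sub_right, classInner_add_right, pw_inner hm, pw_inner hm,
        pw_inner hm, self, p1, p2]
      ring
    rw [classInner_sub_right, classInner_add_right] at this
    rw [← this]; ring
  · have : classInner (pw m (χ ψ)) (χ (φ' ^ m) + χ (ψ ^ m) - χ (φ' ^ m * ψ ^ m)) = 1 := by
      rw [← R', classInner_sub_right, classInner_add_right, pw_inner hm, pw_inner hm,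
        pw_inner hm, self, p1', p2']
      ring
    rw [classInner_sub_right, classInner_add_right] at this
    rw [← this]; ring

theorem equivariant (hW : IsSelfNormalizingCyclic W₁ W₂) (hodd : Odd (Nat.card ↥(W₁ ⊔ W₂)))
    {χ : (↥(W₁ ⊔ W₂) →* ℂˣ) → (G → ℂ)} (hχ : IsCyclicTIFamily W₁ W₂ χ) {m : ℕ}
    (hm : m.Coprime (Nat.card G)) (ω : ↥(W₁ ⊔ W₂) →* ℂˣ) : pw m (χ ω) = χ (ω ^ m) := by
  have hdisj := hW.2.2.1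
  have hcomm := hW.2.2.2.1
  obtain ⟨φ₀, hφ₀, hφ₀₂⟩ := exists_nontriv₁ hW
  obtain ⟨ψ₀, hψ₀, hψ₀₁⟩ := exists_nontriv₂ hW
  have hφ₀' : ∀ w : ↥(W₁ ⊔ W₂), (w : G) ∈ W₂ → φ₀⁻¹ w = 1 := by
    intro w hw; rw [MonoidHom.inv_apply, hφ₀₂ w hw, inv_one]
  have hψ₀' : ∀ w : ↥(W₁ ⊔ W₂), (w : G) ∈ W₁ → ψ₀⁻¹ w = 1 := by
    intro w hw; rw [MonoidHom.inv_apply, hψ₀₁ w hw, inv_one]
  have E₁ : ∀ φ : ↥(W₁ ⊔ W₂) →* ℂˣ, φ ≠ 1 →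
      (∀ w : ↥(W₁ ⊔ W₂), (w : G) ∈ W₂ → φ w = 1) → pw m (χ φ) = χ (φ ^ m) :=
    fun φ hφ hφ₂ => equiv₁ hχ hm φ ψ₀ ψ₀⁻¹ hφ hψ₀ (hom_inv_ne_one hψ₀) (hom_inv_ne hodd hψ₀)
      hφ₂ hψ₀₁ hψ₀'
  have E₂ : ∀ ψ : ↥(W₁ ⊔ W₂) →* ℂˣ, ψ ≠ 1 →
      (∀ w : ↥(W₁ ⊔ W₂), (w : G) ∈ W₁ → ψ w = 1) → pw m (χ ψ) = χ (ψ ^ m) :=
    fun ψ hψ hψ₁ => equiv₂ hχ hm ψ φ₀ φ₀⁻¹ hψ hφ₀ (hom_inv_ne_one hφ₀) (hom_inv_ne hodd hφ₀)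
      hψ₁ hφ₀₂ hφ₀'
  obtain ⟨φ, ψ, hφ₂, hψ₁, hmul⟩ : ∃ φ ψ : ↥(W₁ ⊔ W₂) →* ℂˣ,
      (∀ w : ↥(W₁ ⊔ W₂), (w : G) ∈ W₂ → φ w = 1) ∧
      (∀ w : ↥(W₁ ⊔ W₂), (w : G) ∈ W₁ → ψ w = 1) ∧ ∀ w, ω w = φ w * ψ w := by
    refine ⟨part₁ hdisj hcomm ω, part₂ hdisj hcomm ω, part₁_triv hdisj hcomm ω,
      part₂_triv hdisj hcomm ω, fun w => ?_⟩
    have := DFunLike.congr_fun (part_mul hdisj hcomm ω) w
    rw [MonoidHom.mul_apply] at this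
    exact this.symm
  by_cases h1 : φ = 1
  · by_cases h2 : ψ = 1
    · have hω : ω = 1 := by
        apply MonoidHom.ext; intro w; rw [hmul w, h1, h2]; simp
      rw [hω]
      have : (1 : ↥(W₁ ⊔ W₂) →* ℂˣ) ^ m = 1 := by
        apply MonoidHom.ext; intro w; simp [MonoidHom.pow_apply]
      rw [this, hχ.map_one]
      rfl
    · have hω : ω = ψ := by
        apply MonoidHom.ext; intro w; rw [hmul w, h1]; simp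
      rw [hω]; exact E₂ ψ h2 hψ₁
  · by_cases h2 : ψ = 1
    · have hω : ω = φ := by
        apply MonoidHom.ext; intro w; rw [hmul w, h2]; simp
      rw [hω]; exact E₁ φ h1 hφ₂
    · have hω : ω = φ * ψ := by
        apply MonoidHom.ext; intro w; rw [hmul w, MonoidHom.mul_apply]
      have hpow : ω ^ m = φ ^ m * ψ ^ m := by
        apply MonoidHom.ext; intro w
        rw [MonoidHom.pow_apply, MonoidHom.mul_apply, MonoidHom.pow_apply, MonoidHom.pow_apply,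
          hmul w, mul_pow]
      have R := pw_rel hχ hm φ ψ h1 h2 hφ₂ hψ₁
      rw [E₁ φ h1 hφ₂, E₂ ψ h2 hψ₁] at R
      rw [hpow, hω]
      exact sub_right_injective R

theorem int_value (hW : IsSelfNormalizingCyclic W₁ W₂) (hodd : Odd (Nat.card ↥(W₁ ⊔ W₂)))
    (χ : (↥(W₁ ⊔ W₂) →* ℂˣ) → (G → ℂ)) (hχ : IsCyclicTIFamily W₁ W₂ χ)
    (ω : ↥(W₁ ⊔ W₂) →* ℂˣ) (g : G) (hg : Nat.Coprime (orderOf g) (orderOf ω)) :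
    ∃ n : ℤ, χ ω g = n := by
  have hN : Nat.card G ≠ 0 := Nat.card_pos.ne'
  have hfix : ∀ k : ℕ, k.Coprime (Nat.card G) → χ ω (g ^ k) = χ ω g := by
    intro k hk
    have hd₁ : orderOf g ∣ Nat.card G := orderOf_dvd_natCard g
    have hd₂ : orderOf ω ∣ Nat.card G := by
      have h1 : orderOf ω ∣ Nat.card ↥(W₁ ⊔ W₂) := by
        apply orderOf_dvd_of_pow_eq_one
        apply MonoidHom.ext; intro w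
        rw [MonoidHom.pow_apply, hom_apply_pow_card]; rfl
      exact h1.trans (Subgroup.card_subgroup_dvd_card _)
    have hd : orderOf g * orderOf ω ∣ Nat.card G :=
      Nat.Coprime.mul_dvd_of_dvd_of_dvd hg hd₁ hd₂
    obtain ⟨m₀, hm₀1, hm₀2⟩ := Nat.chineseRemainder hg k 1
    have hcop0 : m₀.Coprime (orderOf g * orderOf ω) := by
      apply Nat.Coprime.mul_right
      · have := Nat.ModEq.gcd_eq hm₀1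
        unfold Nat.Coprime; rw [this]; exact Nat.Coprime.coprime_dvd_right hd₁ hk
      · have := Nat.ModEq.gcd_eq hm₀2
        unfold Nat.Coprime; rw [this]; exact Nat.gcd_one_left _
    obtain ⟨m, hm, hmm⟩ := exists_coprime_lift hN hd hcop0
    have hm1 : m ≡ k [MOD orderOf g] := (hmm.of_dvd (dvd_mul_right _ _)).trans hm₀1
    have hm2 : m ≡ 1 [MOD orderOf ω] := (hmm.of_dvd (dvd_mul_left _ _)).trans hm₀2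
    have e1 : g ^ k = g ^ m := by rw [pow_eq_pow_iff_modEq]; exact hm1.symm
    have e2 : ω ^ m = ω := by
      have h' : ω ^ m = ω ^ 1 := (pow_eq_pow_iff_modEq (x := ω)).mpr hm2
      apply MonoidHom.ext; intro w
      have := DFunLike.congr_fun h' w
      simpa [MonoidHom.pow_apply] using this
    have e3 := congrFun (equivariant hW hodd hχ hm ω) g
    rw [pw_apply, e2] at e3
    rw [e1, e3]
  rcases hχ.irr_or_neg ω with h | h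
  · have hc := isCharacter_of_isIrrCharacter h
    obtain ⟨q, hq⟩ := isCharacter_rat_of_forall_pow_eq hc g hfix
    have hint : IsIntegral ℤ ((q : ℂ)) := by rw [← hq]; exact isCharacter_isIntegral hc g
    obtain ⟨z, hz⟩ := rat_isIntegral_int q hint
    exact ⟨z, by rw [hq, hz]; simp⟩
  · have hc := isCharacter_of_isIrrCharacter h
    have hfix' : ∀ k : ℕ, k.Coprime (Nat.card G) → (-χ ω) (g ^ k) = (-χ ω) g := by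
      intro k hk; simp only [Pi.neg_apply]; rw [hfix k hk]
    obtain ⟨q, hq⟩ := isCharacter_rat_of_forall_pow_eq hc g hfix'
    have hint : IsIntegral ℤ ((q : ℂ)) := by rw [← hq]; exact isCharacter_isIntegral hc g
    obtain ⟨z, hz⟩ := rat_isIntegral_int q hint
    refine ⟨-z, ?_⟩
    have : χ ω g = -((-χ ω) g) := by simp
    rw [this, hq, hz]; simp

end Main

end Cfsg.Agent.Lib.Helper2.CycTI
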