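import Cfsg.Agent.Lib.Helper2.CycTI7
import Cfsg.Agent.S1506

set_option autoImplicit false

namespace Cfsg.Agent.Lib.Helper2.CycTI

open Cfsg Cfsg.Agent.Lib.Lead Cfsg.Agent.Lib.Helper2
open scoped ComplexConjugate

section Matrix

theorem card_two_images {α β γ : Type*} [DecidableEq γ] (s : Finset α) (t : Finset β)
    (f : α → γ) (g : β → γ) (hf : Function.Injective f) (hg : Function.Injective g)
    (hd : ∀ a ∈ s, ∀ b ∈ t, f a ≠ g b) :
    (s.image f ∪ t.image g).card = s.card + t.card := by
  rw [Finset.card_union_of_disjoint, Finset.card_image_of_injective _ hf,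
    Finset.card_image_of_injective _ hg]
  rw [Finset.disjoint_left]
  intro x hx hx'
  obtain ⟨a, ha, rfl⟩ := Finset.mem_image.mp hx
  obtain ⟨b, hb, hb'⟩ := Finset.mem_image.mp hx'
  exact hd a ha b hb hb'.symm

theorem matrix_lemma {I J : Type*} [Finite I] [Finite J] (r : I → ℂ) (c : J → ℂ) (n : ℕ)
    (hI : n ≤ Nat.card I) (hJ : n + 2 ≤ Nat.card J) (hn : 1 ≤ n)
    (hfew : Nat.card {p : I × J // r p.1 + c p.2 ≠ 0} < 2 * n) :
    (∀ i j, r i + c j = 0) ∨
      (∃ (j₀ : J) (a : ℂ), ∀ i j, (j = j₀ → r i + c j = a) ∧ (j ≠ j₀ → r i + c j = 0)) ∨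
      (∃ (i₀ : I) (a : ℂ), ∀ i j, (i = i₀ → r i + c j = a) ∧ (i ≠ i₀ → r i + c j = 0)) := by
  classical
  letI : Fintype I := Fintype.ofFinite I
  letI : Fintype J := Fintype.ofFinite J
  rw [Nat.card_eq_fintype_card] at hI hJ
  have hNZ : Nat.card {p : I × J // r p.1 + c p.2 ≠ 0} =
      (Finset.univ.filter (fun p : I × J => r p.1 + c p.2 ≠ 0)).card := by
    rw [Nat.card_eq_fintype_card, Fintype.card_subtype]
  have key : ∀ S : Finset (I × J), (∀ p ∈ S, r p.1 + c p.2 ≠ 0) → S.card < 2 * n := by
    intro S hS
    refine lt_of_le_of_lt (Finset.card_le_card (fun p hp => ?_)) (hNZ ▸ hfew)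
    exact Finset.mem_filter.mpr ⟨Finset.mem_univ _, hS p hp⟩
  by_cases hall : ∀ i j, r i + c j = 0
  · exact Or.inl hall
  right
  push Not at hall
  obtain ⟨i₀, j₀, h₀⟩ := hall
  by_cases hr : ∀ i i', r i = r i'
  · -- columns are constant
    left
    refine ⟨j₀, r i₀ + c j₀, fun i j => ⟨fun hj => ?_, fun hj => ?_⟩⟩
    · rw [hj, hr i i₀]
    · by_contra hne
      have := key (Finset.univ.image (fun i : I => (i, j₀)) ∪
        Finset.univ.image (fun i : I => (i, j))) (by
        intro p hp
        rcases Finset.mem_union.mp hp with hp | hp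
        · obtain ⟨i', _, rfl⟩ := Finset.mem_image.mp hp
          show r i' + c j₀ ≠ 0
          rw [hr i' i₀]; exact h₀
        · obtain ⟨i', _, rfl⟩ := Finset.mem_image.mp hp
          show r i' + c j ≠ 0
          rw [hr i' i]; exact hne)
      rw [card_two_images _ _ _ _ (fun a b h => (Prod.mk.inj h).1)
        (fun a b h => (Prod.mk.inj h).1)
        (fun a _ b _ h => hj (Prod.mk.inj h).2.symm)] at this
      rw [Finset.card_univ] at this
      omega
  · by_cases hc : ∀ j j', c j = c j'
    · right
      refine ⟨i₀, r i₀ + c j₀, fun i j => ⟨fun hi => ?_, fun hi => ?_⟩⟩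
      · rw [hi, hc j j₀]
      · by_contra hne
        have := key (Finset.univ.image (fun j : J => (i₀, j)) ∪
          Finset.univ.image (fun j : J => (i, j))) (by
          intro p hp
          rcases Finset.mem_union.mp hp with hp | hp
          · obtain ⟨j', _, rfl⟩ := Finset.mem_image.mp hp
            show r i₀ + c j' ≠ 0
            rw [hc j' j₀]; exact h₀
          · obtain ⟨j', _, rfl⟩ := Finset.mem_image.mp hp
            show r i + c j' ≠ 0
            rw [hc j' j]; exact hne)
        rw [card_two_images _ _ _ _ (fun a b h => (Prod.mk.inj h).2)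
          (fun a b h => (Prod.mk.inj h).2)
          (fun a _ b _ h => hi (Prod.mk.inj h).1.symm)] at this
        rw [Finset.card_univ] at this
        omega
    · exfalso
      push Not at hr hc
      obtain ⟨ia, ib, hab⟩ := hr
      obtain ⟨ja, jb, hjab⟩ := hc
      by_cases hB : ∃ js, ∀ j, j ≠ js → ∀ j', j' ≠ js → c j = c j'
      · obtain ⟨js, hjs⟩ := hB
        obtain ⟨j₁, hj₁⟩ : ∃ j₁, j₁ ≠ js := by
          by_contra hcon
          push Not at hcon
          have : Fintype.card J ≤ 1 :=
            Fintype.card_le_one_iff.mpr (fun a b => by rw [hcon a, hcon b])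
          omega
        have hγ : c js ≠ c j₁ := by
          intro h
          apply hjab
          have e : ∀ j, c j = c j₁ := by
            intro j
            by_cases hj : j = js
            · rw [hj, h]
            · exact hjs j hj j₁ hj₁
          rw [e ja, e jb]
        obtain ⟨i₂, hi₂⟩ : ∃ i₂, r i₂ + c j₁ ≠ 0 := by
          by_contra hcon
          push Not at hcon
          apply hab
          have e1 := hcon ia
          have e2 := hcon ib
          linear_combination e1 - e2
        let g : I → J := fun i => if r i + c js ≠ 0 then js else j₁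
        have hg : ∀ i, r i + c (g i) ≠ 0 := by
          intro i
          by_cases h : r i + c js ≠ 0
          · simp only [g, if_pos h]; exact h
          · simp only [g, if_neg h]
            push Not at h
            intro h'
            apply hγ
            linear_combination h - h'
        have := key ((Finset.univ.erase js).image (fun j : J => (i₂, j)) ∪
          (Finset.univ.erase i₂).image (fun i : I => (i, g i))) (by
          intro p hp
          rcases Finset.mem_union.mp hp with hp | hp
          · obtain ⟨j', hj', rfl⟩ := Finset.mem_image.mp hp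
            show r i₂ + c j' ≠ 0
            rw [hjs j' (Finset.ne_of_mem_erase hj') j₁ hj₁]; exact hi₂
          · obtain ⟨i', _, rfl⟩ := Finset.mem_image.mp hp
            exact hg i')
        rw [card_two_images _ _ _ _ (fun a b h => (Prod.mk.inj h).2)
          (fun a b h => (Prod.mk.inj h).1)
          (fun a _ b hb h => (Finset.ne_of_mem_erase hb) (Prod.mk.inj h).1.symm)] at this
        rw [Finset.card_erase_of_mem (Finset.mem_univ _),
          Finset.card_erase_of_mem (Finset.mem_univ _), Finset.card_univ, Finset.card_univ]
          at this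
        omega
      · push Not at hB
        have hrow : ∀ i, ∃ j₁ j₂, j₁ ≠ j₂ ∧ r i + c j₁ ≠ 0 ∧ r i + c j₂ ≠ 0 := by
          intro i
          obtain ⟨j₁, hj₁⟩ : ∃ j₁, r i + c j₁ ≠ 0 := by
            by_contra hcon
            push Not at hcon
            apply hjab
            linear_combination hcon ja - hcon jb
          obtain ⟨j, hj, j', hj', hne⟩ := hB j₁
          by_cases h : r i + c j = 0
          · refine ⟨j₁, j', fun e => hj' e.symm, hj₁, ?_⟩
            intro h'
            apply hne
            linear_combination h - h'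
          · exact ⟨j₁, j, fun e => hj e.symm, hj₁, h⟩
        choose g₁ g₂ hne h1 h2 using hrow
        have := key (Finset.univ.image (fun i : I => (i, g₁ i)) ∪
          Finset.univ.image (fun i : I => (i, g₂ i))) (by
          intro p hp
          rcases Finset.mem_union.mp hp with hp | hp
          · obtain ⟨i', _, rfl⟩ := Finset.mem_image.mp hp
            exact h1 i'
          · obtain ⟨i', _, rfl⟩ := Finset.mem_image.mp hp
            exact h2 i')
        rw [card_two_images _ _ _ _ (fun a b h => (Prod.mk.inj h).1)
          (fun a b h => (Prod.mk.inj h).1)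
          (fun a _ b _ h => by
            have e1 := (Prod.mk.inj h).1
            have e2 := (Prod.mk.inj h).2
            subst e1
            exact hne a e2)] at this
        rw [Finset.card_univ] at this
        omega

end Matrix

end Cfsg.Agent.Lib.Helper2.CycTI
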