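import Cfsg.Agent.Lib.Helper2.CycTI8

set_option autoImplicit false

namespace Cfsg.Agent.Lib.Helper2.CycTI

open Cfsg Cfsg.Agent.Lib.Lead Cfsg.Agent.Lib.Helper2
open scoped ComplexConjugate

theorem card_hom_comm {H : Type*} [Group H] [Finite H] (hc : ∀ a b : H, a * b = b * a) :
    Nat.card (H →* ℂˣ) = Nat.card H := by
  letI : CommGroup H := { ‹Group H› with mul_comm := hc }
  haveI : NeZero (Monoid.exponent H) := ⟨Monoid.exponent_ne_zero_of_finite⟩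
  haveI : NeZero ((Monoid.exponent H : ℕ) : ℂ) :=
    ⟨by exact_mod_cast Monoid.exponent_ne_zero_of_finite⟩
  exact CommGroup.card_monoidHom_of_hasEnoughRootsOfUnity H ℂ

section Lift

variable {G : Type*} [Group G] {W₁ W₂ : Subgroup G}

/-- lift of a character of `W₁` to `W` -/
noncomputable def lift₁ (hdisj : W₁ ⊓ W₂ = ⊥) (hcomm : ∀ a ∈ W₁, ∀ b ∈ W₂, a * b = b * a)
    (ω₁ : W₁ →* ℂˣ) : ↥(W₁ ⊔ W₂) →* ℂˣ :=
  ω₁.comp ((MonoidHom.fst W₁ W₂).comp (prodEquiv hdisj hcomm).symm.toMonoidHom)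

/-- lift of a character of `W₂` to `W` -/
noncomputable def lift₂ (hdisj : W₁ ⊓ W₂ = ⊥) (hcomm : ∀ a ∈ W₁, ∀ b ∈ W₂, a * b = b * a)
    (ω₂ : W₂ →* ℂˣ) : ↥(W₁ ⊔ W₂) →* ℂˣ :=
  ω₂.comp ((MonoidHom.snd W₁ W₂).comp (prodEquiv hdisj hcomm).symm.toMonoidHom)

theorem lift₁_triv (hdisj : W₁ ⊓ W₂ = ⊥) (hcomm : ∀ a ∈ W₁, ∀ b ∈ W₂, a * b = b * a)
    (ω₁ : W₁ →* ℂˣ) (w : ↥(W₁ ⊔ W₂)) (hw : (w : G) ∈ W₂) : lift₁ hdisj hcomm ω₁ w = 1 := by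
  show ω₁ ((prodEquiv hdisj hcomm).symm w).1 = 1
  rw [prodEquiv_symm_right hdisj hcomm w hw]; exact map_one ω₁

theorem lift₂_triv (hdisj : W₁ ⊓ W₂ = ⊥) (hcomm : ∀ a ∈ W₁, ∀ b ∈ W₂, a * b = b * a)
    (ω₂ : W₂ →* ℂˣ) (w : ↥(W₁ ⊔ W₂)) (hw : (w : G) ∈ W₁) : lift₂ hdisj hcomm ω₂ w = 1 := by
  show ω₂ ((prodEquiv hdisj hcomm).symm w).2 = 1
  rw [prodEquiv_symm_left hdisj hcomm w hw]; exact map_one ω₂

theorem lift₁_apply (hdisj : W₁ ⊓ W₂ = ⊥) (hcomm : ∀ a ∈ W₁, ∀ b ∈ W₂, a * b = b * a)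
    (ω₁ : W₁ →* ℂˣ) (a : W₁) :
    lift₁ hdisj hcomm ω₁ ⟨a, Subgroup.mem_sup_left a.2⟩ = ω₁ a := by
  show ω₁ ((prodEquiv hdisj hcomm).symm _).1 = ω₁ a
  rw [prodEquiv_symm_left hdisj hcomm _ a.2]

theorem lift₂_apply (hdisj : W₁ ⊓ W₂ = ⊥) (hcomm : ∀ a ∈ W₁, ∀ b ∈ W₂, a * b = b * a)
    (ω₂ : W₂ →* ℂˣ) (b : W₂) :
    lift₂ hdisj hcomm ω₂ ⟨b, Subgroup.mem_sup_right b.2⟩ = ω₂ b := by
  show ω₂ ((prodEquiv hdisj hcomm).symm _).2 = ω₂ b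
  rw [prodEquiv_symm_right hdisj hcomm _ b.2]

end Lift

section Few

variable {G : Type*} [Group G] [Fintype G] {W₁ W₂ : Subgroup G}

theorem finite_hom (hW : IsSelfNormalizingCyclic W₁ W₂) : Finite (↥(W₁ ⊔ W₂) →* ℂˣ) := by
  have hcard := card_hom (G := G) hW
  have hWpos : 0 < Nat.card ↥(W₁ ⊔ W₂) := Nat.card_pos
  exact Nat.finite_of_card_ne_zero (by omega)

theorem card_A_ge (hW : IsSelfNormalizingCyclic W₁ W₂) :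
    Nat.card W₁ ≤ Nat.card {φ : ↥(W₁ ⊔ W₂) →* ℂˣ //
      ∀ w : ↥(W₁ ⊔ W₂), (w : G) ∈ W₂ → φ w = 1} := by
  have hdisj := hW.2.2.1
  have hcomm := hW.2.2.2.1
  haveI := finite_hom hW
  rw [← card_hom_comm (H := W₁) (fun a b => Subtype.ext
    (w_comm hW (Subgroup.mem_sup_left a.2) (Subgroup.mem_sup_left b.2)))]
  apply Nat.card_le_card_of_injective
    (fun ω₁ : W₁ →* ℂˣ => (⟨lift₁ hdisj hcomm ω₁, lift₁_triv hdisj hcomm ω₁⟩ :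
      {φ : ↥(W₁ ⊔ W₂) →* ℂˣ // ∀ w : ↥(W₁ ⊔ W₂), (w : G) ∈ W₂ → φ w = 1}))
  intro ω₁ ω₁' h
  apply MonoidHom.ext; intro a
  have h' : lift₁ hdisj hcomm ω₁ = lift₁ hdisj hcomm ω₁' := congrArg Subtype.val h
  have := DFunLike.congr_fun h' ⟨a, Subgroup.mem_sup_left a.2⟩
  rw [lift₁_apply, lift₁_apply] at this
  exact this

theorem card_B_ge (hW : IsSelfNormalizingCyclic W₁ W₂) :
    Nat.card W₂ ≤ Nat.card {ψ : ↥(W₁ ⊔ W₂) →* ℂˣ //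
      ∀ w : ↥(W₁ ⊔ W₂), (w : G) ∈ W₁ → ψ w = 1} := by
  have hdisj := hW.2.2.1
  have hcomm := hW.2.2.2.1
  haveI := finite_hom hW
  rw [← card_hom_comm (H := W₂) (fun a b => Subtype.ext
    (w_comm hW (Subgroup.mem_sup_right a.2) (Subgroup.mem_sup_right b.2)))]
  apply Nat.card_le_card_of_injective
    (fun ω₂ : W₂ →* ℂˣ => (⟨lift₂ hdisj hcomm ω₂, lift₂_triv hdisj hcomm ω₂⟩ :
      {ψ : ↥(W₁ ⊔ W₂) →* ℂˣ // ∀ w : ↥(W₁ ⊔ W₂), (w : G) ∈ W₁ → ψ w = 1}))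
  intro ω₂ ω₂' h
  apply MonoidHom.ext; intro a
  have h' : lift₂ hdisj hcomm ω₂ = lift₂ hdisj hcomm ω₂' := congrArg Subtype.val h
  have := DFunLike.congr_fun h' ⟨a, Subgroup.mem_sup_right a.2⟩
  rw [lift₂_apply, lift₂_apply] at this
  exact this

theorem few (hW : IsSelfNormalizingCyclic W₁ W₂) (hodd : Odd (Nat.card ↥(W₁ ⊔ W₂)))
    (χ : (↥(W₁ ⊔ W₂) →* ℂˣ) → (G → ℂ)) (hχ : IsCyclicTIFamily W₁ W₂ χ)
    (hlt : Nat.card W₁ < Nat.card W₂) (θ : G → ℂ) (hθ : IsClassFunction G θ)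
    (hθV : ∀ w : ↥(W₁ ⊔ W₂), (w : G) ∉ W₁ → (w : G) ∉ W₂ → θ w = 0)
    (hfew : Nat.card {ω : ↥(W₁ ⊔ W₂) →* ℂˣ // classInner θ (χ ω) ≠ 0} < 2 * Nat.card W₁) :
    (∀ ω, classInner θ (χ ω) = 0) ∨
    (∃ (ψ₀ : ↥(W₁ ⊔ W₂) →* ℂˣ) (a : ℂ), ∀ ω,
      ((∀ w : ↥(W₁ ⊔ W₂), (w : G) ∈ W₂ → (ω * ψ₀⁻¹) w = 1) → classInner θ (χ ω) = a) ∧
      (¬ (∀ w : ↥(W₁ ⊔ W₂), (w : G) ∈ W₂ → (ω * ψ₀⁻¹) w = 1) → classInner θ (χ ω) = 0)) ∨
    (∃ (φ₀ : ↥(W₁ ⊔ W₂) →* ℂˣ) (a : ℂ), ∀ ω,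
      ((∀ w : ↥(W₁ ⊔ W₂), (w : G) ∈ W₁ → (ω * φ₀⁻¹) w = 1) → classInner θ (χ ω) = a) ∧
      (¬ (∀ w : ↥(W₁ ⊔ W₂), (w : G) ∈ W₁ → (ω * φ₀⁻¹) w = 1) → classInner θ (χ ω) = 0)) := by
  classical
  have hdisj := hW.2.2.1
  have hcomm := hW.2.2.2.1
  haveI := finite_hom hW
  let a : (↥(W₁ ⊔ W₂) →* ℂˣ) → ℂ := fun ω => classInner θ (χ ω)
  let r : {φ : ↥(W₁ ⊔ W₂) →* ℂˣ // ∀ w : ↥(W₁ ⊔ W₂), (w : G) ∈ W₂ → φ w = 1} → ℂ :=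
    fun i => a (i.1 * 1) - a (1 * 1)
  let c : {ψ : ↥(W₁ ⊔ W₂) →* ℂˣ // ∀ w : ↥(W₁ ⊔ W₂), (w : G) ∈ W₁ → ψ w = 1} → ℂ :=
    fun j => a (1 * j.1)
  have hrc : ∀ (i : {φ : ↥(W₁ ⊔ W₂) →* ℂˣ // ∀ w : ↥(W₁ ⊔ W₂), (w : G) ∈ W₂ → φ w = 1})
      (j : {ψ : ↥(W₁ ⊔ W₂) →* ℂˣ // ∀ w : ↥(W₁ ⊔ W₂), (w : G) ∈ W₁ → ψ w = 1}),
      a (i.1 * j.1) = r i + c j := by
    intro i j
    have := Cfsg.Agent.S1506.result W₁ W₂ hW χ hχ θ hθ hθV i.1 1 j.1 1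
      (fun w hw => ⟨i.2 w hw, rfl⟩) (fun w hw => ⟨j.2 w hw, rfl⟩)
    show classInner θ (χ (i.1 * j.1)) =
      (classInner θ (χ (i.1 * 1)) - classInner θ (χ (1 * 1))) + classInner θ (χ (1 * j.1))
    linear_combination this
  have hWcard : Nat.card ↥(W₁ ⊔ W₂) = Nat.card W₁ * Nat.card W₂ := by
    rw [← Nat.card_prod]; exact (Nat.card_congr (prodEquiv hdisj hcomm).toEquiv).symm
  have hodd' : Odd (Nat.card W₁) ∧ Odd (Nat.card W₂) := by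
    rw [hWcard] at hodd; exact Nat.odd_mul.mp hodd
  have hn1 : 1 ≤ Nat.card W₁ := Nat.card_pos
  have hI := card_A_ge hW
  have hJ : Nat.card W₁ + 2 ≤ Nat.card {ψ : ↥(W₁ ⊔ W₂) →* ℂˣ //
      ∀ w : ↥(W₁ ⊔ W₂), (w : G) ∈ W₁ → ψ w = 1} := by
    have := card_B_ge hW
    obtain ⟨k, hk⟩ := hodd'.1
    obtain ⟨l, hl⟩ := hodd'.2
    omega
  have hcount : Nat.card {p : {φ : ↥(W₁ ⊔ W₂) →* ℂˣ //
        ∀ w : ↥(W₁ ⊔ W₂), (w : G) ∈ W₂ → φ w = 1} × {ψ : ↥(W₁ ⊔ W₂) →* ℂˣ //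
        ∀ w : ↥(W₁ ⊔ W₂), (w : G) ∈ W₁ → ψ w = 1} // r p.1 + c p.2 ≠ 0} ≤
      Nat.card {ω : ↥(W₁ ⊔ W₂) →* ℂˣ // classInner θ (χ ω) ≠ 0} := by
    apply Nat.card_le_card_of_injective
      (fun p => (⟨p.1.1.1 * p.1.2.1, by
        have := p.2
        rw [← hrc] at this
        exact this⟩ : {ω : ↥(W₁ ⊔ W₂) →* ℂˣ // classInner θ (χ ω) ≠ 0}))
    intro p q h
    have h' : p.1.1.1 * p.1.2.1 = q.1.1.1 * q.1.2.1 := congrArg Subtype.val h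
    have hx := hom_cross p.1.1.1 q.1.1.1 p.1.2.1 q.1.2.1 p.1.1.2 q.1.1.2 p.1.2.2 q.1.2.2
      (fun w => by have := DFunLike.congr_fun h' w; simpa using this)
    apply Subtype.ext
    apply Prod.ext
    · exact Subtype.ext hx.1
    · exact Subtype.ext hx.2
  have hdec : ∀ ω : ↥(W₁ ⊔ W₂) →* ℂˣ,
      part₁ hdisj hcomm ω * part₂ hdisj hcomm ω = ω := part_mul hdisj hcomm
  rcases matrix_lemma r c (Nat.card W₁) hI hJ hn1 (lt_of_le_of_lt hcount hfew) with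
    h | ⟨j₀, a₀, h⟩ | ⟨i₀, a₀, h⟩
  · left
    intro ω
    have := h ⟨part₁ hdisj hcomm ω, part₁_triv hdisj hcomm ω⟩
      ⟨part₂ hdisj hcomm ω, part₂_triv hdisj hcomm ω⟩
    rw [← hrc] at this
    have e : a (part₁ hdisj hcomm ω * part₂ hdisj hcomm ω) = a ω := by rw [hdec ω]
    exact e.symm.trans this
  · right; left
    refine ⟨j₀.1, a₀, fun ω => ?_⟩
    have hij := h ⟨part₁ hdisj hcomm ω, part₁_triv hdisj hcomm ω⟩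
      ⟨part₂ hdisj hcomm ω, part₂_triv hdisj hcomm ω⟩
    rw [← hrc] at hij
    have e : a (part₁ hdisj hcomm ω * part₂ hdisj hcomm ω) = a ω := by rw [hdec ω]
    rw [e] at hij
    have hiff : (∀ w : ↥(W₁ ⊔ W₂), (w : G) ∈ W₂ → (ω * j₀.1⁻¹) w = 1) ↔
        (⟨part₂ hdisj hcomm ω, part₂_triv hdisj hcomm ω⟩ :
          {ψ : ↥(W₁ ⊔ W₂) →* ℂˣ // ∀ w : ↥(W₁ ⊔ W₂), (w : G) ∈ W₁ → ψ w = 1}) = j₀ := by
      constructor
      · intro hh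
        apply Subtype.ext
        apply hom_ext_sup
        · intro w hw
          show part₂ hdisj hcomm ω w = j₀.1 w
          rw [part₂_triv hdisj hcomm ω w hw, j₀.2 w hw]
        · intro w hw
          show part₂ hdisj hcomm ω w = j₀.1 w
          have := hh w hw
          rw [MonoidHom.mul_apply, MonoidHom.inv_apply, mul_inv_eq_one] at this
          rw [← this]; exact part₂_eq hdisj hcomm ω w hw
      · intro hh w hw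
        rw [← hh, MonoidHom.mul_apply, MonoidHom.inv_apply, mul_inv_eq_one]
        exact (part₂_eq hdisj hcomm ω w hw).symm
    constructor
    · intro hh; exact (hij.1 (hiff.mp hh))
    · intro hh; exact (hij.2 (fun e => hh (hiff.mpr e)))
  · right; right
    refine ⟨i₀.1, a₀, fun ω => ?_⟩
    have hij := h ⟨part₁ hdisj hcomm ω, part₁_triv hdisj hcomm ω⟩
      ⟨part₂ hdisj hcomm ω, part₂_triv hdisj hcomm ω⟩
    rw [← hrc] at hij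
    have e : a (part₁ hdisj hcomm ω * part₂ hdisj hcomm ω) = a ω := by rw [hdec ω]
    rw [e] at hij
    have hiff : (∀ w : ↥(W₁ ⊔ W₂), (w : G) ∈ W₁ → (ω * i₀.1⁻¹) w = 1) ↔
        (⟨part₁ hdisj hcomm ω, part₁_triv hdisj hcomm ω⟩ :
          {φ : ↥(W₁ ⊔ W₂) →* ℂˣ // ∀ w : ↥(W₁ ⊔ W₂), (w : G) ∈ W₂ → φ w = 1}) = i₀ := by
      constructor
      · intro hh
        apply Subtype.ext
        apply hom_ext_sup
        · intro w hw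
          show part₁ hdisj hcomm ω w = i₀.1 w
          have := hh w hw
          rw [MonoidHom.mul_apply, MonoidHom.inv_apply, mul_inv_eq_one] at this
          rw [← this]; exact part₁_eq hdisj hcomm ω w hw
        · intro w hw
          show part₁ hdisj hcomm ω w = i₀.1 w
          rw [part₁_triv hdisj hcomm ω w hw, i₀.2 w hw]
      · intro hh w hw
        rw [← hh, MonoidHom.mul_apply, MonoidHom.inv_apply, mul_inv_eq_one]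
        exact (part₁_eq hdisj hcomm ω w hw).symm
    constructor
    · intro hh; exact (hij.1 (hiff.mp hh))
    · intro hh; exact (hij.2 (fun e => hh (hiff.mpr e)))

end Few

end Cfsg.Agent.Lib.Helper2.CycTI
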