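import Mathlib
import Cfsg.Prelude.Def_Characters
import Cfsg.Prelude.Def_OddOrderChar

set_option autoImplicit false

namespace Cfsg.Agent.Lib.Helper2.Dade

open Cfsg

section Grp

variable {G : Type*} [Group G] [Finite G] {A : Set G} {L : Subgroup G} {H : G → Subgroup G}

theorem normal_H (hD : DadeHypothesis A L H) {a : G} (ha : a ∈ A) :
    ((H a).subgroupOf (Subgroup.centralizer ({a} : Set G))).Normal := by
  constructor
  intro n hn g
  rw [Subgroup.mem_subgroupOf] at hn ⊢
  exact hD.conj_mem_H a ha g g.2 n hn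

/-- complement structure in the centralizer -/
theorem isComplement (hD : DadeHypothesis A L H) {a : G} (ha : a ∈ A) :
    Subgroup.IsComplement' ((H a).subgroupOf (Subgroup.centralizer ({a} : Set G)))
      ((L ⊓ Subgroup.centralizer ({a} : Set G)).subgroupOf
        (Subgroup.centralizer ({a} : Set G))) := by
  haveI := normal_H hD ha
  apply Subgroup.isComplement'_of_disjoint_and_mul_eq_univ
  · rw [Subgroup.disjoint_def]
    intro x hx hx'
    rw [Subgroup.mem_subgroupOf] at hx hx'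
    have : (x : G) ∈ H a ⊓ (L ⊓ Subgroup.centralizer ({a} : Set G)) := ⟨hx, hx'⟩
    rw [hD.inf_eq_bot a ha] at this
    exact Subtype.ext (Subgroup.mem_bot.mp this)
  · rw [← Subgroup.normal_mul, ← Subgroup.subgroupOf_sup (hD.le_centralizer a ha) inf_le_right,
      hD.sup_eq a ha, Subgroup.subgroupOf_self]
    rfl

theorem card_centralizer (hD : DadeHypothesis A L H) {a : G} (ha : a ∈ A) :
    Nat.card (Subgroup.centralizer ({a} : Set G)) =
      Nat.card (H a) * Nat.card ↥(L ⊓ Subgroup.centralizer ({a} : Set G)) := by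
  have := (isComplement hD ha).card_mul_card
  rw [Nat.card_congr (Subgroup.subgroupOfEquivOfLe (hD.le_centralizer a ha)).toEquiv,
    Nat.card_congr (Subgroup.subgroupOfEquivOfLe
      (inf_le_right : L ⊓ Subgroup.centralizer ({a} : Set G) ≤ _)).toEquiv] at this
  exact this.symm

/-- an element of the centralizer of order prime to `|C_L(a)|` lies in `H a`. -/
theorem mem_H_of_pow (hD : DadeHypothesis A L H) {a : G} (ha : a ∈ A) {v : G}
    (hv : v ∈ Subgroup.centralizer ({a} : Set G)) {k : ℕ} (hk : v ^ k = 1)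
    (hcop : Nat.Coprime k (Nat.card ↥(L ⊓ Subgroup.centralizer ({a} : Set G)))) :
    v ∈ H a := by
  haveI := normal_H hD ha
  have hcomp := isComplement hD ha
  have hidx : ((H a).subgroupOf (Subgroup.centralizer ({a} : Set G))).index =
      Nat.card ↥(L ⊓ Subgroup.centralizer ({a} : Set G)) := by
    rw [hcomp.symm.index_eq_card]
    exact Nat.card_congr (Subgroup.subgroupOfEquivOfLe
      (inf_le_right : L ⊓ Subgroup.centralizer ({a} : Set G) ≤ _)).toEquiv
  let v' : Subgroup.centralizer ({a} : Set G) := ⟨v, hv⟩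
  have h1 : (QuotientGroup.mk v' : Subgroup.centralizer ({a} : Set G) ⧸
      (H a).subgroupOf (Subgroup.centralizer ({a} : Set G))) ^ k = 1 := by
    rw [← QuotientGroup.mk_pow]
    have : v' ^ k = 1 := Subtype.ext hk
    rw [this]; rfl
  have h2 := orderOf_dvd_of_pow_eq_one h1
  have h3 : orderOf (QuotientGroup.mk v' : Subgroup.centralizer ({a} : Set G) ⧸
      (H a).subgroupOf (Subgroup.centralizer ({a} : Set G))) ∣
      Nat.card ↥(L ⊓ Subgroup.centralizer ({a} : Set G)) := by
    rw [← hidx]; exact orderOf_dvd_natCard _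
  have h4 := Nat.dvd_gcd h2 h3
  rw [Nat.Coprime.gcd_eq_one hcop] at h4
  have h5 := orderOf_eq_one_iff.mp (Nat.dvd_one.mp h4)
  exact (QuotientGroup.eq_one_iff v').mp h5

/-- the `A`-part of `a u` is preserved under conjugation. -/
theorem conj_eq (hD : DadeHypothesis A L H) {a a' : G} (ha : a ∈ A) (ha' : a' ∈ A) {u u' x : G}
    (hu : u ∈ H a) (hu' : u' ∈ H a') (h : x * (a * u) * x⁻¹ = a' * u') : x * a * x⁻¹ = a' := by
  have key : ∀ b ∈ A, b ^ Nat.card ↥(L ⊓ Subgroup.centralizer ({b} : Set G)) = 1 := by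
    intro b hb
    have hmem : b ∈ L ⊓ Subgroup.centralizer ({b} : Set G) :=
      ⟨hD.subset hb, Subgroup.mem_centralizer_singleton_iff.mpr rfl⟩
    have := pow_card_eq_one' (G := ↥(L ⊓ Subgroup.centralizer ({b} : Set G))) (x := ⟨b, hmem⟩)
    exact congrArg Subtype.val this
  have keyH : ∀ b : G, ∀ v ∈ H b, v ^ Nat.card (H b) = 1 := by
    intro b v hv
    have := pow_card_eq_one' (G := H b) (x := ⟨v, hv⟩)
    exact congrArg Subtype.val this
  have hcop : Nat.Coprime
      (Nat.card ↥(L ⊓ Subgroup.centralizer ({a} : Set G)) *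
        Nat.card ↥(L ⊓ Subgroup.centralizer ({a'} : Set G)))
      (Nat.card (H a) * Nat.card (H a')) := by
    apply Nat.Coprime.mul_left
    · apply Nat.Coprime.mul_right
      · exact (hD.coprime a ha a ha).symm
      · exact (hD.coprime a' ha' a ha).symm
    · apply Nat.Coprime.mul_right
      · exact (hD.coprime a ha a' ha').symm
      · exact (hD.coprime a' ha' a' ha').symm
  obtain ⟨e, he1, he0⟩ := Nat.chineseRemainder hcop 1 0
  have hae : a ^ e = a := by
    have : a ^ e = a ^ 1 := by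
      rw [pow_eq_pow_iff_modEq]
      exact Nat.ModEq.of_dvd ((orderOf_dvd_of_pow_eq_one (key a ha)).trans (dvd_mul_right _ _)) he1
    rw [this, pow_one]
  have hae' : a' ^ e = a' := by
    have : a' ^ e = a' ^ 1 := by
      rw [pow_eq_pow_iff_modEq]
      exact Nat.ModEq.of_dvd ((orderOf_dvd_of_pow_eq_one (key a' ha')).trans (dvd_mul_left _ _)) he1
    rw [this, pow_one]
  have hue : u ^ e = 1 := by
    have : u ^ e = u ^ 0 := by
      rw [pow_eq_pow_iff_modEq]
      exact Nat.ModEq.of_dvd ((orderOf_dvd_of_pow_eq_one (keyH a u hu)).trans (dvd_mul_right _ _)) he0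
    rw [this, pow_zero]
  have hue' : u' ^ e = 1 := by
    have : u' ^ e = u' ^ 0 := by
      rw [pow_eq_pow_iff_modEq]
      exact Nat.ModEq.of_dvd ((orderOf_dvd_of_pow_eq_one (keyH a' u' hu')).trans (dvd_mul_left _ _)) he0
    rw [this, pow_zero]
  have hcomm : Commute a u :=
    (Subgroup.mem_centralizer_singleton_iff.mp (hD.le_centralizer a ha hu)).symm
  have hcomm' : Commute a' u' :=
    (Subgroup.mem_centralizer_singleton_iff.mp (hD.le_centralizer a' ha' hu')).symm
  have e1 : (a * u) ^ e = a := by rw [hcomm.mul_pow, hae, hue, mul_one]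
  have e2 : (a' * u') ^ e = a' := by rw [hcomm'.mul_pow, hae', hue', mul_one]
  calc x * a * x⁻¹ = x * (a * u) ^ e * x⁻¹ := by rw [e1]
    _ = (x * (a * u) * x⁻¹) ^ e := (conj_pow).symm
    _ = a' := by rw [h, e2]

end Grp

section Fn

variable {G : Type*} [Group G] [Finite G] {A : Set G} {L : Subgroup G} {H : G → Subgroup G}

theorem dade_eq (hD : DadeHypothesis A L H) (α : L → ℂ) (hα : IsClassFunction L α) {g : G}
    {a : L} (ha : (a : G) ∈ A) {x u : G} (hu : u ∈ H a) (h : x * g * x⁻¹ = a * u) :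
    dadeIsometry A L H α g = α a := by
  have hex : ∃ a : ↥L, (a : G) ∈ A ∧ ∃ x : G, ∃ u ∈ H (a : G), x * g * x⁻¹ = (a : G) * u :=
    ⟨a, ha, x, u, hu, h⟩
  unfold dadeIsometry
  rw [dif_pos hex]
  obtain ⟨ha', x', u', hu', h'⟩ := Classical.choose_spec hex
  have hc : (x * x'⁻¹) * (((Classical.choose hex : ↥L) : G) * u') * (x * x'⁻¹)⁻¹ =
      (a : G) * u := by
    rw [← h', ← h]; group
  have hconj := conj_eq hD ha' ha hu' hu hc
  obtain ⟨l, hl, hl'⟩ := hD.fusion ((Classical.choose hex : ↥L) : G) ha' (x * x'⁻¹)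
    (by rw [hconj]; exact ha)
  rw [hconj] at hl'
  have : a = ⟨l, hl⟩ * Classical.choose hex * ⟨l, hl⟩⁻¹ := Subtype.ext (by simp [hl'])
  rw [this]
  exact (hα (Classical.choose hex) ⟨l, hl⟩).symm

omit [Finite G] in
theorem dade_zero (α : L → ℂ) {g : G}
    (h : ¬ ∃ a : ↥L, (a : G) ∈ A ∧ ∃ x : G, ∃ u ∈ H (a : G), x * g * x⁻¹ = (a : G) * u) :
    dadeIsometry A L H α g = 0 := by
  unfold dadeIsometry; rw [dif_neg h]

theorem dade_classFunction (hD : DadeHypothesis A L H) (α : L → ℂ) (hα : IsClassFunction L α) :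
    IsClassFunction G (dadeIsometry A L H α) := by
  intro g y
  by_cases hex : ∃ a : ↥L, (a : G) ∈ A ∧ ∃ x : G, ∃ u ∈ H (a : G), x * g * x⁻¹ = (a : G) * u
  · obtain ⟨a, ha, x, u, hu, h⟩ := hex
    rw [dade_eq hD α hα ha hu h,
      dade_eq hD α hα ha hu (x := x * y⁻¹) (g := y * g * y⁻¹) (by rw [← h]; group)]
  · rw [dade_zero α hex, dade_zero α]
    rintro ⟨a, ha, x, u, hu, h⟩
    exact hex ⟨a, ha, x * y, u, hu, by rw [← h]; group⟩

end Fn

end Cfsg.Agent.Lib.Helper2.Dade
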