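import Cfsg.Agent.Lib.Helper2.Dade1

set_option autoImplicit false

namespace Cfsg.Agent.Lib.Helper2.Dade

open Cfsg

section Count

variable {G : Type*} [Group G] [Fintype G] {A : Set G} {L : Subgroup G} [Fintype L]
  {H : G → Subgroup G}
variable {𝕜 : Type*} [Field 𝕜] [CharZero 𝕜]

open Classical in
theorem natCard_subgroup_eq {G' : Type*} [Group G'] [Fintype G'] (S : Subgroup G') :
    Nat.card S = (Finset.univ.filter (· ∈ S)).card := by
  rw [Nat.card_eq_fintype_card]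
  exact Fintype.card_of_subtype _ (by simp)

open Classical in
omit [Fintype L] [CharZero 𝕜] in
theorem sum_mul_cnt_inner (F : G → 𝕜) (hF : ∀ g x : G, F (x * g * x⁻¹) = F g) (a : G) :
    ∑ g : G, F g * ((Finset.univ.filter (fun x : G => a⁻¹ * (x * g * x⁻¹) ∈ H a)).card : 𝕜) =
      (Nat.card G : 𝕜) * ∑ u ∈ Finset.univ.filter (· ∈ H a), F (a * u) := by
  have h1 : ∀ g : G, F g *
      ((Finset.univ.filter (fun x : G => a⁻¹ * (x * g * x⁻¹) ∈ H a)).card : 𝕜) =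
      ∑ x : G, if a⁻¹ * (x * g * x⁻¹) ∈ H a then F g else 0 := by
    intro g
    rw [Finset.card_filter, Nat.cast_sum, Finset.mul_sum]
    apply Finset.sum_congr rfl
    intro x _
    split_ifs <;> simp
  rw [Finset.sum_congr rfl (fun g _ => h1 g), Finset.sum_comm]
  have h2 : ∀ x : G, ∑ g : G, (if a⁻¹ * (x * g * x⁻¹) ∈ H a then F g else 0) =
      ∑ u ∈ Finset.univ.filter (· ∈ H a), F (a * u) := by
    intro x
    rw [Finset.sum_filter]
    let e : G ≃ G := (Equiv.mulLeft a).trans (MulAut.conj x⁻¹).toEquiv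
    rw [← Equiv.sum_comp e]
    apply Finset.sum_congr rfl
    intro u _
    have e1 : e u = x⁻¹ * (a * u) * x := by simp [e, MulAut.conj_apply]
    have e2 : a⁻¹ * (x * e u * x⁻¹) = u := by rw [e1]; group
    have e3 : F (e u) = F (a * u) := by
      rw [e1]; have := hF (a * u) x⁻¹; rwa [inv_inv] at this
    rw [e2, e3]
  rw [Finset.sum_congr rfl (fun x _ => h2 x), Finset.sum_const, Finset.card_univ, nsmul_eq_mul,
    Nat.card_eq_fintype_card]

open Classical in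
omit [Fintype L] [CharZero 𝕜] in
/-- (A) -/
theorem sum_mul_cnt (F : G → 𝕜) (hF : ∀ g x : G, F (x * g * x⁻¹) = F g) :
    ∑ g : G, F g * ∑ a ∈ Finset.univ.filter (· ∈ A), (Nat.card (H a) : 𝕜)⁻¹ *
      ((Finset.univ.filter (fun x : G => a⁻¹ * (x * g * x⁻¹) ∈ H a)).card : 𝕜) =
    (Nat.card G : 𝕜) * ∑ a ∈ Finset.univ.filter (· ∈ A), (Nat.card (H a) : 𝕜)⁻¹ *
      ∑ u ∈ Finset.univ.filter (· ∈ H a), F (a * u) := by
  have hL : ∑ g : G, F g * ∑ a ∈ Finset.univ.filter (· ∈ A), (Nat.card (H a) : 𝕜)⁻¹ *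
      ((Finset.univ.filter (fun x : G => a⁻¹ * (x * g * x⁻¹) ∈ H a)).card : 𝕜) =
      ∑ a ∈ Finset.univ.filter (· ∈ A), ∑ g : G, F g * ((Nat.card (H a) : 𝕜)⁻¹ *
      ((Finset.univ.filter (fun x : G => a⁻¹ * (x * g * x⁻¹) ∈ H a)).card : 𝕜)) := by
    rw [Finset.sum_comm]
    apply Finset.sum_congr rfl
    intro g _
    rw [Finset.mul_sum]
  rw [hL, Finset.mul_sum]
  apply Finset.sum_congr rfl
  intro a _
  have := sum_mul_cnt_inner (H := H) F hF a
  calc ∑ g : G, F g * ((Nat.card (H a) : 𝕜)⁻¹ *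
        ((Finset.univ.filter (fun x : G => a⁻¹ * (x * g * x⁻¹) ∈ H a)).card : 𝕜))
      = (Nat.card (H a) : 𝕜)⁻¹ * ∑ g : G, F g *
        ((Finset.univ.filter (fun x : G => a⁻¹ * (x * g * x⁻¹) ∈ H a)).card : 𝕜) := by
        rw [Finset.mul_sum]; apply Finset.sum_congr rfl; intro g _; ring
    _ = _ := by rw [this]; ring

open Classical in
/-- (B) -/
theorem cnt_eq (hD : DadeHypothesis A L H) {g a₀ u₀ x₀ : G} (ha₀ : a₀ ∈ A) (hu₀ : u₀ ∈ H a₀)
    (h₀ : x₀ * g * x₀⁻¹ = a₀ * u₀) :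
    ∑ a ∈ Finset.univ.filter (· ∈ A), (Nat.card (H a) : 𝕜)⁻¹ *
      ((Finset.univ.filter (fun x : G => a⁻¹ * (x * g * x⁻¹) ∈ H a)).card : 𝕜) =
      (Nat.card L : 𝕜) := by
  have s1 : ∀ a ∈ A, (Finset.univ.filter (fun x : G => a⁻¹ * (x * g * x⁻¹) ∈ H a)).card =
      (Finset.univ.filter (fun y : G => y * a₀ * y⁻¹ = a)).card := by
    intro a ha
    apply Finset.card_equiv (Equiv.mulRight x₀⁻¹)
    intro x
    simp only [Finset.mem_filter, Finset.mem_univ, true_and, Equiv.coe_mulRight]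
    have hx : x * g * x⁻¹ = (x * x₀⁻¹) * (a₀ * u₀) * (x * x₀⁻¹)⁻¹ := by rw [← h₀]; group
    constructor
    · intro hmem
      have : (x * x₀⁻¹) * (a₀ * u₀) * (x * x₀⁻¹)⁻¹ = a * (a⁻¹ * (x * g * x⁻¹)) := by
        rw [← hx]; group
      exact conj_eq hD ha₀ ha hu₀ hmem this
    · intro hy
      have e : a⁻¹ * (x * g * x⁻¹) = (x * x₀⁻¹) * u₀ * (x * x₀⁻¹)⁻¹ := by
        rw [hx, ← hy]; group
      rw [e]
      apply mem_H_of_pow hD ha (k := Nat.card (H a₀))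
      · rw [Subgroup.mem_centralizer_singleton_iff, ← hy]
        have hc : u₀ * a₀ = a₀ * u₀ :=
          Subgroup.mem_centralizer_singleton_iff.mp (hD.le_centralizer a₀ ha₀ hu₀)
        calc (x * x₀⁻¹) * u₀ * (x * x₀⁻¹)⁻¹ * ((x * x₀⁻¹) * a₀ * (x * x₀⁻¹)⁻¹)
            = (x * x₀⁻¹) * (u₀ * a₀) * (x * x₀⁻¹)⁻¹ := by group
          _ = (x * x₀⁻¹) * (a₀ * u₀) * (x * x₀⁻¹)⁻¹ := by rw [hc]
          _ = _ := by group
      · rw [conj_pow]
        have : u₀ ^ Nat.card (H a₀) = 1 := by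
          have := pow_card_eq_one' (G := H a₀) (x := ⟨u₀, hu₀⟩)
          exact congrArg Subtype.val this
        rw [this]; group
      · exact hD.coprime a₀ ha₀ a ha
  have s2 : ∀ a ∈ A, (Finset.univ.filter (fun y : G => y * a₀ * y⁻¹ = a)).card =
      Nat.card (H a) *
        (Finset.univ.filter (fun l : L => (l : G) * a₀ * (l : G)⁻¹ = a)).card := by
    intro a ha
    by_cases hex : ∃ y : G, y * a₀ * y⁻¹ = a
    · obtain ⟨y₁, hy₁⟩ := hex
      obtain ⟨l₀, hl₀, hl₀'⟩ := hD.fusion a₀ ha₀ y₁ (by rw [hy₁]; exact ha)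
      rw [hy₁] at hl₀'
      have c1 : (Finset.univ.filter (fun y : G => y * a₀ * y⁻¹ = a)).card =
          Nat.card (Subgroup.centralizer ({a} : Set G)) := by
        rw [natCard_subgroup_eq]
        apply Finset.card_equiv (Equiv.mulRight l₀⁻¹)
        intro y
        simp only [Finset.mem_filter, Finset.mem_univ, true_and, Equiv.coe_mulRight]
        rw [Subgroup.mem_centralizer_singleton_iff, ← hl₀']
        constructor
        · intro hy
          have : y * l₀⁻¹ * (l₀ * a₀ * l₀⁻¹) = (y * a₀ * y⁻¹) * (y * l₀⁻¹) := by group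
          rw [this, hy]
        · intro hy
          have : y * a₀ * y⁻¹ = (y * l₀⁻¹ * (l₀ * a₀ * l₀⁻¹)) * (y * l₀⁻¹)⁻¹ := by group
          rw [this, hy]; group
      have c2 : (Finset.univ.filter (fun l : L => (l : G) * a₀ * (l : G)⁻¹ = a)).card =
          Nat.card ↥(L ⊓ Subgroup.centralizer ({a} : Set G)) := by
        rw [← Nat.card_congr (Subgroup.subgroupOfEquivOfLe
          (inf_le_left : L ⊓ Subgroup.centralizer ({a} : Set G) ≤ L)).toEquiv,
          natCard_subgroup_eq]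
        apply Finset.card_equiv (Equiv.mulRight (⟨l₀, hl₀⟩ : L)⁻¹)
        intro l
        simp only [Finset.mem_filter, Finset.mem_univ, true_and, Equiv.coe_mulRight]
        rw [Subgroup.mem_subgroupOf, Subgroup.mem_inf, Subgroup.mem_centralizer_singleton_iff,
          ← hl₀']
        constructor
        · intro hy
          refine ⟨(l * (⟨l₀, hl₀⟩ : L)⁻¹).2, ?_⟩
          show (l : G) * l₀⁻¹ * (l₀ * a₀ * l₀⁻¹) = l₀ * a₀ * l₀⁻¹ * ((l : G) * l₀⁻¹)
          have : (l : G) * l₀⁻¹ * (l₀ * a₀ * l₀⁻¹) =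
              ((l : G) * a₀ * (l : G)⁻¹) * ((l : G) * l₀⁻¹) := by group
          rw [this, hy]
        · rintro ⟨_, hy⟩
          have hy' : (l : G) * l₀⁻¹ * (l₀ * a₀ * l₀⁻¹) = l₀ * a₀ * l₀⁻¹ * ((l : G) * l₀⁻¹) := hy
          have : (l : G) * a₀ * (l : G)⁻¹ =
              ((l : G) * l₀⁻¹ * (l₀ * a₀ * l₀⁻¹)) * ((l : G) * l₀⁻¹)⁻¹ := by group
          rw [this, hy']; group
      rw [c1, c2, card_centralizer hD ha]
    · have e1 : (Finset.univ.filter (fun y : G => y * a₀ * y⁻¹ = a)) = ∅ := by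
        rw [Finset.filter_eq_empty_iff]; intro y _ hy; exact hex ⟨y, hy⟩
      have e2 : (Finset.univ.filter (fun l : L => (l : G) * a₀ * (l : G)⁻¹ = a)) = ∅ := by
        rw [Finset.filter_eq_empty_iff]; intro l _ hl; exact hex ⟨l, hl⟩
      rw [e1, e2]; simp
  have s3 : ∀ a ∈ Finset.univ.filter (· ∈ A), (Nat.card (H a) : 𝕜)⁻¹ *
      ((Finset.univ.filter (fun x : G => a⁻¹ * (x * g * x⁻¹) ∈ H a)).card : 𝕜) =
      ((Finset.univ.filter (fun l : L => (l : G) * a₀ * (l : G)⁻¹ = a)).card : 𝕜) := by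
    intro a ha
    have ha' : a ∈ A := (Finset.mem_filter.mp ha).2
    rw [s1 a ha', s2 a ha', Nat.cast_mul]
    have : (Nat.card (H a) : 𝕜) ≠ 0 := Nat.cast_ne_zero.mpr Nat.card_pos.ne'
    field_simp
  rw [Finset.sum_congr rfl s3, ← Nat.cast_sum]
  congr 1
  rw [Nat.card_eq_fintype_card, ← Finset.card_univ]
  symm
  apply Finset.card_eq_sum_card_fiberwise (f := fun l : L => (l : G) * a₀ * (l : G)⁻¹)
  intro l _
  exact Finset.mem_coe.mpr (Finset.mem_filter.mpr ⟨Finset.mem_univ _, hD.conj_mem l l.2 a₀ ha₀⟩)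

open Classical in
/-- the counting identity for class functions supported on the Dade support -/
theorem star (hD : DadeHypothesis A L H) (F : G → 𝕜) (hF : ∀ g x : G, F (x * g * x⁻¹) = F g)
    (hsupp : ∀ g : G, (¬ ∃ a ∈ A, ∃ x : G, ∃ u ∈ H a, x * g * x⁻¹ = a * u) → F g = 0) :
    (Nat.card L : 𝕜) * ∑ g : G, F g =
      (Nat.card G : 𝕜) * ∑ a ∈ Finset.univ.filter (· ∈ A), (Nat.card (H a) : 𝕜)⁻¹ *
        ∑ u ∈ Finset.univ.filter (· ∈ H a), F (a * u) := by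
  rw [← sum_mul_cnt F hF, Finset.mul_sum]
  apply Finset.sum_congr rfl
  intro g _
  by_cases hex : ∃ a ∈ A, ∃ x : G, ∃ u ∈ H a, x * g * x⁻¹ = a * u
  · obtain ⟨a₀, ha₀, x₀, u₀, hu₀, h₀⟩ := hex
    rw [cnt_eq hD ha₀ hu₀ h₀]; ring
  · rw [hsupp g hex]; simp

end Count

end Cfsg.Agent.Lib.Helper2.Dade
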