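import Cfsg.Agent.Lib.Helper2.Dade2

set_option autoImplicit false

namespace Cfsg.Agent.Lib.Helper2.Dade

open Cfsg
open scoped ComplexConjugate

section Final

variable {G : Type*} [Group G] [Fintype G] {A : Set G} {L : Subgroup G} [Fintype L]
  {H : G → Subgroup G}

open Classical in
theorem finsum_set {X : Type*} [Fintype X] {M : Type*} [AddCommMonoid M] (S : Set X)
    (f : X → M) : ∑ᶠ u ∈ S, f u = ∑ u ∈ Finset.univ.filter (· ∈ S), f u := by
  have : S = ↑(Finset.univ.filter (· ∈ S)) := by ext; simp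
  conv_lhs => rw [this]
  exact finsum_mem_coe_finset f _

open Classical in
theorem finsum_subgroup {X : Type*} [Group X] [Fintype X] {M : Type*} [AddCommMonoid M]
    (S : Subgroup X) (f : X → M) :
    ∑ᶠ u ∈ (S : Set X), f u = ∑ u ∈ Finset.univ.filter (· ∈ S), f u :=
  finsum_set (S : Set X) f

open Classical in
theorem sum_A_eq_sum_L (hD : DadeHypothesis A L H) {M : Type*} [AddCommMonoid M] (f : G → M) :
    ∑ a ∈ Finset.univ.filter (· ∈ A), f a =
      ∑ l ∈ (Finset.univ.filter (fun l : L => (l : G) ∈ A) : Finset L), f l := by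
  symm
  apply Finset.sum_bij (fun (l : L) _ => (l : G))
  · intro l hl
    exact Finset.mem_filter.mpr ⟨Finset.mem_univ _, (Finset.mem_filter.mp hl).2⟩
  · intro l _ l' _ h
    exact Subtype.ext h
  · intro a ha
    have ha' : a ∈ A := (Finset.mem_filter.mp ha).2
    exact ⟨⟨a, hD.subset ha'⟩, Finset.mem_filter.mpr ⟨Finset.mem_univ _, ha'⟩, rfl⟩
  · intro l _; rfl

open Classical in
theorem star' {𝕜 : Type*} [Field 𝕜] [CharZero 𝕜] (hD : DadeHypothesis A L H) (F : G → 𝕜)
    (hF : ∀ g x : G, F (x * g * x⁻¹) = F g)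
    (hsupp : ∀ g : G, (¬ ∃ a ∈ A, ∃ x : G, ∃ u ∈ H a, x * g * x⁻¹ = a * u) → F g = 0) :
    (Nat.card L : 𝕜) * ∑ g : G, F g =
      (Nat.card G : 𝕜) * ∑ l ∈ (Finset.univ.filter (fun l : L => (l : G) ∈ A) : Finset L),
        (Nat.card (H l) : 𝕜)⁻¹ * ∑ u ∈ Finset.univ.filter (· ∈ H l), F (l * u) := by
  rw [star hD F hF hsupp]
  congr 1
  exact sum_A_eq_sum_L hD (fun a => (Nat.card (H a) : 𝕜)⁻¹ *
    ∑ u ∈ Finset.univ.filter (· ∈ H a), F (a * u))

theorem dade_apply_mul (hD : DadeHypothesis A L H) (α : L → ℂ) (hα : IsClassFunction L α)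
    {l : L} (hl : (l : G) ∈ A) {u : G} (hu : u ∈ H l) :
    dadeIsometry A L H α (l * u) = α l :=
  dade_eq hD α hα hl (x := 1) hu (by group)

open Classical in
/-- (ii) of the Dade isometry statement -/
theorem dade_inner_right (hD : DadeHypothesis A L H) (α : L → ℂ) (hα : IsClassFunction L α)
    (hαA : ∀ x : L, (x : G) ∉ A → α x = 0) (χ : G → ℂ) (ψ : L → ℂ)
    (hχ : IsClassFunction G χ)
    (hψ : ∀ a : L, (a : G) ∈ A →
      ψ a = (Nat.card (H a) : ℂ)⁻¹ * ∑ᶠ u ∈ (H a : Set G), χ (a * u)) :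
    classInner (dadeIsometry A L H α) χ = classInner α ψ := by
  have hcf := dade_classFunction hD α hα
  have hstar := star' (𝕜 := ℂ) hD (fun g => dadeIsometry A L H α g * conj (χ g))
    (fun g x => by
      show dadeIsometry A L H α (x * g * x⁻¹) * conj (χ (x * g * x⁻¹)) = _
      rw [hcf g x, hχ g x])
    (fun g hg => by
      show dadeIsometry A L H α g * conj (χ g) = 0
      rw [dade_zero α, zero_mul]
      rintro ⟨a, ha, x, u, hu, h⟩
      exact hg ⟨a, ha, x, u, hu, h⟩)
  have hsum : ∑ l : L, α l * conj (ψ l) =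
      ∑ l ∈ (Finset.univ.filter (fun l : L => (l : G) ∈ A) : Finset L),
        (Nat.card (H l) : ℂ)⁻¹ * ∑ u ∈ Finset.univ.filter (· ∈ H l),
          dadeIsometry A L H α (l * u) * conj (χ (l * u)) := by
    rw [← Finset.sum_filter_of_ne (p := fun l : L => (l : G) ∈ A)]
    · apply Finset.sum_congr rfl
      intro l hl
      have hl' : (l : G) ∈ A := (Finset.mem_filter.mp hl).2
      rw [hψ l hl', finsum_subgroup, map_mul, map_inv₀, map_natCast, map_sum, Finset.mul_sum,
        Finset.mul_sum, Finset.mul_sum]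
      apply Finset.sum_congr rfl
      intro u hu
      have hu' : u ∈ H l := (Finset.mem_filter.mp hu).2
      rw [dade_apply_mul hD α hα hl' hu']
      ring
    · intro l _ hne
      by_contra hl
      exact hne (by rw [hαA l hl, zero_mul])
  have hL : (Nat.card L : ℂ) ≠ 0 := Nat.cast_ne_zero.mpr Nat.card_pos.ne'
  have hG : (Nat.card G : ℂ) ≠ 0 := Nat.cast_ne_zero.mpr Nat.card_pos.ne'
  have key : ∀ (T S : ℂ), (Nat.card L : ℂ) * T = (Nat.card G : ℂ) * S →
      (Nat.card G : ℂ)⁻¹ * T = (Nat.card L : ℂ)⁻¹ * S := by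
    intro T S h
    field_simp
    linear_combination h
  unfold classInner
  rw [hsum]
  exact key _ _ hstar

/-- (i) of the Dade isometry statement -/
theorem dade_inner (hD : DadeHypothesis A L H) (α : L → ℂ) (hα : IsClassFunction L α)
    (hαA : ∀ x : L, (x : G) ∉ A → α x = 0) (β : L → ℂ) (hβ : IsClassFunction L β) :
    classInner (dadeIsometry A L H α) (dadeIsometry A L H β) = classInner α β := by
  classical
  apply dade_inner_right hD α hα hαA _ _ (dade_classFunction hD β hβ)
  intro a ha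
  rw [finsum_subgroup]
  have : ∑ u ∈ Finset.univ.filter (· ∈ H a), dadeIsometry A L H β (a * u) =
      ∑ u ∈ Finset.univ.filter (· ∈ H (a : G)), β a := by
    apply Finset.sum_congr rfl
    intro u hu
    exact dade_apply_mul hD β hβ ha (Finset.mem_filter.mp hu).2
  rw [this, Finset.sum_const, ← natCard_subgroup_eq, nsmul_eq_mul]
  have hH : (Nat.card (H (a : G)) : ℂ) ≠ 0 := Nat.cast_ne_zero.mpr Nat.card_pos.ne'
  field_simp

end Final

end Cfsg.Agent.Lib.Helper2.Dade
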