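import Cfsg.Agent.Lib.Helper2.Dade3

set_option autoImplicit false

namespace Cfsg.Agent.Lib.Helper2.Dade

open Cfsg
open scoped ComplexConjugate

section Final

variable {G : Type*} [Group G] [Fintype G] {A : Set G} {L : Subgroup G} [Fintype L]
  {H : G → Subgroup G}

theorem norm_avg_sq_le {ι : Type*} (s : Finset ι) (z : ι → ℂ) (n : ℕ) (hn : s.card = n)
    (hpos : 0 < n) :
    ‖(n : ℂ)⁻¹ * ∑ u ∈ s, z u‖ ^ 2 ≤ (n : ℝ)⁻¹ * ∑ u ∈ s, ‖z u‖ ^ 2 := by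
  have hn0 : (0 : ℝ) < n := Nat.cast_pos.mpr hpos
  rw [norm_mul, norm_inv, Complex.norm_natCast, mul_pow]
  have h1 : ‖∑ u ∈ s, z u‖ ≤ ∑ u ∈ s, ‖z u‖ := norm_sum_le _ _
  have h2 : (∑ u ∈ s, ‖z u‖) ^ 2 ≤ (s.card : ℝ) * ∑ u ∈ s, ‖z u‖ ^ 2 :=
    sq_sum_le_card_mul_sum_sq
  rw [hn] at h2
  have h3 : ‖∑ u ∈ s, z u‖ ^ 2 ≤ (n : ℝ) * ∑ u ∈ s, ‖z u‖ ^ 2 :=
    le_trans (pow_le_pow_left₀ (norm_nonneg _) h1 2) h2
  have h4 : ((n : ℝ)⁻¹) ^ 2 * ‖∑ u ∈ s, z u‖ ^ 2 ≤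
      ((n : ℝ)⁻¹) ^ 2 * ((n : ℝ) * ∑ u ∈ s, ‖z u‖ ^ 2) :=
    mul_le_mul_of_nonneg_left h3 (by positivity)
  calc ((n : ℝ)⁻¹) ^ 2 * ‖∑ u ∈ s, z u‖ ^ 2
      ≤ ((n : ℝ)⁻¹) ^ 2 * ((n : ℝ) * ∑ u ∈ s, ‖z u‖ ^ 2) := h4
    _ = (n : ℝ)⁻¹ * ∑ u ∈ s, ‖z u‖ ^ 2 := by field_simp

open Classical in
theorem dade_norm_ineq (hD : DadeHypothesis A L H) (χ : G → ℂ) (hχ : IsClassFunction G χ)
    (ψ : L → ℂ)
    (hψ : ∀ a : L, (a : G) ∈ A →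
      ψ a = (Nat.card (H a) : ℂ)⁻¹ * ∑ᶠ u ∈ (H a : Set G), χ (a * u)) :
    (Nat.card L : ℝ)⁻¹ * ∑ᶠ a ∈ {a : L | (a : G) ∈ A}, ‖ψ a‖ ^ 2 ≤
      (Nat.card G : ℝ)⁻¹ * ∑ᶠ g ∈ {g : G | ∃ a ∈ A, ∃ u ∈ H a, ∃ x : G,
        x * g * x⁻¹ = a * u}, ‖χ g‖ ^ 2 := by
  have hcond : ∀ g x : G, (∃ a ∈ A, ∃ y : G, ∃ u ∈ H a, y * (x * g * x⁻¹) * y⁻¹ = a * u) ↔
      (∃ a ∈ A, ∃ y : G, ∃ u ∈ H a, y * g * y⁻¹ = a * u) := by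
    intro g x
    constructor
    · rintro ⟨a, ha, y, u, hu, h⟩
      exact ⟨a, ha, y * x, u, hu, by rw [← h]; group⟩
    · rintro ⟨a, ha, y, u, hu, h⟩
      exact ⟨a, ha, y * x⁻¹, u, hu, by rw [← h]; group⟩
  have hstar := star' (𝕜 := ℝ) hD
    (fun g => if (∃ a ∈ A, ∃ x : G, ∃ u ∈ H a, x * g * x⁻¹ = a * u) then ‖χ g‖ ^ 2 else 0)
    (fun g x => by
      show (if (∃ a ∈ A, ∃ y : G, ∃ u ∈ H a, y * (x * g * x⁻¹) * y⁻¹ = a * u) then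
        ‖χ (x * g * x⁻¹)‖ ^ 2 else 0) = _
      rw [hχ g x]
      by_cases hc : ∃ a ∈ A, ∃ y : G, ∃ u ∈ H a, y * g * y⁻¹ = a * u
      · rw [if_pos hc, if_pos ((hcond g x).mpr hc)]
      · rw [if_neg hc, if_neg (fun h => hc ((hcond g x).mp h))])
    (fun g hg => by
      show (if (∃ a ∈ A, ∃ x : G, ∃ u ∈ H a, x * g * x⁻¹ = a * u) then ‖χ g‖ ^ 2 else 0) = 0
      rw [if_neg hg])
  -- the right-hand sum
  have hR : ∑ᶠ g ∈ {g : G | ∃ a ∈ A, ∃ u ∈ H a, ∃ x : G, x * g * x⁻¹ = a * u}, ‖χ g‖ ^ 2 =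
      ∑ g : G, (if (∃ a ∈ A, ∃ x : G, ∃ u ∈ H a, x * g * x⁻¹ = a * u) then ‖χ g‖ ^ 2
        else 0) := by
    rw [finsum_set, Finset.sum_filter]
    apply Finset.sum_congr rfl
    intro g _
    have hiff : (g ∈ {g : G | ∃ a ∈ A, ∃ u ∈ H a, ∃ x : G, x * g * x⁻¹ = a * u}) ↔
        (∃ a ∈ A, ∃ x : G, ∃ u ∈ H a, x * g * x⁻¹ = a * u) := by
      constructor
      · rintro ⟨a, ha, u, hu, x, h⟩; exact ⟨a, ha, x, u, hu, h⟩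
      · rintro ⟨a, ha, x, u, hu, h⟩; exact ⟨a, ha, u, hu, x, h⟩
    by_cases hc : ∃ a ∈ A, ∃ x : G, ∃ u ∈ H a, x * g * x⁻¹ = a * u
    · rw [if_pos hc, if_pos (hiff.mpr hc)]
    · rw [if_neg hc, if_neg (fun h => hc (hiff.mp h))]
  -- the left-hand sum
  have hLsum : ∑ᶠ a ∈ {a : L | (a : G) ∈ A}, ‖ψ a‖ ^ 2 =
      ∑ l ∈ (Finset.univ.filter (fun l : L => (l : G) ∈ A) : Finset L), ‖ψ l‖ ^ 2 := by
    rw [finsum_set]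
    rfl
  have hle : ∑ l ∈ (Finset.univ.filter (fun l : L => (l : G) ∈ A) : Finset L), ‖ψ l‖ ^ 2 ≤
      ∑ l ∈ (Finset.univ.filter (fun l : L => (l : G) ∈ A) : Finset L),
        (Nat.card (H l) : ℝ)⁻¹ * ∑ u ∈ Finset.univ.filter (· ∈ H l),
          (if (∃ a ∈ A, ∃ x : G, ∃ u' ∈ H a, x * ((l : G) * u) * x⁻¹ = a * u') then
            ‖χ ((l : G) * u)‖ ^ 2 else 0) := by
    apply Finset.sum_le_sum
    intro l hl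
    have hl' : (l : G) ∈ A := (Finset.mem_filter.mp hl).2
    rw [hψ l hl', finsum_subgroup]
    have hcard : (Finset.univ.filter (· ∈ H (l : G))).card = Nat.card (H (l : G)) :=
      (natCard_subgroup_eq _).symm
    refine le_trans (norm_avg_sq_le _ _ _ hcard Nat.card_pos) (le_of_eq ?_)
    congr 1
    apply Finset.sum_congr rfl
    intro u hu
    have hu' : u ∈ H (l : G) := (Finset.mem_filter.mp hu).2
    rw [if_pos ⟨l, hl', 1, u, hu', by group⟩]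
  have hL : (0 : ℝ) < (Nat.card L : ℝ) := Nat.cast_pos.mpr Nat.card_pos
  have hG : (0 : ℝ) < (Nat.card G : ℝ) := Nat.cast_pos.mpr Nat.card_pos
  rw [hR, hLsum]
  have key : ∀ (T S S' : ℝ), S' ≤ S → (Nat.card L : ℝ) * T = (Nat.card G : ℝ) * S →
      (Nat.card L : ℝ)⁻¹ * S' ≤ (Nat.card G : ℝ)⁻¹ * T := by
    intro T S S' h1 h2
    have e : (Nat.card G : ℝ)⁻¹ * T = (Nat.card L : ℝ)⁻¹ * S := by
      field_simp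
      linear_combination h2
    rw [e]
    exact mul_le_mul_of_nonneg_left h1 (by positivity)
  exact key _ _ _ hle hstar

end Final

end Cfsg.Agent.Lib.Helper2.Dade
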