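import Cfsg.Agent.Lib.Helper2.Dade4
import Cfsg.Agent.Lib.Helper2.SZCyclic

set_option autoImplicit false

namespace Cfsg.Agent.Lib.Helper2.Dade

open Cfsg
open scoped ComplexConjugate

section CosetCount

variable {G : Type*} [Group G] [Fintype G]

/-- every element of the coset `a K` is `K`-conjugate to `a c` with `c ∈ C_K(a)` -/
theorem coset_rep (K : Subgroup G) (a : G) (hn : ∀ u ∈ K, a * u * a⁻¹ ∈ K)
    (hn' : ∀ u ∈ K, a⁻¹ * u * a ∈ K)
    (hcop : (orderOf a).Coprime (Nat.card K)) {u : G} (hu : u ∈ K) :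
    ∃ x ∈ K, ∃ c ∈ K, c * a = a * c ∧ x * (a * c) * x⁻¹ = a * u := by
  have haN : a ∈ Subgroup.normalizer (K : Set G) := by
    rw [Subgroup.mem_normalizer_iff]
    intro h
    constructor
    · exact hn h
    · intro hh
      have := hn' _ hh
      have e : a⁻¹ * (a * h * a⁻¹) * a = h := by group
      rwa [e] at this
  haveI := Subgroup.normal_in_normalizer (H := K)
  have hcard : Nat.card (K.subgroupOf (Subgroup.normalizer (K : Set G))) = Nat.card K :=
    Nat.card_congr (Subgroup.subgroupOfEquivOfLe Subgroup.le_normalizer).toEquiv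
  have hu' : (⟨a * u * a⁻¹, Subgroup.le_normalizer (hn u hu)⟩ :
      Subgroup.normalizer (K : Set G)) ∈ K.subgroupOf (Subgroup.normalizer (K : Set G)) := by
    rw [Subgroup.mem_subgroupOf]; exact hn u hu
  obtain ⟨x, hx, c, hc, hcomm, hconj⟩ := Cfsg.Agent.Lib.Helper2.coset_conj
    (K.subgroupOf (Subgroup.normalizer (K : Set G)))
    (⟨a, haN⟩ : Subgroup.normalizer (K : Set G)) ⟨a * u * a⁻¹, Subgroup.le_normalizer (hn u hu)⟩
    (by rw [Subgroup.orderOf_mk, hcard]; exact hcop) hu'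
  rw [Subgroup.mem_subgroupOf] at hx hc
  refine ⟨(x : G)⁻¹, K.inv_mem hx, c, hc, ?_, ?_⟩
  · exact congrArg Subtype.val hcomm
  · have h1 := congrArg Subtype.val hconj
    have h2 := congrArg Subtype.val hcomm
    simp only [Subgroup.coe_mul, Subgroup.coe_inv] at h1 h2
    rw [← h2, ← h1]; group

theorem fiber_aux (K : Subgroup G) (a : G) (hcop : (orderOf a).Coprime (Nat.card K))
    {x c c₀ x₀ : G} (hc : c ∈ K ⊓ Subgroup.centralizer ({a} : Set G))
    (hc₀ : c₀ ∈ K ⊓ Subgroup.centralizer ({a} : Set G))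
    (h : x * (a * c) * x⁻¹ = x₀ * (a * c₀) * x₀⁻¹) :
    (x₀⁻¹ * x) * a = a * (x₀⁻¹ * x) ∧ (x₀⁻¹ * x)⁻¹ * c₀ * (x₀⁻¹ * x) = c := by
  have hpow : ∀ c ∈ K ⊓ Subgroup.centralizer ({a} : Set G),
      (a * c) ^ (Nat.chineseRemainder hcop 1 0 : ℕ) = a := by
    intro c hc
    apply mul_pow_crt hcop a c
    · exact (Subgroup.mem_centralizer_singleton_iff.mp hc.2).symm
    · exact dvd_rfl
    · exact orderOf_dvd_card_of_mem K c hc.1
  set y := x₀⁻¹ * x with hy
  have hy1 : y * (a * c) * y⁻¹ = a * c₀ := by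
    calc y * (a * c) * y⁻¹ = x₀⁻¹ * (x * (a * c) * x⁻¹) * x₀ := by rw [hy]; group
      _ = x₀⁻¹ * (x₀ * (a * c₀) * x₀⁻¹) * x₀ := by rw [h]
      _ = a * c₀ := by group
  have hya : y * a * y⁻¹ = a := by
    calc y * a * y⁻¹ = y * (a * c) ^ (Nat.chineseRemainder hcop 1 0 : ℕ) * y⁻¹ := by
          rw [hpow c hc]
      _ = (y * (a * c) * y⁻¹) ^ (Nat.chineseRemainder hcop 1 0 : ℕ) := (conj_pow).symm
      _ = a := by rw [hy1, hpow c₀ hc₀]
  constructor
  · calc y * a = (y * a * y⁻¹) * y := by group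
      _ = a * y := by rw [hya]
  · have : c₀ = y * c * y⁻¹ := by
      calc c₀ = a⁻¹ * (a * c₀) := by group
        _ = a⁻¹ * (y * (a * c) * y⁻¹) := by rw [hy1]
        _ = a⁻¹ * (y * a * y⁻¹) * (y * c * y⁻¹) := by group
        _ = a⁻¹ * a * (y * c * y⁻¹) := by rw [hya]
        _ = y * c * y⁻¹ := by group
    rw [this]; group

open Classical in
theorem coset_sum {𝕜 : Type*} [Field 𝕜] [CharZero 𝕜] (K : Subgroup G) (a : G)
    (hn : ∀ u ∈ K, a * u * a⁻¹ ∈ K) (hn' : ∀ u ∈ K, a⁻¹ * u * a ∈ K)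
    (hcop : (orderOf a).Coprime (Nat.card K))
    (F : G → 𝕜) (hF : ∀ g, ∀ x ∈ K, F (x * g * x⁻¹) = F g) :
    (Nat.card ↥(K ⊓ Subgroup.centralizer ({a} : Set G)) : 𝕜) *
        ∑ u ∈ Finset.univ.filter (· ∈ K), F (a * u)
      = (Nat.card K : 𝕜) *
        ∑ c ∈ Finset.univ.filter (· ∈ K ⊓ Subgroup.centralizer ({a} : Set G)), F (a * c) := by
  set C := K ⊓ Subgroup.centralizer ({a} : Set G) with hC
  set SK := (Finset.univ.filter (· ∈ K) : Finset G) with hSK
  set SC := (Finset.univ.filter (· ∈ C) : Finset G) with hSC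
  have hcardK : SK.card = Nat.card K := (natCard_subgroup_eq K).symm
  have hcardC : SC.card = Nat.card C := (natCard_subgroup_eq C).symm
  let φ : G × G → G := fun p => a⁻¹ * (p.1 * (a * p.2) * p.1⁻¹)
  have hmaps : ∀ p ∈ SK ×ˢ SC, φ p ∈ SK := by
    intro p hp
    obtain ⟨h1, h2⟩ := Finset.mem_product.mp hp
    have hx : p.1 ∈ K := (Finset.mem_filter.mp h1).2
    have hc : p.2 ∈ C := (Finset.mem_filter.mp h2).2
    refine Finset.mem_filter.mpr ⟨Finset.mem_univ _, ?_⟩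
    have e : φ p = (a⁻¹ * p.1 * a) * p.2 * p.1⁻¹ := by simp only [φ]; group
    rw [e]
    exact K.mul_mem (K.mul_mem (hn' _ hx) hc.1) (K.inv_mem hx)
  have hfib : ∀ u ∈ SK, ((SK ×ˢ SC).filter (fun p => φ p = u)).card = Nat.card C := by
    intro u hu
    have huK : u ∈ K := (Finset.mem_filter.mp hu).2
    obtain ⟨x₀, hx₀, c₀, hc₀, hcomm₀, hconj₀⟩ := coset_rep K a hn hn' hcop huK
    have hc₀C : c₀ ∈ C := ⟨hc₀, Subgroup.mem_centralizer_singleton_iff.mpr hcomm₀⟩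
    rw [← hcardC]
    symm
    apply Finset.card_bij' (fun z _ => (x₀ * z, z⁻¹ * c₀ * z)) (fun p _ => x₀⁻¹ * p.1)
    · intro z hz
      have hzC : z ∈ C := (Finset.mem_filter.mp hz).2
      have hza : z * a = a * z := Subgroup.mem_centralizer_singleton_iff.mp hzC.2
      refine Finset.mem_filter.mpr ⟨Finset.mem_product.mpr ⟨?_, ?_⟩, ?_⟩
      · exact Finset.mem_filter.mpr ⟨Finset.mem_univ _, K.mul_mem hx₀ hzC.1⟩
      · exact Finset.mem_filter.mpr ⟨Finset.mem_univ _,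
          C.mul_mem (C.mul_mem (C.inv_mem hzC) hc₀C) hzC⟩
      · show a⁻¹ * (x₀ * z * (a * (z⁻¹ * c₀ * z)) * (x₀ * z)⁻¹) = u
        have e : x₀ * z * (a * (z⁻¹ * c₀ * z)) * (x₀ * z)⁻¹ = x₀ * (a * c₀) * x₀⁻¹ := by
          calc x₀ * z * (a * (z⁻¹ * c₀ * z)) * (x₀ * z)⁻¹
              = x₀ * (z * a) * z⁻¹ * c₀ * x₀⁻¹ := by group
            _ = x₀ * (a * z) * z⁻¹ * c₀ * x₀⁻¹ := by rw [hza]
            _ = x₀ * (a * c₀) * x₀⁻¹ := by group
        rw [e, hconj₀]; group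
    · intro p hp
      obtain ⟨hp1, hp2⟩ := Finset.mem_filter.mp hp
      obtain ⟨h1, h2⟩ := Finset.mem_product.mp hp1
      have hx : p.1 ∈ K := (Finset.mem_filter.mp h1).2
      have hc : p.2 ∈ C := (Finset.mem_filter.mp h2).2
      have hconj : p.1 * (a * p.2) * p.1⁻¹ = x₀ * (a * c₀) * x₀⁻¹ := by
        rw [hconj₀, ← hp2]; simp only [φ]; group
      have := fiber_aux K a hcop hc hc₀C hconj
      exact Finset.mem_filter.mpr ⟨Finset.mem_univ _, ⟨K.mul_mem (K.inv_mem hx₀) hx,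
        Subgroup.mem_centralizer_singleton_iff.mpr this.1⟩⟩
    · intro z hz
      show x₀⁻¹ * (x₀ * z) = z
      group
    · intro p hp
      obtain ⟨hp1, hp2⟩ := Finset.mem_filter.mp hp
      obtain ⟨h1, h2⟩ := Finset.mem_product.mp hp1
      have hx : p.1 ∈ K := (Finset.mem_filter.mp h1).2
      have hc : p.2 ∈ C := (Finset.mem_filter.mp h2).2
      have hconj : p.1 * (a * p.2) * p.1⁻¹ = x₀ * (a * c₀) * x₀⁻¹ := by
        rw [hconj₀, ← hp2]; simp only [φ]; group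
      have := fiber_aux K a hcop hc hc₀C hconj
      refine Prod.ext ?_ ?_
      · show x₀ * (x₀⁻¹ * p.1) = p.1
        group
      · exact this.2
  have hT1 : ∑ p ∈ SK ×ˢ SC, F (p.1 * (a * p.2) * p.1⁻¹) =
      (Nat.card K : 𝕜) * ∑ c ∈ SC, F (a * c) := by
    rw [Finset.sum_product]
    have : ∀ x ∈ SK, ∑ c ∈ SC, F (x * (a * c) * x⁻¹) = ∑ c ∈ SC, F (a * c) := by
      intro x hx
      apply Finset.sum_congr rfl
      intro c _
      exact hF _ x (Finset.mem_filter.mp hx).2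
    rw [Finset.sum_congr rfl this, Finset.sum_const, hcardK, nsmul_eq_mul]
  have hT2 : ∑ p ∈ SK ×ˢ SC, F (p.1 * (a * p.2) * p.1⁻¹) =
      (Nat.card C : 𝕜) * ∑ u ∈ SK, F (a * u) := by
    rw [← Finset.sum_fiberwise_of_maps_to hmaps, Finset.mul_sum]
    apply Finset.sum_congr rfl
    intro u hu
    have : ∀ p ∈ (SK ×ˢ SC).filter (fun p => φ p = u),
        F (p.1 * (a * p.2) * p.1⁻¹) = F (a * u) := by
      intro p hp
      have := (Finset.mem_filter.mp hp).2
      rw [← this]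
      congr 1
      simp only [φ]; group
    rw [Finset.sum_congr rfl this, Finset.sum_const, hfib u hu, nsmul_eq_mul]
  rw [← hT2, hT1]

end CosetCount

end Cfsg.Agent.Lib.Helper2.Dade
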