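import Cfsg.Agent.Lib.Helper2.Dade5

set_option autoImplicit false

namespace Cfsg.Agent.Lib.Helper2.Dade

open Cfsg
open scoped ComplexConjugate

section Sub

variable {G : Type*} [Group G] [Fintype G] {A : Set G} {L : Subgroup G} {H : G → Subgroup G}

theorem H_conj (hD : DadeHypothesis A L H) {a : G} (ha : a ∈ A) {l : G} (hl : l ∈ L) {u : G}
    (hu : u ∈ H a) : l * u * l⁻¹ ∈ H (l * a * l⁻¹) := by
  have ha' : l * a * l⁻¹ ∈ A := hD.conj_mem l hl a ha
  apply mem_H_of_pow hD ha' (k := Nat.card (H a))
  · rw [Subgroup.mem_centralizer_singleton_iff]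
    have h := Subgroup.mem_centralizer_singleton_iff.mp (hD.le_centralizer a ha hu)
    calc l * u * l⁻¹ * (l * a * l⁻¹) = l * (u * a) * l⁻¹ := by group
      _ = l * (a * u) * l⁻¹ := by rw [h]
      _ = l * a * l⁻¹ * (l * u * l⁻¹) := by group
  · rw [conj_pow]
    have h := pow_card_eq_one' (G := H a) (x := ⟨u, hu⟩)
    have h2 : u ^ Nat.card (H a) = 1 := congrArg Subtype.val h
    rw [h2]; group
  · exact hD.coprime a ha _ ha'

theorem H_conj_iff (hD : DadeHypothesis A L H) {a : G} (ha : a ∈ A) {l : G} (hl : l ∈ L)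
    {u : G} : l * u * l⁻¹ ∈ H (l * a * l⁻¹) ↔ u ∈ H a := by
  constructor
  · intro h
    have := H_conj hD (hD.conj_mem l hl a ha) (L.inv_mem hl) h
    have e1 : l⁻¹ * (l * u * l⁻¹) * l⁻¹⁻¹ = u := by group
    have e2 : l⁻¹ * (l * a * l⁻¹) * l⁻¹⁻¹ = a := by group
    rwa [e1, e2] at this
  · exact H_conj hD ha hl

/-- intersection of the `H b` over a finite set -/
def HB (H : G → Subgroup G) (B : Finset G) : Subgroup G := ⨅ b ∈ B, H b

omit [Fintype G] in
theorem mem_HB {B : Finset G} {u : G} : u ∈ HB H B ↔ ∀ b ∈ B, u ∈ H b := by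
  unfold HB; simp only [Subgroup.mem_iInf]

/-- normalizing a finite set -/
def Nrm (l : G) (B : Finset G) : Prop := ∀ b, b ∈ B ↔ l * b * l⁻¹ ∈ B

omit [Fintype G] in
theorem Nrm_inv {l : G} {B : Finset G} (h : Nrm l B) : Nrm l⁻¹ B := by
  intro b
  have := h (l⁻¹ * b * l⁻¹⁻¹)
  have e : l * (l⁻¹ * b * l⁻¹⁻¹) * l⁻¹ = b := by group
  rw [e] at this
  exact this.symm

omit [Fintype G] in
theorem Nrm_insert [DecidableEq G] {a : G} {B : Finset G} (h : Nrm a B) : Nrm a (insert a B) := by
  intro b
  simp only [Finset.mem_insert]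
  constructor
  · rintro (rfl | hb)
    · left; group
    · right; exact (h b).mp hb
  · rintro (hb | hb)
    · left
      have : b = a⁻¹ * (a * b * a⁻¹) * a := by group
      rw [this, hb]; group
    · right; exact (h b).mpr hb

omit [Fintype G] in
theorem Nrm_erase [DecidableEq G] {a : G} {B : Finset G} (h : Nrm a B) : Nrm a (B.erase a) := by
  intro b
  simp only [Finset.mem_erase]
  constructor
  · rintro ⟨hne, hb⟩
    refine ⟨fun hb' => hne ?_, (h b).mp hb⟩
    have : b = a⁻¹ * (a * b * a⁻¹) * a := by group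
    rw [this, hb']; group
  · rintro ⟨hne, hb⟩
    refine ⟨fun hb' => hne ?_, (h b).mpr hb⟩
    rw [hb']; group

theorem HB_conj (hD : DadeHypothesis A L H) {B : Finset G} (hB : ∀ b ∈ B, b ∈ A) {l : G}
    (hl : l ∈ L) (hn : Nrm l B) {u : G} (hu : u ∈ HB H B) : l * u * l⁻¹ ∈ HB H B := by
  rw [mem_HB] at hu ⊢
  intro b hb
  have hb' : l⁻¹ * b * l⁻¹⁻¹ ∈ B := (Nrm_inv hn b).mp hb
  have := H_conj hD (hB _ hb') hl (hu _ hb')
  have e : l * (l⁻¹ * b * l⁻¹⁻¹) * l⁻¹ = b := by group
  rwa [e] at this

open Classical in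
/-- averaging over `H_B` -/
noncomputable def avgB (H : G → Subgroup G) (F : G → ℂ) (B : Finset G) (l : G) : ℂ :=
  (Nat.card (HB H B) : ℂ)⁻¹ * ∑ u ∈ Finset.univ.filter (· ∈ HB H B), F (l * u)

open Classical in
theorem avg_insert (hD : DadeHypothesis A L H) {B : Finset G} (hB : ∀ b ∈ B, b ∈ A)
    (hne : B.Nonempty) {a : G} (ha : a ∈ A) (hn : Nrm a B)
    (F : G → ℂ) (hF : ∀ g x : G, F (x * g * x⁻¹) = F g) :
    avgB H F B a = avgB H F (insert a B) a := by
  obtain ⟨b₀, hb₀⟩ := hne
  have haL : a ∈ L := hD.subset ha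
  have hle : HB H B ≤ H b₀ := fun u hu => mem_HB.mp hu b₀ hb₀
  have hcop : (orderOf a).Coprime (Nat.card (HB H B)) := by
    have h1 : orderOf a ∣ Nat.card ↥(L ⊓ Subgroup.centralizer ({a} : Set G)) :=
      orderOf_dvd_card_of_mem _ a ⟨haL, Subgroup.mem_centralizer_singleton_iff.mpr rfl⟩
    have h2 : Nat.card (HB H B) ∣ Nat.card (H b₀) := Subgroup.card_dvd_of_le hle
    exact Nat.Coprime.coprime_dvd_left h1
      (Nat.Coprime.coprime_dvd_right h2 (hD.coprime b₀ (hB _ hb₀) a ha).symm)
  have hC : HB H B ⊓ Subgroup.centralizer ({a} : Set G) = HB H (insert a B) := by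
    ext u
    rw [Subgroup.mem_inf, mem_HB, mem_HB]
    constructor
    · rintro ⟨h1, h2⟩ b hb
      rcases Finset.mem_insert.mp hb with hba | hb
      · rw [hba]
        apply mem_H_of_pow hD ha h2 (k := Nat.card (H b₀))
        · have h := pow_card_eq_one' (G := H b₀) (x := ⟨u, h1 b₀ hb₀⟩)
          exact congrArg Subtype.val h
        · exact hD.coprime b₀ (hB _ hb₀) a ha
      · exact h1 b hb
    · intro h
      exact ⟨fun b hb => h b (Finset.mem_insert_of_mem hb),
        hD.le_centralizer a ha (h a (Finset.mem_insert_self a B))⟩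
  have key := coset_sum (𝕜 := ℂ) (HB H B) a (fun u hu => HB_conj hD hB haL hn hu)
    (fun u hu => by
      have := HB_conj hD hB (L.inv_mem haL) (Nrm_inv hn) hu
      rwa [inv_inv] at this)
    hcop F (fun g x _ => hF g x)
  rw [hC] at key
  have h1 : (Nat.card (HB H B) : ℂ) ≠ 0 := Nat.cast_ne_zero.mpr Nat.card_pos.ne'
  have h2 : (Nat.card (HB H (insert a B)) : ℂ) ≠ 0 := Nat.cast_ne_zero.mpr Nat.card_pos.ne'
  unfold avgB
  field_simp
  linear_combination key

open Classical in
/-- the nonempty subsets of `A` -/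
noncomputable def PA (A : Set G) : Finset (Finset G) :=
  ((Finset.univ.filter (· ∈ A)).powerset).filter (·.Nonempty)

open Classical in
theorem mem_PA {B : Finset G} : B ∈ PA A ↔ (∀ b ∈ B, b ∈ A) ∧ B.Nonempty := by
  unfold PA
  rw [Finset.mem_filter, Finset.mem_powerset]
  constructor
  · rintro ⟨h1, h2⟩
    exact ⟨fun b hb => (Finset.mem_filter.mp (h1 hb)).2, h2⟩
  · rintro ⟨h1, h2⟩
    exact ⟨fun b hb => Finset.mem_filter.mpr ⟨Finset.mem_univ _, h1 b hb⟩, h2⟩

open Classical in
theorem sum_PA (hD : DadeHypothesis A L H) (F : G → ℂ) (hF : ∀ g x : G, F (x * g * x⁻¹) = F g)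
    {a : G} (ha : a ∈ A) :
    ∑ B ∈ (PA A).filter (fun B => Nrm a B), (-1 : ℂ) ^ (B.card + 1) * avgB H F B a =
      avgB H F {a} a := by
  set S := (PA A).filter (fun B => Nrm a B) with hS
  have hmem : ({a} : Finset G) ∈ S := by
    rw [hS, Finset.mem_filter, mem_PA]
    refine ⟨⟨fun b hb => by rw [Finset.mem_singleton.mp hb]; exact ha,
      Finset.singleton_nonempty a⟩, ?_⟩
    intro b
    simp only [Finset.mem_singleton]
    constructor
    · rintro rfl; group
    · intro hb
      have : b = a⁻¹ * (a * b * a⁻¹) * a := by group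
      rw [this, hb]; group
  rw [← Finset.add_sum_erase S _ hmem]
  have h0 : ∑ B ∈ S.erase {a}, (-1 : ℂ) ^ (B.card + 1) * avgB H F B a = 0 := by
    have hprop : ∀ B ∈ S.erase {a}, B ≠ {a} ∧ (∀ b ∈ B, b ∈ A) ∧ B.Nonempty ∧ Nrm a B := by
      intro B hB
      obtain ⟨h1, h2⟩ := Finset.mem_erase.mp hB
      rw [hS, Finset.mem_filter, mem_PA] at h2
      exact ⟨h1, h2.1.1, h2.1.2, h2.2⟩
    have hback : ∀ B : Finset G, B ≠ {a} → (∀ b ∈ B, b ∈ A) → B.Nonempty → Nrm a B →
        B ∈ S.erase {a} := by
      intro B h1 h2 h3 h4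
      refine Finset.mem_erase.mpr ⟨h1, ?_⟩
      rw [hS, Finset.mem_filter, mem_PA]
      exact ⟨⟨h2, h3⟩, h4⟩
    have herase_ne : ∀ B : Finset G, B ≠ {a} → a ∈ B → (B.erase a).Nonempty := by
      intro B h1 h2
      by_contra hne
      rw [Finset.not_nonempty_iff_eq_empty, Finset.erase_eq_empty_iff] at hne
      rcases hne with h | h
      · rw [h] at h2; exact absurd h2 (Finset.notMem_empty a)
      · exact h1 h
    apply Finset.sum_involution (fun B _ => if a ∈ B then B.erase a else insert a B)
    · intro B hB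
      obtain ⟨h1, h2, h3, h4⟩ := hprop B hB
      by_cases haB : a ∈ B
      · simp only [if_pos haB]
        have e := avg_insert hD (B := B.erase a)
          (fun b hb => h2 b (Finset.mem_of_mem_erase hb)) (herase_ne B h1 haB) ha (Nrm_erase h4) F hF
        rw [Finset.insert_erase haB] at e
        have hc : B.card = (B.erase a).card + 1 := (Finset.card_erase_add_one haB).symm
        rw [e, hc]
        ring
      · simp only [if_neg haB]
        have e := avg_insert hD (B := B) h2 h3 ha h4 F hF
        rw [e, Finset.card_insert_of_notMem haB]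
        ring
    · intro B hB _
      by_cases haB : a ∈ B
      · simp only [if_pos haB]
        intro h
        have : a ∈ B.erase a := by rw [h]; exact haB
        exact absurd this (Finset.notMem_erase a B)
      · simp only [if_neg haB]
        intro h
        have : a ∈ B := by rw [← h]; exact Finset.mem_insert_self a B
        exact haB this
    · intro B hB
      obtain ⟨h1, h2, h3, h4⟩ := hprop B hB
      by_cases haB : a ∈ B
      · rw [if_pos haB, if_neg (Finset.notMem_erase a B)]
        exact Finset.insert_erase haB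
      · rw [if_neg haB, if_pos (Finset.mem_insert_self a B)]
        exact Finset.erase_insert haB
    · intro B hB
      obtain ⟨h1, h2, h3, h4⟩ := hprop B hB
      by_cases haB : a ∈ B
      · simp only [if_pos haB]
        apply hback
        · intro h
          have : a ∈ B.erase a := by rw [h]; exact Finset.mem_singleton_self a
          exact absurd this (Finset.notMem_erase a B)
        · exact fun b hb => h2 b (Finset.mem_of_mem_erase hb)
        · exact herase_ne B h1 haB
        · exact Nrm_erase h4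
      · simp only [if_neg haB]
        apply hback
        · intro h
          obtain ⟨b, hb⟩ := h3
          have : b ∈ insert a B := Finset.mem_insert_of_mem hb
          rw [h, Finset.mem_singleton] at this
          rw [this] at hb
          exact haB hb
        · intro b hb
          rcases Finset.mem_insert.mp hb with hba | hb
          · rw [hba]; exact ha
          · exact h2 b hb
        · exact Finset.insert_nonempty a B
        · exact Nrm_insert h4
  rw [h0, add_zero, Finset.card_singleton]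
  norm_num

end Sub

end Cfsg.Agent.Lib.Helper2.Dade
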