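import Cfsg.Agent.Lib.Helper2.Dade6
import Cfsg.Agent.Lib.Helper2.OddReal
import Cfsg.Agent.Lib.Helper2.CharAux
import Cfsg.Agent.Lib.Lead.CharRing

set_option autoImplicit false

namespace Cfsg.Agent.Lib.Helper2.Dade

open Cfsg Cfsg.Agent.Lib.Lead
open scoped ComplexConjugate

section Pair

variable {G : Type*} [Group G] [Fintype G]

/-- the conjugation action of a normalizing subgroup -/
def conjHom (K N : Subgroup G) (hnorm : ∀ n ∈ N, ∀ u ∈ K, n * u * n⁻¹ ∈ K) : N →* MulAut K where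
  toFun n :=
    { toFun := fun u => ⟨(n : G) * (u : G) * (n : G)⁻¹, hnorm n n.2 u u.2⟩
      invFun := fun u => ⟨(n : G)⁻¹ * (u : G) * (n : G), by
        have := hnorm (n : G)⁻¹ (N.inv_mem n.2) u u.2
        rwa [inv_inv] at this⟩
      left_inv := fun u => Subtype.ext (by
        show (n : G)⁻¹ * ((n : G) * (u : G) * (n : G)⁻¹) * (n : G) = u
        group)
      right_inv := fun u => Subtype.ext (by
        show (n : G) * ((n : G)⁻¹ * (u : G) * (n : G)) * (n : G)⁻¹ = u
        group)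
      map_mul' := fun u v => Subtype.ext (by
        show (n : G) * ((u : G) * (v : G)) * (n : G)⁻¹ =
          (n : G) * (u : G) * (n : G)⁻¹ * ((n : G) * (v : G) * (n : G)⁻¹)
        group) }
  map_one' := by
    apply MulEquiv.ext
    intro u
    apply Subtype.ext
    show ((1 : N) : G) * u * ((1 : N) : G)⁻¹ = u
    simp
  map_mul' := fun n m => by
    apply MulEquiv.ext
    intro u
    apply Subtype.ext
    show ((n * m : N) : G) * (u : G) * ((n * m : N) : G)⁻¹ =
      (n : G) * ((m : G) * (u : G) * (m : G)⁻¹) * (n : G)⁻¹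
    simp [mul_assoc]

open Classical in
theorem int_pair (K N : Subgroup G) (hnorm : ∀ n ∈ N, ∀ u ∈ K, n * u * n⁻¹ ∈ K)
    (β : N → ℂ) (hβ : IsGeneralizedCharacter N β) (χ : G → ℂ) (hχ : IsCharacter G χ) :
    ∃ z : ℤ, (Nat.card K : ℂ)⁻¹ * (Nat.card N : ℂ)⁻¹ *
      ∑ n : N, ∑ u : K, β n * conj (χ ((u : G) * n)) = z := by
  let φ := conjHom K N hnorm
  let f : K ⋊[φ] N →* G := SemidirectProduct.lift K.subtype N.subtype (by
    intro n
    ext u
    simp only [MonoidHom.comp_apply, MulEquiv.coe_toMonoidHom, Subgroup.coe_subtype,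
      MulAut.conj_apply]
    rfl)
  haveI : Finite (K ⋊[φ] N) := Finite.of_equiv _ (SemidirectProduct.equivProd (φ := φ)).symm
  letI : Fintype (K ⋊[φ] N) := Fintype.ofFinite _
  have hgc : IsGeneralizedCharacter (K ⋊[φ] N)
      (β ∘ (SemidirectProduct.rightHom : K ⋊[φ] N →* N)) := by
    obtain ⟨a1, a2, h1, h2, rfl⟩ := hβ
    exact ⟨a1 ∘ SemidirectProduct.rightHom, a2 ∘ SemidirectProduct.rightHom,
      isCharacter_comp _ h1, isCharacter_comp _ h2, rfl⟩
  have hch : IsCharacter (K ⋊[φ] N) (χ ∘ f) := isCharacter_comp f hχ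
  obtain ⟨z, hz⟩ := isGenChar_inner_int hgc hch
  refine ⟨z, ?_⟩
  rw [← hz]
  unfold classInner
  have hcard : (Nat.card (K ⋊[φ] N) : ℂ) = (Nat.card K : ℂ) * (Nat.card N : ℂ) := by
    rw [Nat.card_congr (SemidirectProduct.equivProd (φ := φ)), Nat.card_prod, Nat.cast_mul]
  rw [hcard, mul_inv]
  congr 1
  rw [← Equiv.sum_comp (SemidirectProduct.equivProd (φ := φ)).symm, Fintype.sum_prod_type,
    Finset.sum_comm]
  rfl

end Pair

section WB

theorem stab_card_conj {Λ : Type*} [Group Λ] {X : Type*} (act : Λ → X → X)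
    (h1 : ∀ y, act 1 y = y) (hmul : ∀ g h y, act (g * h) y = act g (act h y)) (l : Λ) (x : X) :
    Nat.card {m : Λ // act m (act l x) = act l x} = Nat.card {m : Λ // act m x = x} := by
  apply Nat.card_congr
  refine ⟨fun m => ⟨l⁻¹ * m.1 * l, ?_⟩, fun m => ⟨l * m.1 * l⁻¹, ?_⟩,
    fun m => Subtype.ext (by group), fun m => Subtype.ext (by group)⟩
  · rw [hmul (l⁻¹ * m.1) l, hmul l⁻¹ m.1, m.2, ← hmul, inv_mul_cancel, h1]
  · rw [hmul (l * m.1) l⁻¹, ← hmul l⁻¹ l, inv_mul_cancel, h1, hmul l m.1, m.2]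

theorem wburnside_int {Λ : Type*} [Group Λ] [Fintype Λ] {X : Type*} [Fintype X]
    (act : Λ → X → X) (h1 : ∀ y, act 1 y = y)
    (hmul : ∀ g h y, act (g * h) y = act g (act h y))
    (v : X → ℤ) (hv : ∀ l x, v (act l x) = v x) :
    ∃ z : ℤ, ∑ x : X, (Nat.card {l : Λ // act l x = x} : ℤ) * v x = (Nat.card Λ : ℤ) * z := by
  classical
  have key : ∀ c : ℤ, ∃ z : ℤ, ∑ x ∈ Finset.univ.filter (fun x => v x = c),
      (Nat.card {l : Λ // act l x = x} : ℤ) * v x = (Nat.card Λ : ℤ) * z := by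
    intro c
    let act' : Λ → {x : X // v x = c} → {x : X // v x = c} :=
      fun l y => ⟨act l y.1, by rw [hv]; exact y.2⟩
    have hb := OddReal.burnside act' (fun y => Subtype.ext (h1 _))
      (fun g h y => Subtype.ext (hmul g h _))
    refine ⟨c * Nat.card (Quot (fun y y' : {x : X // v x = c} => ∃ g, act' g y = y')), ?_⟩
    have e1 : ∑ x ∈ Finset.univ.filter (fun x => v x = c),
        (Nat.card {l : Λ // act l x = x} : ℤ) * v x
        = c * ∑ x ∈ Finset.univ.filter (fun x => v x = c),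
          (Nat.card {l : Λ // act l x = x} : ℤ) := by
      rw [Finset.mul_sum]
      apply Finset.sum_congr rfl
      intro x hx
      rw [(Finset.mem_filter.mp hx).2]; ring
    have a1 : ∀ x : X, (Nat.card {l : Λ // act l x = x} : ℤ) =
        ∑ l : Λ, if act l x = x then 1 else 0 := by
      intro x
      rw [Nat.card_eq_fintype_card, Fintype.card_subtype, Finset.sum_boole]
    have a2 : ∀ l : Λ, (Nat.card {y : {x : X // v x = c} // act' l y = y} : ℤ) =
        ∑ x ∈ Finset.univ.filter (fun x => v x = c), if act l x = x then 1 else 0 := by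
      intro l
      have e : {y : {x : X // v x = c} // act' l y = y} ≃ {x : X // v x = c ∧ act l x = x} :=
        ⟨fun y => ⟨y.1.1, y.1.2, congrArg Subtype.val y.2⟩,
         fun x => ⟨⟨x.1, x.2.1⟩, Subtype.ext x.2.2⟩, fun _ => rfl, fun _ => rfl⟩
      rw [Nat.card_congr e, Nat.card_eq_fintype_card, Fintype.card_subtype, Finset.sum_boole,
        Finset.filter_filter]
    have e2 : ∑ x ∈ Finset.univ.filter (fun x => v x = c),
        (Nat.card {l : Λ // act l x = x} : ℤ)
        = ∑ l : Λ, (Nat.card {y : {x : X // v x = c} // act' l y = y} : ℤ) := by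
      rw [Finset.sum_congr rfl (fun x _ => a1 x), Finset.sum_congr rfl (fun l _ => a2 l)]
      exact Finset.sum_comm
    rw [e1, e2, ← Nat.cast_sum, ← hb]
    push_cast; ring
  choose z hz using key
  refine ⟨∑ c ∈ Finset.univ.image v, z c, ?_⟩
  rw [← Finset.sum_fiberwise_of_maps_to (g := v) (t := Finset.univ.image v)
    (fun x _ => Finset.mem_image_of_mem v (Finset.mem_univ x)), Finset.mul_sum]
  exact Finset.sum_congr rfl (fun c _ => hz c)

theorem wburnside {Λ : Type*} [Group Λ] [Fintype Λ] {X : Type*} [Fintype X]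
    (act : Λ → X → X) (h1 : ∀ y, act 1 y = y)
    (hmul : ∀ g h y, act (g * h) y = act g (act h y))
    (W : X → ℂ) (hW : ∀ l x, W (act l x) = W x)
    (hz : ∀ x, ∃ z : ℤ, W x = (Nat.card {l : Λ // act l x = x} : ℂ) * z) :
    ∃ z : ℤ, ∑ x : X, W x = (Nat.card Λ : ℂ) * z := by
  choose v hvz using hz
  have hv : ∀ l x, v (act l x) = v x := by
    intro l x
    have e1 := hvz (act l x)
    rw [hW, hvz x, stab_card_conj act h1 hmul l x] at e1
    have hne : (Nat.card {m : Λ // act m x = x} : ℂ) ≠ 0 := by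
      haveI : Nonempty {m : Λ // act m x = x} := ⟨⟨1, h1 x⟩⟩
      exact Nat.cast_ne_zero.mpr Nat.card_pos.ne'
    have := mul_left_cancel₀ hne e1
    exact_mod_cast this.symm
  obtain ⟨z, hz⟩ := wburnside_int act h1 hmul v hv
  refine ⟨z, ?_⟩
  have : ∑ x : X, W x = ((∑ x : X, (Nat.card {l : Λ // act l x = x} : ℤ) * v x : ℤ) : ℂ) := by
    push_cast
    exact Finset.sum_congr rfl (fun x _ => hvz x)
  rw [this, hz]; push_cast; ring

end WB

section Cj

variable {G : Type*} [Group G] [DecidableEq G]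

/-- conjugation action on finite subsets -/
def cj (l : G) (B : Finset G) : Finset G := B.image (fun b => l * b * l⁻¹)

theorem mem_cj {l x : G} {B : Finset G} : x ∈ cj l B ↔ l⁻¹ * x * l ∈ B := by
  unfold cj
  rw [Finset.mem_image]
  constructor
  · rintro ⟨b, hb, rfl⟩
    have : l⁻¹ * (l * b * l⁻¹) * l = b := by group
    rwa [this]
  · intro h
    exact ⟨_, h, by group⟩

theorem cj_one (B : Finset G) : cj 1 B = B := by
  ext x; rw [mem_cj]; simp

theorem cj_mul (g h : G) (B : Finset G) : cj (g * h) B = cj g (cj h B) := by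
  ext x
  rw [mem_cj, mem_cj, mem_cj]
  have : (g * h)⁻¹ * x * (g * h) = h⁻¹ * (g⁻¹ * x * g) * h := by group
  rw [this]

theorem cj_eq_iff {l : G} {B : Finset G} : cj l B = B ↔ Nrm l B := by
  constructor
  · intro h b
    constructor
    · intro hb
      rw [← h, mem_cj]
      have : l⁻¹ * (l * b * l⁻¹) * l = b := by group
      rwa [this]
    · intro hb
      rw [← h, mem_cj] at hb
      have : l⁻¹ * (l * b * l⁻¹) * l = b := by group
      rwa [this] at hb
  · intro h
    ext x
    rw [mem_cj]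
    have := (Nrm_inv h) x
    rw [inv_inv] at this
    exact this.symm

theorem card_cj (l : G) (B : Finset G) : (cj l B).card = B.card := by
  unfold cj
  apply Finset.card_image_of_injective
  intro x y h
  have h' : l * x * l⁻¹ = l * y * l⁻¹ := h
  exact mul_left_cancel (mul_right_cancel h')

theorem Nrm_cj {l m : G} {B : Finset G} : Nrm (l * m * l⁻¹) (cj l B) ↔ Nrm m B := by
  rw [← cj_eq_iff, ← cj_eq_iff, ← cj_mul]
  have e : l * m * l⁻¹ * l = l * m := by group
  rw [e, cj_mul]
  constructor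
  · intro h
    have h2 : ∀ C : Finset G, cj l⁻¹ (cj l C) = C := fun C => by
      rw [← cj_mul, inv_mul_cancel, cj_one]
    have := congrArg (cj l⁻¹) h
    rwa [h2, h2] at this
  · intro h; rw [h]

end Cj

section Equiv

variable {G : Type*} [Group G] [Fintype G] {A : Set G} {L : Subgroup G} {H : G → Subgroup G}

theorem cj_mem_PA [DecidableEq G] (hD : DadeHypothesis A L H) {l : G} (hl : l ∈ L)
    {B : Finset G} (hB : B ∈ PA A) : cj l B ∈ PA A := by
  rw [mem_PA] at hB ⊢
  constructor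
  · intro x hx
    rw [mem_cj] at hx
    have := hD.conj_mem l hl _ (hB.1 _ hx)
    have e : l * (l⁻¹ * x * l) * l⁻¹ = x := by group
    rwa [e] at this
  · rw [← Finset.card_pos, card_cj]
    exact Finset.card_pos.mpr hB.2

theorem cj_mem_PA_iff [DecidableEq G] (hD : DadeHypothesis A L H) {l : G} (hl : l ∈ L)
    {B : Finset G} : cj l B ∈ PA A ↔ B ∈ PA A := by
  constructor
  · intro h
    have := cj_mem_PA hD (L.inv_mem hl) h
    rwa [← cj_mul, inv_mul_cancel, cj_one] at this
  · exact cj_mem_PA hD hl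

theorem mem_HB_cj [DecidableEq G] (hD : DadeHypothesis A L H) {B : Finset G}
    (hB : ∀ b ∈ B, b ∈ A) {l : G} (hl : l ∈ L) {u : G} :
    l * u * l⁻¹ ∈ HB H (cj l B) ↔ u ∈ HB H B := by
  rw [mem_HB, mem_HB]
  unfold cj
  rw [Finset.forall_mem_image]
  constructor
  · intro h b hb
    exact (H_conj_iff hD (hB b hb) hl).mp (h hb)
  · intro h b hb
    exact (H_conj_iff hD (hB b hb) hl).mpr (h b hb)

open Classical in
theorem avgB_cj (hD : DadeHypothesis A L H) {B : Finset G}
    (hB : ∀ b ∈ B, b ∈ A) {l : G} (hl : l ∈ L) (F : G → ℂ)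
    (hF : ∀ g x : G, F (x * g * x⁻¹) = F g) (m : G) :
    avgB H F (cj l B) (l * m * l⁻¹) = avgB H F B m := by
  have hsum : ∀ f : G → ℂ, ∑ u ∈ Finset.univ.filter (· ∈ HB H (cj l B)), f u =
      ∑ u ∈ Finset.univ.filter (· ∈ HB H B), f (l * u * l⁻¹) := by
    intro f
    symm
    apply Finset.sum_bij' (fun u _ => l * u * l⁻¹) (fun u _ => l⁻¹ * u * l)
    · intro u hu
      exact Finset.mem_filter.mpr ⟨Finset.mem_univ _,
        (mem_HB_cj hD hB hl).mpr (Finset.mem_filter.mp hu).2⟩
    · intro u hu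
      refine Finset.mem_filter.mpr ⟨Finset.mem_univ _, (mem_HB_cj hD hB hl).mp ?_⟩
      have e : l * (l⁻¹ * u * l) * l⁻¹ = u := by group
      rw [e]
      exact (Finset.mem_filter.mp hu).2
    · intro u _
      group
    · intro u _
      group
    · intro u _
      rfl
  have hcard : (Nat.card (HB H (cj l B)) : ℂ) = (Nat.card (HB H B) : ℂ) := by
    have := hsum (fun _ => 1)
    rw [Finset.sum_const, Finset.sum_const, ← natCard_subgroup_eq, ← natCard_subgroup_eq,
      nsmul_eq_mul, nsmul_eq_mul, mul_one, mul_one] at this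
    exact this
  unfold avgB
  rw [hcard, hsum]
  congr 1
  apply Finset.sum_congr rfl
  intro u _
  have e : l * m * l⁻¹ * (l * u * l⁻¹) = l * (m * u) * l⁻¹ := by group
  rw [e, hF]

/-- the normalizer in `L` of a finite set -/
def NB (L : Subgroup G) (B : Finset G) : Subgroup G where
  carrier := {l | l ∈ L ∧ Nrm l B}
  mul_mem' := by
    rintro x y ⟨hx, hxn⟩ ⟨hy, hyn⟩
    refine ⟨L.mul_mem hx hy, fun b => ?_⟩
    rw [hyn b, hxn (y * b * y⁻¹)]
    have e : x * (y * b * y⁻¹) * x⁻¹ = x * y * b * (x * y)⁻¹ := by group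
    rw [e]
  one_mem' := ⟨L.one_mem, fun b => by simp⟩
  inv_mem' := by
    rintro x ⟨hx, hxn⟩
    exact ⟨L.inv_mem hx, Nrm_inv hxn⟩

end Equiv

end Cfsg.Agent.Lib.Helper2.Dade
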