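import Cfsg.Agent.Lib.Helper2.Dade7
import Cfsg.Agent.Lib.Lead.CharPReg2

set_option autoImplicit false
set_option maxHeartbeats 800000

namespace Cfsg.Agent.Lib.Helper2.Dade

open Cfsg Cfsg.Agent.Lib.Lead
open scoped ComplexConjugate

section Main

variable {G : Type*} [Group G] [Fintype G] {A : Set G} {L : Subgroup G} [Fintype L]
  {H : G → Subgroup G}

open Classical in
/-- the weight of a subset -/
noncomputable def WB (A : Set G) (L : Subgroup G) [Fintype L] (H : G → Subgroup G) (α : L → ℂ)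
    (χ : G → ℂ) (B : Finset G) : ℂ :=
  if B ∈ PA A then (-1 : ℂ) ^ (B.card + 1) *
    ∑ l : L, (if Nrm (l : G) B then α l * conj (avgB H χ B l) else 0) else 0

open Classical in
theorem WB_inv (hD : DadeHypothesis A L H) (α : L → ℂ) (hαcf : IsClassFunction L α)
    (χ : G → ℂ) (hF : ∀ g x : G, χ (x * g * x⁻¹) = χ g) (l : L) (B : Finset G) :
    WB A L H α χ (cj (l : G) B) = WB A L H α χ B := by
  unfold WB
  by_cases hB : B ∈ PA A
  · have hB' : cj (l : G) B ∈ PA A := cj_mem_PA hD l.2 hB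
    rw [if_pos hB, if_pos hB', card_cj]
    congr 1
    rw [← Equiv.sum_comp (MulAut.conj l).toEquiv]
    apply Finset.sum_congr rfl
    intro m _
    have e1 : (((MulAut.conj l).toEquiv m : L) : G) = (l : G) * m * (l : G)⁻¹ := by
      simp [MulAut.conj_apply]
    have e2 : α ((MulAut.conj l).toEquiv m) = α m := hαcf m l
    refine if_congr ?_ ?_ rfl
    · rw [e1]; exact Nrm_cj
    · rw [e2, e1, avgB_cj hD (mem_PA.mp hB).1 l.2 χ hF m]
  · have hB' : cj (l : G) B ∉ PA A := fun h => hB ((cj_mem_PA_iff hD l.2).mp h)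
    rw [if_neg hB, if_neg hB']

open Classical in
theorem WB_int (hD : DadeHypothesis A L H) (α : L → ℂ) (hα : IsGeneralizedCharacter L α)
    (χ : G → ℂ) (hχ : IsCharacter G χ) (B : Finset G) :
    ∃ z : ℤ, WB A L H α χ B = (Nat.card {l : L // cj (l : G) B = B} : ℂ) * z := by
  have hχcf : IsClassFunction G χ := isClassFunction_of_isCharacter hχ
  unfold WB
  by_cases hB : B ∈ PA A
  · rw [if_pos hB]
    obtain ⟨hBA, hBne⟩ := mem_PA.mp hB
    have hnorm : ∀ n ∈ NB L B, ∀ u ∈ HB H B, n * u * n⁻¹ ∈ HB H B :=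
      fun n hn u hu => HB_conj hD hBA hn.1 hn.2 hu
    have hle : NB L B ≤ L := fun n hn => hn.1
    have hβ : IsGeneralizedCharacter (NB L B) (α ∘ Subgroup.inclusion hle) := by
      obtain ⟨a1, a2, h1, h2, rfl⟩ := hα
      exact ⟨a1 ∘ Subgroup.inclusion hle, a2 ∘ Subgroup.inclusion hle,
        isCharacter_comp _ h1, isCharacter_comp _ h2, rfl⟩
    obtain ⟨z, hz⟩ := int_pair (HB H B) (NB L B) hnorm (α ∘ Subgroup.inclusion hle) hβ χ hχ
    refine ⟨(-1) ^ (B.card + 1) * z, ?_⟩
    have hcard : Nat.card {l : L // cj (l : G) B = B} = Nat.card (NB L B) :=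
      Nat.card_congr ⟨fun l => ⟨l.1.1, l.1.2, cj_eq_iff.mp l.2⟩,
        fun n => ⟨⟨n.1, n.2.1⟩, cj_eq_iff.mpr n.2.2⟩, fun _ => rfl, fun _ => rfl⟩
    have hsum : ∑ l : L, (if Nrm (l : G) B then α l * conj (avgB H χ B l) else 0) =
        (Nat.card (HB H B) : ℂ)⁻¹ * ∑ n : NB L B, ∑ u : HB H B,
          (α ∘ Subgroup.inclusion hle) n * conj (χ ((u : G) * n)) := by
      rw [← Finset.sum_filter]
      rw [Finset.sum_subtype (Finset.univ.filter (fun l : L => Nrm (l : G) B))
        (p := fun l : L => Nrm (l : G) B) (fun x => by simp)]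
      rw [Finset.mul_sum]
      apply Fintype.sum_equiv ⟨fun l => (⟨l.1.1, l.1.2, l.2⟩ : NB L B),
        fun n => ⟨⟨n.1, n.2.1⟩, n.2.2⟩, fun _ => rfl, fun _ => rfl⟩
      intro x
      unfold avgB
      rw [map_mul, map_inv₀, map_natCast, map_sum, Finset.mul_sum, Finset.mul_sum, Finset.mul_sum]
      rw [Finset.sum_subtype (Finset.univ.filter (· ∈ HB H B)) (p := fun u => u ∈ HB H B)
        (fun x => by simp)]
      apply Finset.sum_congr rfl
      intro u _
      have hsw : χ ((x.1 : G) * u) = χ ((u : G) * x.1) := by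
        have := hχcf ((u : G) * x.1) x.1
        rw [← this]; congr 1; group
      rw [hsw]
      show _ = (Nat.card (HB H B) : ℂ)⁻¹ * (α x.1 * conj (χ ((u : G) * x.1)))
      ring
    rw [hsum, hcard]
    have hN : (Nat.card (NB L B) : ℂ) ≠ 0 := Nat.cast_ne_zero.mpr Nat.card_pos.ne'
    have hK : (Nat.card (HB H B) : ℂ) ≠ 0 := Nat.cast_ne_zero.mpr Nat.card_pos.ne'
    have h3 : (Nat.card (HB H B) : ℂ)⁻¹ * ∑ n : NB L B, ∑ u : HB H B,
          (α ∘ Subgroup.inclusion hle) n * conj (χ ((u : G) * n)) =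
        (Nat.card (NB L B) : ℂ) * z := by
      rw [← hz]; field_simp
    rw [h3]; push_cast; ring
  · rw [if_neg hB]; exact ⟨0, by simp⟩

open Classical in
theorem dade_int (hD : DadeHypothesis A L H) (α : L → ℂ) (hα : IsGeneralizedCharacter L α)
    (hαA : ∀ x : L, (x : G) ∉ A → α x = 0) (χ : G → ℂ) (hχ : IsCharacter G χ) :
    ∃ z : ℤ, classInner (dadeIsometry A L H α) χ = z := by
  have hαcf := isGenChar_isClassFunction hα
  have hχcf : IsClassFunction G χ := isClassFunction_of_isCharacter hχ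
  have hF : ∀ g x : G, χ (x * g * x⁻¹) = χ g := fun g x => hχcf g x
  let ψ : L → ℂ := fun l => ∑ B ∈ PA A,
    if Nrm (l : G) B then (-1 : ℂ) ^ (B.card + 1) * avgB H χ B l else 0
  have hψ : ∀ a : L, (a : G) ∈ A →
      ψ a = (Nat.card (H a) : ℂ)⁻¹ * ∑ᶠ u ∈ (H a : Set G), χ (a * u) := by
    intro a ha
    show ∑ B ∈ PA A, (if Nrm (a : G) B then (-1 : ℂ) ^ (B.card + 1) * avgB H χ B a else 0) = _
    rw [← Finset.sum_filter, sum_PA hD χ hF ha]
    unfold avgB
    have hHB : HB H {(a : G)} = H a := by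
      unfold HB; simp
    rw [hHB, finsum_subgroup]
  rw [dade_inner_right hD α hαcf hαA χ ψ hχcf hψ]
  have hinner : classInner α ψ = (Nat.card L : ℂ)⁻¹ * ∑ B : Finset G, WB A L H α χ B := by
    unfold classInner
    congr 1
    have h1 : ∀ l : L, α l * conj (ψ l) = ∑ B ∈ PA A, (-1 : ℂ) ^ (B.card + 1) *
        (if Nrm (l : G) B then α l * conj (avgB H χ B l) else 0) := by
      intro l
      show α l * conj (∑ B ∈ PA A,
        if Nrm (l : G) B then (-1 : ℂ) ^ (B.card + 1) * avgB H χ B l else 0) = _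
      rw [map_sum, Finset.mul_sum]
      apply Finset.sum_congr rfl
      intro B _
      split_ifs with h
      · rw [map_mul, map_pow, map_neg, map_one]; ring
      · simp
    rw [Finset.sum_congr rfl (fun l _ => h1 l), Finset.sum_comm]
    rw [← Finset.sum_subset (Finset.subset_univ (PA A))]
    · apply Finset.sum_congr rfl
      intro B hB
      unfold WB
      rw [if_pos hB, Finset.mul_sum]
    · intro B _ hB
      unfold WB
      rw [if_neg hB]
  rw [hinner]
  obtain ⟨z, hz⟩ := wburnside (Λ := L) (X := Finset G) (fun l B => cj (l : G) B)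
    (fun B => cj_one B) (fun g h B => cj_mul (g : G) (h : G) B) (WB A L H α χ)
    (fun l B => WB_inv hD α hαcf χ hF l B) (fun B => WB_int hD α hα χ hχ B)
  refine ⟨z, ?_⟩
  rw [hz]
  have hL : (Nat.card L : ℂ) ≠ 0 := Nat.cast_ne_zero.mpr Nat.card_pos.ne'
  field_simp

/-- The Dade map sends generalized characters supported on `A` to generalized characters. -/
theorem dade_genChar (hD : DadeHypothesis A L H) (α : L → ℂ) (hα : IsGeneralizedCharacter L α)
    (hαA : ∀ x : L, (x : G) ∉ A → α x = 0) :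
    IsGeneralizedCharacter G (dadeIsometry A L H α) := by
  apply gc_of_inner_int (dade_classFunction hD α (isGenChar_isClassFunction hα))
  intro ψ
  exact dade_int hD α hα hαA ψ (isCharacter_of_isIrrCharacter ψ.2)

end Main

end Cfsg.Agent.Lib.Helper2.Dade
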