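import Cfsg.Agent.Lib.Helper2.SZCyclic
import Cfsg.Agent.Lib.Helper2.Hall
import Cfsg.Agent.Lib.Lead.CharApps
import Cfsg.Agent.Lib.Lead.CharOrtho

set_option autoImplicit false

namespace Cfsg.Agent.Lib.Helper2.FixCls

open Cfsg Cfsg.Agent.Lib.Lead Cfsg.Agent.Lib.Helper2

/-- an `x`-invariant class of `K` (for `x` of order prime to `|K|`) contains an element commuting
with `x`. -/
theorem exists_comm_in_class {L : Type*} [Group L] [Finite L] (K : Subgroup L) [hK : K.Normal]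
    (x : L) (hx : Nat.Coprime (orderOf x) (Nat.card K)) (k t : L) (ht : t ∈ K)
    (ht' : t * (x * k * x⁻¹) * t⁻¹ = k) :
    ∃ y ∈ K, x * (y * k * y⁻¹) = (y * k * y⁻¹) * x := by
  obtain ⟨y, hy, c, hc, hcx, hye⟩ := coset_conj K x t hx ht
  have hcomm1 : (c * x) * (y * k * y⁻¹) = (y * k * y⁻¹) * (c * x) := by
    rw [← hye]
    have e1 : y * (t * x) * y⁻¹ * (y * k * y⁻¹) =
        y * (t * (x * k * x⁻¹) * t⁻¹) * y⁻¹ * (y * (t * x) * y⁻¹) := by
      group
    rw [e1, ht']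
  have hxc : Commute x c := hcx.symm
  have hpow := mul_pow_crt hx x c hxc dvd_rfl (orderOf_dvd_card_of_mem K c hc)
  have hcomm2 : x * (y * k * y⁻¹) = (y * k * y⁻¹) * x := by
    have h2 : Commute (x * c) (y * k * y⁻¹) := by
      have : x * c = c * x := hcx.symm
      rw [this]; exact hcomm1
    have h3 := h2.pow_left ((Nat.chineseRemainder hx 1 0 : ℕ))
    rw [hpow] at h3
    exact h3
  exact ⟨y, hy, hcomm2⟩

section Perm

variable {M : Type*} [Group M] [Finite M]

/-- conjugation by `x` on a normal subgroup -/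
def cj (H : Subgroup M) [hN : H.Normal] (x : M) : H → H :=
  fun h => ⟨x * h * x⁻¹, hN.conj_mem h h.2 x⟩

omit [Finite M] in
theorem cj_apply (H : Subgroup M) [hN : H.Normal] (x : M) (h : H) :
    ((cj H x h : H) : M) = x * h * x⁻¹ := rfl

theorem cj_irr (H : Subgroup M) [hN : H.Normal] (x : M) (χ : H → ℂ) (hχ : IsIrrCharacter H χ) :
    IsIrrCharacter H (χ ∘ cj H x) := by
  have := isIrrCharacter_comp_of_surjective hχ ((MulAut.conjNormal x : MulAut H).toMonoidHom)
    (MulEquiv.surjective _)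
  have e : χ ∘ cj H x = χ ∘ ⇑((MulAut.conjNormal x : MulAut H).toMonoidHom) := by
    funext h
    show χ (cj H x h) = χ ((MulAut.conjNormal x : MulAut H) h)
    congr 1
  rw [e]; exact this

omit [Finite M] in
theorem cj_conj (H : Subgroup M) [hN : H.Normal] (x : M) (g h : H) (hgh : IsConj g h) :
    IsConj (cj H x g) (cj H x h) := by
  obtain ⟨c, hc⟩ := isConj_iff.mp hgh
  rw [isConj_iff]
  refine ⟨cj H x c, ?_⟩
  apply Subtype.ext
  have := congrArg Subtype.val hc
  simp only [Subgroup.coe_mul, Subgroup.coe_inv] at this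
  show (x * c * x⁻¹) * (x * g * x⁻¹) * (x * c * x⁻¹)⁻¹ = x * h * x⁻¹
  rw [← this]; group

theorem cj_count (H : Subgroup M) [hN : H.Normal] (x : M) :
    Nat.card {χ : IrrCharacter H // (χ : H → ℂ) ∘ cj H x = (χ : H → ℂ)} =
      Nat.card {C : ConjClasses H // ∀ g : H, ConjClasses.mk g = C → IsConj (cj H x g) g} := by
  letI : Fintype H := Fintype.ofFinite H
  exact brauer_perm_count (cj H x) (cj_irr H x) (cj_conj H x)

/-- the class of an element commuting with `x` is fixed -/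
theorem cj_fixed_class (H : Subgroup M) [hN : H.Normal] (x : M) (h : H)
    (hh : x * (h : M) = (h : M) * x) :
    ∀ g : H, ConjClasses.mk g = ConjClasses.mk h → IsConj (cj H x g) g := by
  intro g hg
  have hgh : IsConj g h := ConjClasses.mk_eq_mk_iff_isConj.mp hg
  have h1 := cj_conj H x g h hgh
  have h2 : cj H x h = h := by
    apply Subtype.ext
    show x * (h : M) * x⁻¹ = h
    rw [hh]; group
  rw [h2] at h1
  exact h1.trans hgh.symm

theorem invariant_iff (H : Subgroup M) [hN : H.Normal]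
    (hHall : Nat.Coprime (Nat.card H) H.index) (x : M) :
    (∃ θ : H → ℂ, IsIrrCharacter H θ ∧ θ ≠ (fun _ => 1) ∧
      (fun h : H => θ ⟨x * h * x⁻¹, hN.conj_mem h h.2 x⟩) = θ) ↔
    ∃ h ∈ H, h ≠ 1 ∧ x * h = h * x := by
  classical
  haveI : Finite (IrrCharacter H) := irr_finite'
  have hcount := cj_count H x
  constructor
  · rintro ⟨θ, hθ, hθ1, hθfix⟩
    have hnt : Nontrivial {χ : IrrCharacter H // (χ : H → ℂ) ∘ cj H x = (χ : H → ℂ)} := by
      refine ⟨⟨⟨⟨θ, hθ⟩, hθfix⟩, ⟨⟨fun _ => 1, isIrrCharacter_one H⟩, rfl⟩, ?_⟩⟩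
      intro h
      apply hθ1
      exact congrArg (fun z => (z.1 : H → ℂ)) h
    have h2 : 1 < Nat.card {C : ConjClasses H //
        ∀ g : H, ConjClasses.mk g = C → IsConj (cj H x g) g} := by
      rw [← hcount]; exact Finite.one_lt_card_iff_nontrivial.mpr hnt
    obtain ⟨⟨C₁, hC₁⟩, ⟨C₂, hC₂⟩, hne⟩ := (Finite.one_lt_card_iff_nontrivial.mp h2).exists_pair_ne
    have hne' : C₁ ≠ C₂ := fun h => hne (Subtype.ext h)
    -- a fixed class different from the class of 1
    obtain ⟨C, hC, hC1⟩ : ∃ C : ConjClasses H, (∀ g : H, ConjClasses.mk g = C →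
        IsConj (cj H x g) g) ∧ C ≠ ConjClasses.mk 1 := by
      by_cases h1 : C₁ = ConjClasses.mk 1
      · exact ⟨C₂, hC₂, fun h => hne' (h1.trans h.symm)⟩
      · exact ⟨C₁, hC₁, h1⟩
    obtain ⟨k, rfl⟩ := ConjClasses.exists_rep C
    have hk1 : k ≠ 1 := fun h => hC1 (by rw [h])
    have hkfix := hC k rfl
    by_cases hxm : x ^ H.index = 1
    · have hx : Nat.Coprime (orderOf x) (Nat.card H) :=
        (Nat.Coprime.coprime_dvd_right (orderOf_dvd_of_pow_eq_one hxm) hHall).symm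
      obtain ⟨t, ht⟩ := isConj_iff.mp hkfix
      have ht' : (t : M) * (x * (k : M) * x⁻¹) * (t : M)⁻¹ = k := by
        have := congrArg Subtype.val ht
        simpa [cj_apply] using this
      obtain ⟨y, hy, hcomm⟩ := exists_comm_in_class H x hx (k : M) (t : M) t.2 ht'
      refine ⟨y * (k : M) * y⁻¹, hN.conj_mem _ k.2 y, ?_, hcomm⟩
      intro h
      apply hk1
      apply Subtype.ext
      have : (k : M) = y⁻¹ * (y * (k : M) * y⁻¹) * y := by group
      rw [this, h]; simp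
    · refine ⟨x ^ H.index, Subgroup.pow_index_mem H x, hxm, ?_⟩
      rw [← pow_succ', ← pow_succ]
  · rintro ⟨h, hh, hh1, hcomm⟩
    have hnt : Nontrivial {C : ConjClasses H //
        ∀ g : H, ConjClasses.mk g = C → IsConj (cj H x g) g} := by
      refine ⟨⟨⟨ConjClasses.mk ⟨h, hh⟩, cj_fixed_class H x ⟨h, hh⟩ hcomm⟩,
        ⟨ConjClasses.mk 1, cj_fixed_class H x 1 (by simp)⟩, ?_⟩⟩
      intro e
      have e' : ConjClasses.mk (⟨h, hh⟩ : H) = ConjClasses.mk 1 := congrArg Subtype.val e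
      rw [ConjClasses.mk_eq_mk_iff_isConj, isConj_one_left] at e'
      exact hh1 (congrArg Subtype.val e')
    have h2 : 1 < Nat.card {χ : IrrCharacter H // (χ : H → ℂ) ∘ cj H x = (χ : H → ℂ)} := by
      rw [hcount]; exact Finite.one_lt_card_iff_nontrivial.mpr hnt
    obtain ⟨⟨χ₁, hχ₁⟩, ⟨χ₂, hχ₂⟩, hne⟩ := (Finite.one_lt_card_iff_nontrivial.mp h2).exists_pair_ne
    have hne' : χ₁ ≠ χ₂ := fun h => hne (Subtype.ext h)
    by_cases h1 : (χ₁ : H → ℂ) = fun _ => 1
    · refine ⟨χ₂, χ₂.2, ?_, hχ₂⟩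
      intro h2'
      exact hne' (Subtype.ext (h1.trans h2'.symm))
    · exact ⟨χ₁, χ₁.2, h1, hχ₁⟩

end Perm

end Cfsg.Agent.Lib.Helper2.FixCls
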