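import Cfsg.Agent.Lib.Helper2.FusionCtl

set_option autoImplicit false

namespace Cfsg.Agent.Lib.Helper2

open Subgroup Cfsg

section FamSec

variable {G : Type*} [Group G] [Finite G] {p : ℕ} [Fact p.Prime]

/-- The steps allowed when a family of functors controls fusion: normalizers of `W S`. -/
def FStep (𝓦 : Set (Subgroup G → Subgroup G)) (S : Subgroup G) (x : G) : Prop :=
  ∃ W ∈ 𝓦, x ∈ normalizer ((W S : Subgroup G) : Set G)

theorem FStep.inv {𝓦 : Set (Subgroup G → Subgroup G)} {S : Subgroup G} {x : G}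
    (h : FStep 𝓦 S x) : FStep 𝓦 S x⁻¹ := by
  obtain ⟨W, hW, hx⟩ := h
  exact ⟨W, hW, inv_mem hx⟩

/-- Conjugations by elements of `N(W R₀)` between subsets of `R₀` are generated. -/
def CProp (𝓦 : Set (Subgroup G → Subgroup G)) (S : Subgroup G) (R₀ : Subgroup G) : Prop :=
  ∀ W ∈ 𝓦, ∀ y ∈ normalizer ((W R₀ : Subgroup G) : Set G), ∀ A : Set G, A ⊆ (R₀ : Set G) →
    cj A y ⊆ (R₀ : Set G) → Gen (FStep 𝓦 S) (S : Set G) A y

theorem conj_injective' (x : G) : Function.Injective (fun a : G => x⁻¹ * a * x) := by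
  intro a b hab
  simpa using hab

theorem ncard_le_card_of_subset {A : Set G} {U : Subgroup G} (h : A ⊆ (U : Set G)) :
    A.ncard ≤ Nat.card U := by
  have h1 : A.ncard ≤ (U : Set G).ncard := Set.ncard_le_ncard h (Set.toFinite _)
  have h2 : (U : Set G).ncard = Nat.card U := (Nat.card_coe_set_eq (U : Set G)).symm
  omega

theorem local_transfer (S : Sylow p G) (𝓦 : Set (Subgroup G → Subgroup G))
    (h𝓦 : ∀ W ∈ 𝓦, IsConjugacyFunctor p W) (U : Subgroup G)
    (hloc : FamilyControlsStrongFusionIn p 𝓦 (normalizer (U : Set G)))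
    (hU : ¬ p ∣ ((S : Subgroup G) ⊓ normalizer (U : Set G)).relIndex (normalizer (U : Set G)))
    (hCP : CProp 𝓦 (S : Subgroup G) ((S : Subgroup G) ⊓ normalizer (U : Set G))) :
    ∀ x ∈ normalizer (U : Set G), ∀ A : Set G,
      A ⊆ (((S : Subgroup G) ⊓ normalizer (U : Set G) : Subgroup G) : Set G) →
      cj A x ⊆ (((S : Subgroup G) ⊓ normalizer (U : Set G) : Subgroup G) : Set G) →
      Gen (FStep 𝓦 (S : Subgroup G)) ((S : Subgroup G) : Set G) A x := by
  intro x hx A hA hAx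
  set T₁ := (S : Subgroup G) ⊓ normalizer (U : Set G) with hT₁
  have hAx' : (fun a => x⁻¹ * a * x⁻¹⁻¹) '' A ⊆ (T₁ : Set G) := by
    rw [image_lconj_eq_cj, inv_inv]; exact hAx
  obtain ⟨n, c, hc0, hcstep, hcim, hclast⟩ := familyControls_change_sylow 𝓦 h𝓦 _ hloc T₁
    inf_le_right (S.2.to_le inf_le_left) hU A x⁻¹ (inv_mem hx) hA hAx'
  have hgen := fin_chain_induction (Gen (FStep 𝓦 (S : Subgroup G)) ((S : Subgroup G) : Set G))
    (fun A => Gen.of_centralizes (fun a _ => by group)) (fun A k l h1 h2 => h1.trans h2) A n c hc0 ?_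
  · refine hgen.congr ?_
    intro a ha
    have h1 := hclast a ha
    rw [inv_inv] at h1 ⊢
    exact h1
  · intro i
    obtain ⟨W, hW, hs⟩ := hcstep i
    have hs2 : c i.succ * (c i.castSucc)⁻¹ ∈ normalizer ((W T₁ : Subgroup G) : Set G) := hs.2
    apply hCP W hW _ (inv_mem hs2)
    · rw [← image_lconj_eq_cj]; exact hcim i.castSucc
    · rw [cj_mul]
      have e : (c i.castSucc)⁻¹ * (c i.succ * (c i.castSucc)⁻¹)⁻¹ = (c i.succ)⁻¹ := by group
      rw [e, ← image_lconj_eq_cj]; exact hcim i.succ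

theorem gen_of_CProp (S : Sylow p G) (𝓦 : Set (Subgroup G → Subgroup G))
    (h𝓦 : ∀ W ∈ 𝓦, IsConjugacyFunctor p W)
    (hloc : ∀ T : Subgroup G, T ≤ (S : Subgroup G) → T ≠ ⊥ →
      ¬ p ∣ ((S : Subgroup G) ⊓ normalizer (T : Set G)).relIndex (normalizer (T : Set G)) →
      FamilyControlsStrongFusionIn p 𝓦 (normalizer (T : Set G)))
    (n : ℕ)
    (hCP : ∀ R₀ : Subgroup G, R₀ ≤ (S : Subgroup G) →
      Nat.card (S : Subgroup G) ≤ Nat.card R₀ + n → CProp 𝓦 (S : Subgroup G) R₀) :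
    ∀ B : Subgroup G, B ≤ (S : Subgroup G) → Nat.card (S : Subgroup G) ≤ Nat.card B + n →
      ∀ k : G, cj (B : Set G) k ⊆ ((S : Subgroup G) : Set G) →
      Gen (FStep 𝓦 (S : Subgroup G)) ((S : Subgroup G) : Set G) (B : Set G) k := by
  intro B hB hcard k hk
  set 𝓕 : Set (Subgroup G) := {U | U ≤ (S : Subgroup G) ∧
    ¬ p ∣ ((S : Subgroup G) ⊓ normalizer (U : Set G)).relIndex (normalizer (U : Set G))} with h𝓕def
  have h𝓕ex : ∀ T : Subgroup G, T ≤ (S : Subgroup G) → ∃ U ∈ 𝓕,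
      (∃ g : G, T.map (MulAut.conj g).toMonoidHom = U) ∧
      ¬ p ∣ ((S : Subgroup G) ⊓ normalizer (U : Set G)).relIndex (normalizer (U : Set G)) := by
    intro T hT
    obtain ⟨u, hule, husyl⟩ := exists_fullyNormalized_conj S T
    refine ⟨T.map (MulAut.conj u).toMonoidHom, ⟨?_, husyl⟩, ⟨u, rfl⟩, husyl⟩
    exact (map_mono (le_inf hT le_normalizer)).trans hule
  have hdec := dec_of_fullyNormalized S 𝓕 (fun U hU => hU.1) h𝓕ex B hB k hk
  have key : ∀ (A : Set G) (g : G),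
      Dec (fun T x => T ∈ 𝓕 ∧ x ∈ normalizer (T : Set G)) A g →
      Nat.card (S : Subgroup G) ≤ A.ncard + n →
      Gen (FStep 𝓦 (S : Subgroup G)) ((S : Subgroup G) : Set G) A g := by
    intro A g h
    induction h with
    | nil A => intro _; exact Gen.of_centralizes (fun a _ => by group)
    | cons A U x g hSt hA _ ih =>
      intro hAcard
      obtain ⟨⟨hUS, hUsyl⟩, hxN⟩ := hSt
      have hAx : cj A x ⊆ (U : Set G) := cj_subset_of_mem_normalizer hxN hA
      have hncard : (cj A x).ncard = A.ncard :=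
        Set.ncard_image_of_injective _ (conj_injective' x)
      have g1 : Gen (FStep 𝓦 (S : Subgroup G)) ((S : Subgroup G) : Set G) A x := by
        by_cases hU1 : U = ⊥
        · apply Gen.of_centralizes
          intro a ha
          have h1 : a = 1 := by
            have h2 := hA ha
            rw [hU1] at h2
            exact Subgroup.mem_bot.mp h2
          rw [h1]; group
        · have hUle : U ≤ (S : Subgroup G) ⊓ normalizer (U : Set G) := le_inf hUS le_normalizer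
          have hc : Nat.card (S : Subgroup G) ≤
              Nat.card ((S : Subgroup G) ⊓ normalizer (U : Set G) : Subgroup G) + n := by
            have h1 : A.ncard ≤ Nat.card U := ncard_le_card_of_subset hA
            have h2 : Nat.card U ≤ Nat.card ((S : Subgroup G) ⊓ normalizer (U : Set G) : Subgroup G) :=
              Subgroup.card_le_of_le hUle
            omega
          exact local_transfer S 𝓦 h𝓦 U (hloc U hUS hU1 hUsyl) hUsyl (hCP _ inf_le_left hc) x hxN A
            (hA.trans hUle) (hAx.trans hUle)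
      exact g1.trans (ih (by rw [hncard]; exact hAcard))
  refine key _ _ hdec ?_
  have h2 : (B : Set G).ncard = Nat.card B := (Nat.card_coe_set_eq (B : Set G)).symm
  omega

theorem cprop_succ (S : Sylow p G) (𝓦 : Set (Subgroup G → Subgroup G))
    (h𝓦 : ∀ W ∈ 𝓦, IsConjugacyFunctor p W)
    (hloc : ∀ T : Subgroup G, T ≤ (S : Subgroup G) → T ≠ ⊥ →
      ¬ p ∣ ((S : Subgroup G) ⊓ normalizer (T : Set G)).relIndex (normalizer (T : Set G)) →
      FamilyControlsStrongFusionIn p 𝓦 (normalizer (T : Set G)))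
    (n : ℕ)
    (hCP : ∀ R₀ : Subgroup G, R₀ ≤ (S : Subgroup G) →
      Nat.card (S : Subgroup G) ≤ Nat.card R₀ + n → CProp 𝓦 (S : Subgroup G) R₀)
    (hG : ∀ B : Subgroup G, B ≤ (S : Subgroup G) → Nat.card (S : Subgroup G) ≤ Nat.card B + n →
      ∀ k : G, cj (B : Set G) k ⊆ ((S : Subgroup G) : Set G) →
      Gen (FStep 𝓦 (S : Subgroup G)) ((S : Subgroup G) : Set G) (B : Set G) k) :
    ∀ R₀ : Subgroup G, R₀ ≤ (S : Subgroup G) →
      Nat.card (S : Subgroup G) ≤ Nat.card R₀ + (n + 1) → CProp 𝓦 (S : Subgroup G) R₀ := by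
  intro R₀ hR₀S hcard W hW y hy A hA hAy
  by_cases hc : Nat.card (S : Subgroup G) ≤ Nat.card R₀ + n
  · exact hCP R₀ hR₀S hc W hW y hy A hA hAy
  have hR₀ne : R₀ ≠ S := by
    intro h
    rw [h] at hc
    omega
  by_cases hbot : R₀ = ⊥
  · apply Gen.of_centralizes
    intro a ha
    have h1 : a = 1 := by
      have h2 := hA ha
      rw [hbot] at h2
      exact Subgroup.mem_bot.mp h2
    rw [h1]; group
  have hWf := h𝓦 W hW
  have hR₀p : IsPGroup p R₀ := S.2.to_le hR₀S
  set V := W R₀ with hVdef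
  have hVR : V ≤ R₀ := (hWf R₀ hR₀p).1
  have hV1 : V ≠ ⊥ := (hWf R₀ hR₀p).2.1 hbot
  have hNN : (S : Subgroup G) ⊓ normalizer (R₀ : Set G) ≤ (S : Subgroup G) ⊓ normalizer (V : Set G) := by
    intro s hs
    refine Subgroup.mem_inf.mpr ⟨hs.1, ?_⟩
    rw [mem_normalizer_iff_map_conj']
    have h1 := (hWf R₀ hR₀p).2.2 s
    rw [mem_normalizer_iff_map_conj'.mp hs.2] at h1
    exact h1.symm
  have hlt := card_lt_card_inf_normalizer S.2 hR₀S hR₀ne
  have hR₁card : Nat.card R₀ < Nat.card ((S : Subgroup G) ⊓ normalizer (V : Set G) : Subgroup G) :=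
    lt_of_lt_of_le hlt (Subgroup.card_le_of_le hNN)
  have hR₀R₁ : R₀ ≤ (S : Subgroup G) ⊓ normalizer (V : Set G) :=
    (le_inf hR₀S le_normalizer).trans hNN
  obtain ⟨u, hule, hV'syl⟩ := exists_fullyNormalized_conj S V
  have hinj : Function.Injective (MulAut.conj u).toMonoidHom := (MulAut.conj u).injective
  set V' := V.map (MulAut.conj u).toMonoidHom with hV'def
  have hV'S : V' ≤ (S : Subgroup G) :=
    (map_mono ((hVR.trans hR₀R₁))).trans hule
  have hV'1 : V' ≠ ⊥ := by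
    intro h
    exact hV1 ((Subgroup.map_eq_bot_iff_of_injective V hinj).mp h)
  have hmapR₁ : ((S : Subgroup G) ⊓ normalizer (V : Set G)).map (MulAut.conj u).toMonoidHom ≤
      (S : Subgroup G) ⊓ normalizer (V' : Set G) := by
    refine le_inf hule ?_
    rw [hV'def, normalizer_map_conj]
    exact map_mono inf_le_right
  have hR₂card : Nat.card ((S : Subgroup G) ⊓ normalizer (V : Set G) : Subgroup G) ≤
      Nat.card ((S : Subgroup G) ⊓ normalizer (V' : Set G) : Subgroup G) := by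
    rw [← card_map_of_injective hinj]
    exact Subgroup.card_le_of_le hmapR₁
  have hR₁u : cj ((((S : Subgroup G) ⊓ normalizer (V : Set G) : Subgroup G)) : Set G) u⁻¹ ⊆
      ((S : Subgroup G) : Set G) := by
    rw [← coe_map_conj]; exact hule
  have hR₁u' : cj ((((S : Subgroup G) ⊓ normalizer (V : Set G) : Subgroup G)) : Set G) u⁻¹ ⊆
      (((S : Subgroup G) ⊓ normalizer (V' : Set G) : Subgroup G) : Set G) := by
    rw [← coe_map_conj]; exact hmapR₁
  have g1 := hG _ inf_le_left (by omega) u⁻¹ hR₁u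
  have hAR₁ : A ⊆ (((S : Subgroup G) ⊓ normalizer (V : Set G) : Subgroup G) : Set G) :=
    hA.trans hR₀R₁
  have hAyR₁ : cj A y ⊆ (((S : Subgroup G) ⊓ normalizer (V : Set G) : Subgroup G) : Set G) :=
    hAy.trans hR₀R₁
  have gA := g1.mono hAR₁
  have gAy := g1.mono hAyR₁
  have hy' : u * y * u⁻¹ ∈ normalizer (V' : Set G) := by
    rw [hV'def, normalizer_map_conj, mem_map_conj_iff]
    have e : u⁻¹ * (u * y * u⁻¹) * u = y := by group
    rw [e]; exact hy
  have hLT := local_transfer S 𝓦 h𝓦 V' (hloc V' hV'S hV'1 hV'syl) hV'syl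
    (hCP _ inf_le_left (by omega)) (u * y * u⁻¹) hy' (cj A u⁻¹)
    ((cj_mono hAR₁ u⁻¹).trans hR₁u') (by
      rw [cj_mul]
      have e : u⁻¹ * (u * y * u⁻¹) = y * u⁻¹ := by group
      rw [e, ← cj_mul]
      exact (cj_mono hAyR₁ u⁻¹).trans hR₁u')
  have hAyS : cj A y ⊆ ((S : Subgroup G) : Set G) := hAy.trans hR₀S
  have g3 := gAy.symm (fun x hx => FStep.inv hx) hAyS
  rw [inv_inv] at g3
  have g4 := gA.trans hLT
  have hset : cj A (u⁻¹ * (u * y * u⁻¹)) = cj (cj A y) u⁻¹ := by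
    have e : u⁻¹ * (u * y * u⁻¹) = y * u⁻¹ := by group
    rw [e, cj_mul]
  rw [← hset] at g3
  have g5 := g4.trans g3
  have e : u⁻¹ * (u * y * u⁻¹) * u = y := by group
  rwa [e] at g5

theorem gen_main (S : Sylow p G) (𝓦 : Set (Subgroup G → Subgroup G))
    (h𝓦 : ∀ W ∈ 𝓦, IsConjugacyFunctor p W)
    (hloc : ∀ T : Subgroup G, T ≤ (S : Subgroup G) → T ≠ ⊥ →
      ¬ p ∣ ((S : Subgroup G) ⊓ normalizer (T : Set G)).relIndex (normalizer (T : Set G)) →
      FamilyControlsStrongFusionIn p 𝓦 (normalizer (T : Set G))) :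
    ∀ B : Subgroup G, B ≤ (S : Subgroup G) →
      ∀ k : G, cj (B : Set G) k ⊆ ((S : Subgroup G) : Set G) →
      Gen (FStep 𝓦 (S : Subgroup G)) ((S : Subgroup G) : Set G) (B : Set G) k := by
  have key : ∀ n : ℕ, (∀ R₀ : Subgroup G, R₀ ≤ (S : Subgroup G) →
      Nat.card (S : Subgroup G) ≤ Nat.card R₀ + n → CProp 𝓦 (S : Subgroup G) R₀) := by
    intro n
    induction n with
    | zero =>
      intro R₀ hR₀S hcard W hW y hy A hA hAy
      have hR₀ : R₀ = S := Subgroup.eq_of_le_of_card_ge hR₀S (by simpa using hcard)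
      rw [hR₀] at hy hAy
      exact Gen.step ⟨W, hW, hy⟩ hAy
    | succ n ih =>
      exact cprop_succ S 𝓦 h𝓦 hloc n ih (gen_of_CProp S 𝓦 h𝓦 hloc n ih)
  intro B hB k hk
  exact gen_of_CProp S 𝓦 h𝓦 hloc _ (key (Nat.card (S : Subgroup G))) B hB (Nat.le_add_left _ _) k hk

theorem familyControlsStrongFusion_top (S : Sylow p G) (𝓦 : Set (Subgroup G → Subgroup G))
    (h𝓦 : ∀ W ∈ 𝓦, IsConjugacyFunctor p W)
    (hloc : ∀ T : Subgroup G, T ≤ (S : Subgroup G) → T ≠ ⊥ →
      ¬ p ∣ ((S : Subgroup G) ⊓ normalizer (T : Set G)).relIndex (normalizer (T : Set G)) →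
      FamilyControlsStrongFusionIn p 𝓦 (normalizer (T : Set G))) :
    FamilyControlsStrongFusionIn p 𝓦 ⊤ := by
  refine ⟨(S : Subgroup G), le_top, S.2, ?_, ?_⟩
  · rw [Subgroup.relIndex_top_right]; exact S.not_dvd_index
  · intro A h _ hAS hAh
    have hcl : Subgroup.closure A ≤ (S : Subgroup G) := (Subgroup.closure_le _).mpr hAS
    have hclg : cj ((Subgroup.closure A : Subgroup G) : Set G) h⁻¹ ⊆ ((S : Subgroup G) : Set G) := by
      rw [← coe_map_conj, SetLike.coe_subset_coe, MonoidHom.map_closure, Subgroup.closure_le]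
      rintro _ ⟨a, ha, rfl⟩
      exact hAh ⟨a, ha, rfl⟩
    obtain ⟨g', hch, hag⟩ := (gen_main S 𝓦 h𝓦 hloc (Subgroup.closure A) hcl h⁻¹ hclg).mono
      (Subgroup.subset_closure : A ⊆ _)
    obtain ⟨n, c, hc0, hcstep, hcim, hclast⟩ := hch.toFinChain (fun x hx => FStep.inv hx) hAS
    refine ⟨n, c, hc0, ?_, hcim, ?_⟩
    · intro i
      obtain ⟨W, hW, hx⟩ := hcstep i
      exact ⟨W, hW, Subgroup.mem_inf.mpr ⟨Subgroup.mem_top _, hx⟩⟩
    · intro a ha
      rw [hclast]
      have h1 := hag a ha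
      rw [inv_inv] at h1 ⊢
      exact h1

end FamSec

end Cfsg.Agent.Lib.Helper2
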