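import Cfsg.Agent.Lib.Helper2.FusionCtl

set_option autoImplicit false

namespace Cfsg.Agent.Lib.Helper2

open Subgroup Cfsg

section WPSec

variable {G : Type*} [Group G] [Finite G] {p : ℕ} [Fact p.Prime]

theorem inf_normalizer_le_functor (W : Subgroup G → Subgroup G) (hW : IsConjugacyFunctor p W)
    (S R : Subgroup G) (hR : IsPGroup p R) :
    S ⊓ normalizer (R : Set G) ≤ S ⊓ normalizer ((W R : Subgroup G) : Set G) := by
  intro s hs
  refine Subgroup.mem_inf.mpr ⟨hs.1, ?_⟩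
  rw [mem_normalizer_iff_map_conj']
  have h1 := (hW R hR).2.2 s
  rw [mem_normalizer_iff_map_conj'.mp hs.2] at h1
  exact h1.symm

theorem tower_le (W : Subgroup G → Subgroup G) (hW : IsConjugacyFunctor p W)
    (S T : Subgroup G) (hS : IsPGroup p S) (hT : T ≤ S) : ∀ m, functorTower W S T m ≤ S := by
  intro m
  cases m with
  | zero => exact hT
  | succ m =>
    rw [tower_succ]
    exact (hW _ (hS.to_le inf_le_left)).1.trans inf_le_left

theorem tower_shift (W : Subgroup G → Subgroup G) (S T : Subgroup G) (m : ℕ) :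
    ∀ i, functorTower W S (functorTower W S T m) i = functorTower W S T (m + i) := by
  intro i
  induction i with
  | zero => rfl
  | succ i ih =>
    rw [tower_succ, ih]
    rfl

theorem tower_ne_bot (W : Subgroup G → Subgroup G) (hW : IsConjugacyFunctor p W)
    (S T : Subgroup G) (hS : IsPGroup p S) (hT : T ≤ S) (hT1 : T ≠ ⊥) :
    ∀ m, functorTower W S T m ≠ ⊥ := by
  intro m
  cases m with
  | zero => exact hT1
  | succ m =>
    rw [tower_succ]
    apply (hW _ (hS.to_le inf_le_left)).2.1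
    intro h
    have h0 : T ≤ S ⊓ normalizer ((functorTower W S T 0 : Subgroup G) : Set G) :=
      le_inf hT le_normalizer
    have h1 := h0.trans (nS_mono W hW S T hS (Nat.zero_le m))
    rw [h] at h1
    exact hT1 (le_bot_iff.mp h1)

theorem wellPlaced_tower (W : Subgroup G → Subgroup G) (hW : IsConjugacyFunctor p W)
    (S T : Subgroup G) (hS : IsPGroup p S) (hwp : IsWellPlaced p W S T) (m : ℕ) :
    IsWellPlaced p W S (functorTower W S T m) := by
  refine ⟨tower_le W hW S T hS hwp.1 m, fun i => ?_⟩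
  rw [tower_shift]
  exact hwp.2 (m + i)

theorem exists_nS_stable (W : Subgroup G → Subgroup G) (hW : IsConjugacyFunctor p W)
    (S T : Subgroup G) (hS : IsPGroup p S) :
    ∃ j : ℕ, S ⊓ normalizer ((functorTower W S T j : Subgroup G) : Set G) =
      S ⊓ normalizer ((functorTower W S T (j + 1) : Subgroup G) : Set G) := by
  by_contra hcon
  push Not at hcon
  have hgrow : ∀ j : ℕ, j + 1 ≤ Nat.card (S ⊓
      normalizer ((functorTower W S T j : Subgroup G) : Set G) : Subgroup G) := by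
    intro j
    induction j with
    | zero => exact Nat.card_pos
    | succ j ih =>
      have h2 := hcon j
      have h3 := nS_mono_succ W hW S T hS j
      by_contra h4
      push Not at h4
      exact h2 (Subgroup.eq_of_le_of_card_ge h3 (by omega))
  have h5 := hgrow (Nat.card S)
  have h6 : Nat.card (S ⊓ normalizer ((functorTower W S T (Nat.card S) : Subgroup G) : Set G) :
      Subgroup G) ≤ Nat.card S := Subgroup.card_le_of_le inf_le_left
  omega

theorem nS_eq_of_stable (W : Subgroup G → Subgroup G) (hW : IsConjugacyFunctor p W)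
    (S T : Subgroup G) (hS : IsPGroup p S) (j : ℕ)
    (h : S ⊓ normalizer ((functorTower W S T j : Subgroup G) : Set G) =
      S ⊓ normalizer ((functorTower W S T (j + 1) : Subgroup G) : Set G)) :
    S ⊓ normalizer ((functorTower W S T j : Subgroup G) : Set G) = S := by
  by_contra hne
  have h1 := card_lt_card_inf_normalizer hS inf_le_left hne
  have h2 := inf_normalizer_le_functor W hW S
    (S ⊓ normalizer ((functorTower W S T j : Subgroup G) : Set G)) (hS.to_le inf_le_left)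
  rw [← tower_succ W S T j, ← h] at h2
  have h3 := Subgroup.card_le_of_le h2
  omega

theorem controls_change_sylow (W : Subgroup G → Subgroup G) (hW : IsConjugacyFunctor p W)
    (H : Subgroup G) (hH : ControlsStrongFusionIn p W H) (T₁ : Subgroup G) (hT₁H : T₁ ≤ H)
    (hT₁p : IsPGroup p T₁) (hT₁i : ¬ p ∣ T₁.relIndex H) :
    ∀ (A : Set G) (h : G), h ∈ H → A ⊆ T₁ → (fun a => h * a * h⁻¹) '' A ⊆ T₁ →
      ∃ x ∈ H ⊓ normalizer ((W T₁ : Subgroup G) : Set G), ∀ a ∈ A, x * a * x⁻¹ = h * a * h⁻¹ := by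
  obtain ⟨T₀, hT₀H, hT₀p, hT₀i, hctl⟩ := hH
  obtain ⟨v, hvH, hv⟩ := exists_conj_eq_of_sylow_in H T₁ T₀ hT₁H hT₁p hT₁i hT₀H hT₀p hT₀i
  intro A h hh hA hAh
  have hT₀mem : ∀ x, x ∈ T₀ ↔ v⁻¹ * x * v ∈ T₁ := by
    intro x; rw [← hv, mem_map_conj_iff]
  have hA' : (fun a => v * a * v⁻¹) '' A ⊆ (T₀ : Set G) := by
    rintro _ ⟨a, ha, rfl⟩
    rw [SetLike.mem_coe, hT₀mem]
    have e : v⁻¹ * (v * a * v⁻¹) * v = a := by group
    rw [e]; exact hA ha
  have hAh' : (fun a => (v * h * v⁻¹) * a * (v * h * v⁻¹)⁻¹) '' ((fun a => v * a * v⁻¹) '' A) ⊆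
      (T₀ : Set G) := by
    rintro _ ⟨_, ⟨a, ha, rfl⟩, rfl⟩
    rw [SetLike.mem_coe, hT₀mem]
    have e : v⁻¹ * ((v * h * v⁻¹) * (v * a * v⁻¹) * (v * h * v⁻¹)⁻¹) * v = h * a * h⁻¹ := by group
    rw [e]; exact hAh ⟨a, ha, rfl⟩
  obtain ⟨x, hx, hxa⟩ := hctl ((fun a => v * a * v⁻¹) '' A) (v * h * v⁻¹)
    (mul_mem (mul_mem hvH hh) (inv_mem hvH)) hA' hAh'
  refine ⟨v⁻¹ * x * v, Subgroup.mem_inf.mpr ⟨mul_mem (mul_mem (inv_mem hvH) hx.1) hvH, ?_⟩, ?_⟩
  · have h1 : x ∈ normalizer ((W T₀ : Subgroup G) : Set G) := hx.2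
    rw [← hv, (hW T₁ hT₁p).2.2 v, normalizer_map_conj, mem_map_conj_iff] at h1
    exact h1
  · intro a ha
    have h1 := hxa (v * a * v⁻¹) ⟨a, ha, rfl⟩
    have e1 : v⁻¹ * x * v * a * (v⁻¹ * x * v)⁻¹ = v⁻¹ * (x * (v * a * v⁻¹) * x⁻¹) * v := by group
    rw [e1, h1]; group

/-- Tower climbing: a conjugation by an element of `N(T)`, `T` well placed, on a subset of `T`
is induced by an element of `N(W S)`. -/
theorem climb (S : Sylow p G) (W : Subgroup G → Subgroup G) (hW : IsConjugacyFunctor p W)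
    (hloc : ∀ T : Subgroup G, T ≠ ⊥ → IsWellPlaced p W (S : Subgroup G) T →
      ControlsStrongFusionIn p W (normalizer (T : Set G)))
    (T : Subgroup G) (hT1 : T ≠ ⊥) (hwp : IsWellPlaced p W (S : Subgroup G) T) (x : G)
    (hx : x ∈ normalizer (T : Set G)) (B : Set G) (hB : B ⊆ (T : Set G)) :
    ∃ z ∈ normalizer ((W (S : Subgroup G) : Subgroup G) : Set G),
      ∀ b ∈ B, z⁻¹ * b * z = x⁻¹ * b * x := by
  have hS : IsPGroup p (S : Subgroup G) := S.2
  have hTS := hwp.1
  have hBx : cj B x ⊆ (T : Set G) := cj_subset_of_mem_normalizer hx hB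
  have hT0 : T ≤ (S : Subgroup G) ⊓ normalizer ((functorTower W (S : Subgroup G) T 0 : Subgroup G) : Set G) :=
    le_inf hTS le_normalizer
  have key : ∀ m : ℕ, ∃ xm ∈ normalizer ((functorTower W (S : Subgroup G) T m : Subgroup G) : Set G),
      ∀ b ∈ B, xm⁻¹ * b * xm = x⁻¹ * b * x := by
    intro m
    induction m with
    | zero => exact ⟨x, hx, fun _ _ => rfl⟩
    | succ m ih =>
      obtain ⟨xm, hxm, hag⟩ := ih
      set Tm := functorTower W (S : Subgroup G) T m with hTm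
      have hwpm := wellPlaced_tower W hW (S : Subgroup G) T hS hwp m
      have hTm1 := tower_ne_bot W hW (S : Subgroup G) T hS hTS hT1 m
      have hsyl : ¬ p ∣ ((S : Subgroup G) ⊓ normalizer (Tm : Set G)).relIndex (normalizer (Tm : Set G)) :=
        hwp.2 m
      have hTRm : T ≤ (S : Subgroup G) ⊓ normalizer (Tm : Set G) :=
        hT0.trans (nS_mono W hW (S : Subgroup G) T hS (Nat.zero_le m))
      have hBR : B ⊆ (((S : Subgroup G) ⊓ normalizer (Tm : Set G) : Subgroup G) : Set G) :=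
        hB.trans hTRm
      have hBim : (fun a => xm⁻¹ * a * xm⁻¹⁻¹) '' B ⊆
          (((S : Subgroup G) ⊓ normalizer (Tm : Set G) : Subgroup G) : Set G) := by
        rintro _ ⟨b, hb, rfl⟩
        show xm⁻¹ * b * xm⁻¹⁻¹ ∈ _
        rw [inv_inv, hag b hb]
        exact hTRm (hBx ⟨b, hb, rfl⟩)
      obtain ⟨x', hx', hx'a⟩ := controls_change_sylow W hW _ (hloc Tm hTm1 hwpm)
        ((S : Subgroup G) ⊓ normalizer (Tm : Set G)) inf_le_right (hS.to_le inf_le_left) hsyl
        B xm⁻¹ (inv_mem hxm) hBR hBim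
      refine ⟨x'⁻¹, inv_mem hx'.2, ?_⟩
      intro b hb
      have h1 := hx'a b hb
      rw [inv_inv] at h1 ⊢
      rw [h1, hag b hb]
  obtain ⟨j, hj⟩ := exists_nS_stable W hW (S : Subgroup G) T hS
  have hjS := nS_eq_of_stable W hW (S : Subgroup G) T hS j hj
  obtain ⟨z, hz, hzag⟩ := key (j + 1)
  rw [tower_succ, hjS] at hz
  exact ⟨z, hz, hzag⟩

theorem controlsStrongFusion_top (S : Sylow p G) (W : Subgroup G → Subgroup G)
    (hW : IsConjugacyFunctor p W)
    (hloc : ∀ T : Subgroup G, T ≠ ⊥ → IsWellPlaced p W (S : Subgroup G) T →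
      ControlsStrongFusionIn p W (normalizer (T : Set G))) :
    ControlsStrongFusionIn p W ⊤ := by
  refine ⟨(S : Subgroup G), le_top, S.2, ?_, ?_⟩
  · rw [Subgroup.relIndex_top_right]; exact S.not_dvd_index
  · intro A h _ hAS hAh
    have hcl : Subgroup.closure A ≤ (S : Subgroup G) := (Subgroup.closure_le _).mpr hAS
    have hclg : cj ((Subgroup.closure A : Subgroup G) : Set G) h⁻¹ ⊆ ((S : Subgroup G) : Set G) := by
      rw [← coe_map_conj, SetLike.coe_subset_coe, MonoidHom.map_closure, Subgroup.closure_le]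
      rintro _ ⟨a, ha, rfl⟩
      exact hAh ⟨a, ha, rfl⟩
    set 𝓕 : Set (Subgroup G) := {T | IsWellPlaced p W (S : Subgroup G) T} with h𝓕
    have h𝓕ex : ∀ T : Subgroup G, T ≤ (S : Subgroup G) → ∃ U ∈ 𝓕,
        (∃ g : G, T.map (MulAut.conj g).toMonoidHom = U) ∧
        ¬ p ∣ ((S : Subgroup G) ⊓ normalizer (U : Set G)).relIndex (normalizer (U : Set G)) := by
      intro T hT
      obtain ⟨g, hg⟩ := exists_wellPlaced S W hW T hT
      exact ⟨_, hg, ⟨g, rfl⟩, hg.2 0⟩
    have hdec := (dec_of_fullyNormalized S 𝓕 (fun U hU => hU.1) h𝓕ex (Subgroup.closure A) hcl h⁻¹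
      hclg).mono A Subgroup.subset_closure
    have key : ∀ (A : Set G) (g : G),
        Dec (fun T x => T ∈ 𝓕 ∧ x ∈ normalizer (T : Set G)) A g →
        ∃ z ∈ normalizer ((W (S : Subgroup G) : Subgroup G) : Set G),
          ∀ a ∈ A, z⁻¹ * a * z = g⁻¹ * a * g := by
      intro A g hd
      induction hd with
      | nil A => exact ⟨1, one_mem _, fun _ _ => rfl⟩
      | cons A T x g hSt hA _ ih =>
        obtain ⟨hTwp, hxN⟩ := hSt
        obtain ⟨z₂, hz₂, hag₂⟩ := ih
        have h1 : ∃ z₁ ∈ normalizer ((W (S : Subgroup G) : Subgroup G) : Set G),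
            ∀ a ∈ A, z₁⁻¹ * a * z₁ = x⁻¹ * a * x := by
          by_cases hT1 : T = ⊥
          · refine ⟨1, one_mem _, ?_⟩
            intro a ha
            have h2 : a = 1 := by
              have h3 := hA ha
              rw [hT1] at h3
              exact Subgroup.mem_bot.mp h3
            rw [h2]; group
          · exact climb S W hW hloc T hT1 hTwp x hxN A hA
        obtain ⟨z₁, hz₁, hag₁⟩ := h1
        refine ⟨z₁ * z₂, mul_mem hz₁ hz₂, ?_⟩
        intro a ha
        have e1 : (z₁ * z₂)⁻¹ * a * (z₁ * z₂) = z₂⁻¹ * (z₁⁻¹ * a * z₁) * z₂ := by group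
        have e2 : (x * g)⁻¹ * a * (x * g) = g⁻¹ * (x⁻¹ * a * x) * g := by group
        rw [e1, e2, hag₁ a ha]
        exact hag₂ _ ⟨a, ha, rfl⟩
    obtain ⟨z, hz, hag⟩ := key A h⁻¹ hdec
    refine ⟨z⁻¹, Subgroup.mem_inf.mpr ⟨Subgroup.mem_top _, inv_mem hz⟩, ?_⟩
    intro a ha
    have h1 := hag a ha
    rw [inv_inv] at h1 ⊢
    exact h1

end WPSec

end Cfsg.Agent.Lib.Helper2
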