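import Mathlib
import Cfsg.Prelude.Def_LieRecognition

set_option autoImplicit false

namespace Cfsg.Agent.Lib.Helper2.InvOdd

open Cfsg Subgroup

variable {M : Type*} [Group M]

theorem mem_cent_iff {t c : M} : c ∈ centralizer ({t} : Set M) ↔ t * c = c * t := by
  rw [mem_centralizer_iff]
  constructor
  · intro h; exact h t rfl
  · rintro h _ rfl; exact h

theorem pow_card_of_mem {X : Subgroup M} {y : M} (hy : y ∈ X) : y ^ Nat.card X = 1 := by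
  have h := pow_card_eq_one' (G := X) (x := ⟨y, hy⟩)
  have h2 : ((⟨y, hy⟩ : X) ^ Nat.card X : X).1 = y ^ Nat.card X := rfl
  rw [← h2, h]; rfl

/-- Square roots in an odd order subgroup. -/
theorem sqrt_mul_self {X : Subgroup M} {k : ℕ} (hk : Nat.card X = 2 * k + 1) {y : M} (hy : y ∈ X) :
    y ^ (k + 1) * y ^ (k + 1) = y := by
  have h := pow_card_of_mem hy
  rw [hk] at h
  calc y ^ (k + 1) * y ^ (k + 1) = y ^ (2 * k + 1) * y := by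
        rw [← pow_add, ← pow_succ]; congr 1; omega
    _ = y := by rw [h, one_mul]

theorem eq_of_sq_eq {X : Subgroup M} (hodd : Odd (Nat.card X)) {x y : M} (hx : x ∈ X) (hy : y ∈ X)
    (h : x * x = y * y) : x = y := by
  obtain ⟨k, hk⟩ := hodd
  have e : ∀ z ∈ X, z = (z * z) ^ (k + 1) := by
    intro z hz
    have h1 := sqrt_mul_self hk hz
    rw [← pow_two, pow_right_comm, pow_two] at *
    rw [← pow_two, ← pow_mul, mul_comm, pow_mul, pow_two]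
    exact h1.symm
  rw [e x hx, e y hy, h]

theorem invertedBy_pow {X : Subgroup M} {t i : M} (hi : i ∈ invertedBy X t) (n : ℕ) :
    i ^ n ∈ invertedBy X t := by
  refine ⟨X.pow_mem hi.1 n, ?_⟩
  rw [← conj_pow, hi.2, inv_pow]

theorem invertedBy_inv {X : Subgroup M} {t i : M} (hi : i ∈ invertedBy X t) :
    i⁻¹ ∈ invertedBy X t := by
  refine ⟨X.inv_mem hi.1, ?_⟩
  calc t * i⁻¹ * t⁻¹ = (t * i * t⁻¹)⁻¹ := by group
    _ = i⁻¹⁻¹ := by rw [hi.2]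

/-- conjugating an inverted element by a centralising element of `X`. -/
theorem invertedBy_conj {X : Subgroup M} {t c i : M} (hc : c ∈ X) (hct : t * c = c * t)
    (hi : i ∈ invertedBy X t) : c * i * c⁻¹ ∈ invertedBy X t := by
  refine ⟨X.mul_mem (X.mul_mem hc hi.1) (X.inv_mem hc), ?_⟩
  have hct' : t * c * t⁻¹ = c := by rw [hct]; group
  calc t * (c * i * c⁻¹) * t⁻¹ = (t * c * t⁻¹) * (t * i * t⁻¹) * (t * c * t⁻¹)⁻¹ := by group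
    _ = (c * i * c⁻¹)⁻¹ := by rw [hct', hi.2]; group

/-- Existence of the decomposition `x = c * i`. -/
theorem exists_decomp {t : M} (ht : t * t = 1) {X : Subgroup M} (hodd : Odd (Nat.card X))
    (hnorm : ∀ x ∈ X, t * x * t⁻¹ ∈ X) {x : M} (hx : x ∈ X) :
    ∃ c ∈ X ⊓ centralizer ({t} : Set M), ∃ i ∈ invertedBy X t, x = c * i := by
  obtain ⟨k, hk⟩ := hodd
  have hti : t⁻¹ = t := inv_eq_of_mul_eq_one_left ht
  have hw : x⁻¹ * (t * x * t⁻¹) ∈ invertedBy X t := by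
    refine ⟨X.mul_mem (X.inv_mem hx) (hnorm x hx), ?_⟩
    calc t * (x⁻¹ * (t * x * t⁻¹)) * t⁻¹ = (t * x * t⁻¹)⁻¹ * ((t * t) * x * (t * t)⁻¹) := by group
      _ = (x⁻¹ * (t * x * t⁻¹))⁻¹ := by rw [ht]; group
  have hwi := invertedBy_inv hw
  have hi := invertedBy_pow hwi (k + 1)
  have hsq := sqrt_mul_self hk hwi.1
  generalize hwdef : x⁻¹ * (t * x * t⁻¹) = w at hw hwi hi hsq
  generalize hidef : w⁻¹ ^ (k + 1) = i at hi hsq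
  have hiw : w = i⁻¹ * i⁻¹ := by
    rw [← mul_inv_rev, hsq, inv_inv]
  have htx : t * x * t⁻¹ = x * w := by rw [← hwdef]; group
  refine ⟨x * i⁻¹, Subgroup.mem_inf.mpr ⟨X.mul_mem hx (X.inv_mem hi.1), ?_⟩, i, hi, by group⟩
  rw [mem_cent_iff]
  have h1 : t * (x * i⁻¹) * t⁻¹ = x * i⁻¹ := by
    calc t * (x * i⁻¹) * t⁻¹ = (t * x * t⁻¹) * (t * i * t⁻¹)⁻¹ := by group
      _ = x * i⁻¹ := by rw [htx, hi.2, hiw]; group
  calc t * (x * i⁻¹) = (t * (x * i⁻¹) * t⁻¹) * t := by group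
    _ = x * i⁻¹ * t := by rw [h1]

/-- Uniqueness of the decomposition. -/
theorem decomp_unique {t : M} {X : Subgroup M} (hodd : Odd (Nat.card X)) {c c' i i' : M}
    (hc : c ∈ X ⊓ centralizer ({t} : Set M)) (hc' : c' ∈ X ⊓ centralizer ({t} : Set M))
    (hi : i ∈ invertedBy X t) (hi' : i' ∈ invertedBy X t) (h : c * i = c' * i') :
    c = c' ∧ i = i' := by
  have hct := mem_cent_iff.mp (Subgroup.mem_inf.mp hc).2
  have hct' := mem_cent_iff.mp (Subgroup.mem_inf.mp hc').2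
  have e1 : t * c * t⁻¹ = c := by rw [hct]; group
  have e1' : t * c' * t⁻¹ = c' := by rw [hct']; group
  have h2 : c * i⁻¹ = c' * i'⁻¹ := by
    have : t * (c * i) * t⁻¹ = t * (c' * i') * t⁻¹ := by rw [h]
    calc c * i⁻¹ = (t * c * t⁻¹) * (t * i * t⁻¹) := by rw [e1, hi.2]
      _ = t * (c * i) * t⁻¹ := by group
      _ = t * (c' * i') * t⁻¹ := this
      _ = (t * c' * t⁻¹) * (t * i' * t⁻¹) := by group
      _ = c' * i'⁻¹ := by rw [e1', hi'.2]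
  have h3 : i * i = i' * i' := by
    calc i * i = (c * i⁻¹)⁻¹ * (c * i) := by group
      _ = (c' * i'⁻¹)⁻¹ * (c' * i') := by rw [h, h2]
      _ = i' * i' := by group
  have hii := eq_of_sq_eq hodd hi.1 hi'.1 h3
  subst hii
  exact ⟨mul_right_cancel h, rfl⟩

theorem card_eq {t : M} (ht : t * t = 1) {X : Subgroup M} (hodd : Odd (Nat.card X))
    (hnorm : ∀ x ∈ X, t * x * t⁻¹ ∈ X) :
    Nat.card X = Nat.card ↥(X ⊓ centralizer ({t} : Set M)) * Nat.card (invertedBy X t) := by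
  rw [← Nat.card_prod]
  symm
  let f : ↥(X ⊓ centralizer ({t} : Set M)) × (invertedBy X t) → X := fun p =>
    ⟨(p.1 : M) * (p.2 : M), X.mul_mem (Subgroup.mem_inf.mp p.1.2).1 p.2.2.1⟩
  refine Nat.card_congr (Equiv.ofBijective f ⟨?_, ?_⟩)
  · rintro ⟨c, i⟩ ⟨c', i'⟩ h
    have h' : (c : M) * (i : M) = (c' : M) * (i' : M) := congrArg Subtype.val h
    obtain ⟨h1, h2⟩ := decomp_unique hodd c.2 c'.2 i.2 i'.2 h'
    rw [Prod.mk.injEq]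
    exact ⟨Subtype.ext h1, Subtype.ext h2⟩
  · rintro ⟨x, hx⟩
    obtain ⟨c, hc, i, hi, rfl⟩ := exists_decomp ht hodd hnorm hx
    exact ⟨(⟨c, hc⟩, ⟨i, hi⟩), rfl⟩

theorem mem_normalizer_closure {t : M} (ht : t * t = 1) {X : Subgroup M} (hodd : Odd (Nat.card X))
    (hnorm : ∀ x ∈ X, t * x * t⁻¹ ∈ X) {x : M} (hx : x ∈ X) :
    x ∈ normalizer ((closure (invertedBy X t) : Subgroup M) : Set M) := by
  obtain ⟨c, hc, i, hi, rfl⟩ := exists_decomp ht hodd hnorm hx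
  refine Subgroup.mul_mem _ ?_ (le_normalizer (subset_closure hi))
  apply normalizer_le_normalizer_closure
  have hct := mem_cent_iff.mp (Subgroup.mem_inf.mp hc).2
  have hcX := (Subgroup.mem_inf.mp hc).1
  rw [mem_set_normalizer_iff]
  intro h
  constructor
  · intro hh; exact invertedBy_conj hcX hct hh
  · intro hh
    have hct2 : t * c⁻¹ = c⁻¹ * t := by
      calc t * c⁻¹ = c⁻¹ * (c * t) * c⁻¹ := by group
        _ = c⁻¹ * (t * c) * c⁻¹ := by rw [hct]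
        _ = c⁻¹ * t := by group
    have := invertedBy_conj (X.inv_mem hcX) hct2 hh
    have e : c⁻¹ * (c * h * c⁻¹) * c⁻¹⁻¹ = h := by group
    rwa [e] at this

/-- Generation by centralisers of the involutions of a four-group acting on an odd order subgroup. -/
theorem klein_gen {v₁ v₂ : M} (h1 : v₁ * v₁ = 1) (h2 : v₂ * v₂ = 1) (hcomm : v₁ * v₂ = v₂ * v₁)
    {N : Subgroup M} (hodd : Odd (Nat.card N)) (hn1 : ∀ x ∈ N, v₁ * x * v₁⁻¹ ∈ N)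
    (hn2 : ∀ x ∈ N, v₂ * x * v₂⁻¹ ∈ N) {T : Subgroup M}
    (hT1 : N ⊓ centralizer ({v₁} : Set M) ≤ T) (hT2 : N ⊓ centralizer ({v₂} : Set M) ≤ T)
    (hT3 : N ⊓ centralizer ({v₁ * v₂} : Set M) ≤ T) : N ≤ T := by
  intro x hx
  obtain ⟨c1, hc1, i1, hi1, rfl⟩ := exists_decomp h1 hodd hn1 hx
  refine T.mul_mem (hT1 hc1) ?_
  obtain ⟨c, hc, i, hi, rfl⟩ := exists_decomp h2 hodd hn2 hi1.1
  have hcN := (Subgroup.mem_inf.mp hc).1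
  have hc2 := mem_cent_iff.mp (Subgroup.mem_inf.mp hc).2
  have hv1i : v₁⁻¹ = v₁ := inv_eq_of_mul_eq_one_left h1
  have hv2i : v₂⁻¹ = v₂ := inv_eq_of_mul_eq_one_left h2
  -- conjugate the decomposition by v₁
  have hA : v₁ * c * v₁⁻¹ ∈ N ⊓ centralizer ({v₂} : Set M) := by
    refine Subgroup.mem_inf.mpr ⟨hn1 c hcN, ?_⟩
    rw [mem_cent_iff]
    calc v₂ * (v₁ * c * v₁⁻¹) = (v₂ * v₁) * c * v₁⁻¹ := by group
      _ = v₁ * (v₂ * c) * v₁⁻¹ := by rw [← hcomm]; group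
      _ = v₁ * (c * v₂) * v₁⁻¹ := by rw [hc2]
      _ = v₁ * c * (v₂ * v₁) * (v₁⁻¹ * v₁⁻¹) := by group
      _ = v₁ * c * (v₁ * v₂) * (v₁⁻¹ * v₁⁻¹) := by rw [hcomm]
      _ = v₁ * c * v₁⁻¹ * v₂ := by rw [hv1i, h1]; group
  have hB : v₁ * i * v₁⁻¹ ∈ invertedBy N v₂ := by
    refine ⟨hn1 i hi.1, ?_⟩
    have hcomm' : v₂ * v₁ * v₂⁻¹ = v₁ := by rw [← hcomm]; group
    calc v₂ * (v₁ * i * v₁⁻¹) * v₂⁻¹ = (v₂ * v₁ * v₂⁻¹) * (v₂ * i * v₂⁻¹) * (v₂ * v₁ * v₂⁻¹)⁻¹ := by group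
      _ = (v₁ * i * v₁⁻¹)⁻¹ := by rw [hcomm', hi.2]; group
  have hC : c⁻¹ ∈ N ⊓ centralizer ({v₂} : Set M) := Subgroup.inv_mem _ hc
  have hD : c * i⁻¹ * c⁻¹ ∈ invertedBy N v₂ := invertedBy_conj hcN hc2 (invertedBy_inv hi)
  have heq : (v₁ * c * v₁⁻¹) * (v₁ * i * v₁⁻¹) = c⁻¹ * (c * i⁻¹ * c⁻¹) := by
    calc (v₁ * c * v₁⁻¹) * (v₁ * i * v₁⁻¹) = v₁ * (c * i) * v₁⁻¹ := by group
      _ = (c * i)⁻¹ := hi1.2
      _ = c⁻¹ * (c * i⁻¹ * c⁻¹) := by group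
  obtain ⟨e1, e2⟩ := decomp_unique hodd hA hC hB hD heq
  -- v₃ = v₁ v₂ inverts c and maps i to c i c⁻¹
  have h3c : (v₁ * v₂) * c * (v₁ * v₂)⁻¹ = c⁻¹ := by
    calc (v₁ * v₂) * c * (v₁ * v₂)⁻¹ = v₁ * ((v₂ * c) * v₂⁻¹) * v₁⁻¹ := by group
      _ = v₁ * c * v₁⁻¹ := by rw [hc2]; group
      _ = c⁻¹ := e1
  have h3i : (v₁ * v₂) * i * (v₁ * v₂)⁻¹ = c * i * c⁻¹ := by
    calc (v₁ * v₂) * i * (v₁ * v₂)⁻¹ = v₁ * (v₂ * i * v₂⁻¹) * v₁⁻¹ := by group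
      _ = (v₁ * i * v₁⁻¹)⁻¹ := by rw [hi.2]; group
      _ = c * i * c⁻¹ := by rw [e2]; group
  obtain ⟨k, hk⟩ := hodd
  have hm2 := sqrt_mul_self hk (N.inv_mem hcN)
  have hmN : c⁻¹ ^ (k + 1) ∈ N := N.pow_mem (N.inv_mem hcN) _
  have hm2c : v₂ * c⁻¹ ^ (k + 1) = c⁻¹ ^ (k + 1) * v₂ := by
    have hcc : v₂ * c⁻¹ * v₂⁻¹ = c⁻¹ := by
      calc v₂ * c⁻¹ * v₂⁻¹ = ((v₂ * c) * v₂⁻¹)⁻¹ := by group
        _ = c⁻¹ := by rw [hc2]; group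
    have : v₂ * c⁻¹ ^ (k + 1) * v₂⁻¹ = c⁻¹ ^ (k + 1) := by rw [← conj_pow, hcc]
    calc v₂ * c⁻¹ ^ (k + 1) = (v₂ * c⁻¹ ^ (k + 1) * v₂⁻¹) * v₂ := by group
      _ = c⁻¹ ^ (k + 1) * v₂ := by rw [this]
  have hm3 : (v₁ * v₂) * c⁻¹ ^ (k + 1) * (v₁ * v₂)⁻¹ = (c⁻¹ ^ (k + 1))⁻¹ := by
    have hcc : (v₁ * v₂) * c⁻¹ * (v₁ * v₂)⁻¹ = c⁻¹⁻¹ := by
      calc (v₁ * v₂) * c⁻¹ * (v₁ * v₂)⁻¹ = ((v₁ * v₂) * c * (v₁ * v₂)⁻¹)⁻¹ := by group
        _ = c⁻¹⁻¹ := by rw [h3c]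
    rw [← conj_pow, hcc, inv_pow]
  generalize c⁻¹ ^ (k + 1) = m at hm2 hmN hm2c hm3
  have hcm : c = m⁻¹ * m⁻¹ := by
    rw [← mul_inv_rev, hm2, inv_inv]
  have hi' : m⁻¹ * i * m ∈ N ⊓ centralizer ({v₁ * v₂} : Set M) := by
    refine Subgroup.mem_inf.mpr ⟨N.mul_mem (N.mul_mem (N.inv_mem hmN) hi.1) hmN, ?_⟩
    rw [mem_cent_iff]
    have : (v₁ * v₂) * (m⁻¹ * i * m) * (v₁ * v₂)⁻¹ = m⁻¹ * i * m := by
      calc (v₁ * v₂) * (m⁻¹ * i * m) * (v₁ * v₂)⁻¹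
          = ((v₁ * v₂) * m * (v₁ * v₂)⁻¹)⁻¹ * ((v₁ * v₂) * i * (v₁ * v₂)⁻¹) *
              ((v₁ * v₂) * m * (v₁ * v₂)⁻¹) := by group
        _ = m * (c * i * c⁻¹) * m⁻¹ := by rw [hm3, h3i, inv_inv]
        _ = m⁻¹ * i * m := by rw [hcm]; group
    calc (v₁ * v₂) * (m⁻¹ * i * m) = ((v₁ * v₂) * (m⁻¹ * i * m) * (v₁ * v₂)⁻¹) * (v₁ * v₂) := by group
      _ = m⁻¹ * i * m * (v₁ * v₂) := by rw [this]
  have hmT : m ∈ T := hT2 (Subgroup.mem_inf.mpr ⟨hmN, mem_cent_iff.mpr hm2c⟩)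
  have hiT : i ∈ T := by
    have := T.mul_mem (T.mul_mem hmT (hT3 hi')) (T.inv_mem hmT)
    have e : m * (m⁻¹ * i * m) * m⁻¹ = i := by group
    rwa [e] at this
  exact T.mul_mem (hT2 hc) hiT

end Cfsg.Agent.Lib.Helper2.InvOdd
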