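import Cfsg.Agent.Lib.Helper2.SZCyclic
import Cfsg.Agent.Lib.Helper2.Hall

set_option autoImplicit false

namespace Cfsg.Agent.Lib.Helper2.KGV

open Cfsg Cfsg.Agent.Lib.Helper2

variable {X : Type*} [Group X]

theorem exists_VG {V G : Subgroup X} [hVn : V.Normal] (hGV : Subgroup.IsComplement' V G) (x : X) :
    ∃ u ∈ V, ∃ h ∈ G, x = u * h := by
  have hx : x ∈ ((V ⊔ G : Subgroup X) : Set X) := by rw [hGV.sup_eq_top]; trivial
  rw [Subgroup.normal_mul] at hx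
  obtain ⟨u, hu, h, hh, rfl⟩ := Set.mem_mul.mp hx
  exact ⟨u, hu, h, hh, rfl⟩

theorem parts [Finite X] {V G : Subgroup X} [hVn : V.Normal]
    (hab : ∀ a ∈ V, ∀ b ∈ V, a * b = b * a)
    (hGV : Subgroup.IsComplement' V G) (hcop : (Nat.card V).Coprime (Nat.card G))
    {s s' c c' x : X} (hs : s ∈ V) (hs' : s' ∈ V) (hc : c ∈ G) (hc' : c' ∈ G)
    (hsc : s * c = c * s) (hsc' : s' * c' = c' * s')
    (hx : x * (s * c) * x⁻¹ = s' * c') : ∃ h ∈ G, h * s * h⁻¹ = s' ∧ h * c * h⁻¹ = c' := by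
  obtain ⟨u, hu, h, hh, rfl⟩ := exists_VG hGV x
  have hs1 : h * s * h⁻¹ ∈ V := hVn.conj_mem s hs h
  have hc1 : h * c * h⁻¹ ∈ G := G.mul_mem (G.mul_mem hh hc) (G.inv_mem hh)
  have hw : u * (h * c * h⁻¹) * u⁻¹ * (h * c * h⁻¹)⁻¹ ∈ V := by
    have h1 : (h * c * h⁻¹) * u⁻¹ * (h * c * h⁻¹)⁻¹ ∈ V := hVn.conj_mem _ (V.inv_mem hu) _
    have e : u * (h * c * h⁻¹) * u⁻¹ * (h * c * h⁻¹)⁻¹ =
        u * ((h * c * h⁻¹) * u⁻¹ * (h * c * h⁻¹)⁻¹) := by group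
    rw [e]; exact V.mul_mem hu h1
  -- notation
  obtain ⟨s₁, hs₁def⟩ : ∃ s₁, s₁ = h * s * h⁻¹ := ⟨_, rfl⟩
  obtain ⟨c₁, hc₁def⟩ : ∃ c₁, c₁ = h * c * h⁻¹ := ⟨_, rfl⟩
  obtain ⟨w, hwdef⟩ : ∃ w, w = u * c₁ * u⁻¹ * c₁⁻¹ := ⟨_, rfl⟩
  rw [← hs₁def] at hs1
  rw [← hc₁def] at hc1 hw
  rw [← hwdef] at hw
  have hus : u * s₁ = s₁ * u := hab u hu s₁ hs1
  have e1 : u * h * (s * c) * (u * h)⁻¹ = s₁ * w * c₁ := by
    rw [hwdef, hs₁def, hc₁def]
    have : u * (h * s * h⁻¹) = (h * s * h⁻¹) * u := by rw [← hs₁def]; exact hus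
    calc u * h * (s * c) * (u * h)⁻¹ = (u * (h * s * h⁻¹)) * (h * c * h⁻¹) * u⁻¹ := by group
      _ = ((h * s * h⁻¹) * u) * (h * c * h⁻¹) * u⁻¹ := by rw [this]
      _ = h * s * h⁻¹ * (u * (h * c * h⁻¹) * u⁻¹ * (h * c * h⁻¹)⁻¹) * (h * c * h⁻¹) := by group
  rw [e1] at hx
  -- hx : s₁ * w * c₁ = s' * c'
  have hmem : s'⁻¹ * (s₁ * w) ∈ V ⊓ G := by
    refine ⟨V.mul_mem (V.inv_mem hs') (V.mul_mem hs1 hw), ?_⟩
    have e : s'⁻¹ * (s₁ * w) = c' * c₁⁻¹ := by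
      have : s₁ * w = s' * c' * c₁⁻¹ := by rw [← hx]; group
      rw [this]; group
    rw [e]; exact G.mul_mem hc' (G.inv_mem hc1)
  have hbot : V ⊓ G = ⊥ := disjoint_iff.mp hGV.disjoint
  rw [hbot, Subgroup.mem_bot] at hmem
  have hs'eq : s' = s₁ * w := by
    have := congrArg (fun t => s' * t) hmem
    simpa using this.symm
  have hc'eq : c' = c₁ := by
    have h2 : s₁ * w * c₁ = s₁ * w * c' := by rw [hx, hs'eq]
    exact (mul_left_cancel h2).symm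
  -- w commutes with c₁
  have hs1c1 : s₁ * c₁ = c₁ * s₁ := by
    rw [hs₁def, hc₁def]
    calc h * s * h⁻¹ * (h * c * h⁻¹) = h * (s * c) * h⁻¹ := by group
      _ = h * (c * s) * h⁻¹ := by rw [hsc]
      _ = h * c * h⁻¹ * (h * s * h⁻¹) := by group
  have hwc : w * c₁ = c₁ * w := by
    have h3 : s₁ * w * c₁ = c₁ * (s₁ * w) := by
      rw [← hs'eq, ← hc'eq]; exact hsc'
    have h4 : s₁ * (w * c₁) = s₁ * (c₁ * w) := by
      calc s₁ * (w * c₁) = s₁ * w * c₁ := by group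
        _ = c₁ * (s₁ * w) := h3
        _ = (c₁ * s₁) * w := by group
        _ = (s₁ * c₁) * w := by rw [hs1c1]
        _ = s₁ * (c₁ * w) := by group
    exact mul_left_cancel h4
  have hw1 : w = 1 := by
    have hconj : w * c₁ = u * c₁ * u⁻¹ := by rw [hwdef]; group
    have hpow : (w * c₁) ^ orderOf c₁ = 1 := by
      rw [hconj, conj_pow, pow_orderOf_eq_one]; group
    have hcomm : Commute w c₁ := hwc
    rw [hcomm.mul_pow, pow_orderOf_eq_one, mul_one] at hpow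
    have d1 : orderOf w ∣ orderOf c₁ := orderOf_dvd_of_pow_eq_one hpow
    have d2 : orderOf w ∣ Nat.card V := orderOf_dvd_card_of_mem V w hw
    have d3 : orderOf c₁ ∣ Nat.card G := orderOf_dvd_card_of_mem G c₁ hc1
    have d4 : orderOf w ∣ Nat.gcd (Nat.card V) (Nat.card G) := Nat.dvd_gcd d2 (d1.trans d3)
    rw [Nat.Coprime.gcd_eq_one hcop] at d4
    exact orderOf_eq_one_iff.mp (Nat.dvd_one.mp d4)
  refine ⟨h, hh, ?_, ?_⟩
  · rw [hs'eq, hw1, mul_one, hs₁def]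
  · rw [hc'eq, hc₁def]

theorem exists_rep [Finite X] {V G : Subgroup X} [hVn : V.Normal]
    (hGV : Subgroup.IsComplement' V G) (hcop : (Nat.card V).Coprime (Nat.card G)) (x : X) :
    ∃ y : X, ∃ c ∈ V, ∃ g ∈ G, c * g = g * c ∧ y * x * y⁻¹ = c * g := by
  obtain ⟨v, hv, g, hg, rfl⟩ := exists_VG hGV x
  have hcop' : (orderOf g).Coprime (Nat.card V) :=
    (Nat.Coprime.coprime_dvd_right (orderOf_dvd_card_of_mem G g hg) hcop).symm
  obtain ⟨y, _, c, hc, hcg, hy⟩ := coset_conj V g v hcop' hv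
  exact ⟨y, c, hc, g, hg, hcg, hy⟩

/-- the class map -/
noncomputable def F (G : Subgroup X) (S : Finset X) :
    (Σ s : ↥S, ConjClasses ↥(G ⊓ Subgroup.centralizer ({(s : X)} : Set X))) → ConjClasses X :=
  fun q => Quotient.lift
    (fun c : ↥(G ⊓ Subgroup.centralizer ({(q.1 : X)} : Set X)) =>
      ConjClasses.mk ((q.1 : X) * (c : X))) (by
    intro c c' hcc
    have hcc' : IsConj c c' := hcc
    obtain ⟨d, hd⟩ := isConj_iff.mp hcc'
    apply ConjClasses.mk_eq_mk_iff_isConj.mpr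
    rw [isConj_iff]
    refine ⟨(d : X), ?_⟩
    have hd' : (d : X) * (c : X) * (d : X)⁻¹ = (c' : X) := congrArg Subtype.val hd
    have hds : (d : X) * (q.1 : X) = (q.1 : X) * (d : X) :=
      Subgroup.mem_centralizer_singleton_iff.mp d.2.2
    rw [← hd']
    calc (d : X) * ((q.1 : X) * (c : X)) * (d : X)⁻¹
        = ((d : X) * (q.1 : X)) * (c : X) * (d : X)⁻¹ := by group
      _ = ((q.1 : X) * (d : X)) * (c : X) * (d : X)⁻¹ := by rw [hds]
      _ = (q.1 : X) * ((d : X) * (c : X) * (d : X)⁻¹) := by group) q.2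

theorem F_mk (G : Subgroup X) (S : Finset X) (s : ↥S)
    (c : ↥(G ⊓ Subgroup.centralizer ({(s : X)} : Set X))) :
    F G S ⟨s, ConjClasses.mk c⟩ = ConjClasses.mk ((s : X) * (c : X)) := rfl

theorem F_bijective [Finite X] (V : Subgroup X) [hVn : V.Normal]
    (hab : ∀ a ∈ V, ∀ b ∈ V, a * b = b * a) (G : Subgroup X)
    (hGV : Subgroup.IsComplement' V G) (hcop : (Nat.card V).Coprime (Nat.card G))
    (S : Finset X) (hSV : ∀ s ∈ S, s ∈ V)
    (hrep : ∀ v ∈ V, ∃! s, s ∈ S ∧ ∃ g ∈ G, g * v * g⁻¹ = s) :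
    Function.Bijective (F G S) := by
  constructor
  · rintro ⟨s, q⟩ ⟨s', q'⟩ hF
    obtain ⟨c, rfl⟩ := ConjClasses.exists_rep q
    obtain ⟨c', rfl⟩ := ConjClasses.exists_rep q'
    rw [F_mk, F_mk] at hF
    obtain ⟨x, hx⟩ := isConj_iff.mp (ConjClasses.mk_eq_mk_iff_isConj.mp hF)
    obtain ⟨h, hh, h1, h2⟩ := parts hab hGV hcop (hSV s s.2) (hSV s' s'.2) c.2.1 c'.2.1
      (Subgroup.mem_centralizer_singleton_iff.mp c.2.2).symm
      (Subgroup.mem_centralizer_singleton_iff.mp c'.2.2).symm hx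
    have hss : s = s' := by
      apply Subtype.ext
      obtain ⟨s₀, _, huniq⟩ := hrep (s : X) (hSV s s.2)
      have e1 := huniq (s : X) ⟨s.2, 1, G.one_mem, by group⟩
      have e2 := huniq (s' : X) ⟨s'.2, h, hh, h1⟩
      rw [e1, e2]
    subst hss
    congr 1
    apply ConjClasses.mk_eq_mk_iff_isConj.mpr
    rw [isConj_iff]
    have hhs : h ∈ G ⊓ Subgroup.centralizer ({(s : X)} : Set X) := by
      refine ⟨hh, Subgroup.mem_centralizer_singleton_iff.mpr ?_⟩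
      calc h * (s : X) = (h * (s : X) * h⁻¹) * h := by group
        _ = (s : X) * h := by rw [h1]
    refine ⟨⟨h, hhs⟩, ?_⟩
    apply Subtype.ext
    exact h2
  · intro C
    obtain ⟨x, rfl⟩ := ConjClasses.exists_rep C
    obtain ⟨y, c, hc, g, hg, hcg, hy⟩ := exists_rep hGV hcop x
    obtain ⟨s, ⟨hsS, h, hh, hhs⟩, _⟩ := hrep c hc
    have hg' : h * g * h⁻¹ ∈ G ⊓ Subgroup.centralizer ({s} : Set X) := by
      refine ⟨G.mul_mem (G.mul_mem hh hg) (G.inv_mem hh), ?_⟩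
      show h * g * h⁻¹ ∈ Subgroup.centralizer ({s} : Set X)
      rw [Subgroup.mem_centralizer_singleton_iff, ← hhs]
      calc h * g * h⁻¹ * (h * c * h⁻¹) = h * (g * c) * h⁻¹ := by group
        _ = h * (c * g) * h⁻¹ := by rw [hcg]
        _ = h * c * h⁻¹ * (h * g * h⁻¹) := by group
    refine ⟨⟨⟨s, hsS⟩, ConjClasses.mk ⟨h * g * h⁻¹, hg'⟩⟩, ?_⟩
    rw [F_mk]
    apply ConjClasses.mk_eq_mk_iff_isConj.mpr
    rw [isConj_iff]
    refine ⟨(h * y)⁻¹, ?_⟩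
    show (h * y)⁻¹ * (s * (h * g * h⁻¹)) * (h * y)⁻¹⁻¹ = x
    rw [← hhs]
    have : x = y⁻¹ * (c * g) * y := by rw [← hy]; group
    rw [this]; group

theorem card_classes [Finite X] (V : Subgroup X) [hVn : V.Normal]
    (hab : ∀ a ∈ V, ∀ b ∈ V, a * b = b * a) (G : Subgroup X)
    (hGV : Subgroup.IsComplement' V G) (hcop : (Nat.card V).Coprime (Nat.card G))
    (S : Finset X) (hSV : ∀ s ∈ S, s ∈ V)
    (hrep : ∀ v ∈ V, ∃! s, s ∈ S ∧ ∃ g ∈ G, g * v * g⁻¹ = s) :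
    Nat.card (ConjClasses X) =
      ∑ s ∈ S, Nat.card (ConjClasses ↥(G ⊓ Subgroup.centralizer ({s} : Set X))) := by
  rw [← Nat.card_congr (Equiv.ofBijective (F G S) (F_bijective V hab G hGV hcop S hSV hrep)),
    Nat.card_sigma]
  exact Finset.sum_coe_sort S
    (fun s => Nat.card (ConjClasses ↥(G ⊓ Subgroup.centralizer ({s} : Set X))))

end Cfsg.Agent.Lib.Helper2.KGV
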