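import Mathlib
import Cfsg.Prelude.Def_ConjugacyFunctors

set_option autoImplicit false

namespace Cfsg.Agent.Lib.Helper2

open Cfsg

variable {P : Type*} [Group P]

theorem kLowerStar_antitone {Q Q' : Subgroup P} (h : Q ≤ Q') :
    kLowerStarFamily Q' ⊆ kLowerStarFamily Q := by
  rintro B ⟨h1, h2, h3⟩
  exact ⟨h1, h.trans h2, fun A hA hAQ => h3 A hA (hAQ.trans h)⟩

theorem kUpperStar_antitone {Q Q' : Subgroup P} (h : Q ≤ Q') :
    kUpperStarFamily Q' ⊆ kUpperStarFamily Q := by
  rintro B ⟨h1, h2⟩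
  exact ⟨h1, (Subgroup.commutator_mono le_rfl h).trans h2⟩

theorem kSeqOdd_succ (n : ℕ) :
    kSeqOdd P (n + 1) = sSup (kUpperStarFamily (sSup (kLowerStarFamily (kSeqOdd P n)))) := rfl

theorem kSeqOdd_antitone (n : ℕ) : kSeqOdd P (n + 1) ≤ kSeqOdd P n := by
  induction n with
  | zero => exact le_top
  | succ n ih =>
    rw [kSeqOdd_succ (n + 1), kSeqOdd_succ n]
    exact sSup_le_sSup (kUpperStar_antitone (sSup_le_sSup (kLowerStar_antitone ih)))

theorem kSeqEven_monotone (n : ℕ) : kSeqEven P n ≤ kSeqEven P (n + 1) :=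
  sSup_le_sSup (kLowerStar_antitone (kSeqOdd_antitone n))

theorem normal_abelian_mem_classTwo (A : Subgroup P) (hA : IsMulCommutative ↥A) :
    A ∈ classTwoSubgroups P := by
  show ⁅A, A⁆ ≤ Subgroup.centralizer (A : Set P)
  have h1 : ⁅A, A⁆ = ⊥ := by
    rw [Subgroup.commutator_eq_bot_iff_le_centralizer]
    intro x hx
    rw [Subgroup.mem_centralizer_iff]
    intro y hy
    have := hA.is_comm.comm (⟨y, hy⟩ : A) ⟨x, hx⟩
    exact congrArg Subtype.val this
  rw [h1]; exact bot_le

theorem abelian_le_centralizer (A : Subgroup P) (hA : IsMulCommutative ↥A) :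
    A ≤ Subgroup.centralizer (A : Set P) := by
  intro x hx
  rw [Subgroup.mem_centralizer_iff]
  intro y hy
  have := hA.is_comm.comm (⟨y, hy⟩ : A) ⟨x, hx⟩
  exact congrArg Subtype.val this

theorem normal_abelian_mem_lower (A : Subgroup P) [A.Normal] (hA : IsMulCommutative ↥A)
    (Q : Subgroup P) : A ∈ kLowerStarFamily Q := by
  refine ⟨normal_abelian_mem_classTwo A hA, ?_, ?_⟩
  · rw [Subgroup.normalizer_eq_top]; exact le_top
  · intro A' _ _ _ _ _
    exact le_inf (Subgroup.commutator_le_left A A') (by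
      exact (Subgroup.commutator_le_left A A').trans (abelian_le_centralizer A hA))

theorem normal_abelian_mem_upper (A : Subgroup P) [A.Normal] (hA : IsMulCommutative ↥A)
    (Q : Subgroup P) : A ∈ kUpperStarFamily Q :=
  ⟨normal_abelian_mem_classTwo A hA, le_inf (Subgroup.commutator_le_left A Q)
    ((Subgroup.commutator_le_left A Q).trans (abelian_le_centralizer A hA))⟩

theorem normal_abelian_le_kSeqEven (A : Subgroup P) [A.Normal] (hA : IsMulCommutative ↥A)
    (n : ℕ) : A ≤ kSeqEven P n :=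
  le_sSup (normal_abelian_mem_lower A hA _)

theorem normal_abelian_le_kSeqOdd (A : Subgroup P) [A.Normal] (hA : IsMulCommutative ↥A)
    (n : ℕ) : A ≤ kSeqOdd P n := by
  cases n with
  | zero => exact le_top
  | succ n => exact le_sSup (normal_abelian_mem_upper A hA _)

end Cfsg.Agent.Lib.Helper2
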