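import Cfsg.Agent.S0065
import Cfsg.Agent.Lib.Helper2.KSeq
import Cfsg.Agent.Lib.Helper2.CycTI4

set_option autoImplicit false

namespace Cfsg.Agent.Lib.Helper2.KMax

open Cfsg Cfsg.Agent.Lib.Helper2
open scoped commutatorElement

variable {P : Type*} [Group P]

theorem exists_mul' {W₁ W₂ : Subgroup P} (hcomm : ∀ a ∈ W₁, ∀ b ∈ W₂, a * b = b * a) {t : P}
    (ht : t ∈ W₁ ⊔ W₂) : ∃ a ∈ W₁, ∃ b ∈ W₂, t = a * b := by
  rw [← Cfsg.Agent.Lib.Helper2.CycTI.prodHom_range hcomm] at ht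
  obtain ⟨q, hq⟩ := ht
  exact ⟨q.1, q.1.2, q.2, q.2.2, hq.symm⟩

theorem comm_elem_central (a a' z z' : P) (h1 : z * a' = a' * z) (h2 : z' * a = a * z')
    (h3 : z * z' = z' * z) : ⁅a * z, a' * z'⁆ = ⁅a, a'⁆ := by
  rw [commutatorElement_def, commutatorElement_def]
  have h2' : z' * a⁻¹ = a⁻¹ * z' := by
    calc z' * a⁻¹ = a⁻¹ * (a * z') * a⁻¹ := by group
      _ = a⁻¹ * (z' * a) * a⁻¹ := by rw [h2]
      _ = a⁻¹ * z' := by group
  calc a * z * (a' * z') * (a * z)⁻¹ * (a' * z')⁻¹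
      = a * (z * a') * z' * z⁻¹ * a⁻¹ * z'⁻¹ * a'⁻¹ := by group
    _ = a * (a' * z) * z' * z⁻¹ * a⁻¹ * z'⁻¹ * a'⁻¹ := by rw [h1]
    _ = a * a' * (z * z') * z⁻¹ * a⁻¹ * z'⁻¹ * a'⁻¹ := by group
    _ = a * a' * (z' * z) * z⁻¹ * a⁻¹ * z'⁻¹ * a'⁻¹ := by rw [h3]
    _ = a * a' * (z' * a⁻¹) * z'⁻¹ * a'⁻¹ := by group
    _ = a * a' * (a⁻¹ * z') * z'⁻¹ * a'⁻¹ := by rw [h2']
    _ = a * a' * a⁻¹ * a'⁻¹ := by group

theorem hcomm_of {B : Subgroup P} {x : P} (hx : x ∈ Subgroup.centralizer (B : Set P)) :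
    ∀ a ∈ B, ∀ z ∈ Subgroup.zpowers x, a * z = z * a := by
  have hzc : Subgroup.zpowers x ≤ Subgroup.centralizer (B : Set P) := Subgroup.zpowers_le.mpr hx
  exact fun a ha z hz => Subgroup.mem_centralizer_iff.mp (hzc hz) a ha

theorem central_mem {B : Subgroup P} {x w : P} (hx : x ∈ Subgroup.centralizer (B : Set P))
    (hw : w ∈ Subgroup.centralizer (B : Set P)) (hwB : w ∈ B) :
    w ∈ Subgroup.centralizer ((B ⊔ Subgroup.zpowers x : Subgroup P) : Set P) := by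
  rw [Subgroup.mem_centralizer_iff]
  intro y hy
  have hle : B ⊔ Subgroup.zpowers x ≤ Subgroup.centralizer ({w} : Set P) := by
    apply sup_le
    · intro b hb
      rw [Subgroup.mem_centralizer_singleton_iff]
      exact Subgroup.mem_centralizer_iff.mp hw b hb
    · rw [Subgroup.zpowers_le, Subgroup.mem_centralizer_singleton_iff]
      exact (Subgroup.mem_centralizer_iff.mp hx w hwB).symm
  exact Subgroup.mem_centralizer_singleton_iff.mp (hle hy)

theorem classTwo_sup {B : Subgroup P} {x : P} (hx : x ∈ Subgroup.centralizer (B : Set P))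
    (hB : B ∈ classTwoSubgroups P) : B ⊔ Subgroup.zpowers x ∈ classTwoSubgroups P := by
  have hcomm := hcomm_of hx
  have hzz : ∀ z ∈ Subgroup.zpowers x, ∀ z' ∈ Subgroup.zpowers x, z * z' = z' * z := by
    intro z hz z' hz'
    obtain ⟨k, rfl⟩ := Subgroup.mem_zpowers_iff.mp hz
    obtain ⟨j, rfl⟩ := Subgroup.mem_zpowers_iff.mp hz'
    exact zpow_mul_comm x k j
  show ⁅B ⊔ Subgroup.zpowers x, B ⊔ Subgroup.zpowers x⁆ ≤
    Subgroup.centralizer ((B ⊔ Subgroup.zpowers x : Subgroup P) : Set P)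
  rw [Subgroup.commutator_le]
  intro g hg h hh
  obtain ⟨a, ha, z, hz, rfl⟩ := exists_mul' hcomm hg
  obtain ⟨a', ha', z', hz', rfl⟩ := exists_mul' hcomm hh
  rw [comm_elem_central a a' z z' (hcomm a' ha' z hz).symm (hcomm a ha z' hz').symm
    (hzz z hz z' hz')]
  have hc : ⁅a, a'⁆ ∈ Subgroup.centralizer (B : Set P) :=
    hB (Subgroup.commutator_mem_commutator ha ha')
  have hcB : ⁅a, a'⁆ ∈ B := by
    rw [commutatorElement_def]
    exact B.mul_mem (B.mul_mem (B.mul_mem ha ha') (B.inv_mem ha)) (B.inv_mem ha')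
  exact central_mem hx hc hcB

theorem exists_x [Finite P] {p : ℕ} [Fact p.Prime] (hP : IsPGroup p P) (B : Subgroup P)
    (hnot : ¬ Subgroup.centralizer (B : Set P) ≤ B) :
    ∃ x, x ∈ Subgroup.centralizer (B : Set P) ∧ x ∉ B ∧
      ∀ z ∈ Subgroup.zpowers x, ∀ q ∈ Subgroup.normalizer (B : Set P), ⁅z, q⁆ ∈ B := by
  classical
  let N : Subgroup P := Subgroup.normalizer (B : Set P)
  let Bn : Subgroup N := B.subgroupOf N
  haveI hBn : Bn.Normal := Subgroup.normal_in_normalizer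
  let Cn : Subgroup N := (Subgroup.centralizer (B : Set P)).subgroupOf N
  haveI hCn : Cn.Normal := Subgroup.normal_subgroupOf_centralizer_normalizer (B : Set P)
  have hPN : IsPGroup p N := hP.to_subgroup N
  have hPQ : IsPGroup p (N ⧸ Bn) := hPN.to_quotient Bn
  haveI : Group.IsNilpotent (N ⧸ Bn) := hPQ.isNilpotent
  let π := QuotientGroup.mk' Bn
  let Cbar : Subgroup (N ⧸ Bn) := Cn.map π
  haveI hCbn : Cbar.Normal := Subgroup.Normal.map hCn π (QuotientGroup.mk'_surjective Bn)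
  obtain ⟨c, hc, hcB⟩ := SetLike.not_le_iff_exists.mp hnot
  have hcN : c ∈ N := Subgroup.centralizer_le_normalizer _ hc
  have hCne : Cbar ≠ ⊥ := by
    intro h
    apply hcB
    have h1 : π ⟨c, hcN⟩ ∈ Cbar := Subgroup.mem_map_of_mem π (Subgroup.mem_subgroupOf.mpr hc)
    rw [h, Subgroup.mem_bot] at h1
    have h2 : (⟨c, hcN⟩ : N) ∈ Bn := (QuotientGroup.eq_one_iff _).mp h1
    exact Subgroup.mem_subgroupOf.mp h2
  have hS65 := Cfsg.Agent.S0065.result Cbar hCne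
  obtain ⟨ybar, hy, hy1⟩ : ∃ y ∈ Cbar ⊓ Subgroup.center (N ⧸ Bn), y ≠ 1 := by
    by_contra hcon
    apply hS65
    rw [Subgroup.eq_bot_iff_forall]
    intro y hy
    by_contra hy1
    exact hcon ⟨y, hy, hy1⟩
  obtain ⟨hyC, hyZ⟩ := Subgroup.mem_inf.mp hy
  obtain ⟨x, hxC, rfl⟩ := Subgroup.mem_map.mp hyC
  refine ⟨(x : P), Subgroup.mem_subgroupOf.mp hxC, ?_, ?_⟩
  · intro hxB
    apply hy1
    exact (QuotientGroup.eq_one_iff x).mpr (Subgroup.mem_subgroupOf.mpr hxB)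
  · intro z hz q hq
    obtain ⟨k, rfl⟩ := Subgroup.mem_zpowers_iff.mp hz
    have hzc : π (x ^ k) ∈ Subgroup.center (N ⧸ Bn) := by
      rw [map_zpow]; exact Subgroup.zpow_mem _ hyZ k
    have h1 : π ⁅x ^ k, (⟨q, hq⟩ : N)⁆ = 1 := by
      rw [map_commutatorElement, commutatorElement_eq_one_iff_commute]
      exact (Subgroup.mem_center_iff.mp hzc (π ⟨q, hq⟩)).symm
    have h2 : ⁅x ^ k, (⟨q, hq⟩ : N)⁆ ∈ Bn := (QuotientGroup.eq_one_iff _).mp h1
    have h3 : ((⁅x ^ k, (⟨q, hq⟩ : N)⁆ : N) : P) ∈ B := Subgroup.mem_subgroupOf.mp h2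
    simpa [commutatorElement_def] using h3

theorem comm_mem_center {B : Subgroup P} {x q : P} (hx : x ∈ Subgroup.centralizer (B : Set P))
    (hq : q ∈ Subgroup.normalizer (B : Set P))
    (hBq : ∀ b ∈ B, ⁅b, q⁆ ∈ B ⊓ Subgroup.centralizer (B : Set P))
    (hzq : ∀ z ∈ Subgroup.zpowers x, ⁅z, q⁆ ∈ B) :
    ∀ g ∈ B ⊔ Subgroup.zpowers x, ⁅g, q⁆ ∈ B ⊓ Subgroup.centralizer (B : Set P) := by
  have hzc : Subgroup.zpowers x ≤ Subgroup.centralizer (B : Set P) := Subgroup.zpowers_le.mpr hx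
  have hcomm := hcomm_of hx
  intro g hg
  obtain ⟨b, hb, z, hz, rfl⟩ := exists_mul' hcomm hg
  have hzq' : ⁅z, q⁆ ∈ B ⊓ Subgroup.centralizer (B : Set P) := by
    refine ⟨hzq z hz, ?_⟩
    have e : ⁅z, q⁆ = z * (q * z⁻¹ * q⁻¹) := by rw [commutatorElement_def]; group
    rw [e]
    apply Subgroup.mul_mem _ (hzc hz)
    have hn : ((Subgroup.centralizer (B : Set P)).subgroupOf
        (Subgroup.normalizer (B : Set P))).Normal :=
      Subgroup.normal_subgroupOf_centralizer_normalizer (B : Set P)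
    have hz1 : z⁻¹ ∈ Subgroup.centralizer (B : Set P) := Subgroup.inv_mem _ (hzc hz)
    have hzN : z⁻¹ ∈ Subgroup.normalizer (B : Set P) := Subgroup.centralizer_le_normalizer _ hz1
    have := hn.conj_mem ⟨z⁻¹, hzN⟩ (Subgroup.mem_subgroupOf.mpr hz1) ⟨q, hq⟩
    exact Subgroup.mem_subgroupOf.mp this
  have e : ⁅b * z, q⁆ = b * ⁅z, q⁆ * b⁻¹ * ⁅b, q⁆ := by
    simp only [commutatorElement_def]; group
  rw [e]
  have hZn : ∀ w ∈ B ⊓ Subgroup.centralizer (B : Set P),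
      b * w * b⁻¹ ∈ B ⊓ Subgroup.centralizer (B : Set P) := by
    intro w hw
    have : b * w = w * b := Subgroup.mem_centralizer_iff.mp hw.2 b hb
    rw [this, mul_inv_cancel_right]; exact hw
  exact Subgroup.mul_mem _ (hZn _ hzq') (hBq b hb)

theorem normalizer_of_conj {H Q : Subgroup P} (hconj : ∀ q ∈ Q, ∀ g ∈ H, q * g * q⁻¹ ∈ H) :
    Q ≤ Subgroup.normalizer (H : Set P) := by
  intro q hq
  rw [Subgroup.mem_set_normalizer_iff]
  intro g
  constructor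
  · exact hconj q hq g
  · intro h
    have := hconj q⁻¹ (Subgroup.inv_mem _ hq) _ h
    simpa [mul_assoc] using this

theorem normalizer_le {B : Subgroup P} {x : P} (hx : x ∈ Subgroup.centralizer (B : Set P))
    (hzq : ∀ z ∈ Subgroup.zpowers x, ∀ q ∈ Subgroup.normalizer (B : Set P), ⁅z, q⁆ ∈ B) :
    Subgroup.normalizer (B : Set P) ≤
      Subgroup.normalizer ((B ⊔ Subgroup.zpowers x : Subgroup P) : Set P) := by
  have hcomm := hcomm_of hx
  apply normalizer_of_conj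
  intro q hq g hg
  obtain ⟨b, hb, z, hz, rfl⟩ := exists_mul' hcomm hg
  have e : q * (b * z) * q⁻¹ = (q * b * q⁻¹) * (⁅z, q⁆)⁻¹ * z := by
    simp only [commutatorElement_def]; group
  rw [e]
  refine Subgroup.mul_mem _ (Subgroup.mul_mem _ (Subgroup.mem_sup_left ?_)
    (Subgroup.mem_sup_left (B.inv_mem (hzq z hz q hq)))) (Subgroup.mem_sup_right hz)
  exact (Subgroup.mem_set_normalizer_iff.mp hq b).mp hb

theorem kmax [Finite P] {p : ℕ} [Fact p.Prime] (hP : IsPGroup p P) (B : Subgroup P)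
    (𝒦 : Set (Subgroup P))
    (h𝒦 : 𝒦 = classTwoSubgroups P ∨ (∃ n, 𝒦 = kLowerStarFamily (kSeqOdd P n)) ∨
      ∃ n, 𝒦 = kUpperStarFamily (kSeqEven P n)) (hB : B ∈ 𝒦)
    (hmax : ∀ C ∈ 𝒦, B ≤ C → C = B) : Subgroup.centralizer (B : Set P) ≤ B := by
  by_contra hnot
  obtain ⟨x, hxC, hxB, hzq⟩ := exists_x hP B hnot
  have hx_in : x ∈ B ⊔ Subgroup.zpowers x := Subgroup.mem_sup_right (Subgroup.mem_zpowers x)
  suffices hmem : B ⊔ Subgroup.zpowers x ∈ 𝒦 by
    have := hmax _ hmem le_sup_left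
    exact hxB (this ▸ hx_in)
  have hZ : B ⊓ Subgroup.centralizer (B : Set P) ≤ (B ⊔ Subgroup.zpowers x) ⊓
      Subgroup.centralizer ((B ⊔ Subgroup.zpowers x : Subgroup P) : Set P) :=
    fun w hw => ⟨Subgroup.mem_sup_left hw.1, central_mem hxC hw.2 hw.1⟩
  rcases h𝒦 with rfl | ⟨n, rfl⟩ | ⟨n, rfl⟩
  · exact classTwo_sup hxC hB
  · obtain ⟨hB2, hQN, hBA⟩ := hB
    refine ⟨classTwo_sup hxC hB2, hQN.trans (normalizer_le hxC hzq), ?_⟩
    intro A hA hAQ hBN' h1 h2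
    have hBA' : ⁅B, A⁆ ≤ B ⊓ Subgroup.centralizer (B : Set P) := by
      apply hBA A hA hAQ (le_sup_left.trans hBN')
      · rw [eq_bot_iff, ← h1]; exact Subgroup.commutator_mono le_sup_left le_rfl
      · rw [eq_bot_iff, ← h2]
        exact Subgroup.commutator_mono (Subgroup.commutator_mono hZ le_rfl) le_rfl
    rw [Subgroup.commutator_le]
    intro g hg a ha
    apply hZ
    exact comm_mem_center hxC (hQN (hAQ ha))
      (fun b hb => hBA' (Subgroup.commutator_mem_commutator hb ha))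
      (fun z hz => hzq z hz a (hQN (hAQ ha))) g hg
  · obtain ⟨hB2, hBQ⟩ := hB
    have hQN : kSeqEven P n ≤ Subgroup.normalizer (B : Set P) := by
      apply normalizer_of_conj
      intro q hq b hb
      have h1 : ⁅b, q⁆ ∈ B := (hBQ (Subgroup.commutator_mem_commutator hb hq)).1
      have e : q * b * q⁻¹ = (⁅b, q⁆)⁻¹ * b := by simp only [commutatorElement_def]; group
      rw [e]; exact B.mul_mem (B.inv_mem h1) hb
    refine ⟨classTwo_sup hxC hB2, ?_⟩
    rw [Subgroup.commutator_le]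
    intro g hg q hq
    apply hZ
    exact comm_mem_center hxC (hQN hq)
      (fun b hb => hBQ (Subgroup.commutator_mem_commutator hb hq))
      (fun z hz => hzq z hz q (hQN hq)) g hg

end Cfsg.Agent.Lib.Helper2.KMax
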