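import Cfsg.Agent.Lib.Helper2.CycTI9
import Cfsg.Agent.Lib.Helper2.Hall
import Cfsg.Agent.S1510
import Cfsg.Agent.Lib.Lead.CharCons

set_option autoImplicit false

namespace Cfsg.Agent.Lib.Helper2.KW

open Cfsg Cfsg.Agent.Lib.Lead Cfsg.Agent.Lib.Helper2 Cfsg.Agent.Lib.Helper2.CycTI
open scoped ComplexConjugate

section TIGen

variable {G : Type*} [Group G] [Fintype G]

theorem indFun_eq_of_TI (W : Subgroup G) (T : Set G)
    (hcomm : ∀ a ∈ W, ∀ b ∈ W, a * b = b * a)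
    (hTI : ∀ t ∈ T, ∀ x : G, x * t * x⁻¹ ∈ W → x ∈ W) (ψ : W → ℂ)
    (hψ : ∀ w : W, (w : G) ∉ T → ψ w = 0) (t : W) (ht : (t : G) ∈ T) :
    indFun W ψ t = ψ t := by
  classical
  unfold indFun
  have hN : (Nat.card W : ℂ) ≠ 0 := by exact_mod_cast (Nat.card_pos (α := W)).ne'
  have hterm : ∀ x : G, extendByZero W ψ (x⁻¹ * (t : G) * x) = if x ∈ W then ψ t else 0 := by
    intro x
    by_cases hx : x ∈ W
    · rw [if_pos hx]
      have e : x⁻¹ * (t : G) * x = (t : G) := by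
        have := hcomm _ t.2 _ hx
        rw [mul_assoc, this, ← mul_assoc, inv_mul_cancel, one_mul]
      rw [e, extendByZero_mem _ _ t.2]
    · rw [if_neg hx]
      apply extendByZero_not_mem
      intro hm
      have := hTI _ ht x⁻¹ (by rw [inv_inv]; exact hm)
      exact hx (by simpa using W.inv_mem this)
  rw [Finset.sum_congr rfl (fun x _ => hterm x), Finset.sum_ite, Finset.sum_const_zero, add_zero,
    Finset.sum_const, nsmul_eq_mul]
  have hc : ((Finset.univ.filter (fun x : G => x ∈ W)).card : ℂ) = (Nat.card W : ℂ) := by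
    rw [Nat.card_eq_fintype_card, Fintype.card_subtype]
  rw [hc, ← mul_assoc, inv_mul_cancel₀ hN, one_mul]

theorem classInner_ind_ind_of_TI' (W : Subgroup G) (T : Set G)
    (hcomm : ∀ a ∈ W, ∀ b ∈ W, a * b = b * a)
    (hTI : ∀ t ∈ T, ∀ x : G, x * t * x⁻¹ ∈ W → x ∈ W) [Fintype W] (ψ θ : W → ℂ)
    (hψ : ∀ w : W, (w : G) ∉ T → ψ w = 0) (hθ : ∀ w : W, (w : G) ∉ T → θ w = 0) :
    classInner (indFun W ψ) (indFun W θ) = classInner ψ θ := by
  rw [frobenius_reciprocity _ ψ _ (indFun_isClassFunction _ θ)]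
  unfold classInner
  congr 1
  apply Finset.sum_congr rfl
  intro n _
  by_cases hn : (n : G) ∈ T
  · show ψ n * conj (indFun W θ (n : G)) = ψ n * conj (θ n)
    rw [indFun_eq_of_TI W T hcomm hTI θ hθ n hn]
  · rw [hψ n hn, zero_mul, zero_mul]

end TIGen

section Grp

variable {L : Type*} [Group L] [Finite L]

/-- the hypotheses on `K`, `W₁`, `W₂` -/
structure Hyp (K W₁ W₂ : Subgroup L) : Prop where
  normal : K.Normal
  inf : K ⊓ W₁ = ⊥
  sup : K ⊔ W₁ = ⊤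
  hall : Nat.Coprime (Nat.card W₁) W₁.index
  le : W₂ ≤ K
  cent : ∀ x ∈ W₁, x ≠ 1 → K ⊓ Subgroup.centralizer ({x} : Set L) = W₂
  snc : IsSelfNormalizingCyclic W₁ W₂

variable {K W₁ W₂ : Subgroup L}

omit [Finite L] in
theorem exists_mul (hcomm : ∀ a ∈ W₁, ∀ b ∈ W₂, a * b = b * a) {t : L} (ht : t ∈ W₁ ⊔ W₂) :
    ∃ a ∈ W₁, ∃ b ∈ W₂, t = a * b := by
  rw [← prodHom_range hcomm] at ht
  obtain ⟨p, hp⟩ := ht
  exact ⟨p.1, p.1.2, p.2, p.2.2, hp.symm⟩

theorem card_K (h : Hyp K W₁ W₂) : W₁.index = Nat.card K := by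
  haveI := h.normal
  have hc : Subgroup.IsComplement' K W₁ :=
    Subgroup.isComplement'_of_disjoint_and_mul_eq_univ (disjoint_iff.mpr h.inf)
      (by rw [← Subgroup.normal_mul, h.sup]; rfl)
  exact hc.index_eq_card

omit [Finite L] in
theorem exists_K_mul (h : Hyp K W₁ W₂) (x : L) : ∃ k ∈ K, ∃ w ∈ W₁, x = k * w := by
  haveI := h.normal
  have hx : x ∈ ((K ⊔ W₁ : Subgroup L) : Set L) := by rw [h.sup]; trivial
  rw [Subgroup.normal_mul] at hx
  obtain ⟨k, hk, w, hw, rfl⟩ := Set.mem_mul.mp hx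
  exact ⟨k, hk, w, hw, rfl⟩

theorem ti (h : Hyp K W₁ W₂) {t x : L} (ht : t ∈ W₁ ⊔ W₂) (ht2 : t ∉ W₂)
    (hx : x * t * x⁻¹ ∈ W₁ ⊔ W₂) : x ∈ W₁ ⊔ W₂ := by
  haveI := h.normal
  have hcomm := h.snc.2.2.2.1
  obtain ⟨a, ha, b, hb, rfl⟩ := exists_mul hcomm ht
  obtain ⟨a', ha', b', hb', hab'⟩ := exists_mul hcomm hx
  obtain ⟨k, hk, w, hw, rfl⟩ := exists_K_mul h x
  have ha1 : a ≠ 1 := by
    rintro rfl; apply ht2; simpa using hb
  have hwa : w * a = a * w :=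
    w_comm h.snc (Subgroup.mem_sup_left hw) (Subgroup.mem_sup_left ha)
  have hwb : w * b = b * w :=
    w_comm h.snc (Subgroup.mem_sup_left hw) (Subgroup.mem_sup_right hb)
  have hconj : k * w * (a * b) * (k * w)⁻¹ = k * (a * b) * k⁻¹ := by
    have e : w * (a * b) * w⁻¹ = a * b := by
      rw [← mul_assoc, hwa, mul_assoc a, hwb, mul_assoc, mul_assoc, mul_inv_cancel, mul_one]
    calc k * w * (a * b) * (k * w)⁻¹ = k * (w * (a * b) * w⁻¹) * k⁻¹ := by group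
      _ = _ := by rw [e]
  rw [hconj] at hab'
  have haa : a' = a := by
    have hmem : a⁻¹ * a' ∈ K := by
      have e : a⁻¹ * a' = (a⁻¹ * k * a) * b * k⁻¹ * b'⁻¹ := by
        have : a' = k * (a * b) * k⁻¹ * b'⁻¹ := by rw [hab']; group
        rw [this]; group
      rw [e]
      have h1 : a⁻¹ * k * a ∈ K := by
        have := h.normal.conj_mem k hk a⁻¹; simpa using this
      exact K.mul_mem (K.mul_mem (K.mul_mem h1 (h.le hb)) (K.inv_mem hk)) (K.inv_mem (h.le hb'))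
    have hmem' : a⁻¹ * a' ∈ K ⊓ W₁ := ⟨hmem, W₁.mul_mem (W₁.inv_mem ha) ha'⟩
    rw [h.inf, Subgroup.mem_bot] at hmem'
    exact (inv_mul_eq_one.mp hmem').symm
  rw [haa] at hab'
  have hbn : b ^ Nat.card W₂ = 1 := by
    have := pow_card_eq_one' (G := W₂) (x := ⟨b, hb⟩); exact congrArg Subtype.val this
  have hbn' : b' ^ Nat.card W₂ = 1 := by
    have := pow_card_eq_one' (G := W₂) (x := ⟨b', hb'⟩); exact congrArg Subtype.val this
  have hab_comm : Commute a b := hcomm a ha b hb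
  have hab_comm' : Commute a b' := hcomm a ha b' hb'
  have e1 : (a * b) ^ Nat.card W₂ = a ^ Nat.card W₂ := by rw [hab_comm.mul_pow, hbn, mul_one]
  have e2 : (a * b') ^ Nat.card W₂ = a ^ Nat.card W₂ := by
    rw [hab_comm'.mul_pow, hbn', mul_one]
  have hk_comm : k * a ^ Nat.card W₂ * k⁻¹ = a ^ Nat.card W₂ := by
    have : (k * (a * b) * k⁻¹) ^ Nat.card W₂ = (a * b') ^ Nat.card W₂ := by rw [hab']
    rw [conj_pow, e1, e2] at this
    exact this
  have han : a ^ Nat.card W₂ ≠ 1 := by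
    intro h0
    apply ha1
    have h1 : orderOf a ∣ Nat.card W₂ := orderOf_dvd_of_pow_eq_one h0
    have h2 : orderOf a ∣ Nat.card W₁ := orderOf_dvd_card_of_mem W₁ a ha
    have h3 : Nat.card W₂ ∣ W₁.index := by rw [card_K h]; exact Subgroup.card_dvd_of_le h.le
    have h4 : orderOf a ∣ Nat.gcd (Nat.card W₁) W₁.index := Nat.dvd_gcd h2 (h1.trans h3)
    rw [Nat.Coprime.gcd_eq_one h.hall] at h4
    exact orderOf_eq_one_iff.mp (Nat.dvd_one.mp h4)
  have hkW₂ : k ∈ W₂ := by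
    rw [← h.cent (a ^ Nat.card W₂) (W₁.pow_mem ha _) han]
    refine ⟨hk, Subgroup.mem_centralizer_singleton_iff.mpr ?_⟩
    calc k * a ^ Nat.card W₂ = (k * a ^ Nat.card W₂ * k⁻¹) * k := by group
      _ = a ^ Nat.card W₂ * k := by rw [hk_comm]
  exact (W₁ ⊔ W₂).mul_mem (Subgroup.mem_sup_right hkW₂) (Subgroup.mem_sup_left hw)

theorem centralizer_eq' (h : Hyp K W₁ W₂) {t : L} (ht : t ∈ W₁ ⊔ W₂) (ht2 : t ∉ W₂) :
    Subgroup.centralizer ({t} : Set L) = W₁ ⊔ W₂ := by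
  ext g
  rw [Subgroup.mem_centralizer_singleton_iff]
  constructor
  · intro hg
    apply ti h ht ht2 (x := g)
    rw [hg, mul_assoc, mul_inv_cancel, mul_one]; exact ht
  · intro hg
    exact w_comm h.snc hg ht

end Grp

end Cfsg.Agent.Lib.Helper2.KW
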