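import Cfsg.Agent.Lib.Helper2.KW1
import Cfsg.Agent.Lib.Helper2.CharAux

set_option autoImplicit false

namespace Cfsg.Agent.Lib.Helper2.KW

open Cfsg Cfsg.Agent.Lib.Lead Cfsg.Agent.Lib.Helper2 Cfsg.Agent.Lib.Helper2.CycTI
open scoped ComplexConjugate

section Coh

variable {L : Type*} [Group L] [Fintype L]

theorem dich {a b a' b' : L → ℂ} (ha : IsIrrCharacter L a) (hb : IsIrrCharacter L b)
    (ha' : IsIrrCharacter L a') (hb' : IsIrrCharacter L b') (hab : a ≠ b) (hab' : a' ≠ b')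
    (h : classInner (a - b) (a' - b') = 1) : (a = a' ∧ b ≠ b') ∨ (b = b' ∧ a ≠ a') := by
  classical
  rw [classInner_sub_left, classInner_sub_right, classInner_sub_right, irr_orthonormal ha ha',
    irr_orthonormal ha hb', irr_orthonormal hb ha', irr_orthonormal hb hb'] at h
  by_cases e1 : a = a'
  · left
    refine ⟨e1, ?_⟩
    intro e2
    have e3 : a ≠ b' := fun e => hab' (e1.symm.trans e)
    have e4 : b ≠ a' := fun e => hab (e1.trans e.symm)
    rw [if_pos e1, if_neg e3, if_neg e4, if_pos e2] at h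
    norm_num at h
  · right
    by_cases e2 : b = b'
    · exact ⟨e2, e1⟩
    · exfalso
      rw [if_neg e1, if_neg e2] at h
      split_ifs at h <;> norm_num at h

omit [Fintype L] in
theorem coh_aux {ι : Type*} (P : ι → Prop) (Θ : ι → ι → (L → ℂ))
    (hb : ∀ i j k, Θ i j + Θ j k = Θ i k)
    (i₀ : ι) (a₀ : L → ℂ) (ha₀ : IsIrrCharacter L a₀) (b : ι → (L → ℂ))
    (hbirr : ∀ j, P j → j ≠ i₀ → IsIrrCharacter L (b j))
    (hne : ∀ j, P j → j ≠ i₀ → a₀ ≠ b j)
    (hΘ : ∀ j, P j → j ≠ i₀ → Θ i₀ j = a₀ - b j)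
    (hinj : ∀ j k, P j → P k → j ≠ i₀ → k ≠ i₀ → j ≠ k → b j ≠ b k) :
    ∃ μ : ι → (L → ℂ), (∀ i, P i → IsIrrCharacter L (μ i)) ∧
      (∀ i j, P i → P j → μ i = μ j → i = j) ∧ (∀ i j, P i → P j → Θ i j = μ i - μ j) := by
  classical
  have hself : ∀ i, Θ i i = 0 := fun i => by
    have := hb i i i
    exact add_eq_left.mp this
  have hanti : ∀ i j, Θ j i = - Θ i j := fun i j => by
    have := hb i j i
    rw [hself] at this
    exact eq_neg_of_add_eq_zero_right this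
  refine ⟨fun i => if i = i₀ then a₀ else b i, ?_, ?_, ?_⟩
  · intro i hi
    by_cases h : i = i₀
    · simp only [if_pos h]; exact ha₀
    · simp only [if_neg h]; exact hbirr i hi h
  · intro i j hi hj hij
    by_cases h : i = i₀ <;> by_cases h' : j = i₀
    · rw [h, h']
    · simp only [if_pos h, if_neg h'] at hij; exact absurd hij (hne j hj h')
    · simp only [if_neg h, if_pos h'] at hij; exact absurd hij.symm (hne i hi h)
    · simp only [if_neg h, if_neg h'] at hij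
      by_contra hne'
      exact hinj i j hi hj h h' hne' hij
  · intro i j hi hj
    by_cases h : i = i₀ <;> by_cases h' : j = i₀
    · simp only [if_pos h, if_pos h']; rw [h, h', hself, sub_self]
    · simp only [if_pos h, if_neg h']; rw [h]; exact hΘ j hj h'
    · simp only [if_neg h, if_pos h']; rw [h', hanti i₀ i, hΘ i hi h]; abel
    · simp only [if_neg h, if_neg h']
      have := hb i₀ i j
      rw [hΘ i hi h, hΘ j hj h'] at this
      have e : Θ i j = (a₀ - b j) - (a₀ - b i) := eq_sub_of_add_eq' this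
      rw [e]; abel

theorem coh_family {ι : Type*} (P : ι → Prop) (Θ : ι → ι → (L → ℂ))
    (ha : ∀ i j, P i → P j → i ≠ j → ∃ ψ₁ ψ₂ : L → ℂ, IsIrrCharacter L ψ₁ ∧
      IsIrrCharacter L ψ₂ ∧ ψ₁ ≠ ψ₂ ∧ Θ i j = ψ₁ - ψ₂)
    (hb : ∀ i j k, Θ i j + Θ j k = Θ i k)
    (hc : ∀ i j k, P i → P j → P k → i ≠ j → i ≠ k → j ≠ k →
      classInner (Θ i j) (Θ i k) = 1)
    (i₀ i₁ i₂ : ι) (h0 : P i₀) (h1 : P i₁) (h2 : P i₂) (h01 : i₀ ≠ i₁) (h02 : i₀ ≠ i₂)
    (h12 : i₁ ≠ i₂) :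
    ∃ (δ : ℂ) (μ : ι → (L → ℂ)), (δ = 1 ∨ δ = -1) ∧ (∀ i, P i → IsIrrCharacter L (μ i)) ∧
      (∀ i j, P i → P j → μ i = μ j → i = j) ∧
      (∀ i j, P i → P j → Θ i j = δ • (μ i - μ j)) := by
  classical
  have hex : ∀ j, ∃ a b : L → ℂ, P j → j ≠ i₀ →
      (IsIrrCharacter L a ∧ IsIrrCharacter L b ∧ a ≠ b ∧ Θ i₀ j = a - b) := by
    intro j
    by_cases hj : P j ∧ j ≠ i₀
    · obtain ⟨a, b, h1, h2, h3, h4⟩ := ha i₀ j h0 hj.1 (Ne.symm hj.2)
      exact ⟨a, b, fun _ _ => ⟨h1, h2, h3, h4⟩⟩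
    · exact ⟨0, 0, fun hp hne => absurd ⟨hp, hne⟩ hj⟩
  choose a b hab using hex
  have hd : ∀ j k, P j → P k → j ≠ i₀ → k ≠ i₀ → j ≠ k →
      (a j = a k ∧ b j ≠ b k) ∨ (b j = b k ∧ a j ≠ a k) := by
    intro j k hj hk hj0 hk0 hjk
    obtain ⟨p1, p2, p3, p4⟩ := hab j hj hj0
    obtain ⟨q1, q2, q3, q4⟩ := hab k hk hk0
    have := hc i₀ j k h0 hj hk (Ne.symm hj0) (Ne.symm hk0) hjk
    rw [p4, q4] at this
    exact dich p1 p2 q1 q2 p3 q3 this
  rcases hd i₁ i₂ h1 h2 (Ne.symm h01) (Ne.symm h02) h12 with ⟨hA, hA'⟩ | ⟨hB, hB'⟩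
  · have hall : ∀ k, P k → k ≠ i₀ → a k = a i₁ := by
      intro k hk hk0
      by_cases e1 : k = i₁
      · rw [e1]
      by_cases e2 : k = i₂
      · rw [e2]; exact hA.symm
      rcases hd i₁ k h1 hk (Ne.symm h01) hk0 (Ne.symm e1) with ⟨h, _⟩ | ⟨h, h'⟩
      · exact h.symm
      · rcases hd i₂ k h2 hk (Ne.symm h02) hk0 (Ne.symm e2) with ⟨g, _⟩ | ⟨g, _⟩
        · exact absurd (hA.trans g) h'
        · exact absurd (h.trans g.symm) hA'
    obtain ⟨μ, m1, m2, m3⟩ := coh_aux P Θ hb i₀ (a i₁) (hab i₁ h1 (Ne.symm h01)).1 b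
      (fun j hj hj0 => (hab j hj hj0).2.1)
      (fun j hj hj0 => by rw [← hall j hj hj0]; exact (hab j hj hj0).2.2.1)
      (fun j hj hj0 => by rw [← hall j hj hj0]; exact (hab j hj hj0).2.2.2)
      (fun j k hj hk hj0 hk0 hjk => by
        rcases hd j k hj hk hj0 hk0 hjk with ⟨_, h⟩ | ⟨_, h⟩
        · exact h
        · exact absurd ((hall j hj hj0).trans (hall k hk hk0).symm) h)
    exact ⟨1, μ, Or.inl rfl, m1, m2, fun i j hi hj => by rw [one_smul]; exact m3 i j hi hj⟩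
  · have hall : ∀ k, P k → k ≠ i₀ → b k = b i₁ := by
      intro k hk hk0
      by_cases e1 : k = i₁
      · rw [e1]
      by_cases e2 : k = i₂
      · rw [e2]; exact hB.symm
      rcases hd i₁ k h1 hk (Ne.symm h01) hk0 (Ne.symm e1) with ⟨h, h'⟩ | ⟨h, _⟩
      · rcases hd i₂ k h2 hk (Ne.symm h02) hk0 (Ne.symm e2) with ⟨g, _⟩ | ⟨g, _⟩
        · exact absurd (h.trans g.symm) hB'
        · exact absurd (hB.trans g) h'
      · exact h.symm
    have hself : ∀ i, Θ i i = 0 := fun i => by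
      have := hb i i i
      exact add_eq_left.mp this
    have hanti : ∀ i j, Θ j i = - Θ i j := fun i j => by
      have := hb i j i
      rw [hself] at this
      exact eq_neg_of_add_eq_zero_right this
    obtain ⟨μ, m1, m2, m3⟩ := coh_aux P (fun i j => Θ j i)
      (fun i j k => by
        show Θ j i + Θ k j = Θ k i
        rw [add_comm]; exact hb k j i) i₀ (b i₁) (hab i₁ h1 (Ne.symm h01)).2.1 a
      (fun j hj hj0 => (hab j hj hj0).1)
      (fun j hj hj0 => by rw [← hall j hj hj0]; exact (hab j hj hj0).2.2.1.symm)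
      (fun j hj hj0 => by
        show Θ j i₀ = b i₁ - a j
        rw [hanti i₀ j, (hab j hj hj0).2.2.2, hall j hj hj0]; abel)
      (fun j k hj hk hj0 hk0 hjk => by
        rcases hd j k hj hk hj0 hk0 hjk with ⟨h, h'⟩ | ⟨_, h⟩
        · exact absurd ((hall j hj hj0).trans (hall k hk hk0).symm) h'
        · exact h)
    refine ⟨-1, μ, Or.inr rfl, m1, m2, fun i j hi hj => ?_⟩
    have := m3 j i hj hi
    show Θ i j = (-1 : ℂ) • (μ i - μ j)
    have e : Θ i j = μ j - μ i := this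
    rw [e, neg_smul, one_smul, neg_sub]

end Coh

end Cfsg.Agent.Lib.Helper2.KW
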