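import Cfsg.Agent.Lib.Helper2.KW2
import Cfsg.Agent.Lib.Helper2.CharAux2
import Cfsg.Agent.Lib.Lead.CharAbQuot
import Cfsg.Agent.Lib.Lead.CharCodeg
import Cfsg.Agent.Lib.Lead.CharComplete
import Cfsg.Agent.Lib.Lead.CharRing
import Cfsg.Agent.Lib.Lead.CharBurnside

set_option autoImplicit false

namespace Cfsg.Agent.Lib.Helper2.KW

open Cfsg Cfsg.Agent.Lib.Lead Cfsg.Agent.Lib.Helper2 Cfsg.Agent.Lib.Helper2.CycTI
open scoped ComplexConjugate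

section Main

variable {L : Type*} [Group L] [Fintype L] {K W₁ W₂ : Subgroup L}

/-- agreement on `W₂` -/
def agree (ω ω' : ↥(W₁ ⊔ W₂) →* ℂˣ) : Prop :=
  ∀ w : ↥(W₁ ⊔ W₂), (w : L) ∈ W₂ → ω w = ω' w

omit [Fintype L] in
theorem agree_refl (ω : ↥(W₁ ⊔ W₂) →* ℂˣ) : agree ω ω := fun _ _ => rfl

omit [Fintype L] in
theorem agree_symm {ω ω' : ↥(W₁ ⊔ W₂) →* ℂˣ} (h : agree ω ω') : agree ω' ω :=
  fun w hw => (h w hw).symm

omit [Fintype L] in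
theorem agree_trans {a b c : ↥(W₁ ⊔ W₂) →* ℂˣ} (h : agree a b) (h' : agree b c) : agree a c :=
  fun w hw => (h w hw).trans (h' w hw)

omit [Fintype L] in
theorem agree_mul (ω : ↥(W₁ ⊔ W₂) →* ℂˣ) {φ : ↥(W₁ ⊔ W₂) →* ℂˣ}
    (hφ : ∀ w : ↥(W₁ ⊔ W₂), (w : L) ∈ W₂ → φ w = 1) : agree (ω * φ) ω := by
  intro w hw
  rw [MonoidHom.mul_apply, hφ w hw, mul_one]

/-- the induced difference -/
noncomputable def Th (ω ω' : ↥(W₁ ⊔ W₂) →* ℂˣ) : L → ℂ :=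
  indFun (W₁ ⊔ W₂) (fun w => (ω w : ℂ) - (ω' w : ℂ))

theorem Th_eq (ω ω' : ↥(W₁ ⊔ W₂) →* ℂˣ) :
    Th ω ω' = indFun (W₁ ⊔ W₂) (cf ω) - indFun (W₁ ⊔ W₂) (cf ω') := by
  unfold Th
  have : (fun w : ↥(W₁ ⊔ W₂) => (ω w : ℂ) - (ω' w : ℂ)) = cf ω + (-1 : ℂ) • cf ω' := by
    funext w; simp [cf]; ring
  rw [this, indFun_add, indFun_smul]
  funext g; simp; ring

theorem Th_add (a b c : ↥(W₁ ⊔ W₂) →* ℂˣ) : Th a b + Th b c = Th a c := by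
  rw [Th_eq, Th_eq, Th_eq]; abel

theorem Th_genChar (ω ω' : ↥(W₁ ⊔ W₂) →* ℂˣ) : IsGeneralizedCharacter L (Th ω ω') := by
  classical
  letI : Fintype ↥(W₁ ⊔ W₂) := Fintype.ofFinite _
  exact ⟨_, _, isCharacter_indFun _ (isCharacter_of_isIrrCharacter (isIrrCharacter_of_hom ω)),
    isCharacter_indFun _ (isCharacter_of_isIrrCharacter (isIrrCharacter_of_hom ω')), Th_eq ω ω'⟩

theorem Th_one (ω ω' : ↥(W₁ ⊔ W₂) →* ℂˣ) : Th ω ω' 1 = 0 := by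
  unfold Th
  rw [indFun_one]
  simp

theorem Th_inner (h : Hyp K W₁ W₂) {a b c d : ↥(W₁ ⊔ W₂) →* ℂˣ} (hab : agree a b)
    (hcd : agree c d) [DecidableEq (↥(W₁ ⊔ W₂) →* ℂˣ)] :
    classInner (Th a b) (Th c d) = (if a = c then 1 else 0) - (if a = d then 1 else 0)
      - (if b = c then 1 else 0) + (if b = d then 1 else 0) := by
  letI : Fintype ↥(W₁ ⊔ W₂) := Fintype.ofFinite _
  unfold Th
  rw [classInner_ind_ind_of_TI' (W₁ ⊔ W₂) {t | t ∈ W₁ ⊔ W₂ ∧ t ∉ W₂}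
    (fun a ha b hb => w_comm h.snc ha hb) (fun t ht x hx => KW.ti h ht.1 ht.2 hx)]
  · have e1 : (fun w : ↥(W₁ ⊔ W₂) => (a w : ℂ) - (b w : ℂ)) = cf a - cf b := rfl
    have e2 : (fun w : ↥(W₁ ⊔ W₂) => (c w : ℂ) - (d w : ℂ)) = cf c - cf d := rfl
    rw [e1, e2, classInner_sub_left, classInner_sub_right, classInner_sub_right, cf_inner,
      cf_inner, cf_inner, cf_inner]
    ring
  · intro w hw
    have : (w : L) ∈ W₂ := by
      by_contra h2; exact hw ⟨w.2, h2⟩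
    rw [hab w this, sub_self]
  · intro w hw
    have : (w : L) ∈ W₂ := by
      by_contra h2; exact hw ⟨w.2, h2⟩
    rw [hcd w this, sub_self]

theorem Th_apply (h : Hyp K W₁ W₂) {a b : ↥(W₁ ⊔ W₂) →* ℂˣ} (hab : agree a b)
    (x : ↥(W₁ ⊔ W₂)) (hx : (x : L) ∉ W₂) : Th a b x = (a x : ℂ) - (b x : ℂ) := by
  unfold Th
  rw [indFun_eq_of_TI (W₁ ⊔ W₂) {t | t ∈ W₁ ⊔ W₂ ∧ t ∉ W₂}
    (fun a ha b hb => w_comm h.snc ha hb) (fun t ht x hx => KW.ti h ht.1 ht.2 hx) _ _ x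
    ⟨x.2, hx⟩]
  intro w hw
  have : (w : L) ∈ W₂ := by
    by_contra h2; exact hw ⟨w.2, h2⟩
  rw [hab w this, sub_self]

theorem Th_two (h : Hyp K W₁ W₂) {a b : ↥(W₁ ⊔ W₂) →* ℂˣ} (hab : agree a b) (hne : a ≠ b) :
    ∃ ψ₁ ψ₂ : L → ℂ, IsIrrCharacter L ψ₁ ∧ IsIrrCharacter L ψ₂ ∧ ψ₁ ≠ ψ₂ ∧
      Th a b = ψ₁ - ψ₂ := by
  classical
  apply genChar_norm_two (Th_genChar a b) _ (Th_one a b)
  rw [Th_inner h hab hab, if_pos rfl, if_neg hne, if_neg (Ne.symm hne), if_pos rfl]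
  norm_num

omit [Fintype L] in
theorem mul_ne_self (ω : ↥(W₁ ⊔ W₂) →* ℂˣ) {φ : ↥(W₁ ⊔ W₂) →* ℂˣ} (hφ : φ ≠ 1) :
    ω ≠ ω * φ := by
  intro e
  apply hφ
  apply MonoidHom.ext
  intro w
  have := DFunLike.congr_fun e w
  rw [MonoidHom.mul_apply] at this
  have h2 : ω w * φ w = ω w * 1 := by rw [mul_one]; exact this.symm
  exact mul_left_cancel h2

theorem family (h : Hyp K W₁ W₂) (hodd : Odd (Nat.card ↥(W₁ ⊔ W₂)))
    (ω₀ : ↥(W₁ ⊔ W₂) →* ℂˣ) :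
    ∃ (δ : ℂ) (μ : (↥(W₁ ⊔ W₂) →* ℂˣ) → (L → ℂ)), (δ = 1 ∨ δ = -1) ∧
      (∀ i, agree i ω₀ → IsIrrCharacter L (μ i)) ∧
      (∀ i j, agree i ω₀ → agree j ω₀ → μ i = μ j → i = j) ∧
      (∀ i j, agree i ω₀ → agree j ω₀ → Th i j = δ • (μ i - μ j)) := by
  classical
  obtain ⟨φ, hφ1, hφ2⟩ := exists_nontriv₁ h.snc
  have hφ3 := hom_inv_ne hodd hφ1
  have hφ4 := hom_inv_ne_one hφ1
  have hφ5 : ∀ w : ↥(W₁ ⊔ W₂), (w : L) ∈ W₂ → φ⁻¹ w = 1 := by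
    intro w hw
    rw [MonoidHom.inv_apply, hφ2 w hw, inv_one]
  refine coh_family (fun i => agree i ω₀) Th ?_ ?_ ?_ ω₀ (ω₀ * φ) (ω₀ * φ⁻¹) ?_ ?_ ?_ ?_ ?_ ?_
  · intro i j hi hj hij
    exact Th_two h (agree_trans hi (agree_symm hj)) hij
  · intro i j k; exact Th_add i j k
  · intro i j k hi hj hk hij hik hjk
    rw [Th_inner h (agree_trans hi (agree_symm hj)) (agree_trans hi (agree_symm hk)),
      if_pos rfl, if_neg hik, if_neg (Ne.symm hij), if_neg hjk]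
    norm_num
  · exact agree_refl ω₀
  · exact agree_mul ω₀ hφ2
  · exact agree_mul ω₀ hφ5
  · exact mul_ne_self ω₀ hφ1
  · exact mul_ne_self ω₀ hφ4
  · intro e
    apply hφ3
    apply MonoidHom.ext
    intro w
    have := DFunLike.congr_fun e w
    rw [MonoidHom.mul_apply, MonoidHom.mul_apply] at this
    exact mul_left_cancel this

theorem main (h : Hyp K W₁ W₂) (hodd : Odd (Nat.card ↥(W₁ ⊔ W₂))) :
    ∃ (μ : (↥(W₁ ⊔ W₂) →* ℂˣ) → (L → ℂ)) (δ : (↥(W₁ ⊔ W₂) →* ℂˣ) → ℂ),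
      (∀ ω, IsIrrCharacter L (μ ω)) ∧ (∀ ω, δ ω = 1 ∨ δ ω = -1) ∧
      (∀ ω ω', agree ω ω' → δ ω = δ ω' ∧ Th ω ω' = δ ω • (μ ω - μ ω')) ∧
      (∀ ω ω', agree ω ω' → μ ω = μ ω' → ω = ω') := by
  classical
  have hdisj := h.snc.2.2.1
  have hcomm := h.snc.2.2.2.1
  choose δc μc h1 h2 h3 h4 using family h hodd
  have hbase : ∀ ω, agree ω (part₂ hdisj hcomm ω) :=
    fun ω w hw => (part₂_eq hdisj hcomm ω w hw).symm
  have hbase_eq : ∀ ω ω', agree ω ω' → part₂ hdisj hcomm ω = part₂ hdisj hcomm ω' := by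
    intro ω ω' hag
    apply hom_ext_sup
    · intro w hw; rw [part₂_triv hdisj hcomm ω w hw, part₂_triv hdisj hcomm ω' w hw]
    · intro w hw
      rw [part₂_eq hdisj hcomm ω w hw, part₂_eq hdisj hcomm ω' w hw]; exact hag w hw
  refine ⟨fun ω => μc (part₂ hdisj hcomm ω) ω, fun ω => δc (part₂ hdisj hcomm ω), ?_, ?_, ?_, ?_⟩
  · intro ω; exact h2 _ ω (hbase ω)
  · intro ω; exact h1 _
  · intro ω ω' hag
    have e := hbase_eq ω ω' hag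
    refine ⟨?_, ?_⟩
    · show δc (part₂ hdisj hcomm ω) = δc (part₂ hdisj hcomm ω')
      rw [e]
    · show Th ω ω' = δc (part₂ hdisj hcomm ω) •
        (μc (part₂ hdisj hcomm ω) ω - μc (part₂ hdisj hcomm ω') ω')
      rw [← e]
      exact h4 _ ω ω' (hbase ω) (agree_trans (agree_symm hag) (hbase ω))
  · intro ω ω' hag heq
    have e := hbase_eq ω ω' hag
    have heq' : μc (part₂ hdisj hcomm ω) ω = μc (part₂ hdisj hcomm ω) ω' := by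
      have : μc (part₂ hdisj hcomm ω) ω = μc (part₂ hdisj hcomm ω') ω' := heq
      rw [this, e]
    exact h3 _ ω ω' (hbase ω) (agree_trans (agree_symm hag) (hbase ω)) heq'

theorem mu_injective (h : Hyp K W₁ W₂)
    (μ : (↥(W₁ ⊔ W₂) →* ℂˣ) → (L → ℂ)) (δ : (↥(W₁ ⊔ W₂) →* ℂˣ) → ℂ)
    (hirr : ∀ ω, IsIrrCharacter L (μ ω)) (hδ : ∀ ω, δ ω = 1 ∨ δ ω = -1)
    (hTh : ∀ ω ω', agree ω ω' → δ ω = δ ω' ∧ Th ω ω' = δ ω • (μ ω - μ ω'))
    (hinj : ∀ ω ω', agree ω ω' → μ ω = μ ω' → ω = ω') : Function.Injective μ := by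
  classical
  intro ω ω' heq
  by_contra hne
  have hnag : ¬ agree ω ω' := fun hag => hne (hinj ω ω' hag heq)
  obtain ⟨φ, hφ1, hφ2⟩ := exists_nontriv₁ h.snc
  have hag1 : agree ω (ω * φ) := agree_symm (agree_mul ω hφ2)
  have hag2 : agree ω' (ω' * φ) := agree_symm (agree_mul ω' hφ2)
  have hne1 : ω ≠ ω * φ := mul_ne_self ω hφ1
  have hne2 : ω' ≠ ω' * φ := mul_ne_self ω' hφ1
  have hI := Th_inner h hag1 hag2
  have n2 : ω ≠ ω' * φ := by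
    intro e; apply hnag; intro w hw; rw [e]; exact (hag2 w hw).symm
  have n3 : ω * φ ≠ ω' := by
    intro e; apply hnag; intro w hw; rw [← e]; exact hag1 w hw
  have n4 : ω * φ ≠ ω' * φ := by
    intro e; apply hnag; intro w hw; rw [hag1 w hw, e]; exact (hag2 w hw).symm
  rw [if_neg hne, if_neg n2, if_neg n3, if_neg n4] at hI
  have m2 : μ ω ≠ μ (ω' * φ) := by
    intro e
    exact hne2 (hinj _ _ hag2 (heq.symm.trans e))
  have m3 : μ (ω * φ) ≠ μ ω' := by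
    intro e
    exact hne1 (hinj _ _ hag1 (heq.trans e.symm))
  rw [(hTh _ _ hag1).2, (hTh _ _ hag2).2, classInner_smul_left, classInner_smul_right,
    classInner_sub_left, classInner_sub_right, classInner_sub_right,
    irr_orthonormal (hirr _) (hirr _), irr_orthonormal (hirr _) (hirr _),
    irr_orthonormal (hirr _) (hirr _), irr_orthonormal (hirr _) (hirr _), if_pos heq,
    if_neg m2, if_neg m3] at hI
  rcases hδ ω with e | e <;> rcases hδ ω' with e' | e' <;> rw [e, e'] at hI <;>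
    split_ifs at hI <;> norm_num at hI

end Main

end Cfsg.Agent.Lib.Helper2.KW
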