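import Cfsg.Agent.Lib.Helper2.KW3

set_option autoImplicit false

namespace Cfsg.Agent.Lib.Helper2.KW

open Cfsg Cfsg.Agent.Lib.Lead Cfsg.Agent.Lib.Helper2 Cfsg.Agent.Lib.Helper2.CycTI
open scoped ComplexConjugate

section Main

variable {L : Type*} [Group L] [Fintype L] {K W₁ W₂ : Subgroup L}

theorem exists_phi (h : Hyp K W₁ W₂) (x : ↥(W₁ ⊔ W₂)) (hx : (x : L) ∉ W₂) :
    ∃ φ₀ : ↥(W₁ ⊔ W₂) →* ℂˣ, (∀ w : ↥(W₁ ⊔ W₂), (w : L) ∈ W₂ → φ₀ w = 1) ∧ φ₀ x ≠ 1 := by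
  have hdisj := h.snc.2.2.1
  have hcomm := h.snc.2.2.2.1
  obtain ⟨a, ha, b, hb, hab⟩ := exists_mul hcomm x.2
  have ha1 : a ≠ 1 := by
    rintro rfl; apply hx; rw [hab]; simpa using hb
  let a' : ↥(W₁ ⊔ W₂) := ⟨a, Subgroup.mem_sup_left ha⟩
  let b' : ↥(W₁ ⊔ W₂) := ⟨b, Subgroup.mem_sup_right hb⟩
  have hxab : x = a' * b' := Subtype.ext hab
  have ha' : a' ≠ 1 := by
    intro e; apply ha1; exact congrArg Subtype.val e
  obtain ⟨ω, hω⟩ := exists_hom_ne_one h.snc ha'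
  refine ⟨part₁ hdisj hcomm ω, part₁_triv hdisj hcomm ω, ?_⟩
  rw [hxab, map_mul, part₁_triv hdisj hcomm ω b' hb, mul_one, part₁_eq hdisj hcomm ω a' ha]
  exact hω

theorem values (h : Hyp K W₁ W₂)
    (μ : (↥(W₁ ⊔ W₂) →* ℂˣ) → (L → ℂ)) (δ : (↥(W₁ ⊔ W₂) →* ℂˣ) → ℂ)
    (hirr : ∀ ω, IsIrrCharacter L (μ ω)) (hδ : ∀ ω, δ ω = 1 ∨ δ ω = -1)
    (hTh : ∀ ω ω', agree ω ω' → δ ω = δ ω' ∧ Th ω ω' = δ ω • (μ ω - μ ω'))
    (hμinj : Function.Injective μ) (x : ↥(W₁ ⊔ W₂)) (hx : (x : L) ∉ W₂) :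
    (∀ ω, μ ω x = δ ω * (ω x : ℂ)) ∧
      (∀ θ, IsIrrCharacter L θ → (∀ ω, θ ≠ μ ω) → θ x = 0) := by
  classical
  haveI : Finite (IrrCharacter L) := irr_finite
  letI : Fintype (IrrCharacter L) := Fintype.ofFinite _
  have hcard := card_hom (G := L) h.snc
  have hWpos : 0 < Nat.card ↥(W₁ ⊔ W₂) := Nat.card_pos
  haveI : Finite (↥(W₁ ⊔ W₂) →* ℂˣ) := Nat.finite_of_card_ne_zero (by omega)
  letI : Fintype (↥(W₁ ⊔ W₂) →* ℂˣ) := Fintype.ofFinite _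
  let s : (↥(W₁ ⊔ W₂) →* ℂˣ) → IrrCharacter L := fun ω => ⟨μ ω, hirr ω⟩
  have hsinj : Function.Injective s := fun a b hab => hμinj (congrArg Subtype.val hab)
  let c : (↥(W₁ ⊔ W₂) →* ℂˣ) → ℂ := fun ω => μ ω x - δ ω * (ω x : ℂ)
  have hδsq : ∀ ω, δ ω * δ ω = 1 := by
    intro ω; rcases hδ ω with e | e <;> rw [e] <;> norm_num
  have hδn : ∀ ω, Complex.normSq (δ ω) = 1 := by
    intro ω; rcases hδ ω with e | e <;> rw [e] <;> simp
  have hconst : ∀ ω ω', agree ω ω' → c ω = c ω' := by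
    intro ω ω' hag
    obtain ⟨e1, e2⟩ := hTh ω ω' hag
    have e3 := congrFun e2 x
    rw [Th_apply h hag x hx] at e3
    simp only [Pi.smul_apply, Pi.sub_apply, smul_eq_mul] at e3
    show μ ω x - δ ω * (ω x : ℂ) = μ ω' x - δ ω' * (ω' x : ℂ)
    rw [← e1]
    have : μ ω x - μ ω' x = δ ω * ((ω x : ℂ) - (ω' x : ℂ)) := by
      rw [e3, ← mul_assoc, hδsq, one_mul]
    linear_combination this
  obtain ⟨φ₀, hφ₀1, hφ₀2⟩ := exists_phi h x hx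
  have hφ₀3 : ((φ₀ x : ℂˣ) : ℂ) ≠ 1 := by
    intro e; apply hφ₀2; exact Units.ext e
  have hcross : ∑ ω : ↥(W₁ ⊔ W₂) →* ℂˣ, conj (c ω) * δ ω * (ω x : ℂ) = 0 := by
    let e : (↥(W₁ ⊔ W₂) →* ℂˣ) ≃ (↥(W₁ ⊔ W₂) →* ℂˣ) :=
      ⟨fun ω => ω * φ₀, fun ω => ω * φ₀⁻¹, fun ω => by ext w; simp, fun ω => by ext w; simp⟩
    have hre : ∑ ω : ↥(W₁ ⊔ W₂) →* ℂˣ, conj (c ω) * δ ω * (ω x : ℂ) =
        ∑ ω : ↥(W₁ ⊔ W₂) →* ℂˣ, conj (c (ω * φ₀)) * δ (ω * φ₀) * (((ω * φ₀) x : ℂˣ) : ℂ) := by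
      symm
      exact Fintype.sum_equiv e _ _ (fun ω => rfl)
    have hterm : ∀ ω : ↥(W₁ ⊔ W₂) →* ℂˣ,
        conj (c (ω * φ₀)) * δ (ω * φ₀) * (((ω * φ₀) x : ℂˣ) : ℂ) =
          (φ₀ x : ℂ) * (conj (c ω) * δ ω * (ω x : ℂ)) := by
      intro ω
      have hag := agree_mul ω hφ₀1
      rw [hconst _ _ hag, (hTh _ _ hag).1, MonoidHom.mul_apply, Units.val_mul]
      ring
    rw [Finset.sum_congr rfl (fun ω _ => hterm ω), ← Finset.mul_sum] at hre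
    have h0 : (1 - (φ₀ x : ℂ)) * ∑ ω : ↥(W₁ ⊔ W₂) →* ℂˣ, conj (c ω) * δ ω * (ω x : ℂ) = 0 := by
      linear_combination hre
    rcases mul_eq_zero.mp h0 with h1 | h1
    · exact absurd (sub_eq_zero.mp h1).symm hφ₀3
    · exact h1
  -- second orthogonality
  have hso := second_orthogonality (G := L) (x : L) (x : L)
  rw [if_pos (IsConj.refl _), centralizer_eq' h x.2 hx] at hso
  have hsum : ∑ χ' : IrrCharacter L, Complex.normSq ((χ' : L → ℂ) x) =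
      (Nat.card ↥(W₁ ⊔ W₂) : ℝ) := by
    apply Complex.ofReal_injective
    rw [Complex.ofReal_sum, Complex.ofReal_natCast, ← hso]
    apply Finset.sum_congr rfl
    intro χ' _
    rw [Complex.mul_conj]
  have hval : ∀ ω, Complex.normSq (μ ω x) =
      1 + Complex.normSq (c ω) + 2 * (conj (c ω) * δ ω * (ω x : ℂ)).re := by
    intro ω
    have e : μ ω x = δ ω * (ω x : ℂ) + c ω := by
      show μ ω x = δ ω * (ω x : ℂ) + (μ ω x - δ ω * (ω x : ℂ))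
      ring
    rw [e, Complex.normSq_add, Complex.normSq_mul, unit_normSq, hδn, mul_one]
    congr 3
    ring
  have himg : ∑ χ' ∈ Finset.univ.image s, Complex.normSq ((χ' : L → ℂ) x) =
      (Nat.card ↥(W₁ ⊔ W₂) : ℝ) + ∑ ω : ↥(W₁ ⊔ W₂) →* ℂˣ, Complex.normSq (c ω) := by
    rw [Finset.sum_image (fun a _ b _ hab => hsinj hab)]
    show ∑ ω : ↥(W₁ ⊔ W₂) →* ℂˣ, Complex.normSq (μ ω x) = _
    rw [Finset.sum_congr rfl (fun ω _ => hval ω), Finset.sum_add_distrib,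
      Finset.sum_add_distrib, ← Finset.mul_sum, ← Complex.re_sum, hcross, Complex.zero_re,
      mul_zero, add_zero, Finset.sum_const, Finset.card_univ, ← Nat.card_eq_fintype_card, hcard]
    simp
  have hsplit := Finset.sum_add_sum_compl (Finset.univ.image s)
    (fun χ' : IrrCharacter L => Complex.normSq ((χ' : L → ℂ) x))
  rw [hsum, himg] at hsplit
  have hnn1 : 0 ≤ ∑ ω : ↥(W₁ ⊔ W₂) →* ℂˣ, Complex.normSq (c ω) :=
    Finset.sum_nonneg (fun ω _ => Complex.normSq_nonneg _)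
  have hnn2 : 0 ≤ ∑ χ' ∈ (Finset.univ.image s)ᶜ, Complex.normSq ((χ' : L → ℂ) x) :=
    Finset.sum_nonneg (fun ω _ => Complex.normSq_nonneg _)
  have hc0 : ∑ ω : ↥(W₁ ⊔ W₂) →* ℂˣ, Complex.normSq (c ω) = 0 := by linarith
  have hcompl : ∑ χ' ∈ (Finset.univ.image s)ᶜ, Complex.normSq ((χ' : L → ℂ) x) = 0 := by
    linarith
  constructor
  · intro ω
    have := (Finset.sum_eq_zero_iff_of_nonneg (fun ω _ => Complex.normSq_nonneg _)).mp hc0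
      ω (Finset.mem_univ _)
    have hcω : c ω = 0 := Complex.normSq_eq_zero.mp this
    exact sub_eq_zero.mp hcω
  · intro θ hθ hne
    have hmem : (⟨θ, hθ⟩ : IrrCharacter L) ∈ (Finset.univ.image s)ᶜ := by
      rw [Finset.mem_compl, Finset.mem_image]
      rintro ⟨ω, _, h'⟩
      exact hne ω (congrArg Subtype.val h').symm
    have := (Finset.sum_eq_zero_iff_of_nonneg (fun χ' _ => Complex.normSq_nonneg _)).mp hcompl
      ⟨θ, hθ⟩ hmem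
    exact Complex.normSq_eq_zero.mp this

theorem congr_one (h : Hyp K W₁ W₂)
    (μ : (↥(W₁ ⊔ W₂) →* ℂˣ) → (L → ℂ)) (δ : (↥(W₁ ⊔ W₂) →* ℂˣ) → ℂ)
    (hirr : ∀ ω, IsIrrCharacter L (μ ω)) (hδ : ∀ ω, δ ω = 1 ∨ δ ω = -1)
    (hval : ∀ ω (x : ↥(W₁ ⊔ W₂)), (x : L) ∉ W₂ → μ ω x = δ ω * (ω x : ℂ))
    (ω : ↥(W₁ ⊔ W₂) →* ℂˣ) : ∃ n : ℤ, μ ω 1 - δ ω = n * (Nat.card W₁ : ℂ) := by
  classical
  letI : Fintype W₁ := Fintype.ofFinite _
  let ι : W₁ →* ↥(W₁ ⊔ W₂) := Subgroup.inclusion le_sup_left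
  let ω₁ : W₁ →* ℂˣ := ω.comp ι
  obtain ⟨n, hn⟩ := classInner_isCharacter_nat
    (isCharacter_res W₁ (isCharacter_of_isIrrCharacter (hirr ω)))
    (isCharacter_of_isIrrCharacter (isIrrCharacter_one W₁))
  have h1 : classInner (cf ω₁) (fun _ : W₁ => (1 : ℂ)) = if ω₁ = 1 then 1 else 0 := by
    rw [← cf_one]; exact cf_inner ω₁ 1
  have hf : ∀ w : W₁, w ≠ 1 → μ ω (w : L) - δ ω * (ω₁ w : ℂ) = 0 := by
    intro w hw
    have hw2 : ((ι w : ↥(W₁ ⊔ W₂)) : L) ∉ W₂ := by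
      intro hmem
      apply hw
      have : (w : L) ∈ W₁ ⊓ W₂ := ⟨w.2, hmem⟩
      rw [h.snc.2.2.1, Subgroup.mem_bot] at this
      exact Subtype.ext this
    have := hval ω (ι w) hw2
    rw [sub_eq_zero]; exact this
  have hinner : classInner (fun w : W₁ => μ ω (w : L) - δ ω * (ω₁ w : ℂ)) (fun _ => 1) =
      (Nat.card W₁ : ℂ)⁻¹ * (μ ω 1 - δ ω) := by
    unfold classInner
    congr 1
    rw [Finset.sum_eq_single (1 : W₁)]
    · simp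
    · intro w _ hw
      show (μ ω (w : L) - δ ω * (ω₁ w : ℂ)) * _ = 0
      rw [hf w hw, zero_mul]
    · intro h'; exact absurd (Finset.mem_univ _) h'
  have hlin : classInner (fun w : W₁ => μ ω (w : L) - δ ω * (ω₁ w : ℂ)) (fun _ => 1) =
      (n : ℂ) - δ ω * (if ω₁ = 1 then 1 else 0) := by
    have e : (fun w : W₁ => μ ω (w : L) - δ ω * (ω₁ w : ℂ)) =
        (fun w : W₁ => μ ω (w : L)) - δ ω • cf ω₁ := by funext w; simp [cf]
    rw [e, classInner_sub_left, classInner_smul_left, hn, h1]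
  have hN : (Nat.card W₁ : ℂ) ≠ 0 := by exact_mod_cast (Nat.card_pos (α := W₁)).ne'
  rw [hlin] at hinner
  have hmain : μ ω 1 - δ ω = ((n : ℂ) - δ ω * (if ω₁ = 1 then 1 else 0)) * (Nat.card W₁ : ℂ) := by
    rw [hinner]; field_simp
  rcases hδ ω with e | e
  · by_cases h1' : ω₁ = 1
    · refine ⟨(n : ℤ) - 1, ?_⟩
      rw [if_pos h1'] at hmain
      rw [hmain, e]; push_cast; ring
    · refine ⟨(n : ℤ), ?_⟩
      rw [if_neg h1'] at hmain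
      rw [hmain, e]; push_cast; ring
  · by_cases h1' : ω₁ = 1
    · refine ⟨(n : ℤ) + 1, ?_⟩
      rw [if_pos h1'] at hmain
      rw [hmain, e]; push_cast; ring
    · refine ⟨(n : ℤ), ?_⟩
      rw [if_neg h1'] at hmain
      rw [hmain, e]; push_cast; ring

end Main

end Cfsg.Agent.Lib.Helper2.KW
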