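import Cfsg.Agent.Lib.Helper2.KW1
import Cfsg.Agent.Lib.Helper2.FixCls
import Cfsg.Agent.S0886
import Cfsg.Agent.Lib.Lead.CharAbQuot
import Cfsg.Agent.Lib.Lead.CharClifford2

set_option autoImplicit false

namespace Cfsg.Agent.Lib.Helper2.KW

open Cfsg Cfsg.Agent.Lib.Lead Cfsg.Agent.Lib.Helper2 Cfsg.Agent.Lib.Helper2.CycTI
open Cfsg.Agent.Lib.Helper2.FixCls
open scoped ComplexConjugate

/-- two `K`-conjugate elements fixed by `x` (of order prime to `|K|`) are conjugate under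
`C_K(x)`. -/
theorem conj_fixed {L : Type*} [Group L] [Finite L] (K : Subgroup L) [hK : K.Normal]
    (x : L) (hx : Nat.Coprime (orderOf x) (Nat.card K)) (w w' k : L) (hk : k ∈ K)
    (hw : x * w = w * x) (hw' : x * w' = w' * x) (hkw : k * w * k⁻¹ = w') :
    ∃ t ∈ K, t * x = x * t ∧ t * w' * t⁻¹ = w := by
  let Z : Subgroup L := Subgroup.centralizer ({w} : Set L)
  have hxZ : x ∈ Z := Subgroup.mem_centralizer_singleton_iff.mpr hw
  let c₀ : L := k⁻¹ * x * k * x⁻¹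
  have hc₀K : c₀ ∈ K := by
    have : x * k * x⁻¹ ∈ K := hK.conj_mem k hk x
    have e : c₀ = k⁻¹ * (x * k * x⁻¹) := by simp only [c₀]; group
    rw [e]; exact K.mul_mem (K.inv_mem hk) this
  have hc₀Z : c₀ ∈ Z := by
    rw [Subgroup.mem_centralizer_singleton_iff]
    have hw1 : w = k⁻¹ * w' * k := by rw [← hkw]; group
    have hxw : x⁻¹ * w = w * x⁻¹ := by
      calc x⁻¹ * w = x⁻¹ * (w * x) * x⁻¹ := by group
        _ = x⁻¹ * (x * w) * x⁻¹ := by rw [hw]
        _ = w * x⁻¹ := by group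
    calc c₀ * w = k⁻¹ * x * k * (x⁻¹ * w) := by simp only [c₀]; group
      _ = k⁻¹ * x * k * (w * x⁻¹) := by rw [hxw]
      _ = k⁻¹ * (x * (k * w * k⁻¹)) * k * x⁻¹ := by group
      _ = k⁻¹ * (x * w') * k * x⁻¹ := by rw [hkw]
      _ = k⁻¹ * (w' * x) * k * x⁻¹ := by rw [hw']
      _ = (k⁻¹ * w' * k) * (k⁻¹ * x * k * x⁻¹) := by group
      _ = w * c₀ := by rw [← hw1]
  haveI : (K.subgroupOf Z).Normal := inferInstance
  have hcop : (orderOf (⟨x, hxZ⟩ : Z)).Coprime (Nat.card (K.subgroupOf Z)) := by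
    rw [Subgroup.orderOf_mk]
    have hdvd : Nat.card (K.subgroupOf Z) ∣ Nat.card K := by
      let f : (K.subgroupOf Z) →* K :=
        { toFun := fun g => ⟨((g : Z) : L), Subgroup.mem_subgroupOf.mp g.2⟩
          map_one' := rfl
          map_mul' := fun _ _ => rfl }
      exact Subgroup.card_dvd_of_injective f (fun a b hab => by
        apply Subtype.ext; apply Subtype.ext; exact congrArg (fun z : K => (z : L)) hab)
    exact Nat.Coprime.coprime_dvd_right hdvd hx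
  obtain ⟨y, hy, c, hc, hcx, hye⟩ := coset_conj (K.subgroupOf Z) (⟨x, hxZ⟩ : Z)
    (⟨c₀, hc₀Z⟩ : Z) hcop (Subgroup.mem_subgroupOf.mpr hc₀K)
  have hyK : (y : L) ∈ K := Subgroup.mem_subgroupOf.mp hy
  have hcK : (c : L) ∈ K := Subgroup.mem_subgroupOf.mp hc
  have hcx' : (c : L) * x = x * (c : L) := congrArg Subtype.val hcx
  have hye' : (y : L) * (c₀ * x) * (y : L)⁻¹ = (c : L) * x := congrArg Subtype.val hye
  have hyw : (y : L) * w = w * (y : L) := Subgroup.mem_centralizer_singleton_iff.mp y.2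
  have e0 : c₀ * x = k⁻¹ * x * k := by simp only [c₀]; group
  rw [e0] at hye'
  have hc1 : (c : L) = 1 := by
    have hconj : (c : L) * x = ((y : L) * k⁻¹) * x * ((y : L) * k⁻¹)⁻¹ := by rw [← hye']; group
    have hpow : ((c : L) * x) ^ orderOf x = 1 := by
      rw [hconj, conj_pow, pow_orderOf_eq_one]; group
    have hcomm : Commute (c : L) x := hcx'
    rw [hcomm.mul_pow, pow_orderOf_eq_one, mul_one] at hpow
    have h1 : orderOf (c : L) ∣ orderOf x := orderOf_dvd_of_pow_eq_one hpow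
    have h2 : orderOf (c : L) ∣ Nat.card K := orderOf_dvd_card_of_mem K _ hcK
    have h3 : orderOf (c : L) ∣ Nat.gcd (orderOf x) (Nat.card K) := Nat.dvd_gcd h1 h2
    rw [Nat.Coprime.gcd_eq_one hx] at h3
    exact orderOf_eq_one_iff.mp (Nat.dvd_one.mp h3)
  rw [hc1, one_mul] at hye'
  refine ⟨(y : L) * k⁻¹, K.mul_mem hyK (K.inv_mem hk), ?_, ?_⟩
  · calc (y : L) * k⁻¹ * x = ((y : L) * (k⁻¹ * x * k) * (y : L)⁻¹) * ((y : L) * k⁻¹) := by group
      _ = x * ((y : L) * k⁻¹) := by rw [hye']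
  · rw [← hkw]
    calc (y : L) * k⁻¹ * (k * w * k⁻¹) * ((y : L) * k⁻¹)⁻¹ = ((y : L) * w) * (y : L)⁻¹ := by group
      _ = w * (y : L) * (y : L)⁻¹ := by rw [hyw]
      _ = w := by group

section Grp

variable {L : Type*} [Group L] [Finite L] {K W₁ W₂ : Subgroup L} [hK : K.Normal]

theorem card_fixed_classes (h : Hyp K W₁ W₂) {x : L} (hx : x ∈ W₁) (hx1 : x ≠ 1) :
    Nat.card {C : ConjClasses K // ∀ g : K, ConjClasses.mk g = C → IsConj (cj K x g) g} =
      Nat.card W₂ := by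
  have hcop : Nat.Coprime (orderOf x) (Nat.card K) := by
    rw [← card_K h]
    exact Nat.Coprime.coprime_dvd_left (orderOf_dvd_card_of_mem W₁ x hx) h.hall
  have hW : K ⊓ Subgroup.centralizer ({x} : Set L) = W₂ := h.cent x hx hx1
  have hmemW : ∀ w ∈ W₂, w ∈ K ∧ x * w = w * x := by
    intro w hw
    rw [← hW] at hw
    exact ⟨hw.1, (Subgroup.mem_centralizer_singleton_iff.mp hw.2).symm⟩
  let f : W₂ → {C : ConjClasses K // ∀ g : K, ConjClasses.mk g = C → IsConj (cj K x g) g} :=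
    fun w => ⟨ConjClasses.mk ⟨(w : L), (hmemW w w.2).1⟩,
      cj_fixed_class K x ⟨(w : L), (hmemW w w.2).1⟩ (hmemW w w.2).2⟩
  have hf : Function.Bijective f := by
    constructor
    · intro w w' hww
      have h1 : ConjClasses.mk (⟨(w : L), (hmemW w w.2).1⟩ : K) =
          ConjClasses.mk ⟨(w' : L), (hmemW w' w'.2).1⟩ := congrArg Subtype.val hww
      obtain ⟨k, hk⟩ := isConj_iff.mp (ConjClasses.mk_eq_mk_iff_isConj.mp h1)
      have hk' : (k : L) * (w : L) * (k : L)⁻¹ = (w' : L) := congrArg Subtype.val hk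
      obtain ⟨t, ht, htx, htw⟩ := conj_fixed K x hcop (w : L) (w' : L) (k : L) k.2
        (hmemW w w.2).2 (hmemW w' w'.2).2 hk'
      have htW : t ∈ W₂ := by
        rw [← hW]; exact ⟨ht, Subgroup.mem_centralizer_singleton_iff.mpr htx⟩
      have hcomm : t * (w' : L) = (w' : L) * t :=
        w_comm h.snc (Subgroup.mem_sup_right htW) (Subgroup.mem_sup_right w'.2)
      apply Subtype.ext
      rw [← htw, hcomm]; group
    · rintro ⟨C, hCfix⟩
      obtain ⟨k, rfl⟩ := ConjClasses.exists_rep C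
      have h1 : IsConj (cj K x k) k := hCfix k rfl
      obtain ⟨t, ht⟩ := isConj_iff.mp h1
      have ht' : (t : L) * (x * (k : L) * x⁻¹) * (t : L)⁻¹ = k := congrArg Subtype.val ht
      obtain ⟨y, hy, hyx⟩ := exists_comm_in_class K x hcop (k : L) (t : L) t.2 ht'
      have hk'K : y * (k : L) * y⁻¹ ∈ K := hK.conj_mem _ k.2 y
      have hk'W : y * (k : L) * y⁻¹ ∈ W₂ := by
        rw [← hW]
        exact ⟨hk'K, Subgroup.mem_centralizer_singleton_iff.mpr hyx.symm⟩
      refine ⟨⟨y * (k : L) * y⁻¹, hk'W⟩, ?_⟩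
      apply Subtype.ext
      show ConjClasses.mk (⟨y * (k : L) * y⁻¹, _⟩ : K) = ConjClasses.mk k
      rw [ConjClasses.mk_eq_mk_iff_isConj, isConj_iff]
      refine ⟨⟨y, hy⟩⁻¹, ?_⟩
      apply Subtype.ext
      show y⁻¹ * (y * (k : L) * y⁻¹) * y⁻¹⁻¹ = k
      group
  exact (Nat.card_congr (Equiv.ofBijective f hf)).symm

theorem card_fixed_irr (h : Hyp K W₁ W₂) {x : L} (hx : x ∈ W₁) (hx1 : x ≠ 1) :
    Nat.card {χ : IrrCharacter K // (χ : K → ℂ) ∘ cj K x = (χ : K → ℂ)} = Nat.card W₂ := by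
  rw [cj_count K x]; exact card_fixed_classes h hx hx1

omit [Finite L] in
theorem cj_pow (x : L) (n : ℕ) (χ : K → ℂ) (hχ : χ ∘ cj K x = χ) : χ ∘ cj K (x ^ n) = χ := by
  induction n with
  | zero =>
    funext k
    show χ (cj K (x ^ 0) k) = χ k
    congr 1
    apply Subtype.ext
    simp [cj_apply]
  | succ n ih =>
    funext k
    have e : cj K (x ^ (n + 1)) k = cj K x (cj K (x ^ n) k) := by
      apply Subtype.ext
      simp only [cj_apply]
      rw [pow_succ']; group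
    show χ (cj K (x ^ (n + 1)) k) = χ k
    rw [e]
    have := congrFun hχ (cj K (x ^ n) k)
    rw [Function.comp_apply] at this
    rw [this]
    exact congrFun ih k

theorem fixed_all (h : Hyp K W₁ W₂) (hW₁c : IsCyclic W₁) {x : L} (hx : x ∈ W₁) (hx1 : x ≠ 1)
    (χ : K → ℂ) (hχ : IsIrrCharacter K χ) (hfix : χ ∘ cj K x = χ) :
    ∀ y ∈ W₁, χ ∘ cj K y = χ := by
  classical
  obtain ⟨g, hg⟩ := hW₁c.exists_generator
  have hgpow : ∀ y ∈ W₁, ∃ n : ℕ, y = (g : L) ^ n := by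
    intro y hy
    have := hg ⟨y, hy⟩
    rw [← mem_powers_iff_mem_zpowers] at this
    obtain ⟨n, hn⟩ := this
    refine ⟨n, ?_⟩
    have := congrArg Subtype.val hn
    simpa using this.symm
  have hg1 : (g : L) ≠ 1 := by
    intro e
    obtain ⟨n, hn⟩ := hgpow x hx
    rw [e, one_pow] at hn
    exact hx1 hn
  haveI : Finite (IrrCharacter K) := irr_finite'
  let F : L → Set (IrrCharacter K) := fun z => {χ | (χ : K → ℂ) ∘ cj K z = (χ : K → ℂ)}
  have hsub : F (g : L) ⊆ F x := by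
    intro ψ hψ
    obtain ⟨n, hn⟩ := hgpow x hx
    show (ψ : K → ℂ) ∘ cj K x = ψ
    rw [hn]; exact cj_pow (g : L) n (ψ : K → ℂ) hψ
  have hcard1 : (F (g : L)).ncard = Nat.card W₂ := by
    rw [← Nat.card_coe_set_eq]; exact card_fixed_irr h g.2 hg1
  have hcard2 : (F x).ncard = Nat.card W₂ := by
    rw [← Nat.card_coe_set_eq]; exact card_fixed_irr h hx hx1
  have heq : F (g : L) = F x :=
    Set.eq_of_subset_of_ncard_le hsub (by rw [hcard1, hcard2]) (Set.toFinite _)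
  have hχg : (⟨χ, hχ⟩ : IrrCharacter K) ∈ F (g : L) := by rw [heq]; exact hfix
  intro y hy
  obtain ⟨n, hn⟩ := hgpow y hy
  rw [hn]; exact cj_pow (g : L) n χ hχg

theorem card_fixed_all (h : Hyp K W₁ W₂) (hW₁c : IsCyclic W₁) (hW₁ : W₁ ≠ ⊥) :
    Nat.card {θ : IrrCharacter K // ∀ x ∈ W₁, (θ : K → ℂ) ∘ cj K x = (θ : K → ℂ)} =
      Nat.card W₂ := by
  obtain ⟨x, hx1⟩ := (Subgroup.ne_bot_iff_exists_ne_one).mp hW₁
  have hx1' : (x : L) ≠ 1 := by
    intro e; apply hx1; exact Subtype.ext e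
  rw [← card_fixed_irr h x.2 hx1']
  apply Nat.card_congr
  apply Equiv.subtypeEquivRight
  intro θ
  exact ⟨fun hall => hall x x.2, fun hfix => fixed_all h hW₁c x.2 hx1' θ θ.2 hfix⟩

end Grp

section Ind

variable {L : Type*} [Group L] [Fintype L] {K W₁ W₂ : Subgroup L} [hK : K.Normal]

theorem twist_KW (h : Hyp K W₁ W₂) (θ : K → ℂ) (hθ : IsIrrCharacter K θ) {k w : L} (hk : k ∈ K)
    (n : K) : θ ⟨k * w * n * (k * w)⁻¹, hK.conj_mem (n : L) n.2 (k * w)⟩ = θ (cj K w n) := by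
  have hcl : θ (⟨k, hk⟩ * cj K w n * ⟨k, hk⟩⁻¹) = θ (cj K w n) :=
    isClassFunction_irr ⟨θ, hθ⟩ (cj K w n) ⟨k, hk⟩
  rw [← hcl]
  congr 1
  apply Subtype.ext
  simp [cj_apply]
  group

theorem ind_irr (h : Hyp K W₁ W₂) (hW₁c : IsCyclic W₁) (θ : K → ℂ) (hθ : IsIrrCharacter K θ)
    (hex : ∃ x ∈ W₁, θ ∘ cj K x ≠ θ) : IsIrrCharacter L (indFun K θ) := by
  apply isIrrCharacter_indFun_of_inertia K hθ
  intro g hg
  obtain ⟨k, hk, w, hw, rfl⟩ := exists_K_mul h g
  by_cases hw1 : w = 1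
  · rw [hw1, mul_one]; exact hk
  · exfalso
    obtain ⟨x, hx, hne⟩ := hex
    apply hne
    apply fixed_all h hW₁c hw hw1 θ hθ _ x hx
    funext n
    have := congrFun hg n
    show θ (cj K w n) = θ n
    rw [← this, ← twist_KW h θ hθ hk n]
    rfl

theorem ind_sum (h : Hyp K W₁ W₂) (hW₁c : IsCyclic W₁) (θ : K → ℂ) (hθ : IsIrrCharacter K θ)
    (hfix : ∀ x ∈ W₁, θ ∘ cj K x = θ) :
    ∃ C : Finset (L → ℂ), C.card = Nat.card W₁ ∧ (∀ μ ∈ C, IsIrrCharacter L μ) ∧
      indFun K θ = ∑ μ ∈ C, μ := by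
  classical
  letI : Fintype K := Fintype.ofFinite _
  have hinv : ∀ (g : L) (n : K), θ ⟨g * n * g⁻¹, hK.conj_mem (n : L) n.2 g⟩ = θ n := by
    intro g n
    obtain ⟨k, hk, w, hw, rfl⟩ := exists_K_mul h g
    have h1 := congrFun (hfix w hw) n
    rw [Function.comp_apply] at h1
    rw [← h1]
    exact twist_KW h θ hθ hk n
  have hcyc : IsCyclic (L ⧸ K) := by
    haveI := hW₁c
    let f : W₁ →* L ⧸ K := (QuotientGroup.mk' K).comp W₁.subtype
    apply isCyclic_of_surjective f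
    intro q
    obtain ⟨g, rfl⟩ := QuotientGroup.mk_surjective q
    obtain ⟨k, hk, w, hw, rfl⟩ := exists_K_mul h g
    refine ⟨⟨w, hw⟩, ?_⟩
    show (QuotientGroup.mk w : L ⧸ K) = QuotientGroup.mk (k * w)
    rw [QuotientGroup.mk_mul, (QuotientGroup.eq_one_iff k).mpr hk, one_mul]
  have hcomm : ∀ a b : L ⧸ K, a * b = b * a := by
    intro a b
    obtain ⟨g, hg⟩ := hcyc.exists_generator
    obtain ⟨m, rfl⟩ := Subgroup.mem_zpowers_iff.mp (hg a)
    obtain ⟨n, rfl⟩ := Subgroup.mem_zpowers_iff.mp (hg b)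
    exact zpow_mul_comm g m n
  have hab : ∀ x y : L, x * y * x⁻¹ * y⁻¹ ∈ K := by
    intro x y
    rw [← QuotientGroup.eq_one_iff]
    have := hcomm (QuotientGroup.mk x) (QuotientGroup.mk y)
    rw [QuotientGroup.mk_mul, QuotientGroup.mk_mul, QuotientGroup.mk_mul, QuotientGroup.mk_inv,
      QuotientGroup.mk_inv, this]
    group
  obtain ⟨χ, hχirr, hχext⟩ := Cfsg.Agent.S0886.result K hcyc θ hθ hinv
  obtain ⟨e, S, he, hind, hdeg, hcard, hres⟩ := abelian_quotient_ind K hθ hinv hab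
  have hfr : classInner (indFun K θ) χ = 1 := by
    rw [frobenius_reciprocity K θ χ (isClassFunction_irr ⟨χ, hχirr⟩)]
    have : (fun k : K => χ k) = θ := funext hχext
    rw [this, irr_orthonormal hθ hθ, if_pos rfl]
  rw [hind, classInner_smul_left, classInner_sum_left,
    Finset.sum_congr rfl (fun ξ _ => irr_orthonormal ξ.2 hχirr), Finset.sum_boole] at hfr
  have he1 : e = 1 := by
    have : e * (S.filter (fun ξ : IrrCharacter L => (ξ : L → ℂ) = χ)).card = 1 := by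
      exact_mod_cast hfr
    exact Nat.eq_one_of_mul_eq_one_right this
  subst he1
  have hScard : S.card = Nat.card W₁ := by
    have h1 := Subgroup.card_mul_index W₁
    rw [card_K h] at h1
    have h2 : S.card * Nat.card K = Nat.card W₁ * Nat.card K := by
      rw [h1, ← hcard]; ring
    exact Nat.eq_of_mul_eq_mul_right Nat.card_pos h2
  refine ⟨Finset.image (fun ξ : IrrCharacter L => (ξ : L → ℂ)) S, ?_, ?_, ?_⟩
  · rw [Finset.card_image_of_injective _ Subtype.val_injective, hScard]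
  · intro μ hμ
    obtain ⟨ξ, _, rfl⟩ := Finset.mem_image.mp hμ
    exact ξ.2
  · rw [hind, Finset.sum_image (fun a _ b _ hab => Subtype.val_injective hab)]
    simp

end Ind

end Cfsg.Agent.Lib.Helper2.KW
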