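import Mathlib
import Cfsg.Prelude.Def_OddOrderLocal

set_option autoImplicit false

namespace Cfsg.Agent.Lib.Helper2

open Cfsg

variable {G : Type*} [Group G]

theorem puigStep_antitone {X Y : Subgroup G} (h : X ≤ Y) : puigStep Y ≤ puigStep X :=
  sSup_le_sSup (fun _ hA => ⟨hA.1, h.trans hA.2⟩)

theorem puigSeq_succ (n : ℕ) : puigSeq G (n + 1) = puigStep (puigSeq G n) := rfl

theorem puigSeq_zero : puigSeq G 0 = ⊥ := rfl

theorem puigStep_bot : puigStep (⊥ : Subgroup G) = ⊤ := by
  rw [eq_top_iff]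
  intro g _
  have h : Subgroup.zpowers g ≤ puigStep (⊥ : Subgroup G) :=
    le_sSup ⟨inferInstance, bot_le⟩
  exact h (Subgroup.mem_zpowers g)

theorem puigSeq_one : puigSeq G 1 = ⊤ := puigStep_bot

theorem puigSeq_even_le (n : ℕ) : puigSeq G (2 * n) ≤ puigSeq G (2 * n + 2) := by
  induction n with
  | zero => rw [puigSeq_zero]; exact bot_le
  | succ n ih =>
    have h1 : puigSeq G (2 * n + 3) ≤ puigSeq G (2 * n + 1) := puigStep_antitone ih
    exact puigStep_antitone h1

theorem puigSeq_odd_le (n : ℕ) : puigSeq G (2 * n + 3) ≤ puigSeq G (2 * n + 1) :=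
  puigStep_antitone (puigSeq_even_le n)

theorem puigSeq_even_le_odd_aux (k : ℕ) :
    puigSeq G (2 * k) ≤ puigSeq G (2 * k + 1) ∧ puigSeq G (2 * k + 2) ≤ puigSeq G (2 * k + 1) := by
  induction k with
  | zero =>
    refine ⟨?_, ?_⟩
    · rw [puigSeq_zero]; exact bot_le
    · show puigSeq G 2 ≤ puigSeq G 1
      rw [puigSeq_one]; exact le_top
  | succ k ih =>
    have h1 : puigSeq G (2 * k + 2) ≤ puigSeq G (2 * k + 3) := puigStep_antitone ih.2
    exact ⟨h1, puigStep_antitone h1⟩

theorem puigEven_monotone : Monotone (fun n => puigSeq G (2 * n)) :=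
  monotone_nat_of_le_succ puigSeq_even_le

theorem puigOdd_antitone : Antitone (fun n => puigSeq G (2 * n + 1)) :=
  antitone_nat_of_succ_le puigSeq_odd_le

theorem puigSeq_even_le_odd (n m : ℕ) : puigSeq G (2 * n) ≤ puigSeq G (2 * m + 1) := by
  have h1 : puigSeq G (2 * n) ≤ puigSeq G (2 * (max n m)) := puigEven_monotone (le_max_left n m)
  have h2 : puigSeq G (2 * (max n m) + 1) ≤ puigSeq G (2 * m + 1) :=
    puigOdd_antitone (le_max_right n m)
  exact h1.trans ((puigSeq_even_le_odd_aux (max n m)).1.trans h2)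

theorem puig_stable [Finite G] : ∃ k : ℕ, ∀ n : ℕ, k ≤ n →
    puigSeq G (2 * n) = puigLower G ∧ puigSeq G (2 * n + 1) = puigSubgroup G := by
  have hmono := puigEven_monotone (G := G)
  have hanti := puigOdd_antitone (G := G)
  obtain ⟨n₁, h₁⟩ := WellFoundedGT.monotone_chain_condition
    (⟨fun n => puigSeq G (2 * n), hmono⟩ : ℕ →o Subgroup G)
  obtain ⟨n₂, h₂⟩ := WellFoundedGT.monotone_chain_condition
    (⟨fun n => OrderDual.toDual (puigSeq G (2 * n + 1)), fun a b hab => hanti hab⟩ :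
      ℕ →o (Subgroup G)ᵒᵈ)
  have h₁' : ∀ m, n₁ ≤ m → puigSeq G (2 * n₁) = puigSeq G (2 * m) := h₁
  have h₂' : ∀ m, n₂ ≤ m → puigSeq G (2 * n₂ + 1) = puigSeq G (2 * m + 1) :=
    fun m hm => congrArg OrderDual.ofDual (h₂ m hm)
  have e1 : puigLower G = puigSeq G (2 * n₁) := by
    apply le_antisymm
    · apply iSup_le
      intro k
      rcases le_total k n₁ with h | h
      · exact hmono h
      · rw [← h₁' k h]
    · exact le_iSup (fun n => puigSeq G (2 * n)) n₁
  have e2 : puigSubgroup G = puigSeq G (2 * n₂ + 1) := by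
    apply le_antisymm
    · exact iInf_le (fun n => puigSeq G (2 * n + 1)) n₂
    · apply le_iInf
      intro k
      rcases le_total k n₂ with h | h
      · exact hanti h
      · rw [← h₂' k h]
  refine ⟨max n₁ n₂, fun m hm => ⟨?_, ?_⟩⟩
  · rw [e1, ← h₁' m (le_trans (le_max_left _ _) hm)]
  · rw [e2, ← h₂' m (le_trans (le_max_right _ _) hm)]

theorem puigLower_le_puigSubgroup : puigLower G ≤ puigSubgroup G :=
  iSup_le (fun n => le_iInf (fun m => puigSeq_even_le_odd n m))

theorem puigStep_puigLower [Finite G] : puigStep (puigLower G) = puigSubgroup G := by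
  obtain ⟨k, hk⟩ := puig_stable (G := G)
  rw [← (hk k le_rfl).1, ← (hk k le_rfl).2]
  rfl

theorem puigStep_puigSubgroup [Finite G] : puigStep (puigSubgroup G) = puigLower G := by
  obtain ⟨k, hk⟩ := puig_stable (G := G)
  rw [← (hk k le_rfl).2, ← (hk (k + 1) (Nat.le_succ k)).1]
  rfl

end Cfsg.Agent.Lib.Helper2
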