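import Cfsg.Agent.S0015
import Cfsg.Agent.Lib.Helper2.KSeq
import Cfsg.Agent.Lib.Helper2.Puig

set_option autoImplicit false

namespace Cfsg.Agent.Lib.Helper2.MaxAb

open Cfsg Cfsg.Agent.Lib.Helper2

theorem exists_max_normal_abelian {P : Type*} [Group P] [Finite P] {p : ℕ} [Fact p.Prime]
    (hP : IsPGroup p P) :
    ∃ A : Subgroup P, A.Normal ∧ IsMulCommutative A ∧ Subgroup.centralizer (A : Set P) = A := by
  classical
  haveI : Group.IsNilpotent P := hP.isNilpotent
  let S : Set (Subgroup P) := {M | M.Normal ∧ IsMulCommutative M}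
  have hbot : (⊥ : Subgroup P) ∈ S := ⟨inferInstance, ⟨⟨fun a b => Subsingleton.elim _ _⟩⟩⟩
  obtain ⟨A, _, hA⟩ := (Set.toFinite S).exists_le_maximal hbot
  obtain ⟨hAn, hAc⟩ := hA.prop
  haveI := hAn
  haveI := hAc
  refine ⟨A, hAn, hAc, ?_⟩
  apply Cfsg.Agent.S0015.result A
  intro M hMn hMc hle
  exact le_antisymm (hA.le_of_ge ⟨hMn, hMc⟩ hle) hle

theorem key {P : Type*} [Group P] {A : Subgroup P} (hCA : Subgroup.centralizer (A : Set P) = A)
    (X : Subgroup P) (hX : A ≤ X) :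
    Subgroup.center P ≤ Subgroup.centralizer (X : Set P) ∧
      Subgroup.centralizer (X : Set P) ≤ X := by
  refine ⟨Subgroup.center_le_centralizer _, ?_⟩
  calc Subgroup.centralizer (X : Set P) ≤ Subgroup.centralizer (A : Set P) :=
        Subgroup.centralizer_le hX
    _ = A := hCA
    _ ≤ X := hX

end Cfsg.Agent.Lib.Helper2.MaxAb
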