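import Mathlib

set_option autoImplicit false

namespace Cfsg.Agent.Lib.Helper2.PFix

/-- A `p`-group acting linearly in characteristic `p` on a vector space fixes a non-zero vector
of every non-zero invariant subspace. -/
theorem exists_fixed {p : ℕ} [Fact p.Prime] {P : Type*} [Group P] [Finite P] (hP : IsPGroup p P)
    {K : Type*} [Field K] [CharP K p] {M : Type*} [AddCommGroup M] [Module K M]
    (ρ : P →* (M →ₗ[K] M)) (W : Submodule K M) (hinv : ∀ g, ∀ v ∈ W, ρ g v ∈ W) (hW : W ≠ ⊥) :
    ∃ v ∈ W, v ≠ 0 ∧ ∀ g, ρ g v = v := by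
  classical
  have hpM : ∀ v : M, p • v = 0 := fun v => by
    rw [← Nat.cast_smul_eq_nsmul K, CharP.cast_eq_zero, zero_smul]
  haveI : Module (ZMod p) M := AddCommGroup.zmodModule hpM
  obtain ⟨w, hwW, hw0⟩ := Submodule.exists_mem_ne_zero_of_ne_bot hW
  obtain ⟨U, hU⟩ : ∃ U : Submodule (ZMod p) M,
      U = Submodule.span (ZMod p) (Set.range fun g : P => ρ g w) := ⟨_, rfl⟩
  haveI : Finite ↥U := by
    haveI : Module.Finite (ZMod p) ↥U := by
      rw [hU]
      exact FiniteDimensional.span_of_finite (ZMod p) (Set.finite_range _)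
    exact Module.finite_of_finite (ZMod p) (M := ↥U)
  have hUinv : ∀ g, ∀ u ∈ U, ρ g u ∈ U := by
    intro g u hu
    rw [hU] at hu ⊢
    induction hu using Submodule.span_induction with
    | mem x hx =>
      obtain ⟨h, rfl⟩ := hx
      apply Submodule.subset_span
      exact ⟨g * h, by simp [map_mul]⟩
    | zero => simp
    | add x y _ _ hx hy =>
      rw [map_add]
      exact add_mem hx hy
    | smul c x _ hx =>
      have : ρ g (c • x) = c • ρ g x := ZMod.map_smul (ρ g) c x
      rw [this]
      exact Submodule.smul_mem _ _ hx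
  have hUW : ∀ u ∈ U, u ∈ W := by
    intro u hu
    rw [hU] at hu
    induction hu using Submodule.span_induction with
    | mem x hx =>
      obtain ⟨h, rfl⟩ := hx
      exact hinv h w hwW
    | zero => exact W.zero_mem
    | add x y _ _ hx hy => exact add_mem hx hy
    | smul c x _ hx =>
      have : c • x = c.val • x := by
        conv_lhs => rw [← ZMod.natCast_zmod_val c]
        rw [Nat.cast_smul_eq_nsmul]
      rw [this]
      exact nsmul_mem hx _
  letI : MulAction P U :=
    { smul := fun g u => ⟨ρ g u.1, hUinv g u.1 u.2⟩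
      one_smul := fun u => Subtype.ext (by change ρ 1 u.1 = u.1; simp)
      mul_smul := fun g h u => Subtype.ext (by
        change ρ (g * h) u.1 = ρ g (ρ h u.1)
        simp [map_mul]) }
  have hsm : ∀ (g : P) (u : U), ((g • u : U) : M) = ρ g u.1 := fun g u => rfl
  have hwU : w ∈ U := by
    rw [hU]
    apply Submodule.subset_span
    exact ⟨1, by simp⟩
  have hp : p ∣ Nat.card U := by
    have hx : (⟨w, hwU⟩ : U) ≠ 0 := by
      intro h
      exact hw0 (congrArg Subtype.val h)
    have hpx : p • (⟨w, hwU⟩ : U) = 0 := by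
      apply Subtype.ext
      change p • w = 0
      exact hpM w
    have h1 : addOrderOf (⟨w, hwU⟩ : U) ∣ p := addOrderOf_dvd_of_nsmul_eq_zero hpx
    have h2 : addOrderOf (⟨w, hwU⟩ : U) = p := by
      rcases (Nat.dvd_prime (Fact.out : p.Prime)).mp h1 with h | h
      · exact absurd (AddMonoid.addOrderOf_eq_one_iff.mp h) hx
      · exact h
    have h3 := addOrderOf_dvd_natCard (⟨w, hwU⟩ : U)
    rw [h2] at h3
    exact h3
  have h0 : (0 : U) ∈ MulAction.fixedPoints P U := by
    intro g
    apply Subtype.ext
    rw [hsm]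
    simp
  obtain ⟨b, hb, hb0⟩ := hP.exists_fixed_point_of_prime_dvd_card_of_fixed_point U hp h0
  refine ⟨b.1, hUW b.1 b.2, ?_, fun g => ?_⟩
  · intro h
    exact hb0 (Subtype.ext h.symm)
  · have := congrArg Subtype.val (hb g)
    rw [hsm] at this
    exact this

/-- A Sylow `p`-subgroup is transitive on a transitive `G`-set of `p`-power size. -/
theorem sylow_transitive {G : Type*} [Group G] [Finite G] {p f : ℕ} [Fact p.Prime]
    {Ω : Type*} [Finite Ω] [MulAction G Ω] [MulAction.IsPretransitive G Ω]
    (hcard : Nat.card Ω = p ^ f) (P : Sylow p G) (x y : Ω) :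
    ∃ g ∈ (P : Subgroup G), g • x = y := by
  classical
  have hp : p.Prime := Fact.out
  have hidx : (MulAction.stabilizer G x).index = p ^ f := by
    rw [MulAction.index_stabilizer_of_transitive, hcard]
  have h1 : ((P : Subgroup G) ⊓ MulAction.stabilizer G x).relIndex P * (P : Subgroup G).index
      = ((P : Subgroup G) ⊓ MulAction.stabilizer G x).relIndex (MulAction.stabilizer G x)
        * (MulAction.stabilizer G x).index := by
    rw [Subgroup.relIndex_mul_index inf_le_left, Subgroup.relIndex_mul_index inf_le_right]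
  have hcop : Nat.Coprime (p ^ f) (P : Subgroup G).index :=
    Nat.Coprime.pow_left f ((Nat.Prime.coprime_iff_not_dvd hp).mpr P.not_dvd_index)
  have hdvd : p ^ f ∣ ((P : Subgroup G) ⊓ MulAction.stabilizer G x).relIndex P := by
    have : p ^ f ∣ ((P : Subgroup G) ⊓ MulAction.stabilizer G x).relIndex P
        * (P : Subgroup G).index := by
      rw [h1, hidx]
      exact dvd_mul_left _ _
    exact hcop.dvd_of_dvd_mul_right this
  have hstab : MulAction.stabilizer (↥(P : Subgroup G)) x
      = (MulAction.stabilizer G x).subgroupOf P := by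
    ext g
    rw [Subgroup.mem_subgroupOf, MulAction.mem_stabilizer_iff, MulAction.mem_stabilizer_iff]
    rfl
  have horb : (MulAction.orbit (↥(P : Subgroup G)) x).ncard
      = ((P : Subgroup G) ⊓ MulAction.stabilizer G x).relIndex P := by
    rw [← MulAction.index_stabilizer, hstab, Subgroup.inf_relIndex_left]
    rfl
  have huniv : MulAction.orbit (↥(P : Subgroup G)) x = Set.univ := by
    apply Set.eq_of_subset_of_ncard_le (Set.subset_univ _)
    rw [Set.ncard_univ, hcard, horb]
    refine Nat.le_of_dvd (Nat.pos_of_ne_zero ?_) hdvd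
    exact Subgroup.index_ne_zero_of_finite
  have hy : y ∈ MulAction.orbit (↥(P : Subgroup G)) x := by
    rw [huniv]
    trivial
  obtain ⟨g, hg⟩ := hy
  exact ⟨g.1, g.2, hg⟩

end Cfsg.Agent.Lib.Helper2.PFix
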