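import Mathlib
import Cfsg.Agent.S0673

set_option autoImplicit false

namespace Cfsg.Agent.Lib.Helper2.PrimeDeg

open Polynomial

variable {α : Type*} {K : Type*} [Field K] {p : ℕ}

/-- polynomial functions of degree `< r` in `ι`. -/
def M (ι : α → K) (r : ℕ) : Submodule K (α → K) where
  carrier := {f | ∃ P : K[X], P.degree < (r : WithBot ℕ) ∧ ∀ a, f a = P.eval (ι a)}
  add_mem' := by
    rintro f g ⟨P, hP, hf⟩ ⟨Q, hQ, hg⟩
    refine ⟨P + Q, lt_of_le_of_lt (Polynomial.degree_add_le P Q) (max_lt hP hQ), fun a => ?_⟩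
    simp [hf a, hg a]
  zero_mem' := ⟨0, by simp [WithBot.bot_lt_coe], fun a => by simp⟩
  smul_mem' := by
    rintro c f ⟨P, hP, hf⟩
    refine ⟨c • P, lt_of_le_of_lt (Polynomial.degree_smul_le c P) hP, fun a => ?_⟩
    simp [hf a]

theorem mem_M {ι : α → K} {r : ℕ} {f : α → K} :
    f ∈ M ι r ↔ ∃ P : K[X], P.degree < (r : WithBot ℕ) ∧ ∀ a, f a = P.eval (ι a) := Iff.rfl

theorem M_mono (ι : α → K) {r s : ℕ} (h : r ≤ s) : M ι r ≤ M ι s := by
  rintro f ⟨P, hP, hf⟩
  exact ⟨P, lt_of_lt_of_le hP (by exact_mod_cast h), hf⟩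

theorem pow_mem (ι : α → K) (k : ℕ) : (fun a => ι a ^ k) ∈ M ι (k + 1) :=
  ⟨X ^ k, by rw [Polynomial.degree_X_pow]; exact_mod_cast Nat.lt_succ_self k, fun a => by simp⟩

theorem iota_mem (ι : α → K) : ι ∈ M ι 2 :=
  ⟨X, by rw [Polynomial.degree_X]; exact_mod_cast one_lt_two, fun a => by simp⟩

theorem eval_range {P : K[X]} {n : ℕ} (h : P.degree < (n : WithBot ℕ)) (x : K) :
    P.eval x = ∑ i ∈ Finset.range n, P.coeff i * x ^ i := by
  by_cases hP : P = 0
  · simp [hP]
  · exact Polynomial.eval_eq_sum_range' ((Polynomial.natDegree_lt_iff_degree_lt hP).mpr h) x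

theorem poly_unique [Fintype α] {ι : α → K} (hι : Function.Injective ι) {P Q : K[X]}
    (hP : P.degree < (Fintype.card α : WithBot ℕ)) (hQ : Q.degree < (Fintype.card α : WithBot ℕ))
    (h : ∀ a, P.eval (ι a) = Q.eval (ι a)) : P = Q := by
  have hd : (P - Q).degree < (Fintype.card α : WithBot ℕ) :=
    lt_of_le_of_lt (Polynomial.degree_sub_le P Q) (max_lt hP hQ)
  by_cases h0 : P - Q = 0
  · exact sub_eq_zero.mp h0
  · have := Polynomial.eq_zero_of_natDegree_lt_card_of_eval_eq_zero (P - Q) hι
      (fun a => by simp [h a]) ((Polynomial.natDegree_lt_iff_degree_lt h0).mpr hd)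
    exact absurd this h0

theorem pow_not_mem [Fintype α] {ι : α → K} (hι : Function.Injective ι) {k : ℕ}
    (hk : k < Fintype.card α) : (fun a => ι a ^ k) ∉ M ι k := by
  rintro ⟨P, hP, hf⟩
  have : (X ^ k : K[X]) = P := poly_unique hι (by rw [degree_X_pow]; exact_mod_cast hk)
    (lt_trans hP (by exact_mod_cast hk)) (fun a => by simpa using hf a)
  rw [← this, degree_X_pow] at hP
  exact lt_irrefl _ hP

theorem M_le_imp [Fintype α] {ι : α → K} (hι : Function.Injective ι) {r s : ℕ}
    (hr : r ≤ Fintype.card α) (h : M ι r ≤ M ι s) : r ≤ s := by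
  by_contra hlt
  push Not at hlt
  exact pow_not_mem hι (lt_of_lt_of_le hlt hr) (h (M_mono ι (Nat.succ_le_of_lt hlt) (pow_mem ι s)))

/-- the coordinate function. -/
noncomputable def iota (K : Type*) [Field K] {p : ℕ} (e : α ≃ ZMod p) : α → K :=
  fun a => ((e a).cast : K)

theorem iota_inj [Fact p.Prime] [CharP K p] (e : α ≃ ZMod p) :
    Function.Injective (iota K e) := by
  intro a b h
  have : (ZMod.castHom (dvd_refl p) K) (e a) = (ZMod.castHom (dvd_refl p) K) (e b) := by
    simpa [iota] using h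
  exact e.injective ((ZMod.castHom (dvd_refl p) K).injective this)

theorem card_eq [Fintype α] [Fact p.Prime] (e : α ≃ ZMod p) : Fintype.card α = p := by
  rw [Fintype.card_congr e, ZMod.card]

theorem psum [Fintype α] [Fact p.Prime] [CharP K p] (e : α ≃ ZMod p) {k : ℕ} (hk : k < p - 1) :
    ∑ a, (iota K e a) ^ k = 0 := by
  have h1 : ∑ a, (iota K e a) ^ k = ∑ j : ZMod p, ((ZMod.castHom (dvd_refl p) K) j) ^ k := by
    rw [← Equiv.sum_comp e]
    rfl
  rw [h1]
  simp_rw [← map_pow]
  rw [← map_sum, FiniteField.sum_pow_lt_card_sub_one (ZMod p) k (by rw [ZMod.card]; exact hk),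
    map_zero]

theorem ptop [Fintype α] [Fact p.Prime] [CharP K p] (e : α ≃ ZMod p) :
    ∑ a, (iota K e a) ^ (p - 1) = -1 := by
  classical
  have hp : p.Prime := Fact.out
  have h1 : ∑ a, (iota K e a) ^ (p - 1)
      = ∑ j : ZMod p, ((ZMod.castHom (dvd_refl p) K) j) ^ (p - 1) := by
    rw [← Equiv.sum_comp e]
    rfl
  rw [h1]
  simp_rw [← map_pow]
  rw [← map_sum]
  have h2 : ∑ j : ZMod p, j ^ (p - 1) = -1 := by
    have h3 : ∀ j : ZMod p, j ^ (p - 1) = 1 - (if j = 0 then 1 else 0) := by
      intro j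
      by_cases hj : j = 0
      · have : p - 1 ≠ 0 := by have := hp.two_le; omega
        simp [hj, this]
      · simp [hj, ZMod.pow_card_sub_one_eq_one hj]
    rw [Finset.sum_congr rfl (fun j _ => h3 j), Finset.sum_sub_distrib, Finset.sum_ite_eq']
    simp
  rw [h2, map_neg, map_one]

theorem sum_eval [Fintype α] [Fact p.Prime] [CharP K p] (e : α ≃ ZMod p) (P : K[X])
    (hP : P.degree < (p : WithBot ℕ)) :
    ∑ a, P.eval (iota K e a) = - P.coeff (p - 1) := by
  classical
  have hp : p.Prime := Fact.out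
  calc ∑ a, P.eval (iota K e a)
      = ∑ a, ∑ i ∈ Finset.range p, P.coeff i * (iota K e a) ^ i :=
        Finset.sum_congr rfl (fun a _ => eval_range hP _)
    _ = ∑ i ∈ Finset.range p, P.coeff i * ∑ a, (iota K e a) ^ i := by
        rw [Finset.sum_comm]
        exact Finset.sum_congr rfl (fun i _ => (Finset.mul_sum _ _ _).symm)
    _ = P.coeff (p - 1) * ∑ a, (iota K e a) ^ (p - 1) := by
        apply Finset.sum_eq_single (p - 1)
        · intro i hi hne
          rw [psum e (by have := Finset.mem_range.mp hi; omega), mul_zero]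
        · intro h
          exact absurd (Finset.mem_range.mpr (by have := hp.two_le; omega)) h
    _ = - P.coeff (p - 1) := by rw [ptop e]; ring

/-- translation-invariant subspaces are of the form `M r`. -/
theorem tlemma [Fact p.Prime] [CharP K p] (e : α ≃ ZMod p) (s : Equiv.Perm α)
    (hs : ∀ a, e (s a) = e a - 1) (W : Submodule K (α → K))
    (hW : ∀ f ∈ W, (fun a => f (s a)) ∈ W) :
    ∃ r, r ≤ p ∧ W = M (iota K e) r := by
  classical
  obtain ⟨r, hr, -, hmem⟩ := Cfsg.Agent.S0673.result (p := p) (K := K)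
    (W.comap (LinearMap.funLeft K K e)) (by
      intro f hf
      rw [Submodule.mem_comap] at hf ⊢
      have := hW _ hf
      convert this using 1
      funext a
      simp [LinearMap.funLeft_apply, hs])
  refine ⟨r, hr, ?_⟩
  ext f
  rw [mem_M]
  have h1 : f ∈ W ↔ (fun j => f (e.symm j)) ∈ W.comap (LinearMap.funLeft K K e) := by
    rw [Submodule.mem_comap]
    have : LinearMap.funLeft K K e (fun j => f (e.symm j)) = f := by
      funext a; simp [LinearMap.funLeft_apply]
    rw [this]
  rw [h1, hmem]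
  constructor
  · rintro ⟨P, hP, h⟩
    exact ⟨P, hP, fun a => by have := h (e a); simpa [iota] using this⟩
  · rintro ⟨P, hP, h⟩
    exact ⟨P, hP, fun j => by have := h (e.symm j); simpa [iota] using this⟩

theorem M_top [Fact p.Prime] [CharP K p] (e : α ≃ ZMod p) : M (iota K e) p = ⊤ := by
  obtain ⟨r, hr, h⟩ := tlemma (K := K) e (e.trans ((Equiv.subRight 1).trans e.symm))
    (fun a => by simp) ⊤ (fun f _ => Submodule.mem_top)
  exact top_le_iff.mp (h ▸ M_mono _ hr)

theorem M_one (ι : α → K) : M ι 1 = Submodule.span K {fun _ => (1 : K)} := by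
  ext f
  rw [mem_M, Submodule.mem_span_singleton]
  constructor
  · rintro ⟨P, hP, hf⟩
    have hle : P.degree ≤ 0 := by
      rw [Polynomial.degree_le_iff_coeff_zero]
      intro m hm
      exact (Polynomial.degree_lt_iff_coeff_zero P 1).mp hP m
        (Nat.succ_le_of_lt (by exact_mod_cast hm))
    refine ⟨P.coeff 0, funext fun a => ?_⟩
    rw [hf a, Polynomial.eq_C_of_degree_le_zero hle]
    simp
  · rintro ⟨c, rfl⟩
    refine ⟨C c, lt_of_le_of_lt Polynomial.degree_C_le (by exact_mod_cast zero_lt_one), fun a => ?_⟩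
    simp

theorem M_zero (ι : α → K) : M ι 0 = ⊥ := by
  rw [eq_bot_iff]
  rintro f ⟨P, hP, hf⟩
  have : P = 0 := by
    rw [← Polynomial.degree_eq_bot]
    exact Nat.WithBot.lt_zero_iff.mp hP
  rw [Submodule.mem_bot]
  funext a
  rw [hf a, this]; simp

theorem M_pred [Fintype α] [Fact p.Prime] [CharP K p] (e : α ≃ ZMod p) (f : α → K) :
    f ∈ M (iota K e) (p - 1) ↔ ∑ a, f a = 0 := by
  have hp : p.Prime := Fact.out
  constructor
  · rintro ⟨P, hP, hf⟩
    have hP' : P.degree < (p : WithBot ℕ) :=
      lt_of_lt_of_le hP (by exact_mod_cast Nat.sub_le p 1)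
    rw [Finset.sum_congr rfl (fun a _ => hf a), sum_eval e P hP',
      (Polynomial.degree_lt_iff_coeff_zero P (p - 1)).mp hP (p - 1) le_rfl, neg_zero]
  · intro h
    have hf : f ∈ M (iota K e) p := by rw [M_top]; exact Submodule.mem_top
    obtain ⟨P, hP, hf⟩ := hf
    refine ⟨P, ?_, hf⟩
    rw [Finset.sum_congr rfl (fun a _ => hf a), sum_eval e P hP, neg_eq_zero] at h
    rw [Polynomial.degree_lt_iff_coeff_zero]
    intro m hm
    rcases Nat.eq_or_lt_of_le hm with h1 | h1
    · rw [← h1]; exact h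
    · exact (Polynomial.degree_lt_iff_coeff_zero P p).mp hP m (by omega)

/-- orthogonal complement for the standard form. -/
def perp [Fintype α] (W : Submodule K (α → K)) : Submodule K (α → K) where
  carrier := {h | ∀ f ∈ W, ∑ a, f a * h a = 0}
  add_mem' := by
    intro h₁ h₂ H₁ H₂ f hf
    have e1 := H₁ f hf
    have e2 := H₂ f hf
    simp only [Pi.add_apply, mul_add, Finset.sum_add_distrib, e1, e2, add_zero]
  zero_mem' := by intro f hf; simp
  smul_mem' := by
    intro c h H f hf
    have e1 := H f hf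
    have : ∑ a, f a * (c • h) a = c * ∑ a, f a * h a := by
      rw [Finset.mul_sum]
      exact Finset.sum_congr rfl fun a _ => by simp only [Pi.smul_apply, smul_eq_mul]; ring
    rw [this, e1, mul_zero]

theorem mem_perp [Fintype α] {W : Submodule K (α → K)} {h : α → K} :
    h ∈ perp W ↔ ∀ f ∈ W, ∑ a, f a * h a = 0 := Iff.rfl

/-- invariance under a permutation group. -/
def Inv (G : Subgroup (Equiv.Perm α)) (W : Submodule K (α → K)) : Prop :=
  ∀ g ∈ G, ∀ f ∈ W, (fun a => f (g a)) ∈ W

theorem perp_inv [Fintype α] {G : Subgroup (Equiv.Perm α)} {W : Submodule K (α → K)}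
    (hW : Inv G W) : Inv G (perp W) := by
  intro g hg h hh f hf
  have h1 := hh _ (hW g⁻¹ (G.inv_mem hg) f hf)
  have h2 := Equiv.sum_comp g (fun b => f (g⁻¹ b) * h b)
  have h3 : ∑ a, f a * h (g a) = ∑ b, f (g⁻¹ b) * h b := by
    rw [← h2]
    exact Finset.sum_congr rfl fun a _ => by simp
  show ∑ a, f a * h (g a) = 0
  rw [h3]; exact h1

theorem perp_M [Fintype α] [Fact p.Prime] [CharP K p] (e : α ≃ ZMod p) {r : ℕ} (hr : r ≤ p) :
    perp (M (iota K e) r) = M (iota K e) (p - r) := by
  classical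
  have hp : p.Prime := Fact.out
  apply le_antisymm
  · intro h hh
    have hf : h ∈ M (iota K e) p := by rw [M_top]; exact Submodule.mem_top
    obtain ⟨Q, hQ, hQe⟩ := hf
    by_cases hQ0 : Q = 0
    · have : h = 0 := by funext a; rw [hQe a, hQ0]; simp
      rw [this]; exact Submodule.zero_mem _
    refine ⟨Q, ?_, hQe⟩
    rw [← Polynomial.natDegree_lt_iff_degree_lt hQ0]
    by_contra hcon
    push Not at hcon
    have hm : Q.natDegree < p := (Polynomial.natDegree_lt_iff_degree_lt hQ0).mpr hQ
    have hmem : (fun a => iota K e a ^ (p - 1 - Q.natDegree)) ∈ M (iota K e) r :=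
      M_mono _ (by omega) (pow_mem _ _)
    have h0 := hh _ hmem
    have h1 : ∑ a, iota K e a ^ (p - 1 - Q.natDegree) * h a
        = ∑ i ∈ Finset.range (Q.natDegree + 1),
            Q.coeff i * ∑ a, iota K e a ^ (p - 1 - Q.natDegree + i) := by
      rw [Finset.sum_congr rfl (fun a _ => by rw [hQe a, Polynomial.eval_eq_sum_range,
        Finset.mul_sum])]
      rw [Finset.sum_comm]
      refine Finset.sum_congr rfl fun i _ => ?_
      rw [Finset.mul_sum]
      exact Finset.sum_congr rfl fun a _ => by ring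
    rw [h1, Finset.sum_eq_single Q.natDegree] at h0
    · rw [show p - 1 - Q.natDegree + Q.natDegree = p - 1 by omega, ptop e] at h0
      have : Q.leadingCoeff = 0 := by
        have h2 : Q.coeff Q.natDegree = 0 := by
          have := h0
          rw [mul_neg, mul_one, neg_eq_zero] at this
          exact this
        exact h2
      exact hQ0 (Polynomial.leadingCoeff_eq_zero.mp this)
    · intro i hi hne
      rw [psum e (by have := Finset.mem_range.mp hi; omega), mul_zero]
    · intro h
      exact absurd (Finset.mem_range.mpr (Nat.lt_succ_self _)) h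
  · rintro h ⟨Q, hQ, hQe⟩ f ⟨P, hP, hPe⟩
    calc ∑ a, f a * h a
        = ∑ a, ∑ i ∈ Finset.range r, ∑ j ∈ Finset.range (p - r),
            (P.coeff i * Q.coeff j) * iota K e a ^ (i + j) := by
          refine Finset.sum_congr rfl fun a _ => ?_
          rw [hPe a, hQe a, eval_range hP, eval_range hQ, Finset.sum_mul_sum]
          exact Finset.sum_congr rfl fun i _ => Finset.sum_congr rfl fun j _ => by ring
      _ = ∑ i ∈ Finset.range r, ∑ j ∈ Finset.range (p - r),
            (P.coeff i * Q.coeff j) * ∑ a, iota K e a ^ (i + j) := by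
          rw [Finset.sum_comm]
          refine Finset.sum_congr rfl fun i _ => ?_
          rw [Finset.sum_comm]
          refine Finset.sum_congr rfl fun j _ => ?_
          rw [Finset.mul_sum]
      _ = 0 := by
          refine Finset.sum_eq_zero fun i hi => Finset.sum_eq_zero fun j hj => ?_
          rw [psum e (by
            have := Finset.mem_range.mp hi
            have := Finset.mem_range.mp hj
            omega), mul_zero]

end Cfsg.Agent.Lib.Helper2.PrimeDeg
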