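import Mathlib
import Cfsg.Agent.Lib.Helper2.PrimeDeg

set_option autoImplicit false

namespace Cfsg.Agent.Lib.Helper2.PrimeDeg

open Polynomial

variable {α : Type*} {K : Type*} [Field K] {p : ℕ}

theorem exists_cycle [Fintype α] [Fact p.Prime] (hcard : Fintype.card α = p)
    (G : Subgroup (Equiv.Perm α)) [MulAction.IsPretransitive G α] :
    ∃ t ∈ G, ∃ e : α ≃ ZMod p, ∀ a, e (t a) = e a + 1 := by
  classical
  have hp : p.Prime := Fact.out
  have hne : Nonempty α := by
    rw [← Fintype.card_pos_iff, hcard]; exact hp.pos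
  obtain ⟨a₁⟩ := hne
  have hdvd : p ∣ Nat.card G := by
    have h1 := MulAction.index_stabilizer_of_transitive G a₁
    have h2 := Subgroup.index_dvd_card (MulAction.stabilizer G a₁)
    rw [h1, Nat.card_eq_fintype_card, hcard] at h2
    exact h2
  obtain ⟨t', ht'⟩ := exists_prime_orderOf_dvd_card' p hdvd
  have hord : orderOf (t' : Equiv.Perm α) = p := by rw [Subgroup.orderOf_coe]; exact ht'
  have htG : (t' : Equiv.Perm α) ∈ G := t'.2
  clear ht'
  generalize (t' : Equiv.Perm α) = t at hord htG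
  have ht1 : t ≠ 1 := by
    intro h
    rw [h, orderOf_one] at hord
    exact hp.one_lt.ne hord
  obtain ⟨a₀, ha₀⟩ : ∃ a₀, t a₀ ≠ a₀ := by
    by_contra hcon
    push Not at hcon
    exact ht1 (Equiv.ext hcon)
  have hfix : ∀ n : ℕ, (t ^ n) a₀ = a₀ → p ∣ n := by
    intro n hn
    by_contra hnd
    have hcop : Nat.Coprime n (orderOf t) := by
      rw [hord]; exact (Nat.Coprime.symm ((Nat.Prime.coprime_iff_not_dvd hp).mpr hnd))
    obtain ⟨m, hm⟩ := exists_pow_eq_self_of_coprime hcop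
    apply ha₀
    have := Equiv.Perm.pow_apply_eq_self_of_apply_eq_self hn m
    rw [hm] at this
    exact this
  have key : ∀ m n : ℕ, m ≤ n → n < p → (t ^ m) a₀ = (t ^ n) a₀ → m = n := by
    intro m n hmn hn h
    obtain ⟨d, rfl⟩ := Nat.exists_eq_add_of_le hmn
    rw [pow_add, Equiv.Perm.mul_apply] at h
    have h2 := (t ^ m).injective h
    have h3 := hfix d h2.symm
    have : d = 0 := Nat.eq_zero_of_dvd_of_lt h3 (by omega)
    omega
  let ψ : ZMod p → α := fun j => (t ^ j.val) a₀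
  have hψ1 : ∀ j, ψ (j + 1) = t (ψ j) := by
    intro j
    show (t ^ (j + 1).val) a₀ = t ((t ^ j.val) a₀)
    rw [← Equiv.Perm.mul_apply, ← pow_succ']
    congr 1
    rw [pow_eq_pow_iff_modEq, hord, ZMod.val_add, ZMod.val_one]
    exact Nat.mod_modEq _ _
  have hinj : Function.Injective ψ := by
    intro i j h
    apply ZMod.val_injective
    rcases le_total i.val j.val with hij | hij
    · exact key _ _ hij (ZMod.val_lt j) h
    · exact (key _ _ hij (ZMod.val_lt i) h.symm).symm
  have hbij : Function.Bijective ψ :=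
    (Fintype.bijective_iff_injective_and_card ψ).mpr ⟨hinj, by rw [ZMod.card, hcard]⟩
  refine ⟨t, htG, (Equiv.ofBijective ψ hbij).symm, fun a => ?_⟩
  have h1 : t a = ψ ((Equiv.ofBijective ψ hbij).symm a + 1) := by
    rw [hψ1]
    congr 1
    exact ((Equiv.ofBijective ψ hbij).apply_symm_apply a).symm
  rw [h1]
  exact (Equiv.ofBijective ψ hbij).symm_apply_apply _

theorem solvable_of_M2 [Fintype α] [Fact p.Prime] [CharP K p] (e : α ≃ ZMod p)
    (G : Subgroup (Equiv.Perm α)) (h : Inv G (M (iota K e) 2)) : Group.IsSolvable G := by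
  classical
  have hinj := iota_inj (K := K) e
  have hAB : ∀ g ∈ G, ∃ A B : K, A ≠ 0 ∧ ∀ a, iota K e (g a) = A * iota K e a + B := by
    intro g hg
    obtain ⟨P, hP, hf0⟩ := h g hg _ (iota_mem _)
    have hf : ∀ a, iota K e (g a) = P.eval (iota K e a) := hf0
    have hle : P.degree ≤ 1 := by
      rw [Polynomial.degree_le_iff_coeff_zero]
      intro m hm
      exact (Polynomial.degree_lt_iff_coeff_zero P 2).mp hP m
        (Nat.succ_le_of_lt (by exact_mod_cast hm))
    have hPe := Polynomial.eq_X_add_C_of_degree_le_one hle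
    have hf' : ∀ a, iota K e (g a) = P.coeff 1 * iota K e a + P.coeff 0 := by
      intro a
      rw [hf a]
      conv_lhs => rw [hPe]
      simp
    refine ⟨P.coeff 1, P.coeff 0, ?_, hf'⟩
    intro hA
    have h0 := hf' (e.symm 0)
    have h1 := hf' (e.symm 1)
    rw [hA, zero_mul] at h0 h1
    have := e.symm.injective (g.injective (hinj (h0.trans h1.symm)))
    exact zero_ne_one this
  let T : Subgroup G :=
    { carrier := {g | ∃ c : K, ∀ a, iota K e ((g : Equiv.Perm α) a) = iota K e a + c}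
      mul_mem' := by
        rintro g₁ g₂ ⟨c₁, h₁⟩ ⟨c₂, h₂⟩
        refine ⟨c₂ + c₁, fun a => ?_⟩
        rw [Subgroup.coe_mul, Equiv.Perm.mul_apply, h₁, h₂, add_assoc]
      one_mem' := ⟨0, fun a => by simp⟩
      inv_mem' := by
        rintro g ⟨c, hc⟩
        refine ⟨-c, fun a => ?_⟩
        have := hc (((g : Equiv.Perm α))⁻¹ a)
        rw [show (g : Equiv.Perm α) ((g : Equiv.Perm α)⁻¹ a) = a from
          (g : Equiv.Perm α).apply_symm_apply a] at this
        rw [Subgroup.coe_inv, this]; ring }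
  have hcomm : ⁅(⊤ : Subgroup G), ⊤⁆ ≤ T := by
    rw [Subgroup.commutator_le]
    intro g₁ _ g₂ _
    obtain ⟨A₁, B₁, hA₁, h₁⟩ := hAB g₁ g₁.2
    obtain ⟨A₂, B₂, hA₂, h₂⟩ := hAB g₂ g₂.2
    have hi₁ : ∀ a, iota K e ((g₁ : Equiv.Perm α)⁻¹ a) = (iota K e a - B₁) / A₁ := by
      intro a
      have := h₁ ((g₁ : Equiv.Perm α)⁻¹ a)
      rw [show (g₁ : Equiv.Perm α) ((g₁ : Equiv.Perm α)⁻¹ a) = a from
        (g₁ : Equiv.Perm α).apply_symm_apply a] at this
      rw [this]; field_simp; ring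
    have hi₂ : ∀ a, iota K e ((g₂ : Equiv.Perm α)⁻¹ a) = (iota K e a - B₂) / A₂ := by
      intro a
      have := h₂ ((g₂ : Equiv.Perm α)⁻¹ a)
      rw [show (g₂ : Equiv.Perm α) ((g₂ : Equiv.Perm α)⁻¹ a) = a from
        (g₂ : Equiv.Perm α).apply_symm_apply a] at this
      rw [this]; field_simp; ring
    refine ⟨-B₂ - A₂ * B₁ + A₁ * B₂ + B₁, fun a => ?_⟩
    rw [commutatorElement_def]
    simp only [Subgroup.coe_mul, Subgroup.coe_inv, Equiv.Perm.mul_apply]
    rw [h₁, h₂, hi₁, hi₂]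
    field_simp
    ring
  have hab : ⁅T, T⁆ = ⊥ := by
    rw [Subgroup.commutator_eq_bot_iff_le_centralizer]
    rintro u ⟨c₁, h₁⟩
    rw [Subgroup.mem_centralizer_iff]
    rintro v ⟨c₂, h₂⟩
    apply Subtype.ext
    apply Equiv.ext
    intro a
    apply hinj
    rw [Subgroup.coe_mul, Subgroup.coe_mul, Equiv.Perm.mul_apply, Equiv.Perm.mul_apply,
      h₁, h₂, h₂, h₁]
    ring
  rw [Group.isSolvable_def]
  refine ⟨2, ?_⟩
  rw [derivedSeries_succ, derivedSeries_succ, derivedSeries_zero, eq_bot_iff, ← hab]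
  exact Subgroup.commutator_mono hcomm hcomm

theorem inv_span (ι : α → K) (G : Subgroup (Equiv.Perm α)) :
    Inv G (Submodule.span K (Set.range (fun g : G => (fun a => ι ((g : Equiv.Perm α) a))))) := by
  intro h hh f hf
  have : Submodule.span K (Set.range (fun g : G => (fun a => ι ((g : Equiv.Perm α) a))))
      ≤ (Submodule.span K (Set.range (fun g : G => (fun a => ι ((g : Equiv.Perm α) a))))).comap
        (LinearMap.funLeft K K h) := by
    apply Submodule.span_le.mpr
    rintro _ ⟨g, rfl⟩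
    simp only [SetLike.mem_coe, Submodule.mem_comap]
    apply Submodule.subset_span
    exact ⟨g * ⟨h, hh⟩, by funext a; simp [LinearMap.funLeft_apply]⟩
  exact this hf

theorem inv_two [Fintype α] [Fact p.Prime] [CharP K p] (e : α ≃ ZMod p)
    (G : Subgroup (Equiv.Perm α)) (s : Equiv.Perm α) (hsG : s ∈ G)
    (hs : ∀ a, e (s a) = e a - 1) (r₀ : ℕ) (h2 : 2 ≤ r₀) (hr : r₀ + 2 ≤ p)
    (hinv : Inv G (M (iota K e) r₀)) : Inv G (M (iota K e) 2) := by
  classical
  have hp : p.Prime := Fact.out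
  have hcard : Fintype.card α = p := card_eq e
  have hinj := iota_inj (K := K) e
  have hex : ∃ r, 2 ≤ r ∧ r + 2 ≤ p ∧ Inv G (M (iota K e) r) := ⟨r₀, h2, hr, hinv⟩
  obtain ⟨hr2, hrp, hrinv⟩ := Nat.find_spec hex
  have hmin : ∀ r', 2 ≤ r' → r' + 2 ≤ p → Inv G (M (iota K e) r') → Nat.find hex ≤ r' :=
    fun r' a b c => Nat.find_min' hex ⟨a, b, c⟩
  obtain ⟨r, hrdef⟩ : ∃ r, r = Nat.find hex := ⟨_, rfl⟩
  rw [← hrdef] at hr2 hrp hrinv hmin
  rcases Nat.eq_or_lt_of_le hr2 with h2r | h2r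
  · rw [h2r]; exact hrinv
  exfalso
  -- r ≥ 3
  obtain ⟨U, hU⟩ : ∃ U, U = Submodule.span K
      (Set.range (fun g : G => (fun a => iota K e ((g : Equiv.Perm α) a)))) := ⟨_, rfl⟩
  have hUinv : Inv G U := by rw [hU]; exact inv_span _ G
  have hgen : ∀ g : G, (fun a => iota K e ((g : Equiv.Perm α) a)) ∈ M (iota K e) r :=
    fun g => hrinv g g.2 _ (M_mono _ hr2 (iota_mem _))
  have hUle : U ≤ M (iota K e) r := by
    rw [hU]
    apply Submodule.span_le.mpr
    rintro _ ⟨g, rfl⟩
    exact hgen g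
  obtain ⟨r', hr'p, hUr'⟩ := tlemma (K := K) e s hs U (fun f hf => hUinv s hsG f hf)
  have hιU : iota K e ∈ U := by
    rw [hU]
    apply Submodule.subset_span
    exact ⟨1, by funext a; simp⟩
  have hι1 : iota K e ∉ M (iota K e) 1 := by
    have := pow_not_mem (ι := iota K e) hinj (k := 1) (by rw [hcard]; exact hp.one_lt)
    simpa using this
  have hr'2 : 2 ≤ r' := by
    by_contra hcon
    push Not at hcon
    exact hι1 (M_mono _ (by omega) (hUr' ▸ hιU))
  have hr'r : r' ≤ r := M_le_imp hinj (by rw [hcard]; exact hr'p) (hUr' ▸ hUle)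
  have hrr' : r ≤ r' := hmin r' hr'2 (by omega) (hUr' ▸ hUinv)
  have hUr : U = M (iota K e) r := by rw [hUr', le_antisymm hr'r hrr']
  -- a generator of exact degree r - 1
  have hexg : ∃ g : G, (fun a => iota K e ((g : Equiv.Perm α) a)) ∉ M (iota K e) (r - 1) := by
    by_contra hcon
    push Not at hcon
    have hle : U ≤ M (iota K e) (r - 1) := by
      rw [hU]
      apply Submodule.span_le.mpr
      rintro _ ⟨g, rfl⟩
      exact hcon g
    have h1 : (fun a => iota K e a ^ (r - 1)) ∈ U := by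
      rw [hUr]
      have := pow_mem (iota K e) (r - 1)
      rwa [show r - 1 + 1 = r by omega] at this
    exact pow_not_mem hinj (by rw [hcard]; omega) (hle h1)
  obtain ⟨g, hg⟩ := hexg
  obtain ⟨P, hP, hPe0⟩ := hgen g
  have hPe : ∀ a, iota K e ((g : Equiv.Perm α) a) = P.eval (iota K e a) := hPe0
  have hP0 : P ≠ 0 := by
    rintro rfl
    apply hg
    have : (fun a => iota K e ((g : Equiv.Perm α) a)) = 0 := by
      funext a; rw [hPe a]; simp
    rw [this]; exact Submodule.zero_mem _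
  have hPd1 : P.natDegree < r := (Polynomial.natDegree_lt_iff_degree_lt hP0).mpr hP
  have hPd2 : r - 1 ≤ P.natDegree := by
    by_contra hcon
    push Not at hcon
    exact hg ⟨P, (Polynomial.natDegree_lt_iff_degree_lt hP0).mp hcon, hPe⟩
  have hPd : P.natDegree = r - 1 := by omega
  by_cases hcase : 2 * (r - 1) < p
  · -- squares
    have hsq : (fun a => iota K e a ^ 2) ∈ M (iota K e) r :=
      M_mono _ (by omega) (pow_mem (iota K e) 2)
    obtain ⟨Q, hQ, hQe0⟩ := hrinv g g.2 _ hsq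
    have hQe : ∀ a, iota K e ((g : Equiv.Perm α) a) ^ 2 = Q.eval (iota K e a) := hQe0
    have hPQ : P ^ 2 = Q := by
      apply poly_unique hinj
      · rw [hcard]
        have h1 : (P ^ 2).natDegree < p := by rw [Polynomial.natDegree_pow, hPd]; exact hcase
        exact (Polynomial.natDegree_lt_iff_degree_lt (pow_ne_zero 2 hP0)).mp h1
      · rw [hcard]
        exact lt_of_lt_of_le hQ (by exact_mod_cast (by omega : r ≤ p))
      · intro a
        rw [← hQe a, Polynomial.eval_pow, ← hPe a]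
    have hQ0 : Q ≠ 0 := by rw [← hPQ]; exact pow_ne_zero 2 hP0
    have h1 : Q.natDegree < r := (Polynomial.natDegree_lt_iff_degree_lt hQ0).mpr hQ
    rw [← hPQ, Polynomial.natDegree_pow, hPd] at h1
    omega
  · -- duality
    have h1 : Inv G (M (iota K e) (p - r)) := by
      rw [← perp_M e (by omega : r ≤ p)]
      exact perp_inv hrinv
    have := hmin (p - r) (by omega) (by omega) h1
    omega

end Cfsg.Agent.Lib.Helper2.PrimeDeg
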