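import Mathlib
import Cfsg.Agent.Lib.Helper2.PrimeDeg2

set_option autoImplicit false

namespace Cfsg.Agent.Lib.Helper2.PrimeDeg

open Polynomial

open Classical in
/-- adjacency operator of a relation. -/
noncomputable def adj {α : Type*} [Fintype α] (K : Type*) [Field K] (Δ : α → α → Prop) :
    (α → K) →ₗ[K] (α → K) where
  toFun := fun f x => ∑ y, if Δ x y then f y else 0
  map_add' := by
    intro f₁ f₂; funext x
    simp only [Pi.add_apply]
    rw [← Finset.sum_add_distrib]
    refine Finset.sum_congr rfl fun y _ => ?_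
    split_ifs <;> simp
  map_smul' := by
    intro c f; funext x
    simp only [Pi.smul_apply, smul_eq_mul, RingHom.id_apply]
    rw [Finset.mul_sum]
    refine Finset.sum_congr rfl fun y _ => ?_
    split_ifs <;> simp

open Classical in
theorem adj_apply {α : Type*} [Fintype α] (K : Type*) [Field K] (Δ : α → α → Prop)
    (f : α → K) (x : α) : adj K Δ f x = ∑ y, if Δ x y then f y else 0 := rfl

open Classical in
theorem adj_single {α : Type*} [Fintype α] [DecidableEq α] (K : Type*) [Field K]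
    (Δ : α → α → Prop) (x y : α) :
    adj K Δ (Pi.single y 1) x = if Δ x y then 1 else 0 := by
  rw [adj_apply, Finset.sum_eq_single y]
  · simp
  · intro z _ hz; simp [Pi.single_eq_of_ne hz]
  · intro h; exact absurd (Finset.mem_univ y) h

open Classical in
theorem adj_equivariant {α : Type*} [Fintype α] (K : Type*) [Field K] (Δ : α → α → Prop)
    (g : Equiv.Perm α) (hg : ∀ x y, Δ x y ↔ Δ (g x) (g y)) (f : α → K) :
    adj K Δ (fun a => f (g a)) = fun a => adj K Δ f (g a) := by
  funext x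
  rw [adj_apply, adj_apply, ← Equiv.sum_comp g (fun y => if Δ (g x) y then f y else 0)]
  refine Finset.sum_congr rfl fun y _ => ?_
  by_cases h : Δ x y
  · rw [if_pos h, if_pos ((hg x y).mp h)]
  · rw [if_neg h, if_neg (fun h' => h ((hg x y).mpr h'))]

theorem burnside_main {α : Type*} [Fintype α] [DecidableEq α] {p : ℕ} [Fact p.Prime]
    (e : α ≃ ZMod p) (G : Subgroup (Equiv.Perm α)) [MulAction.IsPretransitive G α]
    (s : Equiv.Perm α) (hsG : s ∈ G) (hs : ∀ a, e (s a) = e a - 1)
    (hsol : ¬ Group.IsSolvable G)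
    (a b c d : α) (hab : a ≠ b) (hcd : c ≠ d) (hno : ¬ ∃ g ∈ G, g a = c ∧ g b = d) : False := by
  classical
  have hp : p.Prime := Fact.out
  have hp2 := hp.two_le
  have hcard : Fintype.card α = p := card_eq e
  have hinj := iota_inj (K := ZMod p) e
  have hNS : ∀ r, 2 ≤ r → r + 2 ≤ p → ¬ Inv G (M (iota (ZMod p) e) r) := by
    intro r h1 h2 h3
    exact hsol (solvable_of_M2 e G (inv_two e G s hsG hs r h1 h2 h3))
  have hN2 : ¬ Inv G (M (iota (ZMod p) e) 2) := fun h => hsol (solvable_of_M2 e G h)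
  have hInvTop : Inv G (M (iota (ZMod p) e) p) := by
    rw [M_top]; intro g hg f hf; exact Submodule.mem_top
  have hInvPred : Inv G (M (iota (ZMod p) e) (p - 1)) := by
    intro g hg f hf
    rw [M_pred] at hf ⊢
    rw [← hf]
    exact Equiv.sum_comp g f
  have hp5 : 5 ≤ p := by
    by_contra hcon
    push Not at hcon
    have : p = 2 ∨ p = 3 ∨ p = 4 := by omega
    rcases this with h | h | h
    · exact hN2 (by
        rw [congrArg (M (iota (ZMod p) e)) (h.symm : 2 = p)]; exact hInvTop)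
    · exact hN2 (by
        rw [congrArg (M (iota (ZMod p) e)) (by omega : 2 = p - 1)]; exact hInvPred)
    · exact absurd hp (by rw [h]; norm_num)
  -- the orbital
  obtain ⟨Δ, hΔdef⟩ : ∃ Δ : α → α → Prop, Δ = fun x y => ∃ g ∈ G, g a = x ∧ g b = y :=
    ⟨_, rfl⟩
  have hΔinv : ∀ g ∈ G, ∀ x y, Δ x y ↔ Δ (g x) (g y) := by
    intro g hg x y
    rw [hΔdef]
    constructor
    · rintro ⟨h, hh, rfl, rfl⟩
      exact ⟨g * h, G.mul_mem hg hh, rfl, rfl⟩
    · rintro ⟨h, hh, h1, h2⟩
      refine ⟨g⁻¹ * h, G.mul_mem (G.inv_mem hg) hh, ?_, ?_⟩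
      · rw [Equiv.Perm.mul_apply, h1]; exact g.symm_apply_apply x
      · rw [Equiv.Perm.mul_apply, h2]; exact g.symm_apply_apply y
  obtain ⟨T, hTdef⟩ : ∃ T, T = adj (ZMod p) Δ := ⟨_, rfl⟩
  have hTeq : ∀ g ∈ G, ∀ f : α → ZMod p, T (fun x => f (g x)) = fun x => T f (g x) := by
    intro g hg f; rw [hTdef]; exact adj_equivariant _ Δ g (hΔinv g hg) f
  obtain ⟨k, hk⟩ : ∃ k, k = T (fun _ => 1) a := ⟨_, rfl⟩
  have hT1 : T (fun _ => 1) = fun _ => k := by
    funext x
    obtain ⟨g, hg⟩ := MulAction.exists_smul_eq G a x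
    have := congrFun (hTeq g g.2 (fun _ => 1)) a
    rw [hk]
    have hgx : (g : Equiv.Perm α) a = x := hg
    rw [← hgx]; exact this.symm
  obtain ⟨T', hT'def⟩ : ∃ T' : (α → ZMod p) →ₗ[ZMod p] (α → ZMod p),
      T' = T - k • LinearMap.id := ⟨_, rfl⟩
  have hT'app : ∀ f x, T' f x = T f x - k * f x := by
    intro f x; rw [hT'def]; simp
  have hT'eq : ∀ g ∈ G, ∀ f : α → ZMod p, T' (fun x => f (g x)) = fun x => T' f (g x) := by
    intro g hg f; funext x
    rw [hT'app, hT'app, hTeq g hg]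
  have hT'1 : T' (fun _ => 1) = 0 := by
    funext x; rw [hT'app, hT1]; simp
  have hkerInv : Inv G (LinearMap.ker T') := by
    intro g hg f hf
    rw [LinearMap.mem_ker] at hf ⊢
    rw [hT'eq g hg, hf]; rfl
  have hker2Inv : Inv G (LinearMap.ker (T' ∘ₗ T')) := by
    intro g hg f hf
    rw [LinearMap.mem_ker, LinearMap.comp_apply] at hf ⊢
    rw [hT'eq g hg, hT'eq g hg, hf]; rfl
  have hrangeInv : Inv G (LinearMap.range T') := by
    rintro g hg _ ⟨f, rfl⟩
    exact ⟨fun x => f (g x), hT'eq g hg f⟩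
  obtain ⟨r₁, hr₁p, hker⟩ := tlemma (K := ZMod p) e s hs _ (fun f hf => hkerInv s hsG f hf)
  have hι1 : iota (ZMod p) e ∉ M (iota (ZMod p) e) 1 := by
    have := pow_not_mem (ι := iota (ZMod p) e) hinj (k := 1) (by rw [hcard]; exact hp.one_lt)
    simpa using this
  have hone_ne : (fun _ : α => (1 : ZMod p)) ≠ 0 := by
    intro h
    have := congrFun h a
    simp at this
  have hr₁0 : r₁ ≠ 0 := by
    intro h0
    have h1 : (fun _ : α => (1 : ZMod p)) ∈ LinearMap.ker T' := LinearMap.mem_ker.mpr hT'1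
    rw [hker, h0, M_zero, Submodule.mem_bot] at h1
    exact hone_ne h1
  have hr₁cases : r₁ = 1 ∨ p - 1 ≤ r₁ := by
    by_contra hcon
    push Not at hcon
    exact hNS r₁ (by omega) (by omega) (by rw [← hker]; exact hkerInv)
  rcases hr₁cases with hr₁ | hr₁
  · -- ker T' = M 1
    rw [hr₁] at hker
    obtain ⟨s₁, hs₁p, hrange⟩ :=
      tlemma (K := ZMod p) e s hs _ (fun f hf => hrangeInv s hsG f hf)
    have hs₁0 : s₁ ≠ 0 := by
      intro h0
      have h1 : T' (iota (ZMod p) e) ∈ LinearMap.range T' := LinearMap.mem_range_self _ _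
      rw [hrange, h0, M_zero, Submodule.mem_bot] at h1
      exact hι1 (by rw [← hker]; exact LinearMap.mem_ker.mpr h1)
    have h1mem : (fun _ : α => (1 : ZMod p)) ∈ LinearMap.range T' := by
      rw [hrange]
      apply M_mono _ (by omega : 1 ≤ s₁)
      rw [M_one]
      exact Submodule.subset_span (Set.mem_singleton _)
    obtain ⟨f₀, hf₀⟩ := h1mem
    obtain ⟨r₂, hr₂p, hker2⟩ :=
      tlemma (K := ZMod p) e s hs _ (fun f hf => hker2Inv s hsG f hf)
    have hf₀2 : f₀ ∈ LinearMap.ker (T' ∘ₗ T') := by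
      rw [LinearMap.mem_ker, LinearMap.comp_apply, hf₀, hT'1]
    have hf₀1 : f₀ ∉ M (iota (ZMod p) e) 1 := by
      intro h
      rw [← hker, LinearMap.mem_ker, hf₀] at h
      exact hone_ne h
    have hr₂2 : 2 ≤ r₂ := by
      by_contra hcon
      push Not at hcon
      exact hf₀1 (M_mono _ (by omega : r₂ ≤ 1) (by rw [← hker2]; exact hf₀2))
    have hr₂ : p - 1 ≤ r₂ := by
      by_contra hcon
      push Not at hcon
      exact hNS r₂ hr₂2 (by omega) (by rw [← hker2]; exact hker2Inv)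
    have hM3 : M (iota (ZMod p) e) 3 ≤ LinearMap.ker (T' ∘ₗ T') := by
      rw [hker2]; exact M_mono _ (by omega)
    have hA : T' (iota (ZMod p) e) ∈ M (iota (ZMod p) e) 1 := by
      rw [← hker, LinearMap.mem_ker]
      have := hM3 (M_mono _ (by omega : 2 ≤ 3) (iota_mem _))
      rwa [LinearMap.mem_ker, LinearMap.comp_apply] at this
    have hB : T' (fun a => iota (ZMod p) e a ^ 2) ∈ M (iota (ZMod p) e) 1 := by
      rw [← hker, LinearMap.mem_ker]
      have := hM3 (pow_mem _ 2)
      rwa [LinearMap.mem_ker, LinearMap.comp_apply] at this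
    rw [M_one, Submodule.mem_span_singleton] at hA hB
    obtain ⟨c₁, hc₁⟩ := hA
    obtain ⟨c₂, hc₂⟩ := hB
    have hcomb : (c₂ • iota (ZMod p) e - c₁ • (fun a => iota (ZMod p) e a ^ 2))
        ∈ LinearMap.ker T' := by
      rw [LinearMap.mem_ker, map_sub, map_smul, map_smul, ← hc₁, ← hc₂, smul_smul, smul_smul,
        mul_comm, sub_self]
    rw [hker] at hcomb
    obtain ⟨P, hP, hPe⟩ := hcomb
    have hPQ : C c₂ * X - C c₁ * X ^ 2 = P := by
      apply poly_unique hinj
      · rw [hcard]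
        refine lt_of_le_of_lt (Polynomial.degree_sub_le _ _) (max_lt ?_ ?_)
        · exact lt_of_le_of_lt (Polynomial.degree_C_mul_X_le _)
            (by exact_mod_cast (by omega : 1 < p))
        · exact lt_of_le_of_lt (Polynomial.degree_C_mul_X_pow_le 2 _)
            (by exact_mod_cast (by omega : 2 < p))
      · rw [hcard]; exact lt_of_lt_of_le hP (by exact_mod_cast (by omega : 1 ≤ p))
      · intro x
        rw [← hPe x]
        simp
    have hc₁0 : c₁ = 0 := by
      have h2 := (Polynomial.degree_lt_iff_coeff_zero P 1).mp hP 2 (by omega)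
      rw [← hPQ] at h2
      simpa [Polynomial.coeff_X, Polynomial.coeff_X_pow] using h2
    have : T' (iota (ZMod p) e) = 0 := by rw [← hc₁, hc₁0, zero_smul]
    exact hι1 (by rw [← hker]; exact LinearMap.mem_ker.mpr this)
  · -- sumZero ⊆ ker T'
    obtain ⟨g₀, hg₀⟩ := MulAction.exists_smul_eq G a c
    have hg₀c : (g₀ : Equiv.Perm α) a = c := hg₀
    obtain ⟨y, hy⟩ : ∃ y, y = (g₀ : Equiv.Perm α) b := ⟨_, rfl⟩
    have hyc : y ≠ c := by
      rw [hy, ← hg₀c]
      exact fun h => hab ((g₀ : Equiv.Perm α).injective h).symm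
    have hΔcy : Δ c y := by rw [hΔdef]; exact ⟨g₀, g₀.2, hg₀c, hy.symm⟩
    have hΔcd : ¬ Δ c d := by rw [hΔdef]; exact hno
    have hfmem : (Pi.single y (1 : ZMod p) - Pi.single d (1 : ZMod p) : α → ZMod p)
        ∈ LinearMap.ker T' := by
      rw [hker]
      apply M_mono _ hr₁
      rw [M_pred]
      simp [Finset.sum_sub_distrib]
    rw [LinearMap.mem_ker] at hfmem
    have h1 := congrFun hfmem c
    rw [hT'app, map_sub, hTdef] at h1
    simp only [Pi.sub_apply, Pi.zero_apply] at h1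
    rw [adj_single, adj_single, if_pos hΔcy, if_neg hΔcd, Pi.single_eq_of_ne hyc.symm,
      Pi.single_eq_of_ne hcd] at h1
    simp at h1

end Cfsg.Agent.Lib.Helper2.PrimeDeg
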