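import Mathlib
import Cfsg.Agent.Lib.Helper2.PrimeDeg3

set_option autoImplicit false

namespace Cfsg.Agent.Lib.Helper2.PrimeDeg

open Polynomial

theorem sq_not_dvd_card {α : Type*} [Fintype α] [DecidableEq α] {p : ℕ} [Fact p.Prime]
    (hcard : Fintype.card α = p) (G : Subgroup (Equiv.Perm α)) : ¬ p ^ 2 ∣ Nat.card G := by
  have hp : p.Prime := Fact.out
  intro h
  have h1 : Nat.card G ∣ Nat.card (Equiv.Perm α) := Subgroup.card_subgroup_dvd_card G
  rw [Nat.card_perm, Nat.card_eq_fintype_card (α := α), hcard] at h1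
  have h2 := h.trans h1
  rw [← Nat.mul_factorial_pred hp.ne_zero, pow_two] at h2
  have h4 := Nat.dvd_of_mul_dvd_mul_left hp.pos h2
  have := (Nat.Prime.dvd_factorial hp).mp h4
  have := hp.pos
  omega

theorem cycle_equiv {α : Type*} [Fintype α] {p : ℕ} [Fact p.Prime] (hcard : Fintype.card α = p)
    (t : Equiv.Perm α) (hord : orderOf t = p) : ∃ e : α ≃ ZMod p, ∀ a, e (t a) = e a + 1 := by
  classical
  have hp : p.Prime := Fact.out
  have ht1 : t ≠ 1 := by
    intro h
    rw [h, orderOf_one] at hord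
    exact hp.one_lt.ne hord
  obtain ⟨a₀, ha₀⟩ : ∃ a₀, t a₀ ≠ a₀ := by
    by_contra hcon
    push Not at hcon
    exact ht1 (Equiv.ext hcon)
  have hfix : ∀ n : ℕ, (t ^ n) a₀ = a₀ → p ∣ n := by
    intro n hn
    by_contra hnd
    have hcop : Nat.Coprime n (orderOf t) := by
      rw [hord]; exact (Nat.Coprime.symm ((Nat.Prime.coprime_iff_not_dvd hp).mpr hnd))
    obtain ⟨m, hm⟩ := exists_pow_eq_self_of_coprime hcop
    apply ha₀
    have := Equiv.Perm.pow_apply_eq_self_of_apply_eq_self hn m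
    rw [hm] at this
    exact this
  have key : ∀ m n : ℕ, m ≤ n → n < p → (t ^ m) a₀ = (t ^ n) a₀ → m = n := by
    intro m n hmn hn h
    obtain ⟨d, rfl⟩ := Nat.exists_eq_add_of_le hmn
    rw [pow_add, Equiv.Perm.mul_apply] at h
    have h2 := (t ^ m).injective h
    have h3 := hfix d h2.symm
    have : d = 0 := Nat.eq_zero_of_dvd_of_lt h3 (by omega)
    omega
  let ψ : ZMod p → α := fun j => (t ^ j.val) a₀
  have hψ1 : ∀ j, ψ (j + 1) = t (ψ j) := by
    intro j
    show (t ^ (j + 1).val) a₀ = t ((t ^ j.val) a₀)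
    rw [← Equiv.Perm.mul_apply, ← pow_succ']
    congr 1
    rw [pow_eq_pow_iff_modEq, hord, ZMod.val_add, ZMod.val_one]
    exact Nat.mod_modEq _ _
  have hinj : Function.Injective ψ := by
    intro i j h
    apply ZMod.val_injective
    rcases le_total i.val j.val with hij | hij
    · exact key _ _ hij (ZMod.val_lt j) h
    · exact (key _ _ hij (ZMod.val_lt i) h.symm).symm
  have hbij : Function.Bijective ψ :=
    (Fintype.bijective_iff_injective_and_card ψ).mpr ⟨hinj, by rw [ZMod.card, hcard]⟩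
  refine ⟨(Equiv.ofBijective ψ hbij).symm, fun a => ?_⟩
  have h1 : t a = ψ ((Equiv.ofBijective ψ hbij).symm a + 1) := by
    rw [hψ1]
    congr 1
    exact ((Equiv.ofBijective ψ hbij).apply_symm_apply a).symm
  rw [h1]
  exact (Equiv.ofBijective ψ hbij).symm_apply_apply _


theorem exists_inverting {α : Type*} [Fintype α] [DecidableEq α] {p : ℕ} [Fact p.Prime]
    (hcard : Fintype.card α = p) (hp2 : p ≠ 2)
    (G : Subgroup (Equiv.Perm α)) [MulAction.IsPretransitive G α] (P : Sylow p G)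
    (heven : Even (Nat.card (Subgroup.normalizer ((P : Subgroup G) : Set G)))) :
    ∃ t : G, orderOf t = p ∧ ∃ e : α ≃ ZMod p, (∀ a, e ((t : Equiv.Perm α) a) = e a + 1) ∧
      ∃ u : G, ∃ c : ZMod p, ∀ a, e ((u : Equiv.Perm α) a) = - e a + c := by
  classical
  have hp : p.Prime := Fact.out
  obtain ⟨a₁⟩ : Nonempty α := by rw [← Fintype.card_pos_iff, hcard]; exact hp.pos
  have hdvd : p ∣ Nat.card G := by
    have h1 := MulAction.index_stabilizer_of_transitive G a₁
    have h2 := Subgroup.index_dvd_card (MulAction.stabilizer G a₁)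
    rw [h1, Nat.card_eq_fintype_card, hcard] at h2
    exact h2
  have hsq := sq_not_dvd_card hcard G
  have hPcard : Nat.card (P : Subgroup G) = p := by
    obtain ⟨n, hn⟩ := IsPGroup.iff_card.mp P.isPGroup'
    have h1 : p ∣ Nat.card (P : Subgroup G) := P.dvd_card_of_dvd_card hdvd
    have h2 : Nat.card (P : Subgroup G) ∣ Nat.card G := Subgroup.card_subgroup_dvd_card _
    rw [hn] at h1 h2 ⊢
    have hn1 : n ≠ 0 := by
      rintro rfl
      rw [pow_zero] at h1
      exact hp.one_lt.ne' (Nat.dvd_one.mp h1)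
    have hn2 : n < 2 := by
      by_contra hcon
      push Not at hcon
      exact hsq ((pow_dvd_pow p hcon).trans h2)
    have : n = 1 := by omega
    rw [this, pow_one]
  obtain ⟨t₀, ht₀⟩ := exists_prime_orderOf_dvd_card' (G := ↥(P : Subgroup G)) p
    (by rw [hPcard])
  obtain ⟨t, htP, htord⟩ : ∃ t : G, t ∈ (P : Subgroup G) ∧ orderOf t = p :=
    ⟨(t₀ : G), t₀.2, by rw [Subgroup.orderOf_coe]; exact ht₀⟩
  have hzp : Subgroup.zpowers t = (P : Subgroup G) := by
    apply Subgroup.eq_of_le_of_card_ge (Subgroup.zpowers_le.mpr htP)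
    rw [hPcard, Nat.card_zpowers, htord]
  have htord' : orderOf (t : Equiv.Perm α) = p := by rw [Subgroup.orderOf_coe]; exact htord
  obtain ⟨e, he⟩ := cycle_equiv hcard (t : Equiv.Perm α) htord'
  obtain ⟨u₀, hu₀⟩ := exists_prime_orderOf_dvd_card'
    (G := ↥(Subgroup.normalizer ((P : Subgroup G) : Set G))) 2 heven.two_dvd
  obtain ⟨u, huN, huord⟩ : ∃ u : G,
      u ∈ Subgroup.normalizer ((P : Subgroup G) : Set G) ∧ orderOf u = 2 :=
    ⟨(u₀ : G), u₀.2, by rw [Subgroup.orderOf_coe]; exact hu₀⟩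
  have hconj : u * t * u⁻¹ ∈ Subgroup.zpowers t := by
    rw [hzp]
    exact (Subgroup.mem_normalizer_iff.mp huN t).mp htP
  rw [← mem_powers_iff_mem_zpowers] at hconj
  obtain ⟨k, hk⟩ := hconj
  have hUT : ∀ x, (u : Equiv.Perm α) ((t : Equiv.Perm α) x)
      = ((t : Equiv.Perm α) ^ k) ((u : Equiv.Perm α) x) := by
    intro x
    have h1 : t ^ k * u = u * t := by
      have hk' : t ^ k = u * t * u⁻¹ := hk
      rw [hk']; group
    have h2 := congrArg (fun f : G => (f : Equiv.Perm α) x) h1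
    simp only [Subgroup.coe_mul, Subgroup.coe_pow, Equiv.Perm.mul_apply] at h2
    exact h2.symm
  have he_pow : ∀ (n : ℕ) x, e (((t : Equiv.Perm α) ^ n) x) = e x + n := by
    intro n
    induction n with
    | zero => intro x; simp
    | succ n ih => intro x; rw [pow_succ', Equiv.Perm.mul_apply, he, ih]; push_cast; ring
  obtain ⟨c₀, hc₀⟩ : ∃ c₀, c₀ = e ((u : Equiv.Perm α) (e.symm 0)) := ⟨_, rfl⟩
  have horb : ∀ n : ℕ, e ((u : Equiv.Perm α) (((t : Equiv.Perm α) ^ n) (e.symm 0)))
      = (k : ZMod p) * n + c₀ := by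
    intro n
    induction n with
    | zero => simp [hc₀]
    | succ n ih => rw [pow_succ', Equiv.Perm.mul_apply, hUT, he_pow, ih]; push_cast; ring
  have hU : ∀ x, e ((u : Equiv.Perm α) x) = (k : ZMod p) * e x + c₀ := by
    intro x
    have hx : ((t : Equiv.Perm α) ^ (e x).val) (e.symm 0) = x := by
      apply e.injective
      rw [he_pow, Equiv.apply_symm_apply, zero_add, ZMod.natCast_zmod_val]
    have := horb (e x).val
    rw [hx, ZMod.natCast_zmod_val] at this
    exact this
  have hUU : ∀ x, (u : Equiv.Perm α) ((u : Equiv.Perm α) x) = x := by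
    intro x
    have h1 : u ^ 2 = 1 := by rw [← huord]; exact pow_orderOf_eq_one u
    have h2 := congrArg (fun g : G => (g : Equiv.Perm α) x) h1
    simpa [pow_two] using h2
  have h0 := hUU (e.symm 0)
  have h1 := hUU (e.symm 1)
  have e0 := congrArg e h0
  have e1 := congrArg e h1
  rw [hU, hU, Equiv.apply_symm_apply] at e0 e1
  have hk2 : ((k : ZMod p) - 1) * ((k : ZMod p) + 1) = 0 := by linear_combination e1 - e0
  have h2ne : (2 : ZMod p) ≠ 0 := by
    intro h
    have h' : ((2 : ℕ) : ZMod p) = 0 := by exact_mod_cast h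
    rw [ZMod.natCast_eq_zero_iff] at h'
    exact hp2 ((Nat.prime_dvd_prime_iff_eq hp Nat.prime_two).mp h')
  rcases mul_eq_zero.mp hk2 with hk1 | hk1
  · exfalso
    have hκ : (k : ZMod p) = 1 := sub_eq_zero.mp hk1
    rw [hκ] at e0
    have hc0 : c₀ = 0 := by
      have : (2 : ZMod p) * c₀ = 0 := by linear_combination e0
      exact (mul_eq_zero.mp this).resolve_left h2ne
    have hu1 : u = 1 := by
      apply Subtype.ext
      apply Equiv.ext
      intro x
      apply e.injective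
      rw [hU, hκ, hc0]; simp
    rw [hu1, orderOf_one] at huord
    omega
  · have hκ : (k : ZMod p) = -1 := eq_neg_of_add_eq_zero_left hk1
    exact ⟨t, htord, e, he, u, c₀, fun x => by rw [hU, hκ]; ring⟩

theorem burnside_main' {α : Type*} [Fintype α] [DecidableEq α] {p : ℕ} [Fact p.Prime]
    (e : α ≃ ZMod p) (G : Subgroup (Equiv.Perm α)) [MulAction.IsPretransitive G α]
    (s : Equiv.Perm α) (hsG : s ∈ G) (hs : ∀ a, e (s a) = e a - 1)
    (hN2 : ¬ Inv G (M (iota (ZMod p) e) 2))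
    (a b c d : α) (hab : a ≠ b) (hcd : c ≠ d) (hno : ¬ ∃ g ∈ G, g a = c ∧ g b = d) : False := by
  classical
  have hp : p.Prime := Fact.out
  have hp2 := hp.two_le
  have hcard : Fintype.card α = p := card_eq e
  have hinj := iota_inj (K := ZMod p) e
  have hNS : ∀ r, 2 ≤ r → r + 2 ≤ p → ¬ Inv G (M (iota (ZMod p) e) r) := by
    intro r h1 h2 h3
    exact hN2 (inv_two e G s hsG hs r h1 h2 h3)
  have hInvTop : Inv G (M (iota (ZMod p) e) p) := by
    rw [M_top]; intro g hg f hf; exact Submodule.mem_top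
  have hInvPred : Inv G (M (iota (ZMod p) e) (p - 1)) := by
    intro g hg f hf
    rw [M_pred] at hf ⊢
    rw [← hf]
    exact Equiv.sum_comp g f
  have hp5 : 5 ≤ p := by
    by_contra hcon
    push Not at hcon
    have : p = 2 ∨ p = 3 ∨ p = 4 := by omega
    rcases this with h | h | h
    · exact hN2 (by
        rw [congrArg (M (iota (ZMod p) e)) (h.symm : 2 = p)]; exact hInvTop)
    · exact hN2 (by
        rw [congrArg (M (iota (ZMod p) e)) (by omega : 2 = p - 1)]; exact hInvPred)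
    · exact absurd hp (by rw [h]; norm_num)
  -- the orbital
  obtain ⟨Δ, hΔdef⟩ : ∃ Δ : α → α → Prop, Δ = fun x y => ∃ g ∈ G, g a = x ∧ g b = y :=
    ⟨_, rfl⟩
  have hΔinv : ∀ g ∈ G, ∀ x y, Δ x y ↔ Δ (g x) (g y) := by
    intro g hg x y
    rw [hΔdef]
    constructor
    · rintro ⟨h, hh, rfl, rfl⟩
      exact ⟨g * h, G.mul_mem hg hh, rfl, rfl⟩
    · rintro ⟨h, hh, h1, h2⟩
      refine ⟨g⁻¹ * h, G.mul_mem (G.inv_mem hg) hh, ?_, ?_⟩
      · rw [Equiv.Perm.mul_apply, h1]; exact g.symm_apply_apply x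
      · rw [Equiv.Perm.mul_apply, h2]; exact g.symm_apply_apply y
  obtain ⟨T, hTdef⟩ : ∃ T, T = adj (ZMod p) Δ := ⟨_, rfl⟩
  have hTeq : ∀ g ∈ G, ∀ f : α → ZMod p, T (fun x => f (g x)) = fun x => T f (g x) := by
    intro g hg f; rw [hTdef]; exact adj_equivariant _ Δ g (hΔinv g hg) f
  obtain ⟨k, hk⟩ : ∃ k, k = T (fun _ => 1) a := ⟨_, rfl⟩
  have hT1 : T (fun _ => 1) = fun _ => k := by
    funext x
    obtain ⟨g, hg⟩ := MulAction.exists_smul_eq G a x
    have := congrFun (hTeq g g.2 (fun _ => 1)) a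
    rw [hk]
    have hgx : (g : Equiv.Perm α) a = x := hg
    rw [← hgx]; exact this.symm
  obtain ⟨T', hT'def⟩ : ∃ T' : (α → ZMod p) →ₗ[ZMod p] (α → ZMod p),
      T' = T - k • LinearMap.id := ⟨_, rfl⟩
  have hT'app : ∀ f x, T' f x = T f x - k * f x := by
    intro f x; rw [hT'def]; simp
  have hT'eq : ∀ g ∈ G, ∀ f : α → ZMod p, T' (fun x => f (g x)) = fun x => T' f (g x) := by
    intro g hg f; funext x
    rw [hT'app, hT'app, hTeq g hg]
  have hT'1 : T' (fun _ => 1) = 0 := by
    funext x; rw [hT'app, hT1]; simp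
  have hkerInv : Inv G (LinearMap.ker T') := by
    intro g hg f hf
    rw [LinearMap.mem_ker] at hf ⊢
    rw [hT'eq g hg, hf]; rfl
  have hker2Inv : Inv G (LinearMap.ker (T' ∘ₗ T')) := by
    intro g hg f hf
    rw [LinearMap.mem_ker, LinearMap.comp_apply] at hf ⊢
    rw [hT'eq g hg, hT'eq g hg, hf]; rfl
  have hrangeInv : Inv G (LinearMap.range T') := by
    rintro g hg _ ⟨f, rfl⟩
    exact ⟨fun x => f (g x), hT'eq g hg f⟩
  obtain ⟨r₁, hr₁p, hker⟩ := tlemma (K := ZMod p) e s hs _ (fun f hf => hkerInv s hsG f hf)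
  have hι1 : iota (ZMod p) e ∉ M (iota (ZMod p) e) 1 := by
    have := pow_not_mem (ι := iota (ZMod p) e) hinj (k := 1) (by rw [hcard]; exact hp.one_lt)
    simpa using this
  have hone_ne : (fun _ : α => (1 : ZMod p)) ≠ 0 := by
    intro h
    have := congrFun h a
    simp at this
  have hr₁0 : r₁ ≠ 0 := by
    intro h0
    have h1 : (fun _ : α => (1 : ZMod p)) ∈ LinearMap.ker T' := LinearMap.mem_ker.mpr hT'1
    rw [hker, h0, M_zero, Submodule.mem_bot] at h1
    exact hone_ne h1
  have hr₁cases : r₁ = 1 ∨ p - 1 ≤ r₁ := by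
    by_contra hcon
    push Not at hcon
    exact hNS r₁ (by omega) (by omega) (by rw [← hker]; exact hkerInv)
  rcases hr₁cases with hr₁ | hr₁
  · -- ker T' = M 1
    rw [hr₁] at hker
    obtain ⟨s₁, hs₁p, hrange⟩ :=
      tlemma (K := ZMod p) e s hs _ (fun f hf => hrangeInv s hsG f hf)
    have hs₁0 : s₁ ≠ 0 := by
      intro h0
      have h1 : T' (iota (ZMod p) e) ∈ LinearMap.range T' := LinearMap.mem_range_self _ _
      rw [hrange, h0, M_zero, Submodule.mem_bot] at h1
      exact hι1 (by rw [← hker]; exact LinearMap.mem_ker.mpr h1)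
    have h1mem : (fun _ : α => (1 : ZMod p)) ∈ LinearMap.range T' := by
      rw [hrange]
      apply M_mono _ (by omega : 1 ≤ s₁)
      rw [M_one]
      exact Submodule.subset_span (Set.mem_singleton _)
    obtain ⟨f₀, hf₀⟩ := h1mem
    obtain ⟨r₂, hr₂p, hker2⟩ :=
      tlemma (K := ZMod p) e s hs _ (fun f hf => hker2Inv s hsG f hf)
    have hf₀2 : f₀ ∈ LinearMap.ker (T' ∘ₗ T') := by
      rw [LinearMap.mem_ker, LinearMap.comp_apply, hf₀, hT'1]
    have hf₀1 : f₀ ∉ M (iota (ZMod p) e) 1 := by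
      intro h
      rw [← hker, LinearMap.mem_ker, hf₀] at h
      exact hone_ne h
    have hr₂2 : 2 ≤ r₂ := by
      by_contra hcon
      push Not at hcon
      exact hf₀1 (M_mono _ (by omega : r₂ ≤ 1) (by rw [← hker2]; exact hf₀2))
    have hr₂ : p - 1 ≤ r₂ := by
      by_contra hcon
      push Not at hcon
      exact hNS r₂ hr₂2 (by omega) (by rw [← hker2]; exact hker2Inv)
    have hM3 : M (iota (ZMod p) e) 3 ≤ LinearMap.ker (T' ∘ₗ T') := by
      rw [hker2]; exact M_mono _ (by omega)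
    have hA : T' (iota (ZMod p) e) ∈ M (iota (ZMod p) e) 1 := by
      rw [← hker, LinearMap.mem_ker]
      have := hM3 (M_mono _ (by omega : 2 ≤ 3) (iota_mem _))
      rwa [LinearMap.mem_ker, LinearMap.comp_apply] at this
    have hB : T' (fun a => iota (ZMod p) e a ^ 2) ∈ M (iota (ZMod p) e) 1 := by
      rw [← hker, LinearMap.mem_ker]
      have := hM3 (pow_mem _ 2)
      rwa [LinearMap.mem_ker, LinearMap.comp_apply] at this
    rw [M_one, Submodule.mem_span_singleton] at hA hB
    obtain ⟨c₁, hc₁⟩ := hA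
    obtain ⟨c₂, hc₂⟩ := hB
    have hcomb : (c₂ • iota (ZMod p) e - c₁ • (fun a => iota (ZMod p) e a ^ 2))
        ∈ LinearMap.ker T' := by
      rw [LinearMap.mem_ker, map_sub, map_smul, map_smul, ← hc₁, ← hc₂, smul_smul, smul_smul,
        mul_comm, sub_self]
    rw [hker] at hcomb
    obtain ⟨P, hP, hPe⟩ := hcomb
    have hPQ : C c₂ * X - C c₁ * X ^ 2 = P := by
      apply poly_unique hinj
      · rw [hcard]
        refine lt_of_le_of_lt (Polynomial.degree_sub_le _ _) (max_lt ?_ ?_)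
        · exact lt_of_le_of_lt (Polynomial.degree_C_mul_X_le _)
            (by exact_mod_cast (by omega : 1 < p))
        · exact lt_of_le_of_lt (Polynomial.degree_C_mul_X_pow_le 2 _)
            (by exact_mod_cast (by omega : 2 < p))
      · rw [hcard]; exact lt_of_lt_of_le hP (by exact_mod_cast (by omega : 1 ≤ p))
      · intro x
        rw [← hPe x]
        simp
    have hc₁0 : c₁ = 0 := by
      have h2 := (Polynomial.degree_lt_iff_coeff_zero P 1).mp hP 2 (by omega)
      rw [← hPQ] at h2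
      simpa [Polynomial.coeff_X, Polynomial.coeff_X_pow] using h2
    have : T' (iota (ZMod p) e) = 0 := by rw [← hc₁, hc₁0, zero_smul]
    exact hι1 (by rw [← hker]; exact LinearMap.mem_ker.mpr this)
  · -- sumZero ⊆ ker T'
    obtain ⟨g₀, hg₀⟩ := MulAction.exists_smul_eq G a c
    have hg₀c : (g₀ : Equiv.Perm α) a = c := hg₀
    obtain ⟨y, hy⟩ : ∃ y, y = (g₀ : Equiv.Perm α) b := ⟨_, rfl⟩
    have hyc : y ≠ c := by
      rw [hy, ← hg₀c]
      exact fun h => hab ((g₀ : Equiv.Perm α).injective h).symm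
    have hΔcy : Δ c y := by rw [hΔdef]; exact ⟨g₀, g₀.2, hg₀c, hy.symm⟩
    have hΔcd : ¬ Δ c d := by rw [hΔdef]; exact hno
    have hfmem : (Pi.single y (1 : ZMod p) - Pi.single d (1 : ZMod p) : α → ZMod p)
        ∈ LinearMap.ker T' := by
      rw [hker]
      apply M_mono _ hr₁
      rw [M_pred]
      simp [Finset.sum_sub_distrib]
    rw [LinearMap.mem_ker] at hfmem
    have h1 := congrFun hfmem c
    rw [hT'app, map_sub, hTdef] at h1
    simp only [Pi.sub_apply, Pi.zero_apply] at h1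
    rw [adj_single, adj_single, if_pos hΔcy, if_neg hΔcd, Pi.single_eq_of_ne hyc.symm,
      Pi.single_eq_of_ne hcd] at h1
    simp at h1

end Cfsg.Agent.Lib.Helper2.PrimeDeg
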