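import Mathlib
import Cfsg.Agent.Lib.Helper2.PrimeDeg4

set_option autoImplicit false

namespace Cfsg.Agent.Lib.Helper2.PrimeDeg

open Polynomial

theorem affine_of_M2 {α : Type*} {K : Type*} [Field K] {p : ℕ} (e : α ≃ ZMod p)
    (G : Subgroup (Equiv.Perm α)) (h : Inv G (M (iota K e) 2)) (g : Equiv.Perm α) (hg : g ∈ G) :
    ∃ A B : K, ∀ a, iota K e (g a) = A * iota K e a + B := by
  obtain ⟨P, hP, hf0⟩ := h g hg _ (iota_mem _)
  have hf : ∀ a, iota K e (g a) = P.eval (iota K e a) := hf0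
  have hle : P.degree ≤ 1 := by
    rw [Polynomial.degree_le_iff_coeff_zero]
    intro m hm
    exact (Polynomial.degree_lt_iff_coeff_zero P 2).mp hP m
      (Nat.succ_le_of_lt (by exact_mod_cast hm))
  have hPe := Polynomial.eq_X_add_C_of_degree_le_one hle
  refine ⟨P.coeff 1, P.coeff 0, fun a => ?_⟩
  rw [hf a]
  conv_lhs => rw [hPe]
  simp

theorem pow_shift {α : Type*} {p : ℕ} (e : α ≃ ZMod p) (t : Equiv.Perm α)
    (he : ∀ a, e (t a) = e a + 1) (n : ℕ) (x : α) : e ((t ^ n) x) = e x + n := by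
  induction n generalizing x with
  | zero => simp
  | succ n ih => rw [pow_succ', Equiv.Perm.mul_apply, he, ih]; push_cast; ring

theorem two_ne_zero_zmod {p : ℕ} [Fact p.Prime] (hp2 : p ≠ 2) : (2 : ZMod p) ≠ 0 := by
  have hp : p.Prime := Fact.out
  intro h
  have h' : ((2 : ℕ) : ZMod p) = 0 := by exact_mod_cast h
  rw [ZMod.natCast_eq_zero_iff] at h'
  exact hp2 ((Nat.prime_dvd_prime_iff_eq hp Nat.prime_two).mp h')

theorem index_p_fix {α : Type*} [Fintype α] [DecidableEq α] {p : ℕ} [Fact p.Prime]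
    (hcard : Fintype.card α = p) (G : Subgroup (Equiv.Perm α)) [MulAction.IsPretransitive G α]
    (P : Sylow p G) (heven : Even (Nat.card (Subgroup.normalizer ((P : Subgroup G) : Set G))))
    (H : Subgroup G) (hH : H.index = p) :
    ∃ a : α, ∀ h : G, h ∈ H → (h : Equiv.Perm α) a = a := by
  classical
  have hp : p.Prime := Fact.out
  have hsq := sq_not_dvd_card hcard G
  have hHG : Nat.card H * p = Nat.card G := by rw [← hH]; exact Subgroup.card_mul_index H
  have hpH : ¬ p ∣ Nat.card H := by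
    intro h
    apply hsq
    rw [← hHG, pow_two]
    exact mul_dvd_mul h (dvd_refl p)
  by_cases hp2 : p = 2
  · have h1 : Nat.card G ∣ Nat.card (Equiv.Perm α) := Subgroup.card_subgroup_dvd_card G
    rw [Nat.card_perm, Nat.card_eq_fintype_card (α := α), hcard, hp2] at h1
    rw [← hHG, hp2] at h1
    have h2 : Nat.card H = 1 := by
      have h3 : Nat.card H * 2 ≤ 2 := Nat.le_of_dvd (by norm_num) h1
      have h4 : 0 < Nat.card H := Nat.card_pos
      omega
    have hbot : H = ⊥ := Subgroup.card_eq_one.mp h2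
    obtain ⟨a₁⟩ : Nonempty α := by rw [← Fintype.card_pos_iff, hcard]; exact hp.pos
    refine ⟨a₁, fun h hh => ?_⟩
    rw [hbot, Subgroup.mem_bot] at hh
    rw [hh]; rfl
  obtain ⟨t, htord, e₀, he₀, u, c, hu⟩ := exists_inverting hcard hp2 G P heven
  have h2ne : (2 : ZMod p) ≠ 0 := two_ne_zero_zmod hp2
  have hHp : ∀ w : G, w ∈ H → orderOf w ≠ p := by
    intro w hw hord
    apply hpH
    have := orderOf_dvd_natCard (⟨w, hw⟩ : H)
    rw [← hord]
    rwa [Subgroup.orderOf_mk] at this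
  have hnotr : ∀ (e : α ≃ ZMod p) (w : G), w ∈ H →
      ∀ c', (∀ x, e ((w : Equiv.Perm α) x) = e x + c') → c' = 0 := by
    intro e w hw c' hwc
    by_contra hc'
    apply hHp w hw
    apply orderOf_eq_prime
    · have hpow : ∀ (n : ℕ) x, e (((w : Equiv.Perm α) ^ n) x) = e x + n * c' := by
        intro n
        induction n with
        | zero => intro x; simp
        | succ n ih =>
          intro x; rw [pow_succ', Equiv.Perm.mul_apply, hwc, ih]; push_cast; ring
      apply Subtype.ext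
      apply Equiv.ext
      intro x
      apply e.injective
      rw [Subgroup.coe_pow, hpow]
      simp
    · intro h1
      apply hc'
      have := hwc (e.symm 0)
      rw [h1] at this
      simp at this
      exact this.symm
  have he₀_pow := pow_shift e₀ (t : Equiv.Perm α) he₀
  obtain ⟨Ψ, hΨdef⟩ : ∃ Ψ : H × ZMod p → G, ∀ x, Ψ x = (x.1 : G) * t ^ (x.2.val) :=
    ⟨fun x => (x.1 : G) * t ^ (x.2.val), fun _ => rfl⟩
  have hΨinj : Function.Injective Ψ := by
    rintro ⟨h₁, j₁⟩ ⟨h₂, j₂⟩ hΨ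
    rw [hΨdef, hΨdef] at hΨ
    have hΨ' : (h₁ : G) * t ^ j₁.val = (h₂ : G) * t ^ j₂.val := hΨ
    have hw : ((h₂ : G)⁻¹ * (h₁ : G)) = t ^ j₂.val * (t ^ j₁.val)⁻¹ := by
      rw [eq_mul_inv_iff_mul_eq, mul_assoc, hΨ']; group
    have hwH : ((h₂ : G)⁻¹ * (h₁ : G)) ∈ H := H.mul_mem (H.inv_mem h₂.2) h₁.2
    have htr : ∀ x, e₀ ((((h₂ : G)⁻¹ * (h₁ : G) : G) : Equiv.Perm α) x) = e₀ x + (j₂ - j₁) := by
      intro x
      rw [hw, Subgroup.coe_mul, Subgroup.coe_inv, Subgroup.coe_pow, Subgroup.coe_pow,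
        Equiv.Perm.mul_apply, he₀_pow]
      have h3 := he₀_pow j₁.val ((((t : Equiv.Perm α) ^ j₁.val)⁻¹) x)
      rw [show ((t : Equiv.Perm α) ^ j₁.val) ((((t : Equiv.Perm α) ^ j₁.val)⁻¹) x) = x from
        ((t : Equiv.Perm α) ^ j₁.val).apply_symm_apply x] at h3
      rw [ZMod.natCast_zmod_val] at h3 ⊢
      linear_combination (-1 : ZMod p) * h3
    have hj := hnotr e₀ _ hwH _ htr
    have hj' : j₁ = j₂ := (sub_eq_zero.mp hj).symm
    subst hj'
    have : (h₁ : G) = (h₂ : G) := mul_right_cancel hΨ'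
    exact Prod.ext (Subtype.ext this) rfl
  have hΨbij : Function.Bijective Ψ := by
    rw [Nat.bijective_iff_injective_and_card]
    refine ⟨hΨinj, ?_⟩
    rw [Nat.card_prod, Nat.card_zmod, hHG]
  obtain ⟨⟨h₀, j₀⟩, hΨu⟩ := hΨbij.2 u
  rw [hΨdef] at hΨu
  have hΨu' : (h₀ : G) * t ^ j₀.val = u := hΨu
  have hh₀ : ∀ x, e₀ (((h₀ : G) : Equiv.Perm α) x) = - e₀ x + (c + j₀) := by
    intro x
    have h1 : (h₀ : G) = u * (t ^ j₀.val)⁻¹ := by rw [← hΨu']; group
    rw [h1, Subgroup.coe_mul, Subgroup.coe_inv, Subgroup.coe_pow, Equiv.Perm.mul_apply, hu]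
    have h3 := he₀_pow j₀.val ((((t : Equiv.Perm α) ^ j₀.val)⁻¹) x)
    rw [show ((t : Equiv.Perm α) ^ j₀.val) ((((t : Equiv.Perm α) ^ j₀.val)⁻¹) x) = x from
      ((t : Equiv.Perm α) ^ j₀.val).apply_symm_apply x, ZMod.natCast_zmod_val] at h3
    linear_combination h3
  obtain ⟨e, hedef⟩ : ∃ e : α ≃ ZMod p, ∀ x, e x = e₀ x - (c + j₀) * 2⁻¹ :=
    ⟨e₀.trans (Equiv.subRight ((c + j₀) * 2⁻¹)), fun x => by simp⟩
  have he : ∀ x, e ((t : Equiv.Perm α) x) = e x + 1 := by
    intro x; rw [hedef, hedef, he₀]; ring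
  have hhe : ∀ x, e (((h₀ : G) : Equiv.Perm α) x) = - e x := by
    intro x; rw [hedef, hedef, hh₀]
    have : (2 : ZMod p) * 2⁻¹ = 1 := mul_inv_cancel₀ h2ne
    linear_combination (-(c + j₀)) * this
  have he_pow := pow_shift e (t : Equiv.Perm α) he
  have hs : ∀ a, e (((t : Equiv.Perm α))⁻¹ a) = e a - 1 := by
    intro a
    have := he ((t : Equiv.Perm α)⁻¹ a)
    rw [show (t : Equiv.Perm α) ((t : Equiv.Perm α)⁻¹ a) = a from
      (t : Equiv.Perm α).apply_symm_apply a] at this
    rw [this]; ring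
  refine ⟨e.symm 0, ?_⟩
  by_cases hInv : Inv G (M (iota (ZMod p) e) 2)
  · -- affine case
    intro h' hh'
    obtain ⟨A, B, hAB⟩ := affine_of_M2 (K := ZMod p) e G hInv (h' : Equiv.Perm α) h'.2
    have hAB' : ∀ a, e ((h' : Equiv.Perm α) a) = A * e a + B := by
      intro a; have := hAB a; simpa [iota] using this
    have hwH : (h' * h₀ * (h₀ * h')⁻¹ : G) ∈ H :=
      H.mul_mem (H.mul_mem hh' h₀.2) (H.inv_mem (H.mul_mem h₀.2 hh'))
    have htr : ∀ y, e (((h' * h₀ * (h₀ * h')⁻¹ : G) : Equiv.Perm α) y) = e y + 2 * B := by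
      intro y
      obtain ⟨z, hz⟩ : ∃ z, z = ((((h₀ : G) : Equiv.Perm α) * (h' : Equiv.Perm α))⁻¹) y :=
        ⟨_, rfl⟩
      have hy : ((h₀ : G) : Equiv.Perm α) ((h' : Equiv.Perm α) z) = y := by
        rw [hz, ← Equiv.Perm.mul_apply]
        exact ((((h₀ : G) : Equiv.Perm α) * (h' : Equiv.Perm α))).apply_symm_apply y
      have e1 : e y = -(A * e z + B) := by rw [← hy, hhe, hAB']
      have e2 : e (((h' * h₀ * (h₀ * h')⁻¹ : G) : Equiv.Perm α) y) = A * (- e z) + B := by
        show e (((h' : Equiv.Perm α) * ((h₀ : G) : Equiv.Perm α)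
          * (((h₀ : G) : Equiv.Perm α) * (h' : Equiv.Perm α))⁻¹) y) = _
        rw [Equiv.Perm.mul_apply, Equiv.Perm.mul_apply, ← hz, hAB', hhe]
      rw [e2, e1]; ring
    have hB : 2 * B = 0 := hnotr e _ hwH _ htr
    have hB0 : B = 0 := (mul_eq_zero.mp hB).resolve_left h2ne
    apply e.injective
    rw [hAB', hB0]; simp
  · -- doubly transitive case
    have h2t : ∀ a b c d : α, a ≠ b → c ≠ d → ∃ g ∈ G, g a = c ∧ g b = d := by
      intro a b c d hab hcd
      by_contra hno
      exact burnside_main' e G ((t : Equiv.Perm α)⁻¹) (G.inv_mem t.2) hs hInv a b c d hab hcd hno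
    haveI : Fintype G := Fintype.ofFinite G
    haveI : Fintype H := Fintype.ofFinite H
    obtain ⟨O, hOdef⟩ : ∃ O : α → Prop,
        ∀ z, O z ↔ ∃ h' : G, h' ∈ H ∧ (h' : Equiv.Perm α) (e.symm 0) = z :=
      ⟨fun z => ∃ h' : G, h' ∈ H ∧ (h' : Equiv.Perm α) (e.symm 0) = z, fun _ => Iff.rfl⟩
    have hOinv : ∀ h' : G, h' ∈ H → ∀ z, O ((h' : Equiv.Perm α) z) ↔ O z := by
      intro h' hh' z
      rw [hOdef, hOdef]
      constructor
      · rintro ⟨h'', hh'', h1⟩
        refine ⟨h'⁻¹ * h'', H.mul_mem (H.inv_mem hh') hh'', ?_⟩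
        rw [Subgroup.coe_mul, Subgroup.coe_inv, Equiv.Perm.mul_apply, h1]
        exact (h' : Equiv.Perm α).symm_apply_apply z
      · rintro ⟨h'', hh'', h1⟩
        refine ⟨h' * h'', H.mul_mem hh' hh'', ?_⟩
        rw [Subgroup.coe_mul, Equiv.Perm.mul_apply, h1]
    obtain ⟨D, hDdef⟩ : ∃ D : ZMod p → Prop, ∀ j, D j ↔ O (e.symm j) :=
      ⟨fun j => O (e.symm j), fun _ => Iff.rfl⟩
    have hDneg : ∀ j, D (-j) ↔ D j := by
      intro j
      rw [hDdef, hDdef]
      have : e.symm (-j) = ((h₀ : G) : Equiv.Perm α) (e.symm j) := by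
        apply e.injective
        rw [hhe]; simp
      rw [this, hOinv (h₀ : G) h₀.2]
    obtain ⟨NN, hNN⟩ : ∃ NN : α → α → ℕ, ∀ x y, NN x y
        = ∑ g : G, if O ((g : Equiv.Perm α) x) ∧ O ((g : Equiv.Perm α) y) then 1 else 0 :=
      ⟨_, fun _ _ => rfl⟩
    obtain ⟨ν, hν⟩ : ∃ ν : ZMod p → ZMod p → ℕ, ∀ r s, ν r s
        = ∑ j : ZMod p, if D (r + j) ∧ D (s + j) then 1 else 0 := ⟨_, fun _ _ => rfl⟩
    have hNNinv : ∀ (g₀ : G) x y,
        NN ((g₀ : Equiv.Perm α) x) ((g₀ : Equiv.Perm α) y) = NN x y := by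
      intro g₀ x y
      rw [hNN, hNN]
      rw [← Equiv.sum_comp (Equiv.mulRight g₀)
        (fun g : G => if O ((g : Equiv.Perm α) x) ∧ O ((g : Equiv.Perm α) y) then 1 else 0)]
      refine Finset.sum_congr rfl fun g _ => ?_
      exact if_congr Iff.rfl rfl rfl
    have hNNν : ∀ x y, NN x y = Nat.card H * ν (e x) (e y) := by
      intro x y
      rw [hNN, hν]
      rw [← Equiv.sum_comp (Equiv.ofBijective Ψ hΨbij), Fintype.sum_prod_type]
      have hinner : ∀ h' : H,
          (∑ j : ZMod p, (if O (((Equiv.ofBijective Ψ hΨbij (h', j) : G) : Equiv.Perm α) x)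
            ∧ O (((Equiv.ofBijective Ψ hΨbij (h', j) : G) : Equiv.Perm α) y) then 1 else 0 : ℕ))
          = ∑ j : ZMod p, if D (e x + j) ∧ D (e y + j) then 1 else 0 := by
        intro h'
        refine Finset.sum_congr rfl fun j _ => ?_
        have hΨv : (Equiv.ofBijective Ψ hΨbij (h', j) : G) = (h' : G) * t ^ j.val := by
          rw [Equiv.ofBijective_apply, hΨdef]
        rw [hΨv]
        have hx : ∀ z, O ((((h' : G) * t ^ j.val : G) : Equiv.Perm α) z) ↔ D (e z + j) := by
          intro z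
          rw [Subgroup.coe_mul, Equiv.Perm.mul_apply, hOinv (h' : G) h'.2, hDdef]
          have : ((t ^ j.val : G) : Equiv.Perm α) z = e.symm (e z + j) := by
            apply e.injective
            rw [Subgroup.coe_pow, he_pow, Equiv.apply_symm_apply, ZMod.natCast_zmod_val]
          rw [this]
        rw [if_congr (and_congr (hx x) (hx y)) rfl rfl]
      rw [Finset.sum_congr rfl (fun h' _ => hinner h')]
      rw [Finset.sum_const, Finset.card_univ, smul_eq_mul, Nat.card_eq_fintype_card]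
    have hHpos : 0 < Nat.card H := Nat.card_pos
    have hνconst : ∀ r s r' s' : ZMod p, r ≠ s → r' ≠ s' → ν r s = ν r' s' := by
      intro r s r' s' hrs hrs'
      obtain ⟨g₀, hg₀, h1, h2⟩ := h2t (e.symm r) (e.symm s) (e.symm r') (e.symm s')
        (fun h => hrs (e.symm.injective h)) (fun h => hrs' (e.symm.injective h))
      have h3 := hNNinv ⟨g₀, hg₀⟩ (e.symm r) (e.symm s)
      have h3' : NN (g₀ (e.symm r)) (g₀ (e.symm s)) = NN (e.symm r) (e.symm s) := h3
      rw [h1, h2, hNNν, hNNν] at h3'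
      simp only [Equiv.apply_symm_apply] at h3'
      exact (Nat.eq_of_mul_eq_mul_left hHpos h3').symm
    have hpar : ∀ δ : ZMod p, δ ≠ 0 → ((ν (2 * δ) 0 : ℕ) : ZMod 2) = if D δ then 1 else 0 := by
      intro δ hδ
      rw [hν]
      push_cast
      obtain ⟨F₂, hF₂⟩ : ∃ F₂ : ZMod p → ZMod 2,
          ∀ j, F₂ j = if D (2 * δ + j) ∧ D (0 + j) then 1 else 0 := ⟨_, fun _ => rfl⟩
      have hsum0 : ∑ j : ZMod p, (if j = -δ then 0 else F₂ j) = 0 := by
        apply Finset.sum_ninvolution (fun j => -(2 * δ) - j)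
        · intro a
          by_cases ha : a = -δ
          · have : -(2 * δ) - a = -δ := by rw [ha]; ring
            rw [if_pos ha, if_pos this, add_zero]
          · have : -(2 * δ) - a ≠ -δ := by
              intro h
              apply ha
              linear_combination (-1 : ZMod p) * h
            rw [if_neg ha, if_neg this, hF₂, hF₂]
            have e1 : 2 * δ + (-(2 * δ) - a) = -(0 + a) := by ring
            have e2 : 0 + (-(2 * δ) - a) = -(2 * δ + a) := by ring
            rw [if_congr (show (D (2 * δ + (-(2 * δ) - a)) ∧ D (0 + (-(2 * δ) - a)))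
              ↔ (D (2 * δ + a) ∧ D (0 + a)) by
                rw [e1, e2, hDneg, hDneg]; exact and_comm) rfl rfl]
            exact CharTwo.add_self_eq_zero _
        · intro a ha
          by_cases ha' : a = -δ
          · rw [if_pos ha'] at ha; exact absurd rfl ha
          · intro h
            apply ha'
            have h2 : (2 : ZMod p) * (a + δ) = 0 := by linear_combination (-1 : ZMod p) * h
            have h3 := (mul_eq_zero.mp h2).resolve_left h2ne
            exact eq_neg_of_add_eq_zero_left h3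
        · intro a; exact Finset.mem_univ _
        · intro a; ring
      have hsplit : ∀ j : ZMod p, F₂ j = (if j = -δ then F₂ (-δ) else 0)
          + (if j = -δ then 0 else F₂ j) := by
        intro j
        by_cases hj : j = -δ
        · rw [if_pos hj, if_pos hj, add_zero, hj]
        · rw [if_neg hj, if_neg hj, zero_add]
      have htot : ∑ j : ZMod p, F₂ j = F₂ (-δ) := by
        rw [Finset.sum_congr rfl (fun j _ => hsplit j), Finset.sum_add_distrib, hsum0, add_zero,
          Finset.sum_ite_eq' Finset.univ (-δ) (fun _ => F₂ (-δ))]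
        simp
      have hval : F₂ (-δ) = if D δ then 1 else 0 := by
        rw [hF₂]
        have e1 : 2 * δ + -δ = δ := by ring
        have e2 : (0 : ZMod p) + -δ = -δ := by ring
        rw [if_congr (show (D (2 * δ + -δ) ∧ D (0 + -δ)) ↔ D δ by
          rw [e1, e2, hDneg]; exact and_self_iff) rfl rfl]
      rw [← hval, ← htot]
      exact Finset.sum_congr rfl (fun j _ => (hF₂ j).symm)
    have hDsame : ∀ δ δ' : ZMod p, δ ≠ 0 → δ' ≠ 0 → (D δ ↔ D δ') := by
      intro δ δ' hδ hδ'
      have h1 := hpar δ hδ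
      have h2 := hpar δ' hδ'
      have h3 : ν (2 * δ) 0 = ν (2 * δ') 0 :=
        hνconst _ _ _ _ (mul_ne_zero h2ne hδ) (mul_ne_zero h2ne hδ')
      rw [h3, h2] at h1
      by_cases hd : D δ <;> by_cases hd' : D δ'
      · exact ⟨fun _ => hd', fun _ => hd⟩
      · rw [if_neg hd', if_pos hd] at h1; exact absurd h1 (by decide)
      · rw [if_pos hd', if_neg hd] at h1; exact absurd h1 (by decide)
      · exact ⟨fun h => absurd h hd, fun h => absurd h hd'⟩
    have hO0 : O (e.symm 0) := by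
      rw [hOdef]; exact ⟨1, H.one_mem, rfl⟩
    by_cases hD1 : D 1
    · exfalso
      have hall : ∀ z, O z := by
        intro z
        by_cases hz : e z = 0
        · have : z = e.symm 0 := by rw [← hz]; simp
          rw [this]; exact hO0
        · have := (hDsame 1 (e z) one_ne_zero hz).mp hD1
          rw [hDdef] at this
          simpa using this
      haveI : MulAction.IsPretransitive H α := by
        refine ⟨fun x y => ?_⟩
        obtain ⟨hx, hxH, hx1⟩ := (hOdef x).mp (hall x)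
        obtain ⟨hy, hyH, hy1⟩ := (hOdef y).mp (hall y)
        refine ⟨⟨hy * hx⁻¹, H.mul_mem hyH (H.inv_mem hxH)⟩, ?_⟩
        show ((hy * hx⁻¹ : G) : Equiv.Perm α) x = y
        rw [Subgroup.coe_mul, Subgroup.coe_inv, Equiv.Perm.mul_apply, ← hx1]
        rw [show ((hx : Equiv.Perm α))⁻¹ ((hx : Equiv.Perm α) (e.symm 0)) = e.symm 0 from
          (hx : Equiv.Perm α).symm_apply_apply _]
        exact hy1
      have h1 := MulAction.index_stabilizer_of_transitive H (e.symm 0)
      have h2 := Subgroup.index_dvd_card (MulAction.stabilizer H (e.symm 0))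
      rw [h1, Nat.card_eq_fintype_card (α := α), hcard] at h2
      exact hpH h2
    · intro h' hh'
      have h1 : O ((h' : Equiv.Perm α) (e.symm 0)) := by
        rw [hOdef]; exact ⟨h', hh', rfl⟩
      have h2 : D (e ((h' : Equiv.Perm α) (e.symm 0))) := by
        rw [hDdef]; simpa using h1
      by_contra hne
      have hne' : e ((h' : Equiv.Perm α) (e.symm 0)) ≠ 0 := by
        intro h0
        apply hne
        apply e.injective
        rw [h0]; simp
      exact hD1 ((hDsame _ 1 hne' one_ne_zero).mp h2)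

end Cfsg.Agent.Lib.Helper2.PrimeDeg
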