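import Mathlib
import Cfsg.Agent.Lib.Helper2.PrimeDeg5

set_option autoImplicit false

namespace Cfsg.Agent.Lib.Helper2.PrimeDeg

open Polynomial

open Classical in
/-- operator of a ternary relation, into functions on ordered pairs. -/
noncomputable def adj3 {α : Type*} [Fintype α] (K : Type*) [Field K] (R : α → α → α → Prop) :
    (α → K) →ₗ[K] (α × α → K) where
  toFun := fun f q => ∑ x, if R x q.1 q.2 then f x else 0
  map_add' := by
    intro f₁ f₂; funext q
    simp only [Pi.add_apply]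
    rw [← Finset.sum_add_distrib]
    refine Finset.sum_congr rfl fun y _ => ?_
    split_ifs <;> simp
  map_smul' := by
    intro c f; funext q
    simp only [Pi.smul_apply, smul_eq_mul, RingHom.id_apply]
    rw [Finset.mul_sum]
    refine Finset.sum_congr rfl fun y _ => ?_
    split_ifs <;> simp

open Classical in
theorem adj3_apply {α : Type*} [Fintype α] (K : Type*) [Field K] (R : α → α → α → Prop)
    (f : α → K) (q : α × α) : adj3 K R f q = ∑ x, if R x q.1 q.2 then f x else 0 := rfl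

open Classical in
theorem adj3_single {α : Type*} [Fintype α] [DecidableEq α] (K : Type*) [Field K]
    (R : α → α → α → Prop) (x : α) (q : α × α) :
    adj3 K R (Pi.single x 1) q = if R x q.1 q.2 then 1 else 0 := by
  rw [adj3_apply, Finset.sum_eq_single x]
  · simp
  · intro z _ hz; simp [Pi.single_eq_of_ne hz]
  · intro h; exact absurd (Finset.mem_univ x) h

open Classical in
theorem adj3_equivariant {α : Type*} [Fintype α] (K : Type*) [Field K] (R : α → α → α → Prop)
    (g : Equiv.Perm α) (hg : ∀ x y z, R x y z ↔ R (g x) (g y) (g z)) (f : α → K) (q : α × α) :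
    adj3 K R (fun a => f (g a)) q = adj3 K R f (g q.1, g q.2) := by
  rw [adj3_apply, adj3_apply,
    ← Equiv.sum_comp g (fun x => if R x (g q.1, g q.2).1 (g q.1, g q.2).2 then f x else 0)]
  refine Finset.sum_congr rfl fun x _ => ?_
  exact if_congr (hg x q.1 q.2) rfl rfl

open Classical in
/-- the incidence operator into functions on ordered pairs. -/
noncomputable def inc {α : Type*} (K : Type*) [Field K] : (α → K) →ₗ[K] (α × α → K) where
  toFun := fun f q => if q.1 = q.2 then 0 else f q.1 + f q.2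
  map_add' := by
    intro f₁ f₂; funext q
    simp only [Pi.add_apply]
    split_ifs <;> ring
  map_smul' := by
    intro c f; funext q
    simp only [Pi.smul_apply, smul_eq_mul, RingHom.id_apply]
    split_ifs <;> ring

open Classical in
theorem inc_apply {α : Type*} (K : Type*) [Field K] (f : α → K) (q : α × α) :
    inc K f q = if q.1 = q.2 then 0 else f q.1 + f q.2 := rfl

open Classical in
theorem inc_equivariant {α : Type*} (K : Type*) [Field K] (g : Equiv.Perm α) (f : α → K)
    (q : α × α) : inc K (fun a => f (g a)) q = inc K f (g q.1, g q.2) := by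
  rw [inc_apply, inc_apply]
  by_cases h : q.1 = q.2
  · rw [if_pos h, if_pos (show (g q.1, g q.2).1 = (g q.1, g q.2).2 by rw [h])]
  · rw [if_neg h, if_neg (show ¬ (g q.1, g q.2).1 = (g q.1, g q.2).2 from
      fun h' => h (g.injective h'))]

theorem three_trans {α : Type*} [Fintype α] [DecidableEq α] {p : ℕ} [Fact p.Prime]
    (hcard : Fintype.card α = p) (G : Subgroup (Equiv.Perm α)) [MulAction.IsPretransitive G α]
    (hG : ¬ Group.IsSolvable G) (P : Sylow p G)
    (heven : Even (Nat.card (Subgroup.normalizer ((P : Subgroup G) : Set G)))) :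
    ∃ a b c : α, ∀ x y z : α, x ≠ y → x ≠ z → y ≠ z →
      ∃ g ∈ G, g a = x ∧ g b = y ∧ g c = z := by
  classical
  have hp : p.Prime := Fact.out
  have hp2' := hp.two_le
  have hp5 : 5 ≤ p := by
    obtain ⟨t, htG, e, ht⟩ := exists_cycle hcard G
    have hN2 : ¬ Inv G (M (iota (ZMod p) e) 2) := fun h => hG (solvable_of_M2 e G h)
    have hInvTop : Inv G (M (iota (ZMod p) e) p) := by
      rw [M_top]; intro g hg f hf; exact Submodule.mem_top
    have hInvPred : Inv G (M (iota (ZMod p) e) (p - 1)) := by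
      intro g hg f hf
      rw [M_pred] at hf ⊢
      rw [← hf]
      exact Equiv.sum_comp g f
    by_contra hcon
    push Not at hcon
    have : p = 2 ∨ p = 3 ∨ p = 4 := by omega
    rcases this with h | h | h
    · exact hN2 (by rw [congrArg (M (iota (ZMod p) e)) (h.symm : 2 = p)]; exact hInvTop)
    · exact hN2 (by
        rw [congrArg (M (iota (ZMod p) e)) (by omega : 2 = p - 1)]; exact hInvPred)
    · exact absurd hp (by rw [h]; norm_num)
  have hp2 : p ≠ 2 := by omega
  obtain ⟨t, htord, e, he, u, c, hu⟩ := exists_inverting hcard hp2 G P heven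
  have h2ne : (2 : ZMod p) ≠ 0 := two_ne_zero_zmod hp2
  have he_pow := pow_shift e (t : Equiv.Perm α) he
  have hs : ∀ a, e (((t : Equiv.Perm α))⁻¹ a) = e a - 1 := by
    intro a
    have := he ((t : Equiv.Perm α)⁻¹ a)
    rw [show (t : Equiv.Perm α) ((t : Equiv.Perm α)⁻¹ a) = a from
      (t : Equiv.Perm α).apply_symm_apply a] at this
    rw [this]; ring
  have hinj := iota_inj (K := ZMod p) e
  have hιe : ∀ a, iota (ZMod p) e a = e a := by intro a; simp [iota]
  have hN2 : ¬ Inv G (M (iota (ZMod p) e) 2) := fun h => hG (solvable_of_M2 e G h)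
  have hNS : ∀ r, 2 ≤ r → r + 2 ≤ p → ¬ Inv G (M (iota (ZMod p) e) r) := by
    intro r h1 h2 h3
    exact hN2 (inv_two e G _ (G.inv_mem t.2) hs r h1 h2 h3)
  have h2t : ∀ a b c d : α, a ≠ b → c ≠ d → ∃ g ∈ G, g a = c ∧ g b = d := by
    intro a b c d hab hcd
    by_contra hno
    exact burnside_main' e G ((t : Equiv.Perm α)⁻¹) (G.inv_mem t.2) hs hN2 a b c d hab hcd hno
  obtain ⟨a, ha⟩ : ∃ a, a = e.symm 0 := ⟨_, rfl⟩
  obtain ⟨b, hb⟩ : ∃ b, b = e.symm 1 := ⟨_, rfl⟩
  obtain ⟨c₁, hc₁⟩ : ∃ c₁, c₁ = e.symm 2 := ⟨_, rfl⟩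
  have hab : a ≠ b := by
    rw [ha, hb]; intro h; exact zero_ne_one (e.symm.injective h)
  have hac : a ≠ c₁ := by
    rw [ha, hc₁]; intro h; exact h2ne (e.symm.injective h).symm
  have hbc : b ≠ c₁ := by
    rw [hb, hc₁]; intro h
    have h1 : (1 : ZMod p) = 2 := e.symm.injective h
    have : (1 : ZMod p) = 0 := by linear_combination (-1 : ZMod p) * h1
    exact one_ne_zero this
  refine ⟨a, b, c₁, ?_⟩
  obtain ⟨R, hRdef⟩ : ∃ R : α → α → α → Prop, ∀ x y z, R x y z ↔
      ∃ g ∈ G, g a = x ∧ ((g b = y ∧ g c₁ = z) ∨ (g b = z ∧ g c₁ = y)) :=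
    ⟨_, fun _ _ _ => Iff.rfl⟩
  have hRabc : R a b c₁ := by rw [hRdef]; exact ⟨1, G.one_mem, rfl, Or.inl ⟨rfl, rfl⟩⟩
  have hRinv : ∀ g ∈ G, ∀ x y z, R x y z ↔ R (g x) (g y) (g z) := by
    intro g hg x y z
    rw [hRdef, hRdef]
    constructor
    · rintro ⟨h, hh, rfl, h1⟩
      refine ⟨g * h, G.mul_mem hg hh, rfl, ?_⟩
      rcases h1 with ⟨rfl, rfl⟩ | ⟨rfl, rfl⟩
      · exact Or.inl ⟨rfl, rfl⟩
      · exact Or.inr ⟨rfl, rfl⟩
    · rintro ⟨h, hh, h0, h1⟩
      have key : ∀ w w', h w = g w' → (g⁻¹ * h) w = w' := by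
        intro w w' hw
        rw [Equiv.Perm.mul_apply, hw]; exact g.symm_apply_apply w'
      refine ⟨g⁻¹ * h, G.mul_mem (G.inv_mem hg) hh, key _ _ h0, ?_⟩
      rcases h1 with ⟨h1, h2⟩ | ⟨h1, h2⟩
      · exact Or.inl ⟨key _ _ h1, key _ _ h2⟩
      · exact Or.inr ⟨key _ _ h1, key _ _ h2⟩
  have hRsymm : ∀ x y z, R x y z ↔ R x z y := by
    intro x y z
    rw [hRdef, hRdef]
    constructor
    · rintro ⟨g, hg, h0, h1⟩; exact ⟨g, hg, h0, h1.symm⟩
    · rintro ⟨g, hg, h0, h1⟩; exact ⟨g, hg, h0, h1.symm⟩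
  have hRne : ∀ x y z, R x y z → x ≠ y ∧ x ≠ z ∧ y ≠ z := by
    intro x y z
    rw [hRdef]
    rintro ⟨g, hg, rfl, ⟨rfl, rfl⟩ | ⟨rfl, rfl⟩⟩
    · exact ⟨fun h => hab (g.injective h), fun h => hac (g.injective h),
        fun h => hbc (g.injective h)⟩
    · exact ⟨fun h => hac (g.injective h), fun h => hab (g.injective h),
        fun h => hbc (g.injective h).symm⟩
  obtain ⟨n, hn⟩ : ∃ n : ZMod p, n = adj3 (ZMod p) R (fun _ => 1) (b, c₁) := ⟨_, rfl⟩
  obtain ⟨ψ, hψdef⟩ : ∃ ψ : (α → ZMod p) →ₗ[ZMod p] (α × α → ZMod p),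
      ψ = (2 : ZMod p) • adj3 (ZMod p) R - n • inc (ZMod p) := ⟨_, rfl⟩
  have hψapp : ∀ f q, ψ f q = 2 * adj3 (ZMod p) R f q - n * inc (ZMod p) f q := by
    intro f q; rw [hψdef]; simp
  have hψeq : ∀ g ∈ G, ∀ (f : α → ZMod p) (q : α × α),
      ψ (fun a => f (g a)) q = ψ f (g q.1, g q.2) := by
    intro g hg f q
    rw [hψapp, hψapp, adj3_equivariant _ R g (hRinv g hg), inc_equivariant]
  have hψ1 : ψ (fun _ => 1) = 0 := by
    funext q
    obtain ⟨y, z⟩ := q
    rw [hψapp, inc_apply]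
    by_cases hyz : y = z
    · have h0 : adj3 (ZMod p) R (fun _ => 1) (y, z) = 0 := by
        rw [adj3_apply]
        apply Finset.sum_eq_zero
        intro x _
        rw [if_neg]
        intro hR
        exact (hRne x y z hR).2.2 hyz
      rw [h0, if_pos (show (y, z).1 = (y, z).2 from hyz)]; simp
    · obtain ⟨g, hg, h1, h2⟩ := h2t b c₁ y z hbc hyz
      have h0 : adj3 (ZMod p) R (fun _ => 1) (y, z) = n := by
        have := adj3_equivariant (ZMod p) R g (hRinv g hg) (fun _ => 1) (b, c₁)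
        simp only [h1, h2] at this
        rw [hn, ← this]
      rw [h0, if_neg (show ¬ (y, z).1 = (y, z).2 from hyz)]
      show 2 * n - n * (1 + 1) = 0
      ring
  have hψsymm : ∀ f y z, ψ f (y, z) = ψ f (z, y) := by
    intro f y z
    rw [hψapp, hψapp, adj3_apply, adj3_apply, inc_apply, inc_apply]
    have h1 : (∑ x, if R x (y, z).1 (y, z).2 then f x else 0)
        = ∑ x, if R x (z, y).1 (z, y).2 then f x else 0 :=
      Finset.sum_congr rfl fun x _ => if_congr (hRsymm x y z) rfl rfl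
    rw [h1]
    by_cases h : y = z
    · rw [if_pos (show (y, z).1 = (y, z).2 from h),
        if_pos (show (z, y).1 = (z, y).2 from h.symm)]
    · rw [if_neg (show ¬ (y, z).1 = (y, z).2 from h),
        if_neg (show ¬ (z, y).1 = (z, y).2 from fun h' => h h'.symm)]
      simp only
      ring
  have hkerInv : Inv G (LinearMap.ker ψ) := by
    intro g hg f hf
    rw [LinearMap.mem_ker] at hf ⊢
    funext q
    rw [hψeq g hg, hf]; rfl
  obtain ⟨r₁, hr₁p, hker⟩ := tlemma (K := ZMod p) e _ hs _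
    (fun f hf => hkerInv _ (G.inv_mem t.2) f hf)
  have hι1 : iota (ZMod p) e ∉ M (iota (ZMod p) e) 1 := by
    have := pow_not_mem (ι := iota (ZMod p) e) hinj (k := 1) (by rw [hcard]; exact hp.one_lt)
    simpa using this
  have hone_ne : (fun _ : α => (1 : ZMod p)) ≠ 0 := by
    intro h
    have := congrFun h a
    simp at this
  have hr₁0 : r₁ ≠ 0 := by
    intro h0
    have h1 : (fun _ : α => (1 : ZMod p)) ∈ LinearMap.ker ψ := LinearMap.mem_ker.mpr hψ1
    rw [hker, h0, M_zero, Submodule.mem_bot] at h1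
    exact hone_ne h1
  have hr₁cases : r₁ = 1 ∨ p - 1 ≤ r₁ := by
    by_contra hcon
    push Not at hcon
    exact hNS r₁ (by omega) (by omega) (by rw [← hker]; exact hkerInv)
  rcases hr₁cases with hr₁ | hr₁
  · exfalso
    rw [hr₁] at hker
    apply hι1
    rw [← hker, LinearMap.mem_ker]
    obtain ⟨F, hF⟩ : ∃ F, F = ψ (iota (ZMod p) e) := ⟨_, rfl⟩
    rw [← hF]
    have hFt : ∀ y z, F ((t : Equiv.Perm α) y, (t : Equiv.Perm α) z) = F (y, z) := by
      intro y z
      have h1 := hψeq (t : Equiv.Perm α) t.2 (iota (ZMod p) e) (y, z)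
      have h2 : (fun a => iota (ZMod p) e ((t : Equiv.Perm α) a))
          = iota (ZMod p) e + fun _ => 1 := by
        funext a; simp only [Pi.add_apply, hιe, he]
      rw [h2, map_add, hψ1, add_zero] at h1
      rw [hF]; exact h1.symm
    have hFtn : ∀ (n : ℕ) y z,
        F (((t : Equiv.Perm α) ^ n) y, ((t : Equiv.Perm α) ^ n) z) = F (y, z) := by
      intro n
      induction n with
      | zero => intro y z; rfl
      | succ n ih =>
        intro y z
        rw [pow_succ', Equiv.Perm.mul_apply, Equiv.Perm.mul_apply, hFt, ih]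
    have hFu : ∀ y z, F ((u : Equiv.Perm α) y, (u : Equiv.Perm α) z) = - F (y, z) := by
      intro y z
      have h1 := hψeq (u : Equiv.Perm α) u.2 (iota (ZMod p) e) (y, z)
      have h2 : (fun a => iota (ZMod p) e ((u : Equiv.Perm α) a))
          = - iota (ZMod p) e + c • fun _ => 1 := by
        funext a
        simp only [Pi.add_apply, Pi.neg_apply, Pi.smul_apply, smul_eq_mul, mul_one, hιe, hu]
      rw [h2, map_add, map_neg, map_smul, hψ1, smul_zero, add_zero] at h1
      rw [hF]; exact h1.symm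
    have hFsymm : ∀ y z, F (y, z) = F (z, y) := by intro y z; rw [hF]; exact hψsymm _ y z
    funext q
    obtain ⟨y, z⟩ := q
    have h1 := hFu y z
    have hy : (u : Equiv.Perm α) y = ((t : Equiv.Perm α) ^ (c - e y - e z).val) z := by
      apply e.injective
      rw [hu, he_pow, ZMod.natCast_zmod_val]; ring
    have hz : (u : Equiv.Perm α) z = ((t : Equiv.Perm α) ^ (c - e y - e z).val) y := by
      apply e.injective
      rw [hu, he_pow, ZMod.natCast_zmod_val]; ring
    rw [hy, hz, hFtn, hFsymm z y] at h1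
    have h2 : (2 : ZMod p) * F (y, z) = 0 := by linear_combination h1
    exact (mul_eq_zero.mp h2).resolve_left h2ne
  · intro x y z hxy hxz hyz
    have hRiff : ∀ x x' y z : α, x ≠ y → x ≠ z → x' ≠ y → x' ≠ z → y ≠ z →
        (R x y z ↔ R x' y z) := by
      intro x x' y z hxy hxz hx'y hx'z hyz
      have hfmem : (Pi.single x (1 : ZMod p) - Pi.single x' (1 : ZMod p) : α → ZMod p)
          ∈ LinearMap.ker ψ := by
        rw [hker]
        apply M_mono _ hr₁
        rw [M_pred]
        simp [Finset.sum_sub_distrib]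
      rw [LinearMap.mem_ker] at hfmem
      have h1 := congrFun hfmem (y, z)
      rw [hψapp, map_sub, inc_apply] at h1
      simp only [Pi.sub_apply, Pi.zero_apply] at h1
      rw [adj3_single, adj3_single, if_neg (show ¬ (y, z).1 = (y, z).2 from hyz)] at h1
      simp only [Pi.sub_apply] at h1
      rw [Pi.single_eq_of_ne hxy.symm, Pi.single_eq_of_ne hxz.symm,
        Pi.single_eq_of_ne hx'y.symm, Pi.single_eq_of_ne hx'z.symm] at h1
      by_cases hR : R x y z <;> by_cases hR' : R x' y z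
      · exact ⟨fun _ => hR', fun _ => hR⟩
      · exfalso; rw [if_pos hR, if_neg hR'] at h1; apply h2ne; linear_combination h1
      · exfalso; rw [if_neg hR, if_pos hR'] at h1; apply h2ne
        linear_combination (-1 : ZMod p) * h1
      · exact ⟨fun h => absurd h hR, fun h => absurd h hR'⟩
    have hRall : ∀ x y z : α, x ≠ y → x ≠ z → y ≠ z → R x y z := by
      intro x y z hxy hxz hyz
      obtain ⟨g, hg, h1, h2⟩ := h2t b c₁ y z hbc hyz
      have h3 : R (g a) y z := by
        have := (hRinv g hg a b c₁).mp hRabc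
        rwa [h1, h2] at this
      have hgay : g a ≠ y := by rw [← h1]; exact fun h => hab (g.injective h)
      have hgaz : g a ≠ z := by rw [← h2]; exact fun h => hac (g.injective h)
      exact (hRiff x (g a) y z hxy hxz hgay hgaz hyz).mpr h3
    obtain ⟨x₀, hx₀⟩ : ∃ x₀, x₀ = e.symm (c * 2⁻¹) := ⟨_, rfl⟩
    obtain ⟨y₁, hy₁⟩ : ∃ y₁, y₁ = e.symm (c * 2⁻¹ + 1) := ⟨_, rfl⟩
    obtain ⟨z₁, hz₁⟩ : ∃ z₁, z₁ = e.symm (c * 2⁻¹ - 1) := ⟨_, rfl⟩
    have h22 : (2 : ZMod p) * 2⁻¹ = 1 := mul_inv_cancel₀ h2ne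
    have hux : (u : Equiv.Perm α) x₀ = x₀ := by
      apply e.injective; rw [hu, hx₀, Equiv.apply_symm_apply]; linear_combination (-c) * h22
    have huy : (u : Equiv.Perm α) y₁ = z₁ := by
      apply e.injective
      rw [hu, hy₁, hz₁, Equiv.apply_symm_apply, Equiv.apply_symm_apply]
      linear_combination (-c) * h22
    have huz : (u : Equiv.Perm α) z₁ = y₁ := by
      apply e.injective
      rw [hu, hy₁, hz₁, Equiv.apply_symm_apply, Equiv.apply_symm_apply]
      linear_combination (-c) * h22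
    have hx₀y₁ : x₀ ≠ y₁ := by
      rw [hx₀, hy₁]; intro h
      have h' := e.symm.injective h
      apply one_ne_zero (α := ZMod p); linear_combination (-1 : ZMod p) * h'
    have hx₀z₁ : x₀ ≠ z₁ := by
      rw [hx₀, hz₁]; intro h
      have h' := e.symm.injective h
      apply one_ne_zero (α := ZMod p); linear_combination h'
    have hy₁z₁ : y₁ ≠ z₁ := by
      rw [hy₁, hz₁]; intro h
      have h' := e.symm.injective h
      apply h2ne; linear_combination h'
    have hR₀ := hRall x₀ y₁ z₁ hx₀y₁ hx₀z₁ hy₁z₁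
    rw [hRdef] at hR₀
    obtain ⟨g, hg, hga, hgbc⟩ := hR₀
    obtain ⟨w, hwG, hwa, hwb, hwc⟩ : ∃ w ∈ G, w a = a ∧ w b = c₁ ∧ w c₁ = b := by
      refine ⟨g⁻¹ * (u : Equiv.Perm α) * g, G.mul_mem (G.mul_mem (G.inv_mem hg) u.2) hg,
        ?_, ?_, ?_⟩
      · rw [Equiv.Perm.mul_apply, Equiv.Perm.mul_apply, hga, hux, ← hga]
        exact g.symm_apply_apply a
      · rcases hgbc with ⟨h1, h2⟩ | ⟨h1, h2⟩
        · rw [Equiv.Perm.mul_apply, Equiv.Perm.mul_apply, h1, huy, ← h2]
          exact g.symm_apply_apply c₁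
        · rw [Equiv.Perm.mul_apply, Equiv.Perm.mul_apply, h1, huz, ← h2]
          exact g.symm_apply_apply c₁
      · rcases hgbc with ⟨h1, h2⟩ | ⟨h1, h2⟩
        · rw [Equiv.Perm.mul_apply, Equiv.Perm.mul_apply, h2, huz, ← h1]
          exact g.symm_apply_apply b
        · rw [Equiv.Perm.mul_apply, Equiv.Perm.mul_apply, h2, huy, ← h1]
          exact g.symm_apply_apply b
    have hR := hRall x y z hxy hxz hyz
    rw [hRdef] at hR
    obtain ⟨g', hg', hg'a, hg'bc⟩ := hR
    rcases hg'bc with ⟨h1, h2⟩ | ⟨h1, h2⟩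
    · exact ⟨g', hg', hg'a, h1, h2⟩
    · refine ⟨g' * w, G.mul_mem hg' hwG, ?_, ?_, ?_⟩
      · rw [Equiv.Perm.mul_apply, hwa, hg'a]
      · rw [Equiv.Perm.mul_apply, hwb, h2]
      · rw [Equiv.Perm.mul_apply, hwc, h1]

end Cfsg.Agent.Lib.Helper2.PrimeDeg
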