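import Mathlib
import Cfsg.Agent.Lib.Helper2.RankOne
import Cfsg.Agent.Lib.Helper2.InvOdd

set_option autoImplicit false

namespace Cfsg.Agent.Lib.Helper2.RankOne

open Cfsg MulAction

variable {G Ω : Type*} [Group G] [MulAction G Ω] {a : Ω} {t : G} {Q : Subgroup G}

/-- Any involution swapping `a` and `t • a` gives a rank-one setup. -/
theorem setup_of_swap (hS : IsRankOneSetup G Ω a t Q) {w : G} (hw2 : w * w = 1)
    (hwa : w • a = t • a) : IsRankOneSetup G Ω a w Q where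
  two_transitive := hS.two_transitive
  mul_self := hw2
  ne_one := by
    rintro rfl
    rw [one_smul] at hwa
    exact b_ne hS hwa.symm
  not_mem := by
    intro h
    rw [mem_stabilizer_iff, hwa] at h
    exact b_ne hS h
  le := hS.le
  conj_mem := hS.conj_mem
  inf_eq_bot := by rw [hwa]; exact hS.inf_eq_bot
  sup_eq := by rw [hwa]; exact hS.sup_eq
  even_card := hS.even_card
  odd_card := by rw [hwa]; exact hS.odd_card

/-- The involution of `G_a` associated with `t`: existence. -/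
theorem assoc_exists (hS : IsRankOneSetup G Ω a t Q) [Finite G] :
    ∃ s ∈ involutionsIn (stabilizer G a : Set G), ∃ r ∈ Q, t * s * t = r⁻¹ * t * r := by
  have ht := t_inv hS
  have htt := hS.mul_self
  obtain ⟨c, hc⟩ := exists_fix hS hS.mul_self
  have hca : c ≠ a := by
    rintro rfl; exact b_ne hS hc
  obtain ⟨q, hq, hqc⟩ := exists_smul_b hS hca
  have hqc' : q⁻¹ • c = t • a := inv_smul_eq_iff.mpr hqc.symm
  refine ⟨t * q⁻¹ * t * q * t, ⟨?_, ?_, ?_⟩, q, hq, ?_⟩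
  · show t * q⁻¹ * t * q * t ∈ stabilizer G a
    rw [mem_stabilizer_iff]
    simp only [mul_smul]
    rw [hqc, hc, hqc', t_smul_b hS]
  · intro h
    apply hS.ne_one
    have e : t = (t * q⁻¹)⁻¹ * (t * q⁻¹ * t * q * t) * (t * q⁻¹) := by
      simp [mul_assoc, tt_left hS, ht]
    rw [e, h]; group
  · show (t * q⁻¹ * t * q * t) * (t * q⁻¹ * t * q * t) = 1
    simp [mul_assoc, tt_left hS, htt]
  · show t * (t * q⁻¹ * t * q * t) * t = q⁻¹ * t * q
    simp [mul_assoc, tt_left hS, htt]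

/-- The involution of `G_a` associated with `t`: uniqueness. -/
theorem assoc_unique (hS : IsRankOneSetup G Ω a t Q) [Finite G] {s s' r r' : G}
    (hs : s ∈ involutionsIn (stabilizer G a : Set G)) (hr : r ∈ Q) (h : t * s * t = r⁻¹ * t * r)
    (hs' : s' ∈ involutionsIn (stabilizer G a : Set G)) (hr' : r' ∈ Q)
    (h' : t * s' * t = r'⁻¹ * t * r') : s = s' ∧ r = r' := by
  have htt := hS.mul_self
  have key : ∀ s r : G, s ∈ involutionsIn (stabilizer G a : Set G) → r ∈ Q →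
      t * s * t = r⁻¹ * t * r → t • (r • (t • a)) = r • (t • a) := by
    intro s r hs hr e
    have hsa : s • a = a := hs.1
    have h0 : (t * s * t) • (t • a) = t • a := by
      simp only [mul_smul]
      rw [t_smul_b hS, hsa]
    rw [e] at h0
    simp only [mul_smul] at h0
    rw [inv_smul_eq_iff] at h0
    exact h0
  have h1 := fix_unique hS hS.ne_one hS.mul_self (key s r hs hr h) (key s' r' hs' hr' h')
  have hrr : r = r' := eq_of_smul_b_eq hS hr hr' h1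
  subst hrr
  refine ⟨?_, rfl⟩
  have e1 : s = t * (t * s * t) * t := by simp [mul_assoc, tt_left hS, htt]
  have e2 : s' = t * (t * s' * t) * t := by simp [mul_assoc, tt_left hS, htt]
  rw [e1, e2, h, h']

/-- The relation "`s` is the involution of `G_a` associated with `w`". -/
def Assoc (Q : Subgroup G) (a : Ω) (w s : G) : Prop :=
  s ∈ involutionsIn (stabilizer G a : Set G) ∧ ∃ r ∈ Q, w * s * w = r⁻¹ * w * r

theorem mem_D_smul_b {d : G} (hd : d ∈ stabilizer G a ⊓ stabilizer G (t • a)) :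
    d • (t • a) = t • a := (Subgroup.mem_inf.mp hd).2

theorem mem_D_smul_a {d : G} (hd : d ∈ stabilizer G a ⊓ stabilizer G (t • a)) :
    d • a = a := (Subgroup.mem_inf.mp hd).1

theorem involutionsIn_conj {d s : G} (hd : d ∈ stabilizer G a)
    (hs : s ∈ involutionsIn (stabilizer G a : Set G)) :
    d * s * d⁻¹ ∈ involutionsIn (stabilizer G a : Set G) := by
  obtain ⟨h1, h2, h3⟩ := hs
  refine ⟨Subgroup.mul_mem _ (Subgroup.mul_mem _ hd h1) (Subgroup.inv_mem _ hd), ?_, ?_⟩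
  · intro h; apply h2; simpa using h
  · calc d * s * d⁻¹ * (d * s * d⁻¹) = d * (s * s) * d⁻¹ := by group
      _ = 1 := by rw [h3]; group

/-- Equivariance of the association under `G_a ∩ G_b`. -/
theorem assoc_conj (hS : IsRankOneSetup G Ω a t Q) {d w s : G}
    (hd : d ∈ stabilizer G a ⊓ stabilizer G (t • a)) (h : Assoc Q a w s) :
    Assoc Q a (d * w * d⁻¹) (d * s * d⁻¹) := by
  obtain ⟨hs, r, hr, e⟩ := h
  have hda : d ∈ stabilizer G a := (Subgroup.mem_inf.mp hd).1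
  refine ⟨involutionsIn_conj hda hs, d * r * d⁻¹, hS.conj_mem d hda r hr, ?_⟩
  calc d * w * d⁻¹ * (d * s * d⁻¹) * (d * w * d⁻¹) = d * (w * s * w) * d⁻¹ := by group
    _ = d * (r⁻¹ * w * r) * d⁻¹ := by rw [e]
    _ = (d * r * d⁻¹)⁻¹ * (d * w * d⁻¹) * (d * r * d⁻¹) := by group

theorem swap_conj {d w : G} (hd : d ∈ stabilizer G a ⊓ stabilizer G (t • a)) (hw2 : w * w = 1)
    (hwa : w • a = t • a) : (d * w * d⁻¹) * (d * w * d⁻¹) = 1 ∧ (d * w * d⁻¹) • a = t • a := by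
  constructor
  · calc d * w * d⁻¹ * (d * w * d⁻¹) = d * (w * w) * d⁻¹ := by group
      _ = 1 := by rw [hw2]; group
  · have h1 : d⁻¹ • a = a := by rw [inv_smul_eq_iff, mem_D_smul_a hd]
    rw [mul_smul, mul_smul, h1, hwa, mem_D_smul_b hd]

/-- Every involution of `G_a` is associated with some involution swapping `a` and `t • a`. -/
theorem assoc_surj (hS : IsRankOneSetup G Ω a t Q) [Finite G] {s' : G}
    (hs' : s' ∈ involutionsIn (stabilizer G a : Set G)) :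
    ∃ w : G, w * w = 1 ∧ w • a = t • a ∧ Assoc Q a w s' := by
  obtain ⟨s0, hs0, r0, hr0, e0⟩ := assoc_exists hS
  obtain ⟨k, hk, hke⟩ := exists_invertedBy_conj hS hs0 hs'
  have hkD : k⁻¹ ∈ stabilizer G a ⊓ stabilizer G (t • a) := Subgroup.inv_mem _ hk.1
  obtain ⟨h1, h2⟩ := swap_conj hkD hS.mul_self rfl
  refine ⟨k⁻¹ * t * k⁻¹⁻¹, h1, h2, ?_⟩
  have := assoc_conj hS hkD (w := t) (s := s0) ⟨hs0, r0, hr0, e0⟩
  rw [inv_inv] at this ⊢
  rw [hke] at this
  exact this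

theorem assoc_exists' (hS : IsRankOneSetup G Ω a t Q) [Finite G] {w : G} (hw2 : w * w = 1)
    (hwa : w • a = t • a) : ∃ s, Assoc Q a w s := by
  obtain ⟨s, hs, r, hr, e⟩ := assoc_exists (setup_of_swap hS hw2 hwa)
  exact ⟨s, hs, r, hr, e⟩

theorem assoc_unique' (hS : IsRankOneSetup G Ω a t Q) [Finite G] {w s s' : G} (hw2 : w * w = 1)
    (hwa : w • a = t • a) (h : Assoc Q a w s) (h' : Assoc Q a w s') : s = s' := by
  obtain ⟨hs, r, hr, e⟩ := h
  obtain ⟨hs', r', hr', e'⟩ := h'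
  exact (assoc_unique (setup_of_swap hS hw2 hwa) hs hr e hs' hr' e').1

/-- The swapping involutions are in bijection with the inverted elements. -/
theorem card_swap (hS : IsRankOneSetup G Ω a t Q) [Finite G] :
    Nat.card {w : G // w * w = 1 ∧ w • a = t • a} =
      Nat.card (invertedBy (stabilizer G a ⊓ stabilizer G (t • a)) t) := by
  symm
  let f : (invertedBy (stabilizer G a ⊓ stabilizer G (t • a)) t) →
      {w : G // w * w = 1 ∧ w • a = t • a} := fun k =>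
    ⟨t * (k : G), tk_sq hS k.2, by rw [mul_smul, mem_D_smul_a k.2.1]⟩
  refine Nat.card_congr (Equiv.ofBijective f ⟨?_, ?_⟩)
  · intro k k' h
    have h' : t * (k : G) = t * (k' : G) := congrArg Subtype.val h
    exact Subtype.ext (mul_left_cancel h')
  · rintro ⟨w, hw2, hwa⟩
    refine ⟨⟨t * w, mem_invertedBy_of_swap hS hw2 hwa⟩, ?_⟩
    apply Subtype.ext
    show t * (t * w) = w
    rw [tt_left hS]

/-- Injectivity of the association. -/
theorem assoc_inj (hS : IsRankOneSetup G Ω a t Q) [Finite G] {w w' s : G} (hw2 : w * w = 1)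
    (hwa : w • a = t • a) (hw2' : w' * w' = 1) (hwa' : w' • a = t • a) (h : Assoc Q a w s)
    (h' : Assoc Q a w' s) : w = w' := by
  classical
  have hex : ∀ w : {w : G // w * w = 1 ∧ w • a = t • a}, ∃ s, Assoc Q a (w : G) s :=
    fun w => assoc_exists' hS w.2.1 w.2.2
  choose σ hσ using hex
  let f : {w : G // w * w = 1 ∧ w • a = t • a} → involutionsIn (stabilizer G a : Set G) :=
    fun w => ⟨σ w, (hσ w).1⟩
  have hsurj : Function.Surjective f := by
    rintro ⟨s', hs'⟩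
    obtain ⟨w, hw2, hwa, hA⟩ := assoc_surj hS hs'
    refine ⟨⟨w, hw2, hwa⟩, ?_⟩
    apply Subtype.ext
    exact assoc_unique' hS hw2 hwa (hσ ⟨w, hw2, hwa⟩) hA
  have hbij := hsurj.bijective_of_nat_card_le (by rw [card_swap hS, card_invertedBy hS])
  have h1 : f ⟨w, hw2, hwa⟩ = f ⟨w', hw2', hwa'⟩ := by
    apply Subtype.ext
    show σ ⟨w, hw2, hwa⟩ = σ ⟨w', hw2', hwa'⟩
    rw [assoc_unique' hS hw2 hwa (hσ ⟨w, hw2, hwa⟩) h,
      assoc_unique' hS hw2' hwa' (hσ ⟨w', hw2', hwa'⟩) h']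
  exact congrArg Subtype.val (hbij.1 h1)

/-- The involutions swapping `a` and `t • a` are conjugate to `t` under `D`. -/
theorem exists_D_conj_eq_t (hS : IsRankOneSetup G Ω a t Q) [Finite G] {w : G} (hw2 : w * w = 1)
    (hwa : w • a = t • a) :
    ∃ d ∈ stabilizer G a ⊓ stabilizer G (t • a), d * w * d⁻¹ = t := by
  obtain ⟨s0, hs0, r0, hr0, e0⟩ := assoc_exists hS
  obtain ⟨sw, hsw⟩ := assoc_exists' hS hw2 hwa
  obtain ⟨k, hk, hke⟩ := exists_invertedBy_conj hS hsw.1 hs0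
  have hkD : k⁻¹ ∈ stabilizer G a ⊓ stabilizer G (t • a) := Subgroup.inv_mem _ hk.1
  have h1 := assoc_conj hS hkD hsw
  rw [inv_inv, hke] at h1
  obtain ⟨h3, h4⟩ := swap_conj hkD hw2 hwa
  rw [inv_inv] at h3 h4
  have h5 := assoc_inj hS h3 h4 hS.mul_self rfl h1 ⟨hs0, r0, hr0, e0⟩
  exact ⟨k⁻¹, hkD, by rw [inv_inv]; exact h5⟩

theorem third_point {b c d p p' : Ω} (hbc : b ≠ c) (hbd : b ≠ d) (hcd : c ≠ d) :
    ∃ z, (z = b ∨ z = c ∨ z = d) ∧ z ≠ p ∧ z ≠ p' := by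
  by_cases hb : b ≠ p ∧ b ≠ p'
  · exact ⟨b, Or.inl rfl, hb⟩
  by_cases hc : c ≠ p ∧ c ≠ p'
  · exact ⟨c, Or.inr (Or.inl rfl), hc⟩
  push_neg at hb hc
  refine ⟨d, Or.inr (Or.inr rfl), ?_, ?_⟩
  · intro h
    have h1 : b = p' := hb (by rw [← h]; exact hbd)
    have h2 : c = p' := hc (by rw [← h]; exact hcd)
    exact hbc (h1.trans h2.symm)
  · intro h
    by_cases hbp : b = p
    · have h2 : c = p' := hc (by rw [← hbp]; exact hbc.symm)
      exact hcd (h2.trans h.symm)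
    · exact hbd ((hb hbp).trans h.symm)

/-- Core of the Witt-type argument: centralising elements of a conjugate of `Q`. -/
theorem cent_core (hS : IsRankOneSetup G Ω a t Q) (X : Set G) {c e e' : Ω} {h : G} (hh : h • a = c)
    (hc : ∀ x ∈ X, x • c = c) (he : ∀ x ∈ X, x • e = e) (he' : ∀ x ∈ X, x • e' = e')
    (hec : e ≠ c) (hec' : e' ≠ c) :
    ∃ q ∈ Q, h * q * h⁻¹ ∈ Subgroup.centralizer X ∧ (h * q * h⁻¹) • c = c ∧
      (h * q * h⁻¹) • e = e' := by
  have hhc : h⁻¹ • c = a := by rw [inv_smul_eq_iff, hh]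
  have h1 : h⁻¹ • e ≠ a := by
    intro h0; apply hec; rw [inv_smul_eq_iff, hh] at h0; exact h0
  have h1' : h⁻¹ • e' ≠ a := by
    intro h0; apply hec'; rw [inv_smul_eq_iff, hh] at h0; exact h0
  obtain ⟨q, hq, hqe, huniq⟩ := exists_unique_smul hS h1 h1'
  refine ⟨q, hq, ?_, ?_, ?_⟩
  · rw [Subgroup.mem_centralizer_iff]
    intro x hx
    have hxa : (h⁻¹ * x * h) ∈ stabilizer G a := by
      rw [mem_stabilizer_iff, mul_smul, mul_smul, hh, hc x hx, hhc]
    have hxinv : x⁻¹ • e = e := by rw [inv_smul_eq_iff, he x hx]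
    have h2 : (h⁻¹ * x * h) * q * (h⁻¹ * x * h)⁻¹ ∈ Q := hS.conj_mem _ hxa q hq
    have h3 : ((h⁻¹ * x * h) * q * (h⁻¹ * x * h)⁻¹) • (h⁻¹ • e) = h⁻¹ • e' := by
      have e1 : ((h⁻¹ * x * h) * q * (h⁻¹ * x * h)⁻¹) = h⁻¹ * x * h * q * h⁻¹ * x⁻¹ * h := by group
      rw [e1]
      simp only [mul_smul]
      rw [smul_inv_smul, hxinv, hqe, smul_inv_smul, he' x hx]
    have h4 := huniq _ h2 h3
    calc x * (h * q * h⁻¹) = h * ((h⁻¹ * x * h) * q * (h⁻¹ * x * h)⁻¹) * h⁻¹ * x := by group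
      _ = h * q * h⁻¹ * x := by rw [h4]
  · rw [mul_smul, mul_smul, hhc, smul_a_of_mem hS hq, hh]
  · rw [mul_smul, mul_smul, hqe, smul_inv_smul]

/-- `C(X)` is transitive on the fixed points of `X` (when there are at least three). -/
theorem cent_trans (hS : IsRankOneSetup G Ω a t Q) (X : Set G)
    (h3 : ∃ b c d : Ω, b ≠ c ∧ b ≠ d ∧ c ≠ d ∧ ∀ x ∈ X, x • b = b ∧ x • c = c ∧ x • d = d)
    {p p' : Ω} (hp : ∀ x ∈ X, x • p = p) (hp' : ∀ x ∈ X, x • p' = p') :
    ∃ g ∈ Subgroup.centralizer X, g • p = p' := by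
  by_cases hpp : p = p'
  · exact ⟨1, Subgroup.one_mem _, by rw [one_smul, hpp]⟩
  obtain ⟨b, c, d, hbc, hbd, hcd, hfix⟩ := h3
  obtain ⟨z, hz, hzp, hzp'⟩ := third_point (p := p) (p' := p') hbc hbd hcd
  have hzfix : ∀ x ∈ X, x • z = z := by
    intro x hx
    rcases hz with rfl | rfl | rfl
    · exact (hfix x hx).1
    · exact (hfix x hx).2.1
    · exact (hfix x hx).2.2
  haveI := pretrans hS
  obtain ⟨h, hh⟩ := exists_smul_eq G a z
  obtain ⟨q, hq, h1, h2, h3⟩ := cent_core hS X hh hzfix hp hp' (Ne.symm hzp) (Ne.symm hzp')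
  exact ⟨_, h1, h3⟩

theorem cent_smul_fix {X : Set G} {g : G} (hg : g ∈ Subgroup.centralizer X) {p : Ω}
    (hp : ∀ x ∈ X, x • p = p) : ∀ x ∈ X, x • (g • p) = g • p := by
  intro x hx
  rw [smul_smul, (Subgroup.mem_centralizer_iff.mp hg) x hx, mul_smul, hp x hx]

/-- `C(X)` is doubly transitive on the fixed points of `X`. -/
theorem cent_two_trans (hS : IsRankOneSetup G Ω a t Q) (X : Set G)
    (h3 : ∃ b c d : Ω, b ≠ c ∧ b ≠ d ∧ c ≠ d ∧ ∀ x ∈ X, x • b = b ∧ x • c = c ∧ x • d = d)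
    {b₁ b₂ c₁ c₂ : Ω} (hb₁ : ∀ x ∈ X, x • b₁ = b₁) (hb₂ : ∀ x ∈ X, x • b₂ = b₂)
    (hc₁ : ∀ x ∈ X, x • c₁ = c₁) (hc₂ : ∀ x ∈ X, x • c₂ = c₂) (hb : b₁ ≠ b₂) (hc : c₁ ≠ c₂) :
    ∃ g ∈ Subgroup.centralizer X, g • b₁ = c₁ ∧ g • b₂ = c₂ := by
  obtain ⟨g1, hg1, hg1e⟩ := cent_trans hS X h3 hb₁ hc₁
  have h1 := cent_smul_fix hg1 hb₂
  have hne : g1 • b₂ ≠ c₁ := by
    intro h; apply hb; rw [← hg1e] at h; exact (smul_left_cancel g1 h).symm
  haveI := pretrans hS
  obtain ⟨h, hh⟩ := exists_smul_eq G a c₁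
  obtain ⟨q, hq, h2, h4, h5⟩ := cent_core hS X hh hc₁ h1 hc₂ hne (Ne.symm hc)
  refine ⟨h * q * h⁻¹ * g1, Subgroup.mul_mem _ h2 hg1, ?_, ?_⟩
  · rw [mul_smul, hg1e, h4]
  · rw [mul_smul, h5]

/-- An involution centralising `X`. -/
theorem exists_involution_cent (hS : IsRankOneSetup G Ω a t Q) [Finite G] (X : Set G)
    (hX : X ⊆ ((stabilizer G a ⊓ stabilizer G (t • a) : Subgroup G) : Set G))
    (h3 : ∃ b c d : Ω, b ≠ c ∧ b ≠ d ∧ c ≠ d ∧ ∀ x ∈ X, x • b = b ∧ x • c = c ∧ x • d = d) :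
    ∃ u ∈ Subgroup.centralizer X, u ≠ 1 ∧ u * u = 1 := by
  have hXa : ∀ x ∈ X, x • a = a := fun x hx => mem_D_smul_a (hX hx)
  have hXb : ∀ x ∈ X, x • (t • a) = t • a := fun x hx => mem_D_smul_b (hX hx)
  obtain ⟨g, hg, hga, hgb⟩ := cent_two_trans hS X h3 hXa hXb hXb hXa (b_ne hS).symm (b_ne hS)
  have hpos : 0 < orderOf g := orderOf_pos g
  have heven : Even (orderOf g) := by
    by_contra hodd
    rw [Nat.not_even_iff_odd] at hodd
    obtain ⟨k, hk⟩ := hodd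
    have h1 : g ^ (2 * k + 1) = 1 := by rw [← hk]; exact pow_orderOf_eq_one g
    have h2 : ∀ n : ℕ, (g ^ (2 * n)) • a = a := by
      intro n
      induction n with
      | zero => simp
      | succ n ih =>
        have : g ^ (2 * (n + 1)) = g ^ (2 * n) * (g * g) := by
          rw [← pow_two, ← pow_add, Nat.mul_succ]
        rw [this, mul_smul, mul_smul, hga, hgb, ih]
    have h3 : (g ^ (2 * k + 1)) • a = t • a := by
      rw [pow_succ', mul_smul, h2 k, hga]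
    rw [h1, one_smul] at h3
    exact b_ne hS h3.symm
  obtain ⟨m, hm⟩ := heven
  refine ⟨g ^ m, Subgroup.pow_mem _ hg m, ?_, ?_⟩
  · intro h
    have := orderOf_dvd_of_pow_eq_one h
    have := Nat.le_of_dvd (by omega) this
    omega
  · rw [← pow_add, ← hm]; exact pow_orderOf_eq_one g

/-- An involution of `Q` centralising `X`. -/
theorem exists_involution_cent_Q (hS : IsRankOneSetup G Ω a t Q) [Finite G] (X : Set G)
    (hX : X ⊆ ((stabilizer G a ⊓ stabilizer G (t • a) : Subgroup G) : Set G))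
    (h3 : ∃ b c d : Ω, b ≠ c ∧ b ≠ d ∧ c ≠ d ∧ ∀ x ∈ X, x • b = b ∧ x • c = c ∧ x • d = d) :
    ∃ u ∈ Subgroup.centralizer X, u ∈ Q ∧ u ≠ 1 ∧ u * u = 1 := by
  have hXa : ∀ x ∈ X, x • a = a := fun x hx => mem_D_smul_a (hX hx)
  obtain ⟨u, hu, hu1, hu2⟩ := exists_involution_cent hS X hX h3
  obtain ⟨c0, hc0⟩ := exists_fix hS hu2
  have hc0fix : ∀ x ∈ X, x • c0 = c0 := by
    intro x hx
    have h1 : u • (x • c0) = x • c0 := by
      rw [smul_smul, ← (Subgroup.mem_centralizer_iff.mp hu) x hx, mul_smul, hc0]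
    exact fix_unique hS hu1 hu2 h1 hc0
  obtain ⟨g, hg, hge⟩ := cent_trans hS X h3 hc0fix hXa
  have hu' : g * u * g⁻¹ ∈ Subgroup.centralizer X :=
    Subgroup.mul_mem _ (Subgroup.mul_mem _ hg hu) (Subgroup.inv_mem _ hg)
  have hu'a : g * u * g⁻¹ ∈ stabilizer G a := by
    rw [mem_stabilizer_iff, mul_smul, mul_smul, ← hge, inv_smul_smul, hc0]
  have hu'2 : (g * u * g⁻¹) * (g * u * g⁻¹) = 1 := by
    calc (g * u * g⁻¹) * (g * u * g⁻¹) = g * (u * u) * g⁻¹ := by group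
      _ = 1 := by rw [hu2]; group
  have hu'1 : g * u * g⁻¹ ≠ 1 := by
    intro h; apply hu1; simpa using h
  exact ⟨_, hu', mem_Q_of_sq hS hu'a hu'2, hu'1, hu'2⟩

/-- A non-identity element of `D` inverted by `t` has trivial centraliser in `Q`. -/
theorem Q_inf_cent_invertedBy (hS : IsRankOneSetup G Ω a t Q) [Finite G] {x : G}
    (hx : x ∈ invertedBy (stabilizer G a ⊓ stabilizer G (t • a)) t) (hx1 : x ≠ 1) {q : G}
    (hq : q ∈ Q) (hqx : x * q = q * x) : q = 1 := by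
  by_contra hq1
  have hxa : x • a = a := mem_D_smul_a hx.1
  have hxb : x • (t • a) = t • a := mem_D_smul_b hx.1
  have hX : ({x} : Set G) ⊆ ((stabilizer G a ⊓ stabilizer G (t • a) : Subgroup G) : Set G) := by
    rintro _ rfl; exact hx.1
  have h3 : ∃ b c d : Ω, b ≠ c ∧ b ≠ d ∧ c ≠ d ∧
      ∀ x' ∈ ({x} : Set G), x' • b = b ∧ x' • c = c ∧ x' • d = d := by
    refine ⟨a, t • a, q • (t • a), (b_ne hS).symm, (smul_ne_a hS hq (b_ne hS)).symm, ?_, ?_⟩
    · intro h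
      exact hq1 (eq_one_of_smul_eq hS hq (b_ne hS) h.symm)
    · rintro _ rfl
      refine ⟨hxa, hxb, ?_⟩
      rw [smul_smul, hqx, mul_smul, hxb]
  obtain ⟨u, huc, huQ, hu1, hu2⟩ := exists_involution_cent_Q hS {x} hX h3
  have hux : x * u = u * x := (Subgroup.mem_centralizer_iff.mp huc) x rfl
  obtain ⟨k, hk⟩ := odd_order_mul hS (hS.le huQ) hu1 hu2 hS.not_mem hS.mul_self
  have hr : (u * t) ^ (2 * k + 1) = 1 := by rw [← hk]; exact pow_orderOf_eq_one _
  have hconj : (u * t) * x * (u * t)⁻¹ = x⁻¹ := by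
    calc (u * t) * x * (u * t)⁻¹ = u * (t * x * t⁻¹) * u⁻¹ := by group
      _ = u * x⁻¹ * u⁻¹ := by rw [hx.2]
      _ = ((u * x) * u⁻¹)⁻¹ := by group
      _ = ((x * u) * u⁻¹)⁻¹ := by rw [hux]
      _ = x⁻¹ := by group
  have hcomm2 : Commute ((u * t) * (u * t)) x := by
    show (u * t) * (u * t) * x = x * ((u * t) * (u * t))
    calc (u * t) * (u * t) * x = (u * t) * ((u * t) * x * (u * t)⁻¹) * (u * t) := by group
      _ = (u * t) * x⁻¹ * (u * t) := by rw [hconj]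
      _ = ((u * t) * x * (u * t)⁻¹)⁻¹ * ((u * t) * (u * t)) := by group
      _ = x * ((u * t) * (u * t)) := by rw [hconj, inv_inv]
  have hcommk := hcomm2.pow_left k
  have hr' : ((u * t) * (u * t)) ^ k * (u * t) = 1 := by
    rw [← pow_two, ← pow_mul, ← pow_succ]; exact hr
  generalize ((u * t) * (u * t)) ^ k = y at hcommk hr'
  have hy : u * t = y⁻¹ := eq_inv_of_mul_eq_one_right hr'
  rw [hy] at hconj
  have hxx : x = x⁻¹ := by
    calc x = y⁻¹ * (y * x) := by group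
      _ = y⁻¹ * (x * y) := by rw [hcommk.eq]
      _ = y⁻¹ * x * y⁻¹⁻¹ := by group
      _ = x⁻¹ := hconj
  have hsq : x * x = 1 * 1 := by
    rw [one_mul]
    calc x * x = x * x⁻¹ := by rw [← hxx]
      _ = 1 := mul_inv_cancel x
  exact hx1 (InvOdd.eq_of_sq_eq hS.odd_card hx.1 (Subgroup.one_mem _) hsq)

end Cfsg.Agent.Lib.Helper2.RankOne
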