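import Mathlib
import Cfsg.Prelude.Def_LieExceptional
import Cfsg.Prelude.Def_KGroupFacts
import Cfsg.Agent.Lib.Helper2.Sz22
import Cfsg.Agent.Lib.Helper2.LSz4

set_option autoImplicit false

namespace Cfsg.Agent.Lib.Helper2.SzL

open Matrix
open scoped LinearAlgebra.Projectivization Pointwise commutatorElement IsMulCommutative

section OutSz

variable {F : Type*} [Field F] [Fintype F] {m : ℕ}

theorem fieldAut_inner_eq (hm : 1 ≤ m) (hF : Fintype.card F = 2 ^ (2 * m + 1))
    (σ σ' : F ≃+* F) (g : Cfsg.Sz F m)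
    (h : (fieldAut hm hF σ')⁻¹ * fieldAut hm hF σ = MulAut.conj g) : σ = σ' := by
  have h1 : fieldAut hm hF σ = fieldAut hm hF σ' * MulAut.conj g := eq_mul_of_inv_mul_eq h
  have hx : ∀ x : Cfsg.Sz F m, fieldAut hm hF σ x =
      fieldAut hm hF σ' g * fieldAut hm hF σ' x * (fieldAut hm hF σ' g)⁻¹ := by
    intro x
    rw [h1, MulAut.mul_apply, MulAut.conj_apply, map_mul, map_mul, map_inv]
  set g' := fieldAut hm hF σ' g with hg'
  have hinf : (g' : SpecialLinearGroup (Fin 4) F) • pInf F = pInf F := by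
    have h2 := hx (gS hF 1 0)
    rw [fieldAut_gS, fieldAut_gS] at h2
    have hab : ¬ (σ' 1 = 0 ∧ σ' (0 : F) = 0) := by
      rintro ⟨h3, -⟩
      rw [map_one] at h3
      exact one_ne_zero h3
    exact conj_sS_fix_inf hF hab g'.1 g'.2 (congrArg Subtype.val h2).symm
  have h0 : (g' : SpecialLinearGroup (Fin 4) F) • pt m (0 : F) 0 = pt m (0 : F) 0 := by
    have h2 := hx (gW hF)
    rw [fieldAut_gW, fieldAut_gW] at h2
    have h3 : g' * gW hF = gW hF * g' := by
      calc g' * gW hF = (g' * gW hF * g'⁻¹) * g' := by group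
        _ = gW hF * g' := by rw [← h2]
    have h4 : (g' : SpecialLinearGroup (Fin 4) F) * sW hF = sW hF * g' :=
      congrArg Subtype.val h3
    rw [← sW_smul_inf hF, ← mul_smul, h4, mul_smul, hinf]
  obtain ⟨t₁, ht₁⟩ := fix_two hm hF g'.1 g'.2 hinf h0
  have hgT : g' = gT hF t₁ := Subtype.ext ht₁
  have hb : ∀ b : F, σ b = th m (t₁ : F) * (t₁ : F) ^ 2 * σ' b := by
    intro b
    have h2 := hx (gS hF 0 b)
    rw [fieldAut_gS, fieldAut_gS, hgT, gT_gS_conj] at h2
    exact (gS_inj hF h2).2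
  have hk : th m (t₁ : F) * (t₁ : F) ^ 2 = 1 := by
    have := hb 1
    rw [map_one, map_one, mul_one] at this
    exact this.symm
  apply RingEquiv.ext
  intro b
  rw [hb b, hk, one_mul]

theorem card_out_Sz (hm : 1 ≤ m) (hF : Fintype.card F = 2 ^ (2 * m + 1)) :
    Nat.card (Cfsg.Out (Cfsg.Sz F m)) = Nat.card (F ≃+* F) := by
  symm
  apply Nat.card_eq_of_bijective
    (fun σ : F ≃+* F => (QuotientGroup.mk (fieldAut hm hF σ) : Cfsg.Out (Cfsg.Sz F m)))
  constructor
  · intro σ σ' h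
    rw [QuotientGroup.eq] at h
    obtain ⟨g, hg⟩ := h
    exact (fieldAut_inner_eq hm hF σ' σ g hg.symm).symm
  · intro q
    obtain ⟨α, rfl⟩ := QuotientGroup.mk_surjective q
    obtain ⟨g, σ, rfl⟩ := aut_decomp hm hF α
    refine ⟨σ, ?_⟩
    show (QuotientGroup.mk (fieldAut hm hF σ) : Cfsg.Out (Cfsg.Sz F m)) = _
    rw [QuotientGroup.eq]
    refine ⟨(fieldAut hm hF σ)⁻¹ g, ?_⟩
    apply MulEquiv.ext
    intro x
    simp only [MulAut.mul_apply, MulAut.conj_apply, map_mul, map_inv, MulAut.inv_apply_self]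

theorem card_ringAut (hF : Fintype.card F = 2 ^ (2 * m + 1)) :
    Nat.card (F ≃+* F) = 2 * m + 1 := by
  haveI : Fact (Nat.Prime 2) := ⟨Nat.prime_two⟩
  haveI : CharP F 2 := CharTwo.of_one_ne_zero_of_two_eq_zero one_ne_zero (two_eq_zero hF)
  letI : Algebra (ZMod 2) F := ZMod.algebra F 2
  have hfr : Module.finrank (ZMod 2) F = 2 * m + 1 := by
    have := FiniteField.pow_finrank_eq_card 2 F
    rw [hF] at this
    exact Nat.pow_right_injective (le_refl 2) this
  have hcomm : ∀ (σ : F ≃+* F) (x : ZMod 2),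
      σ (algebraMap (ZMod 2) F x) = algebraMap (ZMod 2) F x := by
    intro σ x
    have : x = ((x.val : ℕ) : ZMod 2) := (ZMod.natCast_zmod_val x).symm
    rw [this, map_natCast, map_natCast]
  let e : (F ≃+* F) ≃ (F ≃ₐ[ZMod 2] F) :=
    { toFun := fun σ => AlgEquiv.ofRingEquiv (f := σ) (hcomm σ)
      invFun := fun e => e.toRingEquiv
      left_inv := fun σ => by ext; rfl
      right_inv := fun e => by ext; rfl }
  rw [Nat.card_congr e, IsGalois.card_aut_eq_finrank, hfr]

theorem card_out_congr {A B : Type*} [Group A] [Group B] (e : A ≃* B) :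
    Nat.card (Cfsg.Out A) = Nat.card (Cfsg.Out B) := by
  have hmap : (Cfsg.Inn A).map ((MulAut.congr e : MulAut A ≃* MulAut B) : MulAut A →* MulAut B) =
      Cfsg.Inn B := by
    ext φ
    constructor
    · rintro ⟨_, ⟨a, rfl⟩, rfl⟩
      refine ⟨e a, ?_⟩
      apply MulEquiv.ext
      intro x
      simp [MulAut.congr]
    · rintro ⟨b, rfl⟩
      refine ⟨MulAut.conj (e.symm b), ⟨e.symm b, rfl⟩, ?_⟩
      apply MulEquiv.ext
      intro x
      simp [MulAut.congr]
  show (Cfsg.Inn A).index = (Cfsg.Inn B).index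
  rw [← hmap, Subgroup.index_map_equiv]

theorem card_out_lieSz (hm : 1 ≤ m) (hF : Fintype.card F = 2 ^ (2 * m + 1)) :
    Nat.card (Cfsg.Out ↥(Cfsg.Lie.Sz F (2 ^ (m + 1)))) = 2 * m + 1 := by
  rw [card_out_congr (lieSzEquiv hm hF), card_out_Sz hm hF, card_ringAut hF]

end OutSz

end Cfsg.Agent.Lib.Helper2.SzL
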