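import Mathlib
import Cfsg.Prelude.Def_LieExceptional
import Cfsg.Agent.Lib.Helper2.Sz5

set_option autoImplicit false

namespace Cfsg.Agent.Lib.Helper2.SzL

open Matrix
open scoped LinearAlgebra.Projectivization Pointwise

section Ind

variable {F : Type*} [Field F] [Fintype F] {m : ℕ}

theorem base_indep (x y : F) (hxy : x ≠ 0 ∨ y ≠ 0) :
    LinearIndependent F ![vInf F, vP m (0 : F) 0, vP m x y] := by
  rw [Fintype.linearIndependent_iff]
  intro c hc
  rw [Fin.sum_univ_three] at hc
  have e0 := congrFun hc 0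
  have e1 := congrFun hc 1
  have e2 := congrFun hc 2
  have e3 := congrFun hc 3
  simp [vInf, vP, fS_zero] at e0 e1 e2 e3
  have hc2 : c 2 = 0 := by
    rcases hxy with hx | hy
    · rcases e2 with h | h
      · exact h
      · exact absurd h hx
    · rcases e1 with h | h
      · exact h
      · exact absurd h hy
  rw [hc2] at e0 e3
  simp at e0 e3
  intro i
  fin_cases i
  · exact e0
  · exact e3
  · exact hc2

theorem three_indep (hF : Fintype.card F = 2 ^ (2 * m + 1)) (u v w : ℙ F (Fin 4 → F))
    (hu : u ∈ Cfsg.suzukiOvoid F m) (hv : v ∈ Cfsg.suzukiOvoid F m)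
    (hw : w ∈ Cfsg.suzukiOvoid F m) (huv : u ≠ v) (huw : u ≠ w) (hvw : v ≠ w) :
    Projectivization.Independent ![u, v, w] := by
  obtain ⟨h, hh, e1, e2⟩ := exists_to_inf_zero hF u v hu hv huv
  have hw' := smul_mem_ovoid hh hw
  rcases (mem_ovoid_iff _).mp hw' with e | ⟨x, y, e⟩
  · exfalso
    exact huw (MulAction.injective h (e1.trans e.symm))
  · have hxy : x ≠ 0 ∨ y ≠ 0 := by
      by_contra hcon
      rw [not_or, not_not, not_not] at hcon
      obtain ⟨rfl, rfl⟩ := hcon
      exact hvw (MulAction.injective h (e2.trans e.symm))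
    have e1' : u = h⁻¹ • pInf F := by rw [eq_inv_smul_iff, e1]
    have e2' : v = h⁻¹ • pt m (0 : F) 0 := by rw [eq_inv_smul_iff, e2]
    have e3' : w = h⁻¹ • pt m x y := by rw [eq_inv_smul_iff, e]
    have hdet : (h⁻¹).1.det ≠ 0 := by rw [(h⁻¹).2]; exact one_ne_zero
    have hker : LinearMap.ker (h⁻¹).1.mulVecLin = ⊥ := by
      rw [Matrix.ker_mulVecLin_eq_bot_iff]
      intro z hz
      exact Matrix.eq_zero_of_mulVec_eq_zero hdet hz
    have hl := (base_indep (m := m) x y hxy).map' _ hker
    have hf : ∀ i, ((h⁻¹).1.mulVecLin ∘ ![vInf F, vP m (0 : F) 0, vP m x y]) i ≠ 0 := by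
      intro i
      exact hl.ne_zero i
    have key := Projectivization.Independent.mk _ hf hl
    have heq : ![u, v, w] = fun i => Projectivization.mk F
        (((h⁻¹).1.mulVecLin ∘ ![vInf F, vP m (0 : F) 0, vP m x y]) i) (hf i) := by
      funext i
      fin_cases i
      · exact e1'
      · exact e2'
      · exact e3'
    rw [heq]
    exact key

end Ind

end Cfsg.Agent.Lib.Helper2.SzL
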