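import Cfsg.Agent.Lib.Helper2.FusionFam
import Cfsg.Agent.Lib.Helper2.FusionWP
import Mathlib.GroupTheory.Focal

set_option autoImplicit false

namespace Cfsg.Agent.Lib.Helper2

open Subgroup Cfsg
open scoped commutatorElement

section TPSec

variable {G : Type*} [Group G]

/-- `TP F A k`: for `a ∈ A`, the commutator `a⁻¹ * a^k` lies in `F`. -/
def TP (F : Subgroup G) (A : Set G) (k : G) : Prop := ∀ a ∈ A, a⁻¹ * (k⁻¹ * a * k) ∈ F

theorem TP.mono {F : Subgroup G} {A A' : Set G} {k : G} (h : TP F A k) (hA : A' ⊆ A) :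
    TP F A' k := fun a ha => h a (hA ha)

theorem TP.of_centralizes {F : Subgroup G} {A : Set G} {k : G}
    (hk : ∀ a ∈ A, k⁻¹ * a * k = a) : TP F A k := by
  intro a ha
  rw [hk a ha, inv_mul_cancel]; exact one_mem F

theorem TP.trans {F : Subgroup G} {A : Set G} {k l : G} (h1 : TP F A k)
    (h2 : TP F (cj A k) l) : TP F A (k * l) := by
  intro a ha
  have h3 := h1 a ha
  have h4 := h2 (k⁻¹ * a * k) ⟨a, ha, rfl⟩
  have e : a⁻¹ * ((k * l)⁻¹ * a * (k * l)) =
      a⁻¹ * (k⁻¹ * a * k) * ((k⁻¹ * a * k)⁻¹ * (l⁻¹ * (k⁻¹ * a * k) * l)) := by group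
  rw [e]; exact mul_mem h3 h4

theorem TP.symm {F : Subgroup G} {A : Set G} {k : G} (h : TP F A k) : TP F (cj A k) k⁻¹ := by
  rintro _ ⟨a, ha, rfl⟩
  have h3 := inv_mem (h a ha)
  have e : (k⁻¹ * a * k)⁻¹ * (k⁻¹⁻¹ * (k⁻¹ * a * k) * k⁻¹) = (a⁻¹ * (k⁻¹ * a * k))⁻¹ := by group
  show (k⁻¹ * a * k)⁻¹ * (k⁻¹⁻¹ * (k⁻¹ * a * k) * k⁻¹) ∈ F
  rw [e]; exact h3

end TPSec

section TransferSec

variable {G : Type*} [Group G] [Finite G] {p : ℕ} [Fact p.Prime]

theorem sylow_inf_commutator_le_of_TP (S : Sylow p G) (F : Subgroup G)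
    (h : ∀ B : Subgroup G, B ≤ (S : Subgroup G) → ∀ k : G,
      cj (B : Set G) k ⊆ ((S : Subgroup G) : Set G) → TP F (B : Set G) k) :
    (S : Subgroup G) ⊓ ⁅(⊤ : Subgroup G), ⊤⁆ ≤ F := by
  have h1 : (S : Subgroup G) ⊓ ⁅(⊤ : Subgroup G), ⊤⁆ = (S : Subgroup G).focalSubgroup := by
    rw [inf_comm, ← commutator_def]; exact Subgroup.commutator_inf_eq_focalSubgroup S
  rw [h1, focalSubgroup_def, closure_le]
  rintro g ⟨hg, x, hx, u, rfl⟩
  have hux : u * x * u⁻¹ ∈ (S : Subgroup G) := by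
    have e : u * x * u⁻¹ = (x⁻¹ * ⁅x, u⁆)⁻¹ := by rw [commutatorElement_def]; group
    rw [e]; exact inv_mem (mul_mem (inv_mem hx) hg)
  have hB : zpowers x ≤ (S : Subgroup G) := (zpowers_le).mpr hx
  have hk : cj ((zpowers x : Subgroup G) : Set G) u⁻¹ ⊆ ((S : Subgroup G) : Set G) := by
    rw [← coe_map_conj, SetLike.coe_subset_coe, MonoidHom.map_zpowers, zpowers_le]
    exact hux
  have h2 := h (zpowers x) hB u⁻¹ hk x⁻¹ (inv_mem (mem_zpowers x))
  have e : ⁅x, u⁆ = x⁻¹⁻¹ * (u⁻¹⁻¹ * x⁻¹ * u⁻¹) := by rw [commutatorElement_def]; group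
  show ⁅x, u⁆ ∈ F
  rw [e]; exact h2

/-- Sylow-independence of family control of transfer. -/
theorem familyTransfer_change_sylow (𝓦 : Set (Subgroup G → Subgroup G))
    (h𝓦 : ∀ W ∈ 𝓦, IsConjugacyFunctor p W) (H : Subgroup G)
    (hH : FamilyControlsTransferIn p 𝓦 H) (T₁ : Subgroup G) (hT₁H : T₁ ≤ H)
    (hT₁p : IsPGroup p T₁) (hT₁i : ¬ p ∣ T₁.relIndex H) :
    T₁ ⊓ ⁅H, H⁆ = ⨆ W ∈ 𝓦, T₁ ⊓ ⁅H ⊓ normalizer ((W T₁ : Subgroup G) : Set G),
      H ⊓ normalizer ((W T₁ : Subgroup G) : Set G)⁆ := by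
  obtain ⟨T₀, hT₀H, hT₀p, hT₀i, hctl⟩ := hH
  obtain ⟨v, hvH, hv⟩ := exists_conj_eq_of_sylow_in H T₁ T₀ hT₁H hT₁p hT₁i hT₀H hT₀p hT₀i
  have hinj : Function.Injective (MulAut.conj v).toMonoidHom := (MulAut.conj v).injective
  apply Subgroup.map_injective hinj
  have hHv : H.map (MulAut.conj v).toMonoidHom = H := map_conj_eq_of_mem hvH
  rw [Subgroup.map_inf _ _ _ hinj, Subgroup.map_commutator, hHv, hv, hctl, Subgroup.map_iSup]
  refine iSup_congr fun W => ?_
  rw [Subgroup.map_iSup]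
  refine iSup_congr fun hW => ?_
  rw [Subgroup.map_inf _ _ _ hinj, Subgroup.map_commutator, Subgroup.map_inf _ _ _ hinj, hHv, hv,
    ← normalizer_map_conj, ← (h𝓦 W hW T₁ hT₁p).2.2 v, hv]

/-- Sylow-independence of control of transfer. -/
theorem transfer_change_sylow (W : Subgroup G → Subgroup G)
    (hW : IsConjugacyFunctor p W) (H : Subgroup G)
    (hH : ControlsTransferIn p W H) (T₁ : Subgroup G) (hT₁H : T₁ ≤ H)
    (hT₁p : IsPGroup p T₁) (hT₁i : ¬ p ∣ T₁.relIndex H) :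
    T₁ ⊓ ⁅H, H⁆ = T₁ ⊓ ⁅H ⊓ normalizer ((W T₁ : Subgroup G) : Set G),
      H ⊓ normalizer ((W T₁ : Subgroup G) : Set G)⁆ := by
  obtain ⟨T₀, hT₀H, hT₀p, hT₀i, hctl⟩ := hH
  obtain ⟨v, hvH, hv⟩ := exists_conj_eq_of_sylow_in H T₁ T₀ hT₁H hT₁p hT₁i hT₀H hT₀p hT₀i
  have hinj : Function.Injective (MulAut.conj v).toMonoidHom := (MulAut.conj v).injective
  apply Subgroup.map_injective hinj
  have hHv : H.map (MulAut.conj v).toMonoidHom = H := map_conj_eq_of_mem hvH
  rw [Subgroup.map_inf _ _ _ hinj, Subgroup.map_commutator, hHv, hv, hctl,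
    Subgroup.map_inf _ _ _ hinj, Subgroup.map_commutator, Subgroup.map_inf _ _ _ hinj, hHv, hv,
    ← normalizer_map_conj, ← (hW T₁ hT₁p).2.2 v, hv]

/-- `CT 𝓦 F R₀`: for each `W ∈ 𝓦`, `R₀ ⊓ N(W R₀)' ≤ F`. -/
def CT (𝓦 : Set (Subgroup G → Subgroup G)) (F R₀ : Subgroup G) : Prop :=
  ∀ W ∈ 𝓦, R₀ ⊓ ⁅normalizer ((W R₀ : Subgroup G) : Set G),
    normalizer ((W R₀ : Subgroup G) : Set G)⁆ ≤ F

theorem local_le (S : Sylow p G) (𝓦 : Set (Subgroup G → Subgroup G))
    (h𝓦 : ∀ W ∈ 𝓦, IsConjugacyFunctor p W) (F U : Subgroup G)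
    (hloc : FamilyControlsTransferIn p 𝓦 (normalizer (U : Set G)))
    (hU : ¬ p ∣ ((S : Subgroup G) ⊓ normalizer (U : Set G)).relIndex (normalizer (U : Set G)))
    (hCT : CT 𝓦 F ((S : Subgroup G) ⊓ normalizer (U : Set G))) :
    ((S : Subgroup G) ⊓ normalizer (U : Set G)) ⊓
      ⁅normalizer (U : Set G), normalizer (U : Set G)⁆ ≤ F := by
  rw [familyTransfer_change_sylow 𝓦 h𝓦 _ hloc _ inf_le_right (S.2.to_le inf_le_left) hU]
  refine iSup₂_le fun W hW => ?_
  refine le_trans ?_ (hCT W hW)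
  exact inf_le_inf_left _ (commutator_mono inf_le_right inf_le_right)

theorem tp_of_CT (S : Sylow p G) (𝓦 : Set (Subgroup G → Subgroup G))
    (h𝓦 : ∀ W ∈ 𝓦, IsConjugacyFunctor p W) (F : Subgroup G)
    (hloc : ∀ T : Subgroup G, T ≤ (S : Subgroup G) → T ≠ ⊥ →
      ¬ p ∣ ((S : Subgroup G) ⊓ normalizer (T : Set G)).relIndex (normalizer (T : Set G)) →
      FamilyControlsTransferIn p 𝓦 (normalizer (T : Set G)))
    (n : ℕ)
    (hCT : ∀ R₀ : Subgroup G, R₀ ≤ (S : Subgroup G) →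
      Nat.card (S : Subgroup G) ≤ Nat.card R₀ + n → CT 𝓦 F R₀) :
    ∀ B : Subgroup G, B ≤ (S : Subgroup G) → Nat.card (S : Subgroup G) ≤ Nat.card B + n →
      ∀ k : G, cj (B : Set G) k ⊆ ((S : Subgroup G) : Set G) → TP F (B : Set G) k := by
  intro B hB hcard k hk
  set 𝓕 : Set (Subgroup G) := {U | U ≤ (S : Subgroup G) ∧
    ¬ p ∣ ((S : Subgroup G) ⊓ normalizer (U : Set G)).relIndex (normalizer (U : Set G))} with h𝓕def
  have h𝓕ex : ∀ T : Subgroup G, T ≤ (S : Subgroup G) → ∃ U ∈ 𝓕,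
      (∃ g : G, T.map (MulAut.conj g).toMonoidHom = U) ∧
      ¬ p ∣ ((S : Subgroup G) ⊓ normalizer (U : Set G)).relIndex (normalizer (U : Set G)) := by
    intro T hT
    obtain ⟨u, hule, husyl⟩ := exists_fullyNormalized_conj S T
    refine ⟨T.map (MulAut.conj u).toMonoidHom, ⟨?_, husyl⟩, ⟨u, rfl⟩, husyl⟩
    exact (map_mono (le_inf hT le_normalizer)).trans hule
  have hdec := dec_of_fullyNormalized S 𝓕 (fun U hU => hU.1) h𝓕ex B hB k hk
  have key : ∀ (A : Set G) (g : G),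
      Dec (fun T x => T ∈ 𝓕 ∧ x ∈ normalizer (T : Set G)) A g →
      Nat.card (S : Subgroup G) ≤ A.ncard + n → TP F A g := by
    intro A g h
    induction h with
    | nil A => intro _; exact TP.of_centralizes (fun a _ => by group)
    | cons A U x g hSt hA _ ih =>
      intro hAcard
      obtain ⟨⟨hUS, hUsyl⟩, hxN⟩ := hSt
      have hAx : cj A x ⊆ (U : Set G) := cj_subset_of_mem_normalizer hxN hA
      have hncard : (cj A x).ncard = A.ncard :=
        Set.ncard_image_of_injective _ (conj_injective' x)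
      have g1 : TP F A x := by
        by_cases hU1 : U = ⊥
        · apply TP.of_centralizes
          intro a ha
          have h1 : a = 1 := by
            have h2 := hA ha
            rw [hU1] at h2
            exact Subgroup.mem_bot.mp h2
          rw [h1]; group
        · have hUle : U ≤ (S : Subgroup G) ⊓ normalizer (U : Set G) := le_inf hUS le_normalizer
          have hc : Nat.card (S : Subgroup G) ≤
              Nat.card ((S : Subgroup G) ⊓ normalizer (U : Set G) : Subgroup G) + n := by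
            have h1 : A.ncard ≤ Nat.card U := ncard_le_card_of_subset hA
            have h2 : Nat.card U ≤ Nat.card ((S : Subgroup G) ⊓ normalizer (U : Set G) : Subgroup G) :=
              Subgroup.card_le_of_le hUle
            omega
          intro a ha
          apply local_le S 𝓦 h𝓦 F U (hloc U hUS hU1 hUsyl) hUsyl (hCT _ inf_le_left hc)
          refine Subgroup.mem_inf.mpr ⟨?_, ?_⟩
          · exact hUle (mul_mem (inv_mem (hA ha)) (hAx ⟨a, ha, rfl⟩))
          · have e : a⁻¹ * (x⁻¹ * a * x) = ⁅a⁻¹, x⁻¹⁆ := by rw [commutatorElement_def]; group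
            rw [e]
            exact Subgroup.commutator_mem_commutator (inv_mem (le_normalizer (hA ha))) (inv_mem hxN)
      exact g1.trans (ih (by rw [hncard]; exact hAcard))
  refine key _ _ hdec ?_
  have h2 : (B : Set G).ncard = Nat.card B := (Nat.card_coe_set_eq (B : Set G)).symm
  omega

theorem ct_succ (S : Sylow p G) (𝓦 : Set (Subgroup G → Subgroup G))
    (h𝓦 : ∀ W ∈ 𝓦, IsConjugacyFunctor p W) (F : Subgroup G)
    (hloc : ∀ T : Subgroup G, T ≤ (S : Subgroup G) → T ≠ ⊥ →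
      ¬ p ∣ ((S : Subgroup G) ⊓ normalizer (T : Set G)).relIndex (normalizer (T : Set G)) →
      FamilyControlsTransferIn p 𝓦 (normalizer (T : Set G)))
    (n : ℕ)
    (hCT : ∀ R₀ : Subgroup G, R₀ ≤ (S : Subgroup G) →
      Nat.card (S : Subgroup G) ≤ Nat.card R₀ + n → CT 𝓦 F R₀)
    (hG : ∀ B : Subgroup G, B ≤ (S : Subgroup G) → Nat.card (S : Subgroup G) ≤ Nat.card B + n →
      ∀ k : G, cj (B : Set G) k ⊆ ((S : Subgroup G) : Set G) → TP F (B : Set G) k) :
    ∀ R₀ : Subgroup G, R₀ ≤ (S : Subgroup G) →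
      Nat.card (S : Subgroup G) ≤ Nat.card R₀ + (n + 1) → CT 𝓦 F R₀ := by
  intro R₀ hR₀S hcard W hW
  by_cases hc : Nat.card (S : Subgroup G) ≤ Nat.card R₀ + n
  · exact hCT R₀ hR₀S hc W hW
  have hR₀ne : R₀ ≠ S := by
    intro h
    rw [h] at hc
    omega
  by_cases hbot : R₀ = ⊥
  · rw [hbot, bot_inf_eq]; exact bot_le
  have hWf := h𝓦 W hW
  have hR₀p : IsPGroup p R₀ := S.2.to_le hR₀S
  set V := W R₀ with hVdef
  have hVR : V ≤ R₀ := (hWf R₀ hR₀p).1
  have hV1 : V ≠ ⊥ := (hWf R₀ hR₀p).2.1 hbot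
  have hNN : (S : Subgroup G) ⊓ normalizer (R₀ : Set G) ≤ (S : Subgroup G) ⊓ normalizer (V : Set G) :=
    inf_normalizer_le_functor W hWf (S : Subgroup G) R₀ hR₀p
  have hlt := card_lt_card_inf_normalizer S.2 hR₀S hR₀ne
  have hR₁card : Nat.card R₀ < Nat.card ((S : Subgroup G) ⊓ normalizer (V : Set G) : Subgroup G) :=
    lt_of_lt_of_le hlt (Subgroup.card_le_of_le hNN)
  have hR₀R₁ : R₀ ≤ (S : Subgroup G) ⊓ normalizer (V : Set G) :=
    (le_inf hR₀S le_normalizer).trans hNN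
  obtain ⟨u, hule, hV'syl⟩ := exists_fullyNormalized_conj S V
  have hinj : Function.Injective (MulAut.conj u).toMonoidHom := (MulAut.conj u).injective
  set V' := V.map (MulAut.conj u).toMonoidHom with hV'def
  have hV'S : V' ≤ (S : Subgroup G) :=
    (map_mono ((hVR.trans hR₀R₁))).trans hule
  have hV'1 : V' ≠ ⊥ := by
    intro h
    exact hV1 ((Subgroup.map_eq_bot_iff_of_injective V hinj).mp h)
  have hmapR₁ : ((S : Subgroup G) ⊓ normalizer (V : Set G)).map (MulAut.conj u).toMonoidHom ≤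
      (S : Subgroup G) ⊓ normalizer (V' : Set G) := by
    refine le_inf hule ?_
    rw [hV'def, normalizer_map_conj]
    exact map_mono inf_le_right
  have hR₂card : Nat.card ((S : Subgroup G) ⊓ normalizer (V : Set G) : Subgroup G) ≤
      Nat.card ((S : Subgroup G) ⊓ normalizer (V' : Set G) : Subgroup G) := by
    rw [← card_map_of_injective hinj]
    exact Subgroup.card_le_of_le hmapR₁
  have hR₁u : cj ((((S : Subgroup G) ⊓ normalizer (V : Set G) : Subgroup G)) : Set G) u⁻¹ ⊆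
      ((S : Subgroup G) : Set G) := by
    rw [← coe_map_conj]; exact hule
  intro x hx
  have hxR₁ : x ∈ (S : Subgroup G) ⊓ normalizer (V : Set G) := hR₀R₁ hx.1
  have g1 := hG _ inf_le_left (by omega) u⁻¹ hR₁u
  have h1 := g1 x hxR₁
  have h2 : u * x * u⁻¹ ∈ F := by
    apply local_le S 𝓦 h𝓦 F V' (hloc V' hV'S hV'1 hV'syl) hV'syl (hCT _ inf_le_left (by omega))
    refine Subgroup.mem_inf.mpr ⟨hmapR₁ ⟨x, hxR₁, rfl⟩, ?_⟩
    rw [hV'def, normalizer_map_conj, ← Subgroup.map_commutator]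
    exact ⟨x, hx.2, rfl⟩
  have e : x = (u * x * u⁻¹) * (x⁻¹ * (u⁻¹⁻¹ * x * u⁻¹))⁻¹ := by group
  rw [e]; exact mul_mem h2 (inv_mem h1)

theorem tp_main (S : Sylow p G) (𝓦 : Set (Subgroup G → Subgroup G))
    (h𝓦 : ∀ W ∈ 𝓦, IsConjugacyFunctor p W) (F : Subgroup G)
    (hF : ∀ W ∈ 𝓦, (S : Subgroup G) ⊓ ⁅normalizer ((W (S : Subgroup G) : Subgroup G) : Set G),
      normalizer ((W (S : Subgroup G) : Subgroup G) : Set G)⁆ ≤ F)
    (hloc : ∀ T : Subgroup G, T ≤ (S : Subgroup G) → T ≠ ⊥ →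
      ¬ p ∣ ((S : Subgroup G) ⊓ normalizer (T : Set G)).relIndex (normalizer (T : Set G)) →
      FamilyControlsTransferIn p 𝓦 (normalizer (T : Set G))) :
    ∀ B : Subgroup G, B ≤ (S : Subgroup G) →
      ∀ k : G, cj (B : Set G) k ⊆ ((S : Subgroup G) : Set G) → TP F (B : Set G) k := by
  have key : ∀ n : ℕ, (∀ R₀ : Subgroup G, R₀ ≤ (S : Subgroup G) →
      Nat.card (S : Subgroup G) ≤ Nat.card R₀ + n → CT 𝓦 F R₀) := by
    intro n
    induction n with
    | zero =>
      intro R₀ hR₀S hcard W hW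
      have hR₀ : R₀ = S := Subgroup.eq_of_le_of_card_ge hR₀S (by simpa using hcard)
      rw [hR₀]
      exact hF W hW
    | succ n ih =>
      exact ct_succ S 𝓦 h𝓦 F hloc n ih (tp_of_CT S 𝓦 h𝓦 F hloc n ih)
  intro B hB k hk
  exact tp_of_CT S 𝓦 h𝓦 F hloc _ (key (Nat.card (S : Subgroup G))) B hB (Nat.le_add_left _ _) k hk

theorem familyControlsTransfer_top (S : Sylow p G) (𝓦 : Set (Subgroup G → Subgroup G))
    (h𝓦 : ∀ W ∈ 𝓦, IsConjugacyFunctor p W)
    (hloc : ∀ T : Subgroup G, T ≤ (S : Subgroup G) → T ≠ ⊥ →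
      ¬ p ∣ ((S : Subgroup G) ⊓ normalizer (T : Set G)).relIndex (normalizer (T : Set G)) →
      FamilyControlsTransferIn p 𝓦 (normalizer (T : Set G))) :
    FamilyControlsTransferIn p 𝓦 ⊤ := by
  refine ⟨(S : Subgroup G), le_top, S.2, ?_, ?_⟩
  · rw [Subgroup.relIndex_top_right]; exact S.not_dvd_index
  · apply le_antisymm
    · apply sylow_inf_commutator_le_of_TP S
      refine tp_main S 𝓦 h𝓦 _ (fun W hW => ?_) hloc
      refine le_trans ?_ (le_iSup₂ (f := fun (W : Subgroup G → Subgroup G) (_ : W ∈ 𝓦) =>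
        (S : Subgroup G) ⊓ ⁅⊤ ⊓ normalizer ((W (S : Subgroup G) : Subgroup G) : Set G),
          ⊤ ⊓ normalizer ((W (S : Subgroup G) : Subgroup G) : Set G)⁆) W hW)
      exact inf_le_inf_left _ (commutator_mono (le_inf le_top le_rfl) (le_inf le_top le_rfl))
    · exact iSup₂_le fun W hW => inf_le_inf_left _ (commutator_mono inf_le_left inf_le_left)

/-- Tower climbing for transfer. -/
theorem wp_le (S : Sylow p G) (W : Subgroup G → Subgroup G) (hW : IsConjugacyFunctor p W)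
    (hloc : ∀ T : Subgroup G, T ≠ ⊥ → IsWellPlaced p W (S : Subgroup G) T →
      ControlsTransferIn p W (normalizer (T : Set G)))
    (T : Subgroup G) (hT1 : T ≠ ⊥) (hwp : IsWellPlaced p W (S : Subgroup G) T) :
    T ⊓ ⁅normalizer (T : Set G), normalizer (T : Set G)⁆ ≤
      (S : Subgroup G) ⊓ ⁅normalizer ((W (S : Subgroup G) : Subgroup G) : Set G),
        normalizer ((W (S : Subgroup G) : Subgroup G) : Set G)⁆ := by
  have hS : IsPGroup p (S : Subgroup G) := S.2
  have hTS := hwp.1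
  have key : ∀ m : ℕ, T ⊓ ⁅normalizer (T : Set G), normalizer (T : Set G)⁆ ≤
      ((S : Subgroup G) ⊓ normalizer ((functorTower W (S : Subgroup G) T m : Subgroup G) : Set G)) ⊓
        ⁅normalizer ((functorTower W (S : Subgroup G) T m : Subgroup G) : Set G),
          normalizer ((functorTower W (S : Subgroup G) T m : Subgroup G) : Set G)⁆ := by
    intro m
    induction m with
    | zero => exact inf_le_inf_right _ (le_inf hTS le_normalizer)
    | succ m ih =>
      refine ih.trans ?_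
      set Tm := functorTower W (S : Subgroup G) T m with hTm
      have hwpm := wellPlaced_tower W hW (S : Subgroup G) T hS hwp m
      have hTm1 := tower_ne_bot W hW (S : Subgroup G) T hS hTS hT1 m
      have hsyl : ¬ p ∣ ((S : Subgroup G) ⊓ normalizer (Tm : Set G)).relIndex (normalizer (Tm : Set G)) :=
        hwp.2 m
      rw [transfer_change_sylow W hW _ (hloc Tm hTm1 hwpm)
        ((S : Subgroup G) ⊓ normalizer (Tm : Set G)) inf_le_right (hS.to_le inf_le_left) hsyl]
      exact inf_le_inf (nS_mono_succ W hW (S : Subgroup G) T hS m)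
        (commutator_mono inf_le_right inf_le_right)
  obtain ⟨j, hj⟩ := exists_nS_stable W hW (S : Subgroup G) T hS
  have hjS := nS_eq_of_stable W hW (S : Subgroup G) T hS j hj
  have h1 := key (j + 1)
  rw [tower_succ, hjS] at h1
  exact h1.trans (inf_le_inf_right _ inf_le_left)

theorem controlsTransfer_top (S : Sylow p G) (W : Subgroup G → Subgroup G)
    (hW : IsConjugacyFunctor p W)
    (hloc : ∀ T : Subgroup G, T ≠ ⊥ → IsWellPlaced p W (S : Subgroup G) T →
      ControlsTransferIn p W (normalizer (T : Set G))) :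
    ControlsTransferIn p W ⊤ := by
  refine ⟨(S : Subgroup G), le_top, S.2, ?_, ?_⟩
  · rw [Subgroup.relIndex_top_right]; exact S.not_dvd_index
  · apply le_antisymm
    · refine le_inf inf_le_left ?_
      refine le_trans ?_ (commutator_mono (le_inf le_top le_rfl) (le_inf le_top le_rfl))
      refine (sylow_inf_commutator_le_of_TP S ((S : Subgroup G) ⊓
        ⁅normalizer ((W (S : Subgroup G) : Subgroup G) : Set G),
          normalizer ((W (S : Subgroup G) : Subgroup G) : Set G)⁆) ?_).trans inf_le_right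
      intro B hB k hk
      set 𝓕 : Set (Subgroup G) := {T | IsWellPlaced p W (S : Subgroup G) T} with h𝓕
      have h𝓕ex : ∀ T : Subgroup G, T ≤ (S : Subgroup G) → ∃ U ∈ 𝓕,
          (∃ g : G, T.map (MulAut.conj g).toMonoidHom = U) ∧
          ¬ p ∣ ((S : Subgroup G) ⊓ normalizer (U : Set G)).relIndex (normalizer (U : Set G)) := by
        intro T hT
        obtain ⟨g, hg⟩ := exists_wellPlaced S W hW T hT
        exact ⟨_, hg, ⟨g, rfl⟩, hg.2 0⟩
      have hdec := dec_of_fullyNormalized S 𝓕 (fun U hU => hU.1) h𝓕ex B hB k hk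
      have key : ∀ (A : Set G) (g : G),
          Dec (fun T x => T ∈ 𝓕 ∧ x ∈ normalizer (T : Set G)) A g →
          TP ((S : Subgroup G) ⊓ ⁅normalizer ((W (S : Subgroup G) : Subgroup G) : Set G),
            normalizer ((W (S : Subgroup G) : Subgroup G) : Set G)⁆) A g := by
        intro A g hd
        induction hd with
        | nil A => exact TP.of_centralizes (fun a _ => by group)
        | cons A T x g hSt hA _ ih =>
          obtain ⟨hTwp, hxN⟩ := hSt
          have hAx : cj A x ⊆ (T : Set G) := cj_subset_of_mem_normalizer hxN hA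
          refine TP.trans ?_ ih
          by_cases hT1 : T = ⊥
          · apply TP.of_centralizes
            intro a ha
            have h2 : a = 1 := by
              have h3 := hA ha
              rw [hT1] at h3
              exact Subgroup.mem_bot.mp h3
            rw [h2]; group
          · intro a ha
            apply wp_le S W hW hloc T hT1 hTwp
            refine Subgroup.mem_inf.mpr ⟨?_, ?_⟩
            · exact mul_mem (inv_mem (hA ha)) (hAx ⟨a, ha, rfl⟩)
            · have e : a⁻¹ * (x⁻¹ * a * x) = ⁅a⁻¹, x⁻¹⁆ := by rw [commutatorElement_def]; group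
              rw [e]
              exact Subgroup.commutator_mem_commutator (inv_mem (le_normalizer (hA ha)))
                (inv_mem hxN)
      exact key _ _ hdec
    · exact inf_le_inf_left _ (commutator_mono inf_le_left inf_le_left)

end TransferSec

end Cfsg.Agent.Lib.Helper2
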