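import Mathlib
import Cfsg.Prelude.Def_LieExceptional
import Cfsg.Agent.Lib.Lead.CharPerm
import Cfsg.Agent.Lib.Lead.CharIntegral

set_option autoImplicit false

namespace Cfsg.Agent.Lib.Helper2.Zas

open Cfsg.Agent.Lib.Lead

/-- the working hypotheses extracted from a Zassenhaus group -/
structure ZData (G Ω : Type*) [Group G] [MulAction G Ω] : Prop where
  faith : ∀ g : G, (∀ c : Ω, g • c = c) → g = 1
  two : ∀ a b c d : Ω, a ≠ b → c ≠ d → ∃ g : G, g • a = c ∧ g • b = d
  three : ∀ g : G, ∀ a b c : Ω, a ≠ b → b ≠ c → a ≠ c → g • a = a → g • b = b → g • c = c →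
    g = 1
  ex : ∃ g : G, g ≠ 1 ∧ ∃ a b : Ω, a ≠ b ∧ g • a = a ∧ g • b = b

section Basic

variable {G Ω : Type*} [Group G] [MulAction G Ω]

theorem zdata (hZ : Cfsg.IsZassenhausGroup G Ω) : ZData G Ω := by
  obtain ⟨hf, h2, h3, hex, -⟩ := hZ
  refine ⟨fun g hg => ?_, fun a b c d h h' => MulAction.is_two_pretransitive_iff.mp h2 h h',
    h3, hex⟩
  haveI := hf
  exact FaithfulSMul.eq_of_smul_eq_smul (α := Ω) (fun c => by rw [hg c, one_smul])

theorem ZData.exists_three (h : ZData G Ω) : ∃ a b c : Ω, a ≠ b ∧ a ≠ c ∧ b ≠ c := by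
  obtain ⟨g, hg1, a, b, hab, hga, hgb⟩ := h.ex
  by_contra hcon
  push Not at hcon
  apply hg1
  apply h.faith
  intro c
  by_cases hca : c = a
  · rw [hca, hga]
  · have := hcon a b c hab (Ne.symm hca)
    rw [← this, hgb]

theorem ZData.exists_ne_ne (h : ZData G Ω) (a b : Ω) : ∃ c : Ω, c ≠ a ∧ c ≠ b := by
  obtain ⟨x, y, z, hxy, hxz, hyz⟩ := h.exists_three
  by_contra hcon
  push Not at hcon
  by_cases hxa : x = a
  · by_cases hya : y = a
    · exact hxy (hxa.trans hya.symm)
    · have hyb := hcon y hya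
      by_cases hza : z = a
      · exact hxz (hxa.trans hza.symm)
      · exact hyz (hyb.trans (hcon z hza).symm)
  · have hxb := hcon x hxa
    by_cases hya : y = a
    · by_cases hza : z = a
      · exact hyz (hya.trans hza.symm)
      · exact hxz (hxb.trans (hcon z hza).symm)
    · exact hxy (hxb.trans (hcon y hya).symm)

theorem ZData.trans (h : ZData G Ω) (a b : Ω) : ∃ g : G, g • a = b := by
  obtain ⟨c, hca, hcb⟩ := h.exists_ne_ne a b
  obtain ⟨g, hg, -⟩ := h.two a c b c (Ne.symm hca) (Ne.symm hcb)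
  exact ⟨g, hg⟩

theorem ZData.three_le [Finite Ω] (h : ZData G Ω) : 3 ≤ Nat.card Ω := by
  classical
  haveI : Fintype Ω := Fintype.ofFinite Ω
  rw [Nat.card_eq_fintype_card]
  exact Fintype.two_lt_card_iff.mpr h.exists_three

/-- the two-point stabilizer is nontrivial -/
theorem ZData.exists_two_fix (h : ZData G Ω) {a b : Ω} (hab : a ≠ b) :
    ∃ x : G, x ≠ 1 ∧ x • a = a ∧ x • b = b := by
  obtain ⟨g₀, hg₀1, a', b', ha'b', hg₀a, hg₀b⟩ := h.ex
  obtain ⟨k, hka, hkb⟩ := h.two a' b' a b ha'b' hab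
  refine ⟨k * g₀ * k⁻¹, ?_, ?_, ?_⟩
  · intro h1
    apply hg₀1
    have : g₀ = k⁻¹ * (k * g₀ * k⁻¹) * k := by group
    rw [this, h1]; group
  · rw [← hka, mul_smul, mul_smul, inv_smul_smul, hg₀a]
  · rw [← hkb, mul_smul, mul_smul, inv_smul_smul, hg₀b]

theorem ZData.fix_le_two [Finite Ω] (h : ZData G Ω) {g : G} (hg : g ≠ 1) :
    Nat.card (MulAction.fixedBy Ω g) ≤ 2 := by
  classical
  by_contra hcon
  push Not at hcon
  haveI : Fintype (MulAction.fixedBy Ω g) := Fintype.ofFinite _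
  rw [Nat.card_eq_fintype_card, Fintype.two_lt_card_iff] at hcon
  obtain ⟨x, y, z, hxy, hxz, hyz⟩ := hcon
  apply hg
  exact h.three g x y z (fun e => hxy (Subtype.ext e)) (fun e => hyz (Subtype.ext e))
    (fun e => hxz (Subtype.ext e)) x.2 y.2 z.2

omit [Group G] [MulAction G Ω] in
theorem card_fixedBy_one (G Ω : Type*) [Group G] [MulAction G Ω] :
    Nat.card (MulAction.fixedBy Ω (1 : G)) = Nat.card Ω :=
  Nat.card_congr (Equiv.subtypeUnivEquiv (fun x => one_smul G x))

theorem ZData.sum_fix [Fintype G] [Finite Ω] (h : ZData G Ω) :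
    ∑ g : G, Nat.card (MulAction.fixedBy Ω g) = Nat.card G := by
  haveI : MulAction.IsPretransitive G Ω := ⟨h.trans⟩
  haveI : Nonempty Ω := by obtain ⟨a, -⟩ := h.exists_three; exact ⟨a⟩
  have h1 := sum_card_fixedBy (G := G) Ω
  rw [card_orbits_eq_one (G := G) Ω, Nat.cast_one, one_mul] at h1
  exact_mod_cast h1

theorem ZData.sum_fix_sq [Fintype G] [Finite Ω] (h : ZData G Ω) :
    ∑ g : G, Nat.card (MulAction.fixedBy Ω g) ^ 2 = 2 * Nat.card G := by
  haveI : MulAction.IsPretransitive G Ω := ⟨h.trans⟩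
  have h2 : MulAction.IsMultiplyPretransitive G Ω 2 :=
    MulAction.is_two_pretransitive_iff.mpr (fun {a b c d} hab hcd => h.two a b c d hab hcd)
  have hX : 2 ≤ Nat.card Ω := le_trans (by norm_num) h.three_le
  have h1 := sum_card_fixedBy_sq (G := G) Ω
  rw [(card_orbits_prod_eq_two_iff (G := G) Ω hX).mpr h2] at h1
  exact_mod_cast h1

/-- the numbers of elements with exactly `0`, `1`, `2` fixed points -/
theorem ZData.count [Fintype G] [DecidableEq G] [Finite Ω] (h : ZData G Ω) :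
    (Finset.univ.filter (fun g : G => Nat.card (MulAction.fixedBy Ω g) = 1)).card =
        Nat.card Ω * (Nat.card Ω - 2) ∧
    2 * (Finset.univ.filter (fun g : G => Nat.card (MulAction.fixedBy Ω g) = 2)).card +
        Nat.card Ω * (Nat.card Ω - 1) = Nat.card G ∧
    2 * (Finset.univ.filter (fun g : G => Nat.card (MulAction.fixedBy Ω g) = 0)).card +
        (Nat.card Ω - 1) * (Nat.card Ω - 2) = Nat.card G := by
  classical
  have hn := h.three_le
  set n := Nat.card Ω with hndef
  set φ : G → ℕ := fun g => Nat.card (MulAction.fixedBy Ω g) with hφ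
  have hφ1 : φ 1 = n := card_fixedBy_one G Ω
  have hφle : ∀ g : G, g ≠ 1 → φ g ≤ 2 := fun g hg => h.fix_le_two hg
  have e1 : ∀ g : G, φ g = (if g = 1 then n else 0) + (if φ g = 1 then 1 else 0) +
      2 * (if φ g = 2 then 1 else 0) := by
    intro g
    by_cases hg : g = 1
    · subst hg
      rw [if_pos rfl, hφ1, if_neg (by omega), if_neg (by omega)]
      simp
    · have := hφle g hg
      rw [if_neg hg]
      interval_cases (φ g) <;> simp
  have e2 : ∀ g : G, φ g ^ 2 = (if g = 1 then n ^ 2 else 0) + (if φ g = 1 then 1 else 0) +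
      4 * (if φ g = 2 then 1 else 0) := by
    intro g
    by_cases hg : g = 1
    · subst hg
      rw [if_pos rfl, hφ1, if_neg (by omega), if_neg (by omega)]
      simp
    · have := hφle g hg
      rw [if_neg hg]
      interval_cases (φ g) <;> simp
  have e3 : ∀ g : G, 1 = (if g = 1 then 1 else 0) + (if φ g = 0 then 1 else 0) +
      (if φ g = 1 then 1 else 0) + (if φ g = 2 then 1 else 0) := by
    intro g
    by_cases hg : g = 1
    · subst hg
      rw [if_pos rfl, hφ1, if_neg (by omega), if_neg (by omega), if_neg (by omega)]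
    · have := hφle g hg
      rw [if_neg hg]
      interval_cases (φ g) <;> simp
  have s1 := h.sum_fix
  have s2 := h.sum_fix_sq
  have s3 : ∑ _g : G, 1 = Nat.card G := by
    rw [Finset.sum_const, Finset.card_univ, smul_eq_mul, mul_one, Nat.card_eq_fintype_card]
  rw [show (∑ g : G, Nat.card (MulAction.fixedBy Ω g)) = ∑ g : G, φ g from rfl,
    Finset.sum_congr rfl (fun g _ => e1 g)] at s1
  rw [show (∑ g : G, Nat.card (MulAction.fixedBy Ω g) ^ 2) = ∑ g : G, φ g ^ 2 from rfl,
    Finset.sum_congr rfl (fun g _ => e2 g)] at s2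
  rw [Finset.sum_congr rfl (fun g _ => e3 g)] at s3
  simp only [Finset.sum_add_distrib, ← Finset.mul_sum, Finset.sum_ite_eq', Finset.mem_univ,
    if_true, ← Finset.card_filter] at s1 s2 s3
  show (Finset.univ.filter (fun g : G => φ g = 1)).card = n * (n - 2) ∧
    2 * (Finset.univ.filter (fun g : G => φ g = 2)).card + n * (n - 1) = Nat.card G ∧
    2 * (Finset.univ.filter (fun g : G => φ g = 0)).card + (n - 1) * (n - 2) = Nat.card G
  obtain ⟨k, hk⟩ : ∃ k, n = k + 3 := ⟨n - 3, by omega⟩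
  rw [hk] at s1 s2 ⊢
  have r1 : k + 3 - 2 = k + 1 := by omega
  have r2 : k + 3 - 1 = k + 2 := by omega
  rw [r1, r2]
  refine ⟨?_, ?_, ?_⟩ <;> nlinarith [s1, s2, s3]

theorem ZData.card_eq [Finite G] [Finite Ω] (h : ZData G Ω) {a b : Ω} (hab : a ≠ b) :
    Nat.card G = Nat.card Ω * (Nat.card Ω - 1) *
      Nat.card (MulAction.stabilizer G a ⊓ MulAction.stabilizer G b : Subgroup G) := by
  classical
  haveI : Fintype Ω := Fintype.ofFinite Ω
  have hst : MulAction.stabilizer G ((a, b) : Ω × Ω) =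
      MulAction.stabilizer G a ⊓ MulAction.stabilizer G b := by
    ext g
    simp [MulAction.mem_stabilizer_iff, Prod.ext_iff]
  have horb : MulAction.orbit G ((a, b) : Ω × Ω) = ((Finset.univ : Finset Ω).offDiag : Set (Ω × Ω)) := by
    ext p
    rw [MulAction.mem_orbit_iff, Finset.mem_coe, Finset.mem_offDiag]
    constructor
    · rintro ⟨g, rfl⟩
      exact ⟨Finset.mem_univ _, Finset.mem_univ _, fun e => hab (smul_left_cancel g e)⟩
    · rintro ⟨-, -, hp⟩
      obtain ⟨g, h1, h2⟩ := h.two a b p.1 p.2 hab hp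
      exact ⟨g, Prod.ext h1 h2⟩
  have h1 := MulAction.index_stabilizer G ((a, b) : Ω × Ω)
  rw [horb, Set.ncard_coe_finset, Finset.offDiag_card, Finset.card_univ, hst] at h1
  rw [← Subgroup.index_mul_card (MulAction.stabilizer G a ⊓ MulAction.stabilizer G b), h1,
    Nat.card_eq_fintype_card (α := Ω)]
  congr 1
  rw [Nat.mul_sub, mul_one]

end Basic

end Cfsg.Agent.Lib.Helper2.Zas
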