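import Mathlib
import Cfsg.Prelude.Def_LieExceptional
import Cfsg.Agent.Lib.Helper2.Zas1

set_option autoImplicit false

namespace Cfsg.Agent.Lib.Helper2.Zas

open Cfsg.Agent.Lib.Lead

section Stab

variable {G Ω : Type*} [Group G] [MulAction G Ω]

theorem ZData.card_orbits_stab (h : ZData G Ω) (a : Ω) :
    Nat.card (MulAction.orbitRel.Quotient (MulAction.stabilizer G a) Ω) = 2 := by
  obtain ⟨b, hba, -⟩ := h.exists_ne_ne a a
  rw [Nat.card_eq_two_iff]
  refine ⟨Quotient.mk'' a, Quotient.mk'' b, ?_, ?_⟩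
  · intro heq
    obtain ⟨g, hg⟩ := Quotient.exact heq
    have h1 : (g : G) • b = a := hg
    have h2 : (g : G) • a = a := g.2
    exact hba (smul_left_cancel (g : G) (h1.trans h2.symm))
  · ext ω
    simp only [Set.mem_univ, iff_true, Set.mem_insert_iff, Set.mem_singleton_iff]
    induction ω using Quotient.inductionOn' with
    | _ c =>
      by_cases hc : c = a
      · left; rw [hc]
      · right
        obtain ⟨g, hga, hgb⟩ := h.two a b a c (Ne.symm hba) (Ne.symm hc)
        exact Quotient.sound ⟨⟨g, hga⟩, hgb⟩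

/-- `x` fixes exactly one point iff `a` is its only fixed point (for `x` in the stabilizer) -/
theorem card_fix_eq_one_iff [Finite Ω] {a : Ω} {x : G} (hx : x • a = a) :
    Nat.card (MulAction.fixedBy Ω x) = 1 ↔ ∀ c : Ω, x • c = c → c = a := by
  rw [Nat.card_eq_one_iff_unique]
  constructor
  · rintro ⟨hs, -⟩ c hc
    exact congrArg Subtype.val (hs.elim (⟨c, hc⟩ : MulAction.fixedBy Ω x) ⟨a, hx⟩)
  · intro hc
    exact ⟨⟨fun p q => Subtype.ext ((hc p.1 p.2).trans (hc q.1 q.2).symm)⟩, ⟨⟨a, hx⟩⟩⟩

/-- the number of elements of the point stabilizer fixing exactly one point -/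
theorem ZData.count_stab [Finite G] [Finite Ω] (h : ZData G Ω) (a : Ω)
    [Fintype (MulAction.stabilizer G a)] [DecidableEq (MulAction.stabilizer G a)] :
    (Finset.univ.filter (fun x : MulAction.stabilizer G a =>
      x = 1 ∨ Nat.card (MulAction.fixedBy Ω (x : G)) = 1)).card + 1 = Nat.card Ω := by
  classical
  have hn := h.three_le
  set n := Nat.card Ω with hndef
  set φ : MulAction.stabilizer G a → ℕ := fun x => Nat.card (MulAction.fixedBy Ω (x : G)) with hφ
  have hφ1 : φ 1 = n := card_fixedBy_one G Ω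
  have hφle : ∀ x : MulAction.stabilizer G a, x ≠ 1 → φ x ≤ 2 := fun x hx =>
    h.fix_le_two (fun h1 => hx (Subtype.ext h1))
  have hφpos : ∀ x : MulAction.stabilizer G a, 1 ≤ φ x := by
    intro x
    haveI : Nonempty (MulAction.fixedBy Ω (x : G)) := ⟨⟨a, x.2⟩⟩
    exact Nat.card_pos
  have e1 : ∀ x : MulAction.stabilizer G a, φ x = (if x = 1 then n else 0) +
      (if φ x = 1 then 1 else 0) + 2 * (if φ x = 2 then 1 else 0) := by
    intro x
    by_cases hx : x = 1
    · subst hx
      rw [if_pos rfl, hφ1, if_neg (by omega), if_neg (by omega)]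
      simp
    · have := hφle x hx
      have := hφpos x
      rw [if_neg hx]
      interval_cases (φ x) <;> simp
  have e3 : ∀ x : MulAction.stabilizer G a, 1 = (if x = 1 then 1 else 0) +
      (if φ x = 1 then 1 else 0) + (if φ x = 2 then 1 else 0) := by
    intro x
    by_cases hx : x = 1
    · subst hx
      rw [if_pos rfl, hφ1, if_neg (by omega), if_neg (by omega)]
    · have := hφle x hx
      have := hφpos x
      rw [if_neg hx]
      interval_cases (φ x) <;> simp
  have s1 : ∑ x : MulAction.stabilizer G a, φ x = 2 * Nat.card (MulAction.stabilizer G a) := by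
    have h1 := sum_card_fixedBy (G := MulAction.stabilizer G a) Ω
    rw [h.card_orbits_stab a] at h1
    exact_mod_cast h1
  have s3 : ∑ _x : MulAction.stabilizer G a, 1 = Nat.card (MulAction.stabilizer G a) := by
    rw [Finset.sum_const, Finset.card_univ, smul_eq_mul, mul_one, Nat.card_eq_fintype_card]
  rw [Finset.sum_congr rfl (fun x _ => e1 x)] at s1
  rw [Finset.sum_congr rfl (fun x _ => e3 x)] at s3
  simp only [Finset.sum_add_distrib, ← Finset.mul_sum, Finset.sum_ite_eq', Finset.mem_univ,
    if_true, ← Finset.card_filter] at s1 s3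
  have hsplit : (Finset.univ.filter (fun x : MulAction.stabilizer G a => x = 1 ∨ φ x = 1)).card =
      1 + (Finset.univ.filter (fun x : MulAction.stabilizer G a => φ x = 1)).card := by
    rw [Finset.filter_or, Finset.card_union_of_disjoint]
    · congr 1
      rw [Finset.filter_eq', if_pos (Finset.mem_univ _), Finset.card_singleton]
    · rw [Finset.disjoint_filter]
      intro x _ hx1 hx2
      rw [hx1, hφ1] at hx2
      omega
  show (Finset.univ.filter (fun x : MulAction.stabilizer G a => x = 1 ∨ φ x = 1)).card + 1 = n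
  rw [hsplit]
  omega

end Stab

section Kernel

variable {G Ω : Type*} [Group G] [MulAction G Ω]

/-- a subgroup of the point stabilizer of order `n - 1` whose non-identity elements fix only `a`
consists of all such elements -/
theorem ZData.mem_kernel [Finite G] [Finite Ω] (h : ZData G Ω) {a : Ω} (H : Subgroup G)
    (hHa : H ≤ MulAction.stabilizer G a) (hHcard : Nat.card H + 1 = Nat.card Ω)
    (hHfix : ∀ u ∈ H, u ≠ 1 → ∀ c : Ω, u • c = c → c = a) {x : G} (hxa : x • a = a)
    (hx : ∀ c : Ω, x • c = c → c = a) : x ∈ H := by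
  classical
  letI : Fintype (MulAction.stabilizer G a) := Fintype.ofFinite _
  have hc := h.count_stab a
  set S := Finset.univ.filter (fun x : MulAction.stabilizer G a =>
      x = 1 ∨ Nat.card (MulAction.fixedBy Ω (x : G)) = 1) with hS
  set T := Finset.univ.filter (fun x : MulAction.stabilizer G a => (x : G) ∈ H) with hT
  have hTS : T ⊆ S := by
    intro u hu
    rw [hT, Finset.mem_filter] at hu
    rw [hS, Finset.mem_filter]
    refine ⟨Finset.mem_univ _, ?_⟩
    by_cases hu1 : u = 1
    · exact Or.inl hu1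
    · right
      rw [card_fix_eq_one_iff u.2]
      exact hHfix u hu.2 (fun h1 => hu1 (Subtype.ext h1))
  have hTcard : T.card = Nat.card H := by
    have h1 : Nat.card (H.subgroupOf (MulAction.stabilizer G a)) = T.card := by
      rw [Nat.card_eq_fintype_card, Fintype.card_subtype]
      rfl
    rw [← h1]
    exact Nat.card_congr (Subgroup.subgroupOfEquivOfLe hHa).toEquiv
  have hTeq : T = S := Finset.eq_of_subset_of_card_le hTS (by omega)
  have hxS : (⟨x, hxa⟩ : MulAction.stabilizer G a) ∈ S := by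
    rw [hS, Finset.mem_filter]
    refine ⟨Finset.mem_univ _, Or.inr ?_⟩
    rw [card_fix_eq_one_iff hxa]
    exact hx
  rw [← hTeq, hT, Finset.mem_filter] at hxS
  exact hxS.2

theorem ZData.kernel_conj [Finite G] [Finite Ω] (h : ZData G Ω) {a : Ω} (H : Subgroup G)
    (hHa : H ≤ MulAction.stabilizer G a) (hHcard : Nat.card H + 1 = Nat.card Ω)
    (hHfix : ∀ u ∈ H, u ≠ 1 → ∀ c : Ω, u • c = c → c = a) {g : G} (hg : g • a = a)
    {u : G} (hu : u ∈ H) : g * u * g⁻¹ ∈ H := by
  by_cases hu1 : u = 1
  · rw [hu1, mul_one, mul_inv_cancel]; exact H.one_mem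
  have hua : u • a = a := hHa hu
  have hg' : g⁻¹ • a = a := by rw [inv_smul_eq_iff, hg]
  apply h.mem_kernel H hHa hHcard hHfix
  · rw [mul_smul, mul_smul, hg', hua, hg]
  · intro c hc
    rw [mul_smul, mul_smul] at hc
    have h1 : u • g⁻¹ • c = g⁻¹ • c := (smul_eq_iff_eq_inv_smul g).mp hc
    have h2 := hHfix u hu hu1 _ h1
    rw [inv_smul_eq_iff, hg] at h2
    exact h2

theorem ZData.kernel_ti (h : ZData G Ω) {a : Ω} (H : Subgroup G)
    (hHfix : ∀ u ∈ H, u ≠ 1 → ∀ c : Ω, u • c = c → c = a) (hHa : H ≤ MulAction.stabilizer G a)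
    {g : G} (hg : g • a ≠ a) {u : G} (hu : u ∈ H) (hgu : g * u * g⁻¹ ∈ H) : u = 1 := by
  by_contra hu1
  have hua : u • a = a := hHa hu
  have h1 : g * u * g⁻¹ ≠ 1 := by
    intro h2
    apply hu1
    have : u = g⁻¹ * (g * u * g⁻¹) * g := by group
    rw [this, h2]; group
  have h2 : (g * u * g⁻¹) • (g • a) = g • a := by
    rw [mul_smul, mul_smul, inv_smul_smul, hua]
  exact hg (hHfix _ hgu h1 _ h2)

theorem ZData.kernel_ne_bot [Finite Ω] (h : ZData G Ω) (H : Subgroup G) [Finite H]
    (hHcard : Nat.card H + 1 = Nat.card Ω) : ∃ u ∈ H, u ≠ 1 := by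
  have hn := h.three_le
  have h1 : 1 < Nat.card H := by omega
  rw [Finite.one_lt_card_iff_nontrivial] at h1
  obtain ⟨u, hu⟩ := exists_ne (1 : H)
  exact ⟨u, u.2, fun h2 => hu (Subtype.ext h2)⟩

theorem ZData.kernel_normalizer [Finite G] [Finite Ω] (h : ZData G Ω) {a : Ω} (H : Subgroup G)
    (hHa : H ≤ MulAction.stabilizer G a) (hHcard : Nat.card H + 1 = Nat.card Ω)
    (hHfix : ∀ u ∈ H, u ≠ 1 → ∀ c : Ω, u • c = c → c = a) :
    Subgroup.normalizer (H : Set G) = MulAction.stabilizer G a := by
  ext g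
  rw [MulAction.mem_stabilizer_iff]
  constructor
  · intro hg
    by_contra hga
    obtain ⟨u, hu, hu1⟩ := h.kernel_ne_bot H hHcard
    exact hu1 (h.kernel_ti H hHfix hHa hga hu ((Subgroup.mem_normalizer_iff.mp hg u).mp hu))
  · intro hg
    rw [Subgroup.mem_normalizer_iff]
    intro u
    constructor
    · intro hu
      exact h.kernel_conj H hHa hHcard hHfix hg hu
    · intro hu
      have hg' : g⁻¹ • a = a := by rw [inv_smul_eq_iff, hg]
      have := h.kernel_conj H hHa hHcard hHfix hg' hu
      have e : g⁻¹ * (g * u * g⁻¹) * g⁻¹⁻¹ = u := by group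
      rwa [e] at this

end Kernel

end Cfsg.Agent.Lib.Helper2.Zas
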