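import Mathlib
import Cfsg.Prelude.Def_LieExceptional
import Cfsg.Agent.Lib.Helper2.Zas2

set_option autoImplicit false

namespace Cfsg.Agent.Lib.Helper2.Zas

open Cfsg.Agent.Lib.Lead

section Invol

variable {G Ω : Type*} [Group G] [MulAction G Ω]

theorem card_fix_invol_modEq [Fintype Ω] {s : G} (hs : s * s = 1) :
    Nat.card (MulAction.fixedBy Ω s) ≡ Fintype.card Ω [MOD 2] := by
  classical
  haveI : Fact (Nat.Prime 2) := ⟨Nat.prime_two⟩
  let f : Function.End Ω := fun x => s • x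
  have hf : f ^ 2 ^ 1 = 1 := by
    rw [pow_one, pow_two]
    funext x
    show s • s • x = x
    rw [← mul_smul, hs, one_smul]
  have h1 := Equiv.Perm.card_fixedPoints_modEq (p := 2) (n := 1) hf
  have e : Nat.card (MulAction.fixedBy Ω s) = Fintype.card ↑(Function.fixedPoints f) := by
    rw [← Nat.card_eq_fintype_card]
    rfl
  rw [e]
  exact h1.symm

theorem ZData.invol_fix_odd [Fintype Ω] (h : ZData G Ω) (hodd : Odd (Fintype.card Ω)) {s : G}
    (hs : s * s = 1) (hs1 : s ≠ 1) : Nat.card (MulAction.fixedBy Ω s) = 1 := by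
  have h1 := card_fix_invol_modEq (Ω := Ω) hs
  have h2 := h.fix_le_two hs1
  obtain ⟨j, hj⟩ := hodd
  rw [hj] at h1
  have h3 : Nat.card (MulAction.fixedBy Ω s) % 2 = 1 := by
    have := h1
    unfold Nat.ModEq at this
    omega
  omega

theorem ZData.invol_fix_even [Fintype Ω] (h : ZData G Ω) (heven : Even (Fintype.card Ω)) {s : G}
    (hs : s * s = 1) (hs1 : s ≠ 1) :
    Nat.card (MulAction.fixedBy Ω s) = 0 ∨ Nat.card (MulAction.fixedBy Ω s) = 2 := by
  have h1 := card_fix_invol_modEq (Ω := Ω) hs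
  have h2 := h.fix_le_two hs1
  obtain ⟨j, hj⟩ := heven
  rw [hj] at h1
  have h3 : Nat.card (MulAction.fixedBy Ω s) % 2 = 0 := by
    have := h1
    unfold Nat.ModEq at this
    omega
  omega

/-- an involution fixing `a` in odd degree fixes only `a` -/
theorem ZData.invol_only [Fintype Ω] (h : ZData G Ω) (hodd : Odd (Fintype.card Ω)) {s : G}
    (hs : s * s = 1) (hs1 : s ≠ 1) {a : Ω} (hsa : s • a = a) : ∀ c : Ω, s • c = c → c = a :=
  (card_fix_eq_one_iff hsa).mp (h.invol_fix_odd hodd hs hs1)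

theorem swap_conj_mem {a b : Ω} {s : G} (hsa : s • a = b) (hsb : s • b = a) {t : G}
    (ht : t ∈ MulAction.stabilizer G a ⊓ MulAction.stabilizer G b) :
    s * t * s⁻¹ ∈ MulAction.stabilizer G a ⊓ MulAction.stabilizer G b := by
  rw [Subgroup.mem_inf, MulAction.mem_stabilizer_iff, MulAction.mem_stabilizer_iff] at ht ⊢
  have i1 : s⁻¹ • a = b := by rw [inv_smul_eq_iff, hsb]
  have i2 : s⁻¹ • b = a := by rw [inv_smul_eq_iff, hsa]
  constructor
  · rw [mul_smul, mul_smul, i1, ht.2, hsb]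
  · rw [mul_smul, mul_smul, i2, ht.1, hsa]

/-- in odd degree, an involution swapping `a` and `b` centralizes no non-identity element of the
two-point stabilizer -/
theorem ZData.swap_cent [Fintype Ω] (h : ZData G Ω) (hodd : Odd (Fintype.card Ω)) {a b : Ω}
    (hab : a ≠ b) {s : G} (hs : s * s = 1) (hsa : s • a = b) {t : G}
    (ht : t ∈ MulAction.stabilizer G a ⊓ MulAction.stabilizer G b) (hst : s * t = t * s) :
    t = 1 := by
  have hs1 : s ≠ 1 := by
    intro h1
    rw [h1, one_smul] at hsa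
    exact hab hsa
  have hc1 := h.invol_fix_odd hodd hs hs1
  obtain ⟨⟨c, hc⟩⟩ : Nonempty (MulAction.fixedBy Ω s) := by
    have : 0 < Nat.card (MulAction.fixedBy Ω s) := by omega
    exact (Nat.card_pos_iff.mp this).1
  have hc' : s • c = c := hc
  have honly := (card_fix_eq_one_iff hc').mp hc1
  rw [Subgroup.mem_inf, MulAction.mem_stabilizer_iff, MulAction.mem_stabilizer_iff] at ht
  have htc : t • c = c := by
    apply honly
    rw [← mul_smul, hst, mul_smul, hc']
  have hca : c ≠ a := by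
    intro h1
    rw [h1, hsa] at hc'
    exact hab hc'.symm
  have hsb : s • b = a := by
    rw [← hsa, ← mul_smul, hs, one_smul]
  have hcb : c ≠ b := by
    intro h1
    rw [h1, hsb] at hc'
    exact hab hc'
  exact h.three t a b c hab (Ne.symm hcb) (Ne.symm hca) ht.1 ht.2 htc

/-- in odd degree, an involution swapping `a` and `b` inverts the two-point stabilizer -/
theorem ZData.swap_inv [Finite G] [Fintype Ω] (h : ZData G Ω) (hodd : Odd (Fintype.card Ω))
    {a b : Ω} (hab : a ≠ b) {s : G} (hs : s * s = 1) (hsa : s • a = b) {t : G}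
    (ht : t ∈ MulAction.stabilizer G a ⊓ MulAction.stabilizer G b) : s * t * s⁻¹ = t⁻¹ := by
  have hsb : s • b = a := by
    rw [← hsa, ← mul_smul, hs, one_smul]
  have hsinv : s⁻¹ = s := inv_eq_of_mul_eq_one_left hs
  let f : (MulAction.stabilizer G a ⊓ MulAction.stabilizer G b : Subgroup G) →
      (MulAction.stabilizer G a ⊓ MulAction.stabilizer G b : Subgroup G) := fun r =>
    ⟨(r : G)⁻¹ * (s * r * s⁻¹), mul_mem (inv_mem r.2) (swap_conj_mem hsa hsb r.2)⟩
  have hf : Function.Injective f := by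
    intro r r' hrr
    have h1 : (r : G)⁻¹ * (s * r * s⁻¹) = (r' : G)⁻¹ * (s * r' * s⁻¹) := congrArg Subtype.val hrr
    have h2 : s * ((r' : G) * (r : G)⁻¹) = (r' : G) * (r : G)⁻¹ * s := by
      have e1 : s * r * s⁻¹ = (r : G) * ((r' : G)⁻¹ * (s * r' * s⁻¹)) := by
        rw [← h1]; group
      have e2 : s * ((r' : G) * (r : G)⁻¹) = (s * r' * s⁻¹) * (s * r * s⁻¹)⁻¹ * s := by group
      rw [e2, e1]; group
    have h3 := h.swap_cent hodd hab hs hsa (mul_mem r'.2 (inv_mem r.2)) h2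
    apply Subtype.ext
    exact (mul_inv_eq_one.mp h3).symm
  obtain ⟨r, hr⟩ := (Finite.injective_iff_surjective.mp hf) ⟨t, ht⟩
  have hr' : (r : G)⁻¹ * (s * r * s⁻¹) = t := congrArg Subtype.val hr
  rw [← hr']
  have e : s * ((r : G)⁻¹ * (s * r * s⁻¹)) * s⁻¹ = (s * (r : G)⁻¹ * s⁻¹) * ((s * s) * r * (s⁻¹ * s⁻¹)) := by
    group
  have hs' : s⁻¹ * s⁻¹ = 1 := by rw [← mul_inv_rev, hs, inv_one]
  rw [e, hs, hs']
  group

end Invol

end Cfsg.Agent.Lib.Helper2.Zas
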