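import Mathlib
import Cfsg.Prelude.Def_LieExceptional
import Cfsg.Agent.Lib.Helper2.Zas3

set_option autoImplicit false

namespace Cfsg.Agent.Lib.Helper2.Zas

open Cfsg.Agent.Lib.Lead

section Count

variable {G Ω : Type*} [Group G] [MulAction G Ω]

/-- all two-point stabilizers have the same order -/
theorem ZData.card_two_stab [Finite G] [Finite Ω] (h : ZData G Ω) {a b c d : Ω} (hab : a ≠ b)
    (hcd : c ≠ d) :
    Nat.card (MulAction.stabilizer G c ⊓ MulAction.stabilizer G d : Subgroup G) =
      Nat.card (MulAction.stabilizer G a ⊓ MulAction.stabilizer G b : Subgroup G) := by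
  have h1 := h.card_eq hab
  have h2 := h.card_eq hcd
  have hn := h.three_le
  rw [h1] at h2
  have hpos : 0 < Nat.card Ω * (Nat.card Ω - 1) := Nat.mul_pos (by omega) (by omega)
  exact (Nat.eq_of_mul_eq_mul_left hpos h2).symm

/-- in odd degree, the involutions swapping two points form a coset of the two-point
stabilizer -/
theorem ZData.card_swap [Fintype G] [DecidableEq G] [Fintype Ω] [DecidableEq Ω] (h : ZData G Ω)
    (hodd : Odd (Fintype.card Ω))
    (hswap : ∀ b b' : Ω, b ≠ b' → ∃ s : G, s * s = 1 ∧ s • b = b' ∧ s • b' = b)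
    {b b' : Ω} (hbb : b ≠ b') :
    (Finset.univ.filter (fun s : G => s * s = 1 ∧ s • b = b' ∧ s • b' = b)).card =
      Nat.card (MulAction.stabilizer G b ⊓ MulAction.stabilizer G b' : Subgroup G) := by
  classical
  obtain ⟨s₀, hs₀, hs₀b, hs₀b'⟩ := hswap b b' hbb
  letI : Fintype (MulAction.stabilizer G b ⊓ MulAction.stabilizer G b' : Subgroup G) :=
    Fintype.ofFinite _
  rw [Nat.card_eq_fintype_card, ← Finset.card_univ]
  symm
  apply Finset.card_bij (fun (t : (MulAction.stabilizer G b ⊓ MulAction.stabilizer G b' :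
    Subgroup G)) _ => s₀ * (t : G))
  · intro t _
    rw [Finset.mem_filter]
    have ht := t.2
    have hinv := h.swap_inv hodd hbb hs₀ hs₀b ht
    rw [Subgroup.mem_inf, MulAction.mem_stabilizer_iff, MulAction.mem_stabilizer_iff] at ht
    refine ⟨Finset.mem_univ _, ?_, ?_, ?_⟩
    · have e : s₀ * (t : G) * (s₀ * (t : G)) = (s₀ * (t : G) * s₀⁻¹) * (s₀ * s₀) * (t : G) := by
        group
      rw [e, hinv, hs₀, mul_one, inv_mul_cancel]
    · rw [mul_smul, ht.1, hs₀b]
    · rw [mul_smul, ht.2, hs₀b']
  · intro t _ t' _ htt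
    exact Subtype.ext (mul_left_cancel htt)
  · intro s hs
    rw [Finset.mem_filter] at hs
    obtain ⟨-, hs2, hsb, hsb'⟩ := hs
    have i1 : s₀⁻¹ • b' = b := by rw [inv_smul_eq_iff, hs₀b]
    have i2 : s₀⁻¹ • b = b' := by rw [inv_smul_eq_iff, hs₀b']
    refine ⟨⟨s₀⁻¹ * s, ?_⟩, Finset.mem_univ _, ?_⟩
    · rw [Subgroup.mem_inf, MulAction.mem_stabilizer_iff, MulAction.mem_stabilizer_iff]
      constructor
      · rw [mul_smul, hsb, i1]
      · rw [mul_smul, hsb', i2]
    · show s₀ * (s₀⁻¹ * s) = s
      group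

/-- in odd degree, the number of involutions fixing a given point is the order of the two-point
stabilizer -/
theorem ZData.card_invol_fix [Fintype G] [DecidableEq G] [Fintype Ω] [DecidableEq Ω]
    (h : ZData G Ω) (hodd : Odd (Fintype.card Ω))
    (hswap : ∀ b b' : Ω, b ≠ b' → ∃ s : G, s * s = 1 ∧ s • b = b' ∧ s • b' = b)
    {a b : Ω} (hab : a ≠ b) (c : Ω) :
    (Finset.univ.filter (fun s : G => s * s = 1 ∧ s ≠ 1 ∧ s • c = c)).card =
      Nat.card (MulAction.stabilizer G a ⊓ MulAction.stabilizer G b : Subgroup G) := by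
  classical
  have hn := h.three_le
  rw [Nat.card_eq_fintype_card] at hn
  set n := Fintype.card Ω with hndef
  set e := Nat.card (MulAction.stabilizer G a ⊓ MulAction.stabilizer G b : Subgroup G) with hedef
  set Inv := Finset.univ.filter (fun s : G => s * s = 1 ∧ s ≠ 1) with hInv
  have hS : ∀ b b' : Ω, b ≠ b' →
      (Finset.univ.filter (fun s : G => s * s = 1 ∧ s • b = b' ∧ s • b' = b)).card = e := by
    intro b b' hbb
    rw [h.card_swap hodd hswap hbb, h.card_two_stab hab hbb]
  have hmove : ∀ b : Ω, (Inv.filter (fun s => s • b ≠ b)).card = (n - 1) * e := by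
    intro b
    have hmaps : ∀ s ∈ Inv.filter (fun s => s • b ≠ b), s • b ∈ Finset.univ.erase b := by
      intro s hs
      rw [Finset.mem_filter] at hs
      exact Finset.mem_erase.mpr ⟨hs.2, Finset.mem_univ _⟩
    rw [Finset.card_eq_sum_card_fiberwise hmaps]
    have hfib : ∀ b' ∈ Finset.univ.erase b,
        ((Inv.filter (fun s => s • b ≠ b)).filter (fun s => s • b = b')).card = e := by
      intro b' hb'
      have hbb : b ≠ b' := fun h1 => (Finset.mem_erase.mp hb').1 h1.symm
      rw [← hS b b' hbb]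
      congr 1
      ext s
      simp only [Finset.mem_filter, Finset.mem_univ, true_and, hInv]
      constructor
      · rintro ⟨⟨⟨hs2, -⟩, -⟩, hsb⟩
        refine ⟨hs2, hsb, ?_⟩
        rw [← hsb, ← mul_smul, hs2, one_smul]
      · rintro ⟨hs2, hsb, -⟩
        refine ⟨⟨⟨hs2, ?_⟩, ?_⟩, hsb⟩
        · intro h1
          rw [h1, one_smul] at hsb
          exact hbb hsb
        · rw [hsb]
          exact fun h1 => hbb h1.symm
    rw [Finset.sum_congr rfl hfib, Finset.sum_const, smul_eq_mul,
      Finset.card_erase_of_mem (Finset.mem_univ _), Finset.card_univ]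
  have hfixc : ∀ s ∈ Inv, (Finset.univ.filter (fun b : Ω => s • b ≠ b)).card = n - 1 := by
    intro s hs
    rw [hInv, Finset.mem_filter] at hs
    have h1 := h.invol_fix_odd hodd hs.2.1 hs.2.2
    have h2 : (Finset.univ.filter (fun b : Ω => s • b = b)).card = 1 := by
      rw [← h1, Nat.card_eq_fintype_card, Fintype.card_subtype]
      rfl
    have h3 := Finset.card_filter_add_card_filter_not (s := (Finset.univ : Finset Ω))
      (fun b : Ω => s • b = b)
    rw [h2, Finset.card_univ] at h3
    have h4 : (Finset.univ.filter (fun b : Ω => s • b ≠ b)).card =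
        (Finset.univ.filter (fun b : Ω => ¬ s • b = b)).card := rfl
    omega
  have hdouble : ∑ b : Ω, (Inv.filter (fun s => s • b ≠ b)).card =
      ∑ s ∈ Inv, (Finset.univ.filter (fun b : Ω => s • b ≠ b)).card := by
    simp only [Finset.card_filter]
    exact Finset.sum_comm
  rw [Finset.sum_congr rfl (fun b _ => hmove b), Finset.sum_congr rfl hfixc, Finset.sum_const,
    Finset.sum_const, smul_eq_mul, smul_eq_mul, Finset.card_univ] at hdouble
  have hInvcard : Inv.card = n * e := by
    have hpos : 0 < n - 1 := by omega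
    have : (n - 1) * (n * e) = (n - 1) * Inv.card := by
      rw [mul_comm (n - 1) Inv.card, ← hdouble]; ring
    exact (Nat.eq_of_mul_eq_mul_left hpos this).symm
  have hsplit := Finset.card_filter_add_card_filter_not (s := Inv) (fun s : G => s • c = c)
  rw [hInvcard] at hsplit
  have hmc := hmove c
  have htarget : Finset.univ.filter (fun s : G => s * s = 1 ∧ s ≠ 1 ∧ s • c = c) =
      Inv.filter (fun s => s • c = c) := by
    ext s
    simp only [Finset.mem_filter, Finset.mem_univ, true_and, hInv, and_assoc]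
  rw [htarget]
  have h5 : (Inv.filter (fun s => ¬ s • c = c)).card = (n - 1) * e := hmc
  rw [h5] at hsplit
  obtain ⟨k, hk⟩ : ∃ k, n = k + 1 := ⟨n - 1, by omega⟩
  rw [hk] at hsplit
  have r : k + 1 - 1 = k := by omega
  rw [r] at hsplit
  nlinarith

end Count

section Central

variable {G Ω : Type*} [Group G] [MulAction G Ω]

/-- in odd degree, the kernel of a point stabilizer centralizes its involutions -/
theorem ZData.invol_central [Finite G] [Fintype Ω] (h : ZData G Ω) (hodd : Odd (Fintype.card Ω))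
    (hswap : ∀ b b' : Ω, b ≠ b' → ∃ s : G, s * s = 1 ∧ s • b = b' ∧ s • b' = b)
    {a : Ω} (H : Subgroup G) (hHa : H ≤ MulAction.stabilizer G a)
    (hHcard : Nat.card H + 1 = Nat.card Ω)
    (hHfix : ∀ u ∈ H, u ≠ 1 → ∀ c : Ω, u • c = c → c = a) {x : G} (hx : x * x = 1)
    (hx1 : x ≠ 1) (hxa : x • a = a) {u : G} (hu : u ∈ H) : u * x * u⁻¹ = x := by
  classical
  letI : Fintype G := Fintype.ofFinite G
  obtain ⟨b, hba, -⟩ := h.exists_ne_ne a a
  have hab : a ≠ b := Ne.symm hba
  have hxonly := h.invol_only hodd hx hx1 hxa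
  have hcount := h.card_invol_fix hodd hswap hab a
  obtain ⟨E, hE⟩ : ∃ E : Subgroup G, E = MulAction.stabilizer G a ⊓ MulAction.stabilizer G b :=
    ⟨_, rfl⟩
  rw [← hE] at hcount
  have hEmem : ∀ t : G, t ∈ E ↔ t • a = a ∧ t • b = b := by
    intro t
    rw [hE, Subgroup.mem_inf, MulAction.mem_stabilizer_iff, MulAction.mem_stabilizer_iff]
  letI : Fintype E := Fintype.ofFinite _
  set I := Finset.univ.filter (fun s : G => s * s = 1 ∧ s ≠ 1 ∧ s • a = a) with hI
  set J := (Finset.univ : Finset E).image (fun t : E => (t : G) * x * (t : G)⁻¹) with hJ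
  have hconjI : ∀ g : G, g • a = a → g * x * g⁻¹ ∈ I := by
    intro g hg
    have hg' : g⁻¹ • a = a := by rw [inv_smul_eq_iff, hg]
    rw [hI, Finset.mem_filter]
    refine ⟨Finset.mem_univ _, ?_, ?_, ?_⟩
    · have e : g * x * g⁻¹ * (g * x * g⁻¹) = g * (x * x) * g⁻¹ := by group
      rw [e, hx, mul_one, mul_inv_cancel]
    · intro h1
      apply hx1
      have : x = g⁻¹ * (g * x * g⁻¹) * g := by group
      rw [this, h1]; group
    · rw [mul_smul, mul_smul, hg', hxa, hg]
  have hJI : J ⊆ I := by
    intro s hs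
    rw [hJ, Finset.mem_image] at hs
    obtain ⟨t, -, rfl⟩ := hs
    exact hconjI _ ((hEmem _).mp t.2).1
  have hJcard : J.card = Fintype.card E := by
    rw [hJ, Finset.card_image_of_injective, Finset.card_univ]
    intro t t' htt
    have h1 : (t : G) * x * (t : G)⁻¹ = (t' : G) * x * (t' : G)⁻¹ := htt
    set d := (t' : G)⁻¹ * (t : G) with hd
    have hdx : d * x = x * d := by
      have e1 : d * x = (t' : G)⁻¹ * ((t : G) * x * (t : G)⁻¹) * (t : G) := by rw [hd]; group
      rw [e1, h1, hd]; group
    have hdm : d ∈ E := mul_mem (inv_mem t'.2) t.2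
    rw [hEmem] at hdm
    have hd1 : d = 1 := by
      by_contra hd1
      have hxb : d • (x • b) = x • b := by
        rw [← mul_smul, hdx, mul_smul, hdm.2]
      have hxbb : x • b ≠ b := fun h2 => hba (hxonly b h2)
      have hxba : x • b ≠ a := by
        intro h2
        rw [← hxa] at h2
        exact hba (smul_left_cancel x h2)
      exact hd1 (h.three d a b (x • b) hab (Ne.symm hxbb) (Ne.symm hxba) hdm.1 hdm.2 hxb)
    apply Subtype.ext
    have : (t : G) = (t' : G) * d := by rw [hd]; group
    rw [this, hd1, mul_one]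
  have hJeq : J = I := by
    apply Finset.eq_of_subset_of_card_le hJI
    rw [hJcard, hcount, Nat.card_eq_fintype_card]
  have huI := hconjI u (hHa hu)
  rw [← hJeq, hJ, Finset.mem_image] at huI
  obtain ⟨t, -, ht⟩ := huI
  have htm := (hEmem _).mp t.2
  set d := (t : G)⁻¹ * u with hd
  have hdx : d * x = x * d := by
    have e1 : d * x = (t : G)⁻¹ * (u * x * u⁻¹) * u := by rw [hd]; group
    rw [e1, ← ht, hd]; group
  have hda : d • a = a := by
    rw [hd, mul_smul, hHa hu, inv_smul_eq_iff, htm.1]
  have hdH : d ∈ H := by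
    by_cases hd1 : d = 1
    · rw [hd1]; exact H.one_mem
    apply h.mem_kernel H hHa hHcard hHfix hda
    intro c hc
    by_contra hca
    have hxc : d • (x • c) = x • c := by
      rw [← mul_smul, hdx, mul_smul, hc]
    have hxcc : x • c ≠ c := fun h2 => hca (hxonly c h2)
    have hxca : x • c ≠ a := by
      intro h2
      rw [← hxa] at h2
      exact hca (smul_left_cancel x h2)
    exact hd1 (h.three d a c (x • c) (Ne.symm hca) (Ne.symm hxcc) (Ne.symm hxca) hda hc hxc)
  have htH : (t : G) ∈ H := by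
    have : (t : G) = u * d⁻¹ := by rw [hd]; group
    rw [this]
    exact mul_mem hu (inv_mem hdH)
  have ht1 : (t : G) = 1 := by
    by_contra ht1
    exact hba (hHfix _ htH ht1 b htm.2)
  rw [← ht, ht1]
  group

end Central

end Cfsg.Agent.Lib.Helper2.Zas
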