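import Mathlib
import Cfsg.Prelude.Def_LieExceptional
import Cfsg.Prelude.Def_Solvable
import Cfsg.Agent.Lib.Helper2.Zas4
import Cfsg.Agent.Lib.Helper9.FrobThm

set_option autoImplicit false

namespace Cfsg.Agent.Lib.Helper2.Zas

open Cfsg.Agent.Lib.Lead
open Cfsg.Agent.Lib.Helper7 (fc_mem_conj_smul_iff fc_mem_kernel_iff)
open Cfsg.Agent.Lib.Helper9 (frobenius_kernel_subgroup)

section FrobK

variable {G Ω : Type*} [Group G] [MulAction G Ω]

theorem ZData.frob_compl (h : ZData G Ω) {a b : Ω} (hab : a ≠ b) :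
    Cfsg.IsFrobeniusComplement
      ((MulAction.stabilizer G b).subgroupOf (MulAction.stabilizer G a)) := by
  have hmem : ∀ x : MulAction.stabilizer G a,
      x ∈ (MulAction.stabilizer G b).subgroupOf (MulAction.stabilizer G a) ↔ (x : G) • b = b := by
    intro x
    rw [Subgroup.mem_subgroupOf, MulAction.mem_stabilizer_iff]
  refine ⟨?_, ?_, ?_⟩
  · obtain ⟨x, hx1, hxa, hxb⟩ := h.exists_two_fix hab
    intro hbot
    have h1 : (⟨x, hxa⟩ : MulAction.stabilizer G a) ∈
        (MulAction.stabilizer G b).subgroupOf (MulAction.stabilizer G a) := (hmem _).mpr hxb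
    rw [hbot, Subgroup.mem_bot] at h1
    exact hx1 (congrArg Subtype.val h1)
  · obtain ⟨c, hca, hcb⟩ := h.exists_ne_ne a b
    obtain ⟨g, hga, hgb⟩ := h.two a b a c hab (Ne.symm hca)
    intro htop
    have h1 : (⟨g, hga⟩ : MulAction.stabilizer G a) ∈
        (MulAction.stabilizer G b).subgroupOf (MulAction.stabilizer G a) := by
      rw [htop]; exact Subgroup.mem_top _
    rw [hmem] at h1
    exact hcb (hgb.symm.trans h1)
  · intro g hg
    rw [eq_bot_iff]
    intro x hx
    rw [Subgroup.mem_inf, fc_mem_conj_smul_iff, hmem, hmem] at hx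
    rw [hmem] at hg
    rw [Subgroup.mem_bot]
    apply Subtype.ext
    have hga : (g : G) • a = a := g.2
    have hxa : (x : G) • a = a := x.2
    have hxg : (x : G) • ((g : G) • b) = (g : G) • b := by
      have h2 : ((g : G)⁻¹ * (x : G) * (g : G)) • b = b := hx.2
      rw [mul_smul, mul_smul] at h2
      exact (smul_eq_iff_eq_inv_smul _).mpr h2.symm ▸ rfl
    have hgba : (g : G) • b ≠ a := by
      intro h2
      exact hab (smul_left_cancel _ (h2.trans hga.symm)).symm
    exact h.three (x : G) a b ((g : G) • b) hab (Ne.symm hg) (Ne.symm hgba) hxa hx.1 hxg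

/-- the Frobenius kernel of a point stabilizer exists as a subgroup -/
theorem ZData.exists_kernel [Finite G] [Finite Ω] (h : ZData G Ω) (a : Ω) :
    ∃ H : Subgroup G, H ≤ MulAction.stabilizer G a ∧ Nat.card H + 1 = Nat.card Ω ∧
      ∀ u ∈ H, u ≠ 1 → ∀ c : Ω, u • c = c → c = a := by
  classical
  obtain ⟨b, hba, -⟩ := h.exists_ne_ne a a
  have hab : a ≠ b := Ne.symm hba
  have hFC := h.frob_compl hab
  obtain ⟨N, hNset, -, -⟩ := frobenius_kernel_subgroup _ hFC
  have hmem : ∀ x : MulAction.stabilizer G a,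
      x ∈ (MulAction.stabilizer G b).subgroupOf (MulAction.stabilizer G a) ↔ (x : G) • b = b := by
    intro x
    rw [Subgroup.mem_subgroupOf, MulAction.mem_stabilizer_iff]
  have hker : ∀ x : MulAction.stabilizer G a, x ∈ N ↔
      (x = 1 ∨ ∀ c : Ω, (x : G) • c = c → c = a) := by
    intro x
    rw [← SetLike.mem_coe, hNset, fc_mem_kernel_iff]
    apply or_congr Iff.rfl
    constructor
    · intro hx c hc
      by_contra hca
      obtain ⟨g, hga, hgb⟩ := h.two a b a c hab (Ne.symm hca)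
      apply hx ⟨g, hga⟩
      rw [hmem]
      show (g⁻¹ * (x : G) * g) • b = b
      rw [mul_smul, mul_smul, hgb, hc, inv_smul_eq_iff, hgb]
    · intro hx g hg
      rw [hmem] at hg
      have h2 : ((g : G)⁻¹ * (x : G) * (g : G)) • b = b := hg
      rw [mul_smul, mul_smul, inv_smul_eq_iff] at h2
      have h3 := hx _ h2
      have hga : (g : G) • a = a := g.2
      exact hab (smul_left_cancel _ (h3.trans hga.symm)).symm
  refine ⟨N.map (MulAction.stabilizer G a).subtype, Subgroup.map_subtype_le N, ?_, ?_⟩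
  · letI : Fintype (MulAction.stabilizer G a) := Fintype.ofFinite _
    have hc := h.count_stab a
    have h1 : Nat.card (N.map (MulAction.stabilizer G a).subtype) = Nat.card N :=
      (Nat.card_congr (N.equivMapOfInjective _ (Subgroup.subtype_injective _)).toEquiv).symm
    rw [h1, ← hc]
    congr 1
    rw [Nat.card_eq_fintype_card, Fintype.card_subtype]
    congr 1
    ext x
    simp only [Finset.mem_filter, Finset.mem_univ, true_and]
    rw [hker x]
    apply or_congr Iff.rfl
    exact (card_fix_eq_one_iff x.2).symm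
  · intro u hu hu1 c hc
    rw [Subgroup.mem_map] at hu
    obtain ⟨v, hv, rfl⟩ := hu
    rcases (hker v).mp hv with h1 | h1
    · exfalso
      apply hu1
      rw [h1]
      rfl
    · exact h1 c hc

theorem ZData.kernel_regular [Finite G] [Finite Ω] (h : ZData G Ω) {a : Ω} (H : Subgroup G)
    (hHa : H ≤ MulAction.stabilizer G a) (hHcard : Nat.card H + 1 = Nat.card Ω)
    (hHfix : ∀ u ∈ H, u ≠ 1 → ∀ c : Ω, u • c = c → c = a) {b c : Ω} (hb : b ≠ a)
    (hc : c ≠ a) : ∃ u ∈ H, u • b = c := by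
  classical
  let f : H → {x : Ω // x ≠ a} := fun u => ⟨(u : G) • b, by
    intro hx
    have hua : (u : G) • a = a := hHa u.2
    rw [← hua] at hx
    exact hb (smul_left_cancel _ hx)⟩
  have hf : Function.Injective f := by
    intro u u' huu
    have h1 : (u : G) • b = (u' : G) • b := congrArg Subtype.val huu
    have h2 : ((u' : G)⁻¹ * (u : G)) • b = b := by
      rw [mul_smul, h1, inv_smul_smul]
    by_contra hne
    have h3 : (u' : G)⁻¹ * (u : G) ≠ 1 := by
      intro h4
      apply hne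
      apply Subtype.ext
      exact (inv_mul_eq_one.mp h4).symm
    exact hb (hHfix _ (mul_mem (inv_mem u'.2) u.2) h3 b h2)
  have hcard : Nat.card {x : Ω // x ≠ a} ≤ Nat.card H := by
    letI : Fintype Ω := Fintype.ofFinite Ω
    have h1 : Nat.card {x : Ω // x ≠ a} = Nat.card Ω - 1 := by
      rw [Nat.card_eq_fintype_card, Nat.card_eq_fintype_card,
        Fintype.card_subtype_compl (fun x : Ω => x = a), Fintype.card_subtype_eq]
    omega
  obtain ⟨u, hu⟩ := (hf.bijective_of_nat_card_le hcard).2 ⟨c, hc⟩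
  exact ⟨u, u.2, congrArg Subtype.val hu⟩

end FrobK

section NormalSub

variable {G Ω : Type*} [Group G] [MulAction G Ω]

/-- a nontrivial normal subgroup is transitive -/
theorem ZData.normal_trans (h : ZData G Ω) (N : Subgroup G) [hNn : N.Normal] (hN : N ≠ ⊥)
    (x y : Ω) : ∃ n ∈ N, n • x = y := by
  obtain ⟨⟨g, hg⟩, hg1⟩ := Subgroup.ne_bot_iff_exists_ne_one.mp hN
  have hg1' : g ≠ 1 := fun h1 => hg1 (Subtype.ext h1)
  obtain ⟨c, hc⟩ : ∃ c : Ω, g • c ≠ c := by
    by_contra hcon
    push Not at hcon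
    exact hg1' (h.faith g hcon)
  by_cases hxy : x = y
  · exact ⟨1, N.one_mem, by rw [one_smul, hxy]⟩
  · obtain ⟨k, hk1, hk2⟩ := h.two c (g • c) x y (Ne.symm hc) hxy
    refine ⟨k * g * k⁻¹, hNn.conj_mem g hg k, ?_⟩
    rw [mul_smul, mul_smul, ← hk1, inv_smul_smul, hk2]

/-- a normal subgroup containing a non-identity element with two fixed points contains the
kernel of the point stabilizer -/
theorem ZData.kernel_le_normal [Finite G] [Finite Ω] (h : ZData G Ω) (N : Subgroup G)
    [hNn : N.Normal] {a b : Ω} (hab : a ≠ b) {n₀ : G} (hn₀ : n₀ ∈ N) (hn₀1 : n₀ ≠ 1)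
    (hn₀a : n₀ • a = a) (hn₀b : n₀ • b = b) (H : Subgroup G)
    (hHa : H ≤ MulAction.stabilizer G a) (hHcard : Nat.card H + 1 = Nat.card Ω)
    (hHfix : ∀ u ∈ H, u ≠ 1 → ∀ c : Ω, u • c = c → c = a) : H ≤ N := by
  let f : H → H := fun v => ⟨(v : G)⁻¹ * (n₀ * v * n₀⁻¹),
    mul_mem (inv_mem v.2) (h.kernel_conj H hHa hHcard hHfix hn₀a v.2)⟩
  have hf : Function.Injective f := by
    intro v v' hvv
    have h1 : (v : G)⁻¹ * (n₀ * v * n₀⁻¹) = (v' : G)⁻¹ * (n₀ * v' * n₀⁻¹) :=
      congrArg Subtype.val hvv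
    set w := (v' : G) * (v : G)⁻¹ with hw
    have hwn : w * n₀ = n₀ * w := by
      have e1 : n₀ * v * n₀⁻¹ = (v : G) * ((v' : G)⁻¹ * (n₀ * v' * n₀⁻¹)) := by
        rw [← h1]; group
      have e2 : n₀ * w = (n₀ * v' * n₀⁻¹) * (n₀ * v * n₀⁻¹)⁻¹ * n₀ := by rw [hw]; group
      rw [e2, e1, hw]; group
    have hwH : w ∈ H := mul_mem v'.2 (inv_mem v.2)
    have hw1 : w = 1 := by
      by_contra hw1
      have honly := hHfix w hwH hw1
      have hwb : n₀ • (w • b) = w • b := by
        rw [← mul_smul, ← hwn, mul_smul, hn₀b]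
      have hwbb : w • b ≠ b := fun h2 => hab (honly b h2).symm
      have hwba : w • b ≠ a := by
        intro h2
        have hwa : w • a = a := hHa hwH
        rw [← hwa] at h2
        exact hab (smul_left_cancel w h2).symm
      exact hn₀1 (h.three n₀ a b (w • b) hab (Ne.symm hwbb) (Ne.symm hwba) hn₀a hn₀b hwb)
    apply Subtype.ext
    have : (v' : G) = w * (v : G) := by rw [hw]; group
    rw [this, hw1, one_mul]
  intro u hu
  obtain ⟨v, hv⟩ := (Finite.injective_iff_surjective.mp hf) ⟨u, hu⟩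
  have hv' : (v : G)⁻¹ * (n₀ * v * n₀⁻¹) = u := congrArg Subtype.val hv
  rw [← hv']
  have e : (v : G)⁻¹ * (n₀ * v * n₀⁻¹) = ((v : G)⁻¹ * n₀ * (v : G)⁻¹⁻¹) * n₀⁻¹ := by group
  rw [e]
  exact N.mul_mem (hNn.conj_mem n₀ hn₀ _) (N.inv_mem hn₀)

end NormalSub

end Cfsg.Agent.Lib.Helper2.Zas
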