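import Mathlib
import Cfsg.Prelude.Def_LieExceptional
import Cfsg.Prelude.Def_Solvable
import Cfsg.Agent.Lib.Helper2.Zas5

set_option autoImplicit false

namespace Cfsg.Agent.Lib.Helper2.Zas

open Cfsg.Agent.Lib.Lead
open Cfsg.Agent.Lib.Helper7 (fc_mem_conj_smul_iff fc_mem_kernel_iff)
open Cfsg.Agent.Lib.Helper9 (frobenius_kernel_subgroup)

section CaseB

variable {G Ω : Type*} [Group G] [MulAction G Ω]

/-- the point stabilizer of a nontrivial normal subgroup is nontrivial -/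
theorem normal_stab_ne (hZ : Cfsg.IsZassenhausGroup G Ω) (N : Subgroup G) [hNn : N.Normal]
    (hN : N ≠ ⊥) : ∃ a : Ω, ∃ n ∈ N, n ≠ 1 ∧ n • a = a := by
  have h := zdata hZ
  haveI : MulAction.IsPretransitive N Ω := by
    refine ⟨fun x y => ?_⟩
    obtain ⟨n, hn, hxy⟩ := h.normal_trans N hN x y
    exact ⟨⟨n, hn⟩, hxy⟩
  obtain ⟨a, ha⟩ := hZ.2.2.2.2 N hNn inferInstance
  obtain ⟨⟨n, hn⟩, hn1⟩ := Subgroup.ne_bot_iff_exists_ne_one.mp ha
  refine ⟨a, n, n.2, ?_, ?_⟩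
  · intro h1
    apply hn1
    apply Subtype.ext
    apply Subtype.ext
    exact h1
  · exact hn

/-- a nontrivial normal subgroup contains a non-identity element fixing two points -/
theorem normal_two_fix [Finite G] (hZ : Cfsg.IsZassenhausGroup G Ω) (N : Subgroup G)
    [hNn : N.Normal] (hN : N ≠ ⊥) :
    ∃ n ∈ N, n ≠ 1 ∧ ∃ c d : Ω, c ≠ d ∧ n • c = c ∧ n • d = d := by
  have h := zdata hZ
  by_contra hB
  push Not at hB
  obtain ⟨a, n₀, hn₀, hn₀1, hn₀a⟩ := normal_stab_ne hZ N hN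
  have hmem : ∀ x : N, x ∈ (MulAction.stabilizer G a).subgroupOf N ↔ (x : G) • a = a := by
    intro x
    rw [Subgroup.mem_subgroupOf, MulAction.mem_stabilizer_iff]
  have hFC : Cfsg.IsFrobeniusComplement ((MulAction.stabilizer G a).subgroupOf N) := by
    refine ⟨?_, ?_, ?_⟩
    · intro hbot
      have h1 : (⟨n₀, hn₀⟩ : N) ∈ (MulAction.stabilizer G a).subgroupOf N := (hmem _).mpr hn₀a
      rw [hbot, Subgroup.mem_bot] at h1
      exact hn₀1 (congrArg Subtype.val h1)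
    · obtain ⟨b, hba, -⟩ := h.exists_ne_ne a a
      obtain ⟨n, hn, hnab⟩ := h.normal_trans N hN a b
      intro htop
      have h1 : (⟨n, hn⟩ : N) ∈ (MulAction.stabilizer G a).subgroupOf N := by
        rw [htop]; exact Subgroup.mem_top _
      rw [hmem] at h1
      exact hba (hnab.symm.trans h1)
    · intro g hg
      rw [eq_bot_iff]
      intro x hx
      rw [Subgroup.mem_inf, fc_mem_conj_smul_iff, hmem, hmem] at hx
      rw [hmem] at hg
      rw [Subgroup.mem_bot]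
      apply Subtype.ext
      by_contra hx1
      have h2 : ((g : G)⁻¹ * (x : G) * (g : G)) • a = a := hx.2
      rw [mul_smul, mul_smul, inv_smul_eq_iff] at h2
      exact hB (x : G) x.2 hx1 a ((g : G) • a) (Ne.symm hg) hx.1 h2
  obtain ⟨M₀, hM₀set, -, hM₀c⟩ := frobenius_kernel_subgroup _ hFC
  have hker : ∀ m : N, m ∈ M₀ ↔ (m = 1 ∨ ∀ c : Ω, (m : G) • c ≠ c) := by
    intro m
    rw [← SetLike.mem_coe, hM₀set, fc_mem_kernel_iff]
    apply or_congr Iff.rfl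
    constructor
    · intro hm c hc
      obtain ⟨g, hg, hgac⟩ := h.normal_trans N hN a c
      apply hm ⟨g, hg⟩
      rw [hmem]
      show (g⁻¹ * (m : G) * g) • a = a
      rw [mul_smul, mul_smul, hgac, hc, inv_smul_eq_iff, hgac]
    · intro hm g hg
      rw [hmem] at hg
      have h2 : ((g : G)⁻¹ * (m : G) * (g : G)) • a = a := hg
      rw [mul_smul, mul_smul, inv_smul_eq_iff] at h2
      exact hm _ h2
  obtain ⟨M, hM⟩ : ∃ M : Subgroup G, M = M₀.map N.subtype := ⟨_, rfl⟩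
  have hMmem : ∀ m : G, m ∈ M ↔ (m ∈ N ∧ (m = 1 ∨ ∀ c : Ω, m • c ≠ c)) := by
    intro m
    rw [hM, Subgroup.mem_map]
    constructor
    · rintro ⟨m', hm', rfl⟩
      refine ⟨m'.2, ?_⟩
      rcases (hker m').mp hm' with h1 | h1
      · left; rw [h1]; rfl
      · right; exact h1
    · rintro ⟨hmN, hm⟩
      refine ⟨⟨m, hmN⟩, (hker _).mpr ?_, rfl⟩
      rcases hm with h1 | h1
      · left; exact Subtype.ext h1
      · right; exact h1
  have hMn : M.Normal := by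
    refine ⟨fun m hm g => ?_⟩
    rw [hMmem] at hm ⊢
    refine ⟨hNn.conj_mem m hm.1 g, ?_⟩
    rcases hm.2 with h1 | h1
    · left; rw [h1]; group
    · right
      intro c hc
      rw [mul_smul, mul_smul] at hc
      exact h1 (g⁻¹ • c) ((smul_eq_iff_eq_inv_smul g).mp hc)
  have hMa : ∀ y : Ω, ∃ m ∈ M, m • a = y := by
    intro y
    obtain ⟨g, hg, hgy⟩ := h.normal_trans N hN a y
    obtain ⟨⟨⟨m₀, hm₀⟩, ⟨c₀, hc₀⟩⟩, hx, -⟩ := hM₀c.existsUnique (⟨g, hg⟩ : N)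
    have hx' : (m₀ : G) * (c₀ : G) = g := congrArg Subtype.val hx
    have hc₀a : (c₀ : G) • a = a := (hmem c₀).mp hc₀
    refine ⟨(m₀ : G), ?_, ?_⟩
    · rw [hM, Subgroup.mem_map]
      exact ⟨m₀, hm₀, rfl⟩
    · rw [← hgy, ← hx', mul_smul, hc₀a]
  haveI : MulAction.IsPretransitive M Ω := by
    refine ⟨fun x y => ?_⟩
    obtain ⟨m₁, hm₁, hx⟩ := hMa x
    obtain ⟨m₂, hm₂, hy⟩ := hMa y
    refine ⟨⟨m₂ * m₁⁻¹, M.mul_mem hm₂ (M.inv_mem hm₁)⟩, ?_⟩
    show (m₂ * m₁⁻¹) • x = y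
    rw [mul_smul, ← hx, inv_smul_smul, hy]
  obtain ⟨c, hc⟩ := hZ.2.2.2.2 M hMn inferInstance
  obtain ⟨⟨m, hm⟩, hm1⟩ := Subgroup.ne_bot_iff_exists_ne_one.mp hc
  have hm' : (m : G) • c = c := hm
  rcases ((hMmem (m : G)).mp m.2).2 with h1 | h1
  · apply hm1
    apply Subtype.ext
    apply Subtype.ext
    exact h1
  · exact h1 c hm'

end CaseB

end Cfsg.Agent.Lib.Helper2.Zas
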