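import Mathlib
import Cfsg.Prelude.Def_LieExceptional
import Cfsg.Prelude.Def_Solvable
import Cfsg.Agent.Lib.Helper2.Zas6

set_option autoImplicit false

namespace Cfsg.Agent.Lib.Helper2.Zas

open Cfsg.Agent.Lib.Lead

section Reg

variable {K Ω : Type*} [Group K] [MulAction K Ω]

/-- in a 2-transitive group, the non-identity elements of a regular normal subgroup are
conjugate -/
theorem ZData.reg_conj_trans (h : ZData K Ω) (M : Subgroup K) [hMn : M.Normal]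
    (hfree : ∀ m ∈ M, ∀ x : Ω, m • x = x → m = 1) (a : Ω) {m m' : K} (hm : m ∈ M) (hm' : m' ∈ M)
    (hm1 : m ≠ 1) (hm'1 : m' ≠ 1) : ∃ x : K, x * m * x⁻¹ = m' := by
  have h1 : a ≠ m • a := fun e => hm1 (hfree m hm a e.symm)
  have h2 : a ≠ m' • a := fun e => hm'1 (hfree m' hm' a e.symm)
  obtain ⟨x, hxa, hxm⟩ := h.two a (m • a) a (m' • a) h1 h2
  refine ⟨x, ?_⟩
  have h3 : m'⁻¹ * (x * m * x⁻¹) ∈ M := M.mul_mem (M.inv_mem hm') (hMn.conj_mem m hm x)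
  have h4 : (m'⁻¹ * (x * m * x⁻¹)) • a = a := by
    rw [mul_smul, mul_smul, mul_smul, inv_smul_eq_iff]
    have h5 : x⁻¹ • a = a := by rw [inv_smul_eq_iff, hxa]
    rw [h5, hxm]
  have h5 := hfree _ h3 a h4
  exact (inv_mul_eq_one.mp h5).symm

/-- a Zassenhaus-type group has at most one regular normal subgroup -/
theorem ZData.regular_normal_unique (h : ZData K Ω) (M₁ M₂ : Subgroup K) [hM₁ : M₁.Normal]
    [hM₂ : M₂.Normal]
    (ht₁ : ∀ x y : Ω, ∃ m ∈ M₁, m • x = y) (hf₁ : ∀ m ∈ M₁, ∀ x : Ω, m • x = x → m = 1)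
    (ht₂ : ∀ x y : Ω, ∃ m ∈ M₂, m • x = y) (hf₂ : ∀ m ∈ M₂, ∀ x : Ω, m • x = x → m = 1) :
    M₁ = M₂ := by
  obtain ⟨a, b, c, hab, hac, hbc⟩ := h.exists_three
  by_cases hcase : ∃ m ∈ M₁, m ∈ M₂ ∧ m ≠ 1
  · obtain ⟨m, hm₁, hm₂, hm1⟩ := hcase
    apply le_antisymm
    · intro m' hm'
      by_cases hm'1 : m' = 1
      · rw [hm'1]; exact M₂.one_mem
      obtain ⟨x, hx⟩ := h.reg_conj_trans M₁ hf₁ a hm₁ hm' hm1 hm'1
      rw [← hx]
      exact hM₂.conj_mem m hm₂ x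
    · intro m' hm'
      by_cases hm'1 : m' = 1
      · rw [hm'1]; exact M₁.one_mem
      obtain ⟨x, hx⟩ := h.reg_conj_trans M₂ hf₂ a hm₂ hm' hm1 hm'1
      rw [← hx]
      exact hM₁.conj_mem m hm₁ x
  · exfalso
    push Not at hcase
    have hcomm : ∀ m₁ ∈ M₁, ∀ m₂ ∈ M₂, m₁ * m₂ = m₂ * m₁ := by
      intro m₁ hm₁ m₂ hm₂
      have h1 : m₁ * m₂ * m₁⁻¹ * m₂⁻¹ ∈ M₁ := by
        have h0 : m₁ * m₂ * m₁⁻¹ * m₂⁻¹ = m₁ * (m₂ * m₁⁻¹ * m₂⁻¹) := by group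
        rw [h0]
        exact M₁.mul_mem hm₁ (hM₁.conj_mem _ (M₁.inv_mem hm₁) m₂)
      have h2 : m₁ * m₂ * m₁⁻¹ * m₂⁻¹ ∈ M₂ :=
        M₂.mul_mem (hM₂.conj_mem _ hm₂ m₁) (M₂.inv_mem hm₂)
      have h3 := hcase _ h1 h2
      calc m₁ * m₂ = (m₁ * m₂ * m₁⁻¹ * m₂⁻¹) * (m₂ * m₁) := by group
        _ = m₂ * m₁ := by rw [h3, one_mul]
    have hfix : ∀ m₁ ∈ M₁, ∀ m₂ ∈ M₂, m₂ • a = m₁ • a → ∀ u ∈ M₁, u * m₁ = m₁ * u →
        (m₁⁻¹ * m₂) • (u • a) = u • a := by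
      intro m₁ hm₁ m₂ hm₂ he u hu huc
      rw [mul_smul, inv_smul_eq_iff, ← mul_smul, ← hcomm u hu m₂ hm₂, mul_smul, he, ← mul_smul,
        huc, mul_smul]
    have hsq : ∀ m₁ ∈ M₁, m₁ * m₁ = 1 := by
      intro m₁ hm₁
      by_contra hne
      have hm₁1 : m₁ ≠ 1 := by
        intro e; apply hne; rw [e, one_mul]
      obtain ⟨m₂, hm₂, he⟩ := ht₂ a (m₁ • a)
      have f0 := hfix m₁ hm₁ m₂ hm₂ he 1 M₁.one_mem (by rw [one_mul, mul_one])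
      have f1 := hfix m₁ hm₁ m₂ hm₂ he m₁ hm₁ rfl
      have f2 := hfix m₁ hm₁ m₂ hm₂ he (m₁ * m₁) (M₁.mul_mem hm₁ hm₁) (by rw [mul_assoc])
      rw [one_smul] at f0
      have d1 : a ≠ m₁ • a := fun e => hm₁1 (hf₁ m₁ hm₁ a e.symm)
      have d2 : m₁ • a ≠ (m₁ * m₁) • a := by
        intro e
        rw [mul_smul] at e
        exact d1 (smul_left_cancel _ e)
      have d3 : a ≠ (m₁ * m₁) • a := fun e => hne (hf₁ _ (M₁.mul_mem hm₁ hm₁) a e.symm)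
      have hd := h.three (m₁⁻¹ * m₂) a (m₁ • a) ((m₁ * m₁) • a) d1 d2 d3 f0 f1 f2
      have e : m₁ = m₂ := inv_mul_eq_one.mp hd
      exact hm₁1 (hcase m₁ hm₁ (e ▸ hm₂))
    have hab1 : ∀ m ∈ M₁, ∀ u ∈ M₁, u * m = m * u := by
      intro m hm u hu
      have e1 := hsq m hm
      have e2 := hsq u hu
      have e3 := hsq (u * m) (M₁.mul_mem hu hm)
      have i1 : m⁻¹ = m := inv_eq_of_mul_eq_one_left e1
      have i2 : u⁻¹ = u := inv_eq_of_mul_eq_one_left e2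
      have i3 : (u * m)⁻¹ = u * m := inv_eq_of_mul_eq_one_left e3
      rw [mul_inv_rev, i1, i2] at i3
      exact i3.symm
    obtain ⟨m₁, hm₁, hm₁a⟩ := ht₁ a b
    obtain ⟨u, hu, hua⟩ := ht₁ a c
    obtain ⟨m₂, hm₂, he⟩ := ht₂ a (m₁ • a)
    have f0 := hfix m₁ hm₁ m₂ hm₂ he 1 M₁.one_mem (by rw [one_mul, mul_one])
    have f1 := hfix m₁ hm₁ m₂ hm₂ he m₁ hm₁ rfl
    have f2 := hfix m₁ hm₁ m₂ hm₂ he u hu (hab1 m₁ hm₁ u hu)
    rw [one_smul] at f0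
    rw [hm₁a] at f1
    rw [hua] at f2
    have hd := h.three (m₁⁻¹ * m₂) a b c hab hbc hac f0 f1 f2
    have e : m₁ = m₂ := inv_mul_eq_one.mp hd
    have e1 : m₁ = 1 := hcase m₁ hm₁ (e ▸ hm₂)
    rw [e1, one_smul] at hm₁a
    exact hab hm₁a

end Reg

section Nrm

variable {G Ω : Type*} [Group G] [MulAction G Ω]

/-- a nontrivial normal subgroup of a Zassenhaus group satisfies the working hypotheses -/
theorem normal_zdata [Finite G] [Finite Ω] (hZ : Cfsg.IsZassenhausGroup G Ω) (N : Subgroup G)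
    [hNn : N.Normal] (hN : N ≠ ⊥) : ZData N Ω := by
  have h := zdata hZ
  obtain ⟨n₁, hn₁, hn₁1, c', d', hcd', hn₁c, hn₁d⟩ := normal_two_fix hZ N hN
  refine ⟨fun n hn => Subtype.ext (h.faith n (fun c => hn c)), ?_,
    fun n a b c hab hbc hac ha hb hc => Subtype.ext (h.three n a b c hab hbc hac ha hb hc),
    ⟨⟨n₁, hn₁⟩, fun e => hn₁1 (congrArg Subtype.val e), c', d', hcd', hn₁c, hn₁d⟩⟩
  intro a b c d hab hcd
  obtain ⟨n, hn, hna⟩ := h.normal_trans N hN a c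
  obtain ⟨k, hkc, hkd⟩ := h.two c' d' c d hcd' hcd
  have hn₂ : k * n₁ * k⁻¹ ∈ N := hNn.conj_mem n₁ hn₁ k
  have hn₂1 : k * n₁ * k⁻¹ ≠ 1 := by
    intro e
    apply hn₁1
    have h0 : n₁ = k⁻¹ * (k * n₁ * k⁻¹) * k := by group
    rw [h0, e]; group
  have hn₂c : (k * n₁ * k⁻¹) • c = c := by
    rw [← hkc, mul_smul, mul_smul, inv_smul_smul, hn₁c]
  have hn₂d : (k * n₁ * k⁻¹) • d = d := by
    rw [← hkd, mul_smul, mul_smul, inv_smul_smul, hn₁d]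
  obtain ⟨H, hHc, hHcard, hHfix⟩ := h.exists_kernel c
  have hHN : H ≤ N := h.kernel_le_normal N hcd hn₂ hn₂1 hn₂c hn₂d H hHc hHcard hHfix
  have hnb : n • b ≠ c := by
    intro e
    rw [← hna] at e
    exact hab (smul_left_cancel _ e).symm
  obtain ⟨u, hu, hub⟩ := h.kernel_regular H hHc hHcard hHfix hnb (Ne.symm hcd)
  refine ⟨⟨u * n, N.mul_mem (hHN hu) hn⟩, ?_, ?_⟩
  · show (u * n) • a = c
    rw [mul_smul, hna]
    exact hHc hu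
  · show (u * n) • b = d
    rw [mul_smul, hub]

end Nrm

end Cfsg.Agent.Lib.Helper2.Zas
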