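import Mathlib
import Cfsg.Prelude.Def_LieExceptional
import Cfsg.Prelude.Def_Characters
import Cfsg.Agent.Lib.Helper2.Zas7
import Cfsg.Agent.Lib.Helper2.Ind
import Cfsg.Agent.Lib.Lead.CharClassProd
import Cfsg.Agent.Lib.Lead.CharRing
import Cfsg.Agent.Lib.Lead.CharCons

set_option autoImplicit false

namespace Cfsg.Agent.Lib.Helper2.Zas

open Cfsg
open Cfsg.Agent.Lib.Lead
open Cfsg.Agent.Lib.Helper2
open Module
open scoped ComplexConjugate

section Gen

/-- transfer into an abelian group when fusion is controlled up to the target character -/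
theorem transfer_eq_pow_of_key {G A : Type*} [Group G] [CommGroup A] (E : Subgroup G)
    [E.FiniteIndex] (ϕ : E →* A) (g : G) (a : A)
    (key : ∀ (k : ℕ) (g₀ : G) (hk : g₀⁻¹ * g ^ k * g₀ ∈ E), ϕ ⟨g₀⁻¹ * g ^ k * g₀, hk⟩ = a ^ k) :
    MonoidHom.transfer ϕ g = a ^ E.index := by
  classical
  letI := E.fintypeQuotientOfFiniteIndex
  rw [MonoidHom.transfer_eq_prod_quotient_orbitRel_zpowers_quot,
    Subgroup.index_eq_sum_minimalPeriod E g, ← Finset.prod_pow_eq_pow_sum]
  exact Finset.prod_congr rfl (fun q _ => key _ _ _)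

/-- a character of degree one is a homomorphism to the units -/
theorem exists_hom_of_isCharacter_one {K : Type*} [Group K] {χ : K → ℂ} (hχ : IsCharacter K χ)
    (h1 : χ 1 = 1) : ∃ lam : K →* ℂˣ, ∀ g, χ g = (lam g : ℂ) := by
  obtain ⟨n, ρ, rfl⟩ := hχ
  have hn : finrank ℂ (Fin n → ℂ) = 1 := by
    rw [Representation.char_one] at h1; exact_mod_cast h1
  have hsc : ∀ g, ρ g = ρ.character g • LinearMap.id := by
    intro g
    obtain ⟨t, ht⟩ := end_eq_smul_of_finrank_one hn (ρ g)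
    have h2 : ρ.character g = t := by
      show LinearMap.trace ℂ _ (ρ g) = t
      rw [ht, map_smul, LinearMap.trace_id, hn]; simp
    rw [h2]; exact ht
  have hid : (LinearMap.id : (Fin n → ℂ) →ₗ[ℂ] (Fin n → ℂ)) ≠ 0 := by
    intro h0
    have h2 := congrArg (LinearMap.trace ℂ (Fin n → ℂ)) h0
    rw [LinearMap.trace_id, map_zero, hn] at h2
    simp at h2
  have hmul : ∀ a b : K, ρ.character (a * b) = ρ.character a * ρ.character b := by
    intro a b
    have h2 : ρ (a * b) = (ρ.character a * ρ.character b) • LinearMap.id := by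
      rw [map_mul, hsc a, hsc b]
      ext v x; simp [smul_smul, mul_comm]
    rw [hsc (a * b)] at h2
    exact smul_left_injective ℂ hid h2
  let f : K →* ℂ := { toFun := ρ.character, map_one' := h1, map_mul' := hmul }
  exact ⟨f.toHomUnits, fun g => rfl⟩

theorem sum_ite_mem_const {G : Type*} [Group G] [Fintype G] (A : Subgroup G)
    [DecidablePred fun x => x ∈ A] (c : ℂ) :
    ∑ x : G, (if x ∈ A then c else 0) = (Nat.card A : ℂ) * c := by
  rw [← Finset.sum_filter, Finset.sum_const, nsmul_eq_mul]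
  congr 2
  exact (Nat.subtype_card _ (fun x => by simp)).symm

end Gen

section Z

variable {G Ω : Type*} [Group G] [MulAction G Ω]

theorem ZData.not_comm (h : ZData G Ω) : ¬ ∀ x y : G, x * y = y * x := by
  intro hc
  obtain ⟨a, b, -, hab, -, -⟩ := h.exists_three
  obtain ⟨t, ht1, hta, -⟩ := h.exists_two_fix hab
  apply ht1
  apply h.faith
  intro y
  obtain ⟨g, hg⟩ := h.trans a y
  rw [← hg, ← mul_smul, hc t g, mul_smul, hta]

/-- the order of a two-point stabilizer divides `n - 2` -/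
theorem ZData.two_stab_dvd [Finite G] [Finite Ω] (h : ZData G Ω) {a c : Ω} (hac : a ≠ c) :
    Nat.card (MulAction.stabilizer G a ⊓ MulAction.stabilizer G c : Subgroup G) ∣
      Nat.card Ω - 2 := by
  classical
  obtain ⟨E, hE⟩ : ∃ E : Subgroup G, E = MulAction.stabilizer G a ⊓ MulAction.stabilizer G c :=
    ⟨_, rfl⟩
  rw [← hE]
  have hEmem : ∀ t : G, t ∈ E ↔ t • a = a ∧ t • c = c := by
    intro t
    rw [hE, Subgroup.mem_inf, MulAction.mem_stabilizer_iff, MulAction.mem_stabilizer_iff]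
  let _ : Fintype E := Fintype.ofFinite _
  have hn := h.three_le
  have s1 := sum_card_fixedBy (G := E) Ω
  obtain ⟨k, hk⟩ : ∃ k : ℕ, k = Nat.card (MulAction.orbitRel.Quotient E Ω) := ⟨_, rfl⟩
  rw [← hk] at s1
  have s1' : ∑ t : E, Nat.card (MulAction.fixedBy Ω (t : G)) = k * Nat.card E := by
    exact_mod_cast s1
  have e1 : ∀ t : E, Nat.card (MulAction.fixedBy Ω (t : G)) + (if t = 1 then 2 else 0) =
      (if t = 1 then Nat.card Ω else 0) + 2 := by
    intro t
    by_cases ht : t = 1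
    · subst ht
      rw [if_pos rfl, if_pos rfl]
      have h1 := card_fixedBy_one G Ω
      rw [Subgroup.coe_one, h1]
    · rw [if_neg ht, if_neg ht]
      have h1 := h.fix_le_two (fun e => ht (Subtype.ext e) : (t : G) ≠ 1)
      have h2 : 1 < Nat.card (MulAction.fixedBy Ω (t : G)) := by
        rw [Finite.one_lt_card_iff_nontrivial]
        exact ⟨⟨a, ((hEmem _).mp t.2).1⟩, ⟨c, ((hEmem _).mp t.2).2⟩,
          fun e => hac (congrArg Subtype.val e)⟩
      omega
  have s2 : ∑ t : E, (Nat.card (MulAction.fixedBy Ω (t : G)) + (if t = 1 then 2 else 0)) =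
      ∑ t : E, ((if t = 1 then Nat.card Ω else 0) + 2) :=
    Finset.sum_congr rfl (fun t _ => e1 t)
  rw [Finset.sum_add_distrib, Finset.sum_add_distrib, Finset.sum_ite_eq', Finset.sum_ite_eq',
    if_pos (Finset.mem_univ _), if_pos (Finset.mem_univ _), s1', Finset.sum_const,
    Finset.card_univ, smul_eq_mul, ← Nat.card_eq_fintype_card] at s2
  have h3 : Nat.card E ∣ (Nat.card Ω - 2) + 2 * Nat.card E := by
    refine ⟨k, ?_⟩
    zify [show 2 ≤ Nat.card Ω by omega] at s2 ⊢
    linarith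
  exact (Nat.dvd_add_left (dvd_mul_left _ _)).mp h3

/-- a linear character of the point stabilizer that is invariant under an element moving the
point (on the corresponding two-point stabilizer) is trivial on that two-point stabilizer -/
theorem no_invariant [Finite G] [Finite Ω] (hZ : Cfsg.IsZassenhausGroup G Ω) [IsSimpleGroup G]
    {a c : Ω} (hac : a ≠ c)
    (hodd : Odd (Nat.card ↥(MulAction.stabilizer G a ⊓ MulAction.stabilizer G c : Subgroup G)))
    (lam : MulAction.stabilizer G a →* ℂˣ) (x : G) (hx : x • a = c)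
    (hinv : ∀ (t : G) (hta : t ∈ MulAction.stabilizer G a), t • c = c →
      ∀ hmem : x⁻¹ * t * x ∈ MulAction.stabilizer G a, lam ⟨x⁻¹ * t * x, hmem⟩ = lam ⟨t, hta⟩) :
    ∀ (t : G) (hta : t ∈ MulAction.stabilizer G a), t • c = c → lam ⟨t, hta⟩ = 1 := by
  classical
  have h := zdata hZ
  obtain ⟨E, hE⟩ : ∃ E : Subgroup G, E = MulAction.stabilizer G a ⊓ MulAction.stabilizer G c :=
    ⟨_, rfl⟩
  have hEmem : ∀ t : G, t ∈ E ↔ t • a = a ∧ t • c = c := by
    intro t
    rw [hE, Subgroup.mem_inf, MulAction.mem_stabilizer_iff, MulAction.mem_stabilizer_iff]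
  have hEA : E ≤ MulAction.stabilizer G a := by rw [hE]; exact inf_le_left
  let ϕ : E →* ℂˣ := lam.comp (Subgroup.inclusion hEA)
  have hfus : ∀ (u : G) (hu : u ∈ E) (g₀ : G) (hk : g₀⁻¹ * u * g₀ ∈ E),
      ϕ ⟨g₀⁻¹ * u * g₀, hk⟩ = ϕ ⟨u, hu⟩ := by
    intro u hu g₀ hk
    by_cases hu1 : u = 1
    · subst hu1
      have e1 : (⟨g₀⁻¹ * 1 * g₀, hk⟩ : E) = ⟨1, hu⟩ := Subtype.ext (by group)
      rw [e1]
    · have hua := ((hEmem u).mp hu).1
      have huc := ((hEmem u).mp hu).2
      have hk' := (hEmem _).mp hk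
      have f1 : u • (g₀ • a) = g₀ • a := by
        have h0 := hk'.1
        rw [mul_smul, mul_smul, inv_smul_eq_iff] at h0
        exact h0
      have f2 : u • (g₀ • c) = g₀ • c := by
        have h0 := hk'.2
        rw [mul_smul, mul_smul, inv_smul_eq_iff] at h0
        exact h0
      have g1 : g₀ • a = a ∨ g₀ • a = c := by
        by_contra hcon
        push Not at hcon
        exact hu1 (h.three u a c (g₀ • a) hac (Ne.symm hcon.2) (Ne.symm hcon.1) hua huc f1)
      have g2 : g₀ • c = a ∨ g₀ • c = c := by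
        by_contra hcon
        push Not at hcon
        exact hu1 (h.three u a c (g₀ • c) hac (Ne.symm hcon.2) (Ne.symm hcon.1) hua huc f2)
      have g3 : g₀ • a ≠ g₀ • c := fun e => hac (smul_left_cancel _ e)
      rcases g1 with g1 | g1
      · have hg₀ : g₀ ∈ MulAction.stabilizer G a := g1
        show lam ⟨g₀⁻¹ * u * g₀, hEA hk⟩ = lam ⟨u, hEA hu⟩
        have e1 : (⟨g₀⁻¹ * u * g₀, hEA hk⟩ : MulAction.stabilizer G a) =
            (⟨g₀, hg₀⟩ : MulAction.stabilizer G a)⁻¹ * ⟨u, hEA hu⟩ * ⟨g₀, hg₀⟩ := rfl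
        rw [e1, map_mul, map_mul, map_inv, mul_comm, mul_inv_cancel_left]
      · have hy : x⁻¹ * g₀ ∈ MulAction.stabilizer G a := by
          rw [MulAction.mem_stabilizer_iff, mul_smul, g1, inv_smul_eq_iff, hx]
        have hxu : x⁻¹ * u * x ∈ MulAction.stabilizer G a := by
          rw [MulAction.mem_stabilizer_iff, mul_smul, mul_smul, hx, huc, inv_smul_eq_iff, hx]
        show lam ⟨g₀⁻¹ * u * g₀, hEA hk⟩ = lam ⟨u, hEA hu⟩
        have e1 : (⟨g₀⁻¹ * u * g₀, hEA hk⟩ : MulAction.stabilizer G a) =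
            (⟨x⁻¹ * g₀, hy⟩ : MulAction.stabilizer G a)⁻¹ * ⟨x⁻¹ * u * x, hxu⟩ *
              ⟨x⁻¹ * g₀, hy⟩ := by
          apply Subtype.ext
          show g₀⁻¹ * u * g₀ = (x⁻¹ * g₀)⁻¹ * (x⁻¹ * u * x) * (x⁻¹ * g₀)
          group
        rw [e1, map_mul, map_mul, map_inv, mul_comm, mul_inv_cancel_left]
        exact hinv u (hEA hu) huc hxu
  have hkey : ∀ (t : G) (ht : t ∈ E) (k : ℕ) (g₀ : G) (hk : g₀⁻¹ * t ^ k * g₀ ∈ E),
      ϕ ⟨g₀⁻¹ * t ^ k * g₀, hk⟩ = ϕ ⟨t, ht⟩ ^ k := by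
    intro t ht k g₀ hk
    rw [hfus (t ^ k) (pow_mem ht k) g₀ hk, ← map_pow]
    rfl
  have htr : ∀ (t : G) (ht : t ∈ E), MonoidHom.transfer ϕ t = ϕ ⟨t, ht⟩ ^ E.index :=
    fun t ht => transfer_eq_pow_of_key E ϕ t _ (hkey t ht)
  have hV : ∀ g : G, MonoidHom.transfer ϕ g = 1 := by
    intro g
    have hn : (MonoidHom.transfer ϕ).ker.Normal := inferInstance
    rcases hn.eq_bot_or_eq_top with hbot | htop
    · exfalso
      apply h.not_comm
      intro y z
      apply (MonoidHom.ker_eq_bot_iff _).mp hbot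
      rw [map_mul, map_mul, mul_comm]
    · have h0 : g ∈ (MonoidHom.transfer ϕ).ker := by rw [htop]; exact Subgroup.mem_top g
      exact MonoidHom.mem_ker.mp h0
  have hdvd : Nat.card E ∣ Nat.card Ω - 2 := by rw [hE]; exact h.two_stab_dvd hac
  have hn := h.three_le
  have hidx : E.index = Nat.card Ω * (Nat.card Ω - 1) := by
    have h1 := h.card_eq hac
    have h2 := E.index_mul_card
    rw [← hE] at h1
    rw [h1] at h2
    exact Nat.eq_of_mul_eq_mul_right Nat.card_pos h2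
  have hoddE : Odd (Nat.card E) := by rw [hE]; exact hodd
  have hcop : Nat.gcd (Nat.card E) E.index = 1 := by
    rw [hidx]
    apply Nat.Coprime.mul_right
    · rw [Nat.coprime_iff_gcd_eq_one]
      have d1 : Nat.gcd (Nat.card E) (Nat.card Ω) ∣ Nat.card E := Nat.gcd_dvd_left _ _
      have d2 : Nat.gcd (Nat.card E) (Nat.card Ω) ∣ Nat.card Ω := Nat.gcd_dvd_right _ _
      have d3 : Nat.gcd (Nat.card E) (Nat.card Ω) ∣ 2 := by
        have h0 := Nat.dvd_sub d2 (d1.trans hdvd)
        have e2 : Nat.card Ω - (Nat.card Ω - 2) = 2 := by omega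
        rwa [e2] at h0
      rcases (Nat.dvd_prime Nat.prime_two).mp d3 with h1 | h2
      · exact h1
      · exfalso
        rw [h2] at d1
        obtain ⟨j, hj⟩ := hoddE
        omega
    · rw [Nat.coprime_iff_gcd_eq_one]
      have d1 : Nat.gcd (Nat.card E) (Nat.card Ω - 1) ∣ Nat.card E := Nat.gcd_dvd_left _ _
      have d2 : Nat.gcd (Nat.card E) (Nat.card Ω - 1) ∣ Nat.card Ω - 1 := Nat.gcd_dvd_right _ _
      have d3 : Nat.gcd (Nat.card E) (Nat.card Ω - 1) ∣ 1 := by
        have h0 := Nat.dvd_sub d2 (d1.trans hdvd)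
        have e2 : Nat.card Ω - 1 - (Nat.card Ω - 2) = 1 := by omega
        rwa [e2] at h0
      exact Nat.dvd_one.mp d3
  intro t hta htc
  have ht : t ∈ E := (hEmem t).mpr ⟨hta, htc⟩
  have p1 : ϕ ⟨t, ht⟩ ^ E.index = 1 := by rw [← htr t ht]; exact hV t
  have p2 : ϕ ⟨t, ht⟩ ^ Nat.card E = 1 := by rw [← map_pow, pow_card_eq_one', map_one]
  have p3 := pow_gcd_eq_one.mpr ⟨p2, p1⟩
  rw [hcop, pow_one] at p3
  exact p3

end Z

end Cfsg.Agent.Lib.Helper2.Zas
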