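import Mathlib
import Cfsg.Prelude.Def_LieExceptional
import Cfsg.Prelude.Def_Characters
import Cfsg.Agent.Lib.Helper2.Zas8

set_option autoImplicit false

namespace Cfsg.Agent.Lib.Helper2.Zas

open Cfsg
open Cfsg.Agent.Lib.Lead
open Cfsg.Agent.Lib.Helper2
open Module
open scoped ComplexConjugate

section Z

variable {G Ω : Type*} [Group G] [MulAction G Ω]

/-- the character induced from a nontrivial linear character of the point stabilizer that is
trivial on the kernel is irreducible and takes the value `1` on the kernel -/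
theorem ind_linear [Fintype G] [Finite Ω] (hZ : Cfsg.IsZassenhausGroup G Ω) [IsSimpleGroup G]
    {a b : Ω} (hab : a ≠ b)
    (hodd : Odd (Nat.card ↥(MulAction.stabilizer G a ⊓ MulAction.stabilizer G b : Subgroup G)))
    (H : Subgroup G) (hHa : H ≤ MulAction.stabilizer G a)
    (hHcard : Nat.card H + 1 = Nat.card Ω)
    (hHfix : ∀ u ∈ H, u ≠ 1 → ∀ c : Ω, u • c = c → c = a)
    (μ : MulAction.stabilizer G a → ℂ) (hμ : IsCharacter (MulAction.stabilizer G a) μ)
    (hμ1 : μ 1 = 1) (hμH : ∀ u : MulAction.stabilizer G a, (u : G) ∈ H → μ u = 1)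
    (hμne : μ ≠ fun _ => 1) :
    IsIrrCharacter G (indFun (MulAction.stabilizer G a) μ) ∧
      ∀ u ∈ H, u ≠ 1 → indFun (MulAction.stabilizer G a) μ u = 1 := by
  classical
  have h := zdata hZ
  letI : Fintype (MulAction.stabilizer G a) := Fintype.ofFinite _
  obtain ⟨lam, hlam⟩ := exists_hom_of_isCharacter_one hμ hμ1
  have hAcard : (Nat.card (MulAction.stabilizer G a) : ℂ) ≠ 0 := by
    exact_mod_cast Nat.card_pos.ne'
  have hnorm : ∀ g : MulAction.stabilizer G a, μ g * conj (μ g) = 1 := by
    intro g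
    rw [hlam g, Complex.mul_conj, Complex.normSq_eq_norm_sq]
    have h1 : ((lam g : ℂˣ) : ℂ) ^ Nat.card (MulAction.stabilizer G a) = 1 := by
      rw [← Units.val_pow_eq_pow_val, ← map_pow, pow_card_eq_one', map_one, Units.val_one]
    rw [Complex.norm_eq_one_of_pow_eq_one h1 Nat.card_pos.ne']
    norm_num
  have hμmul : ∀ g g' : MulAction.stabilizer G a, μ (g * g') = μ g * μ g' := by
    intro g g'
    rw [hlam, hlam, hlam, map_mul, Units.val_mul]
  have hμconj : ∀ y g : MulAction.stabilizer G a, μ (y⁻¹ * g * y) = μ g := by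
    intro y g
    rw [hlam, hlam, map_mul, map_mul, map_inv, mul_comm, mul_inv_cancel_left]
  have hval : ∀ u ∈ H, u ≠ 1 → indFun (MulAction.stabilizer G a) μ u = 1 := by
    intro u hu hu1
    unfold Cfsg.indFun
    have hterm : ∀ x : G, extendByZero (MulAction.stabilizer G a) μ (x⁻¹ * u * x) =
        if x ∈ MulAction.stabilizer G a then 1 else 0 := by
      intro x
      by_cases hx : x ∈ MulAction.stabilizer G a
      · rw [if_pos hx]
        have hmem : x⁻¹ * u * x ∈ H := by
          have hx' : x⁻¹ • a = a := by rw [inv_smul_eq_iff]; exact hx.symm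
          have h0 := h.kernel_conj H hHa hHcard hHfix hx' hu
          rw [inv_inv] at h0
          exact h0
        rw [extendByZero_mem _ μ (hHa hmem)]
        exact hμH _ hmem
      · rw [if_neg hx]
        apply extendByZero_not_mem
        intro hmem
        apply hx
        have h1 : u • (x • a) = x • a := by
          have h2 : (x⁻¹ * u * x) • a = a := hmem
          rw [mul_smul, mul_smul, inv_smul_eq_iff] at h2
          exact h2
        exact hHfix u hu hu1 _ h1
    rw [Finset.sum_congr rfl (fun x _ => hterm x), sum_ite_mem_const, mul_one]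
    exact inv_mul_cancel₀ hAcard
  refine ⟨?_, hval⟩
  apply isIrrCharacter_of_norm_one (isCharacter_indFun _ hμ)
  rw [frobenius_reciprocity _ μ _ (indFun_isClassFunction _ μ)]
  unfold Cfsg.classInner
  have hS : ∀ x : G, ∑ g : MulAction.stabilizer G a,
      μ g * conj (extendByZero (MulAction.stabilizer G a) μ (x⁻¹ * (g : G) * x)) =
        if x ∈ MulAction.stabilizer G a then (Nat.card (MulAction.stabilizer G a) : ℂ) else 0 := by
    intro x
    by_cases hx : x ∈ MulAction.stabilizer G a
    · rw [if_pos hx]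
      have hterm : ∀ g : MulAction.stabilizer G a,
          μ g * conj (extendByZero (MulAction.stabilizer G a) μ (x⁻¹ * (g : G) * x)) = 1 := by
        intro g
        have hmem : x⁻¹ * (g : G) * x ∈ MulAction.stabilizer G a :=
          Subgroup.mul_mem _ (Subgroup.mul_mem _ (Subgroup.inv_mem _ hx) g.2) hx
        rw [extendByZero_mem _ μ hmem]
        have e : (⟨x⁻¹ * (g : G) * x, hmem⟩ : MulAction.stabilizer G a) =
            (⟨x, hx⟩ : MulAction.stabilizer G a)⁻¹ * g * ⟨x, hx⟩ := rfl
        rw [e, hμconj, hnorm]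
      rw [Finset.sum_congr rfl (fun g _ => hterm g), Finset.sum_const, Finset.card_univ,
        nsmul_eq_mul, mul_one, Nat.card_eq_fintype_card]
    · rw [if_neg hx]
      have hca : a ≠ x • a := fun e => hx e.symm
      have hoddc : Odd (Nat.card ↥(MulAction.stabilizer G a ⊓ MulAction.stabilizer G (x • a) :
          Subgroup G)) := by
        rw [h.card_two_stab hab hca]; exact hodd
      obtain ⟨t₀, ht₀a, ht₀c, hmem₀, hne₀⟩ : ∃ (t₀ : G) (ht₀a : t₀ ∈ MulAction.stabilizer G a),
          t₀ • (x • a) = x • a ∧ ∃ hmem : x⁻¹ * t₀ * x ∈ MulAction.stabilizer G a,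
            lam ⟨x⁻¹ * t₀ * x, hmem⟩ ≠ lam ⟨t₀, ht₀a⟩ := by
        by_contra hcon
        push Not at hcon
        have htriv := no_invariant hZ hca hoddc lam x rfl hcon
        apply hμne
        funext g
        have hga : (g : G) • a = a := g.2
        have hgc : (g : G) • (x • a) ≠ a := by
          intro e
          have e' : (g : G) • (x • a) = (g : G) • a := e.trans hga.symm
          exact hca (smul_left_cancel _ e').symm
        obtain ⟨u, hu, huc⟩ := h.kernel_regular H hHa hHcard hHfix (Ne.symm hca) hgc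
        have hua : u ∈ MulAction.stabilizer G a := hHa hu
        have hmem : u⁻¹ * (g : G) ∈ MulAction.stabilizer G a :=
          Subgroup.mul_mem _ (Subgroup.inv_mem _ hua) g.2
        have hfix : (u⁻¹ * (g : G)) • (x • a) = x • a := by
          rw [mul_smul, inv_smul_eq_iff, huc]
        have h1 := htriv _ hmem hfix
        have e : g = (⟨u, hua⟩ : MulAction.stabilizer G a) * ⟨u⁻¹ * (g : G), hmem⟩ := by
          apply Subtype.ext
          show (g : G) = u * (u⁻¹ * (g : G))
          group
        rw [e, hμmul, hμH ⟨u, hua⟩ hu, hlam, h1, Units.val_one, mul_one]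
      obtain ⟨F, hF⟩ : ∃ F : MulAction.stabilizer G a → ℂ, F = fun g =>
          μ g * conj (extendByZero (MulAction.stabilizer G a) μ (x⁻¹ * (g : G) * x)) := ⟨_, rfl⟩
      have hFapp : ∀ g : MulAction.stabilizer G a, F g =
          μ g * conj (extendByZero (MulAction.stabilizer G a) μ (x⁻¹ * (g : G) * x)) := by
        intro g; rw [hF]
      have hext : ∀ g : MulAction.stabilizer G a,
          extendByZero (MulAction.stabilizer G a) μ (x⁻¹ * (t₀ * (g : G)) * x) =
            μ ⟨x⁻¹ * t₀ * x, hmem₀⟩ *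
              extendByZero (MulAction.stabilizer G a) μ (x⁻¹ * (g : G) * x) := by
        intro g
        by_cases hg : x⁻¹ * (g : G) * x ∈ MulAction.stabilizer G a
        · have hmem2 : x⁻¹ * (t₀ * (g : G)) * x ∈ MulAction.stabilizer G a := by
            have e : x⁻¹ * (t₀ * (g : G)) * x = (x⁻¹ * t₀ * x) * (x⁻¹ * (g : G) * x) := by group
            rw [e]; exact Subgroup.mul_mem _ hmem₀ hg
          rw [extendByZero_mem _ μ hg, extendByZero_mem _ μ hmem2, ← hμmul]
          congr 1
          apply Subtype.ext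
          show x⁻¹ * (t₀ * (g : G)) * x = (x⁻¹ * t₀ * x) * (x⁻¹ * (g : G) * x)
          group
        · have hmem2 : x⁻¹ * (t₀ * (g : G)) * x ∉ MulAction.stabilizer G a := by
            intro hcon
            apply hg
            have e : x⁻¹ * (g : G) * x = (x⁻¹ * t₀ * x)⁻¹ * (x⁻¹ * (t₀ * (g : G)) * x) := by
              group
            rw [e]; exact Subgroup.mul_mem _ (Subgroup.inv_mem _ hmem₀) hcon
          rw [extendByZero_not_mem _ μ hg, extendByZero_not_mem _ μ hmem2, mul_zero]
      have hFmul : ∀ g : MulAction.stabilizer G a,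
          F (⟨t₀, ht₀a⟩ * g) = F ⟨t₀, ht₀a⟩ * F g := by
        intro g
        rw [hFapp, hFapp, hFapp, hμmul]
        have e1 : (((⟨t₀, ht₀a⟩ : MulAction.stabilizer G a) * g :
            MulAction.stabilizer G a) : G) = t₀ * (g : G) := rfl
        have e2 : ((⟨t₀, ht₀a⟩ : MulAction.stabilizer G a) : G) = t₀ := rfl
        rw [e1, e2, hext, extendByZero_mem _ μ hmem₀, map_mul]
        ring
      have hsum : ∑ g : MulAction.stabilizer G a, F g =
          F ⟨t₀, ht₀a⟩ * ∑ g : MulAction.stabilizer G a, F g := by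
        rw [Finset.mul_sum, ← Finset.sum_congr rfl (fun g _ => hFmul g)]
        exact (Equiv.sum_comp (Equiv.mulLeft (⟨t₀, ht₀a⟩ : MulAction.stabilizer G a)) F).symm
      have hF1 : F ⟨t₀, ht₀a⟩ ≠ 1 := by
        intro hcon
        rw [hFapp] at hcon
        have hcon' : μ ⟨t₀, ht₀a⟩ *
            conj (extendByZero (MulAction.stabilizer G a) μ (x⁻¹ * t₀ * x)) = 1 := hcon
        rw [extendByZero_mem _ μ hmem₀] at hcon'
        have hw := hnorm ⟨x⁻¹ * t₀ * x, hmem₀⟩
        have hvw : μ ⟨t₀, ht₀a⟩ = μ ⟨x⁻¹ * t₀ * x, hmem₀⟩ := by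
          calc μ ⟨t₀, ht₀a⟩ = μ ⟨t₀, ht₀a⟩ * conj (μ ⟨x⁻¹ * t₀ * x, hmem₀⟩) *
                μ ⟨x⁻¹ * t₀ * x, hmem₀⟩ := by
                rw [mul_assoc, mul_comm (conj _), hw, mul_one]
            _ = μ ⟨x⁻¹ * t₀ * x, hmem₀⟩ := by rw [hcon', one_mul]
        rw [hlam, hlam] at hvw
        exact hne₀ (Units.ext hvw).symm
      have h0 : (1 - F ⟨t₀, ht₀a⟩) * ∑ g : MulAction.stabilizer G a, F g = 0 := by
        linear_combination hsum
      rw [hF] at h0 hF1
      rcases mul_eq_zero.mp h0 with h0 | h0
      · exact absurd (sub_eq_zero.mp h0).symm hF1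
      · exact h0
  have h1 : ∑ g : MulAction.stabilizer G a, μ g * conj (indFun (MulAction.stabilizer G a) μ g) =
      (Nat.card (MulAction.stabilizer G a) : ℂ)⁻¹ * ∑ x : G, ∑ g : MulAction.stabilizer G a,
        μ g * conj (extendByZero (MulAction.stabilizer G a) μ (x⁻¹ * (g : G) * x)) := by
    calc ∑ g : MulAction.stabilizer G a, μ g * conj (indFun (MulAction.stabilizer G a) μ g)
        = ∑ g : MulAction.stabilizer G a, (Nat.card (MulAction.stabilizer G a) : ℂ)⁻¹ *
            ∑ x : G, μ g *
              conj (extendByZero (MulAction.stabilizer G a) μ (x⁻¹ * (g : G) * x)) := by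
          refine Finset.sum_congr rfl (fun g _ => ?_)
          unfold Cfsg.indFun
          rw [map_mul, map_inv₀, map_natCast, map_sum, mul_left_comm, Finset.mul_sum]
      _ = (Nat.card (MulAction.stabilizer G a) : ℂ)⁻¹ * ∑ x : G,
            ∑ g : MulAction.stabilizer G a,
              μ g * conj (extendByZero (MulAction.stabilizer G a) μ (x⁻¹ * (g : G) * x)) := by
          rw [← Finset.mul_sum, Finset.sum_comm]
  rw [h1, Finset.sum_congr rfl (fun x _ => hS x), sum_ite_mem_const]
  field_simp

end Z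

end Cfsg.Agent.Lib.Helper2.Zas
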