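import Mathlib
import Cfsg.Agent.Lib.Helper2.Zas9

set_option autoImplicit false

namespace Cfsg.Agent.Lib.Helper2.Zas

section Abs

theorem odd_mem_of_sq_mem {E : Type*} [Group E] [Finite E] (hodd : Odd (Nat.card E))
    (S : Subgroup E) {x : E} (h : x * x ∈ S) : x ∈ S := by
  have h1 : orderOf x ∣ Nat.card E := orderOf_dvd_natCard x
  have h2 : Odd (orderOf x) := Odd.of_dvd_nat hodd h1
  obtain ⟨k, hk⟩ := h2
  have h3 : x = (x * x) ^ (k + 1) := by
    rw [← pow_two, ← pow_mul]
    have h4 : 2 * (k + 1) = orderOf x + 1 := by omega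
    rw [h4, pow_succ, pow_orderOf_eq_one, one_mul]
  rw [h3]
  exact pow_mem h _

/-- an involutory automorphism of a finite group without non-identity fixed points inverts
every element -/
theorem invol_aut_inverts {E : Type*} [Group E] [Finite E] (σ : E ≃* E)
    (hσ : ∀ x, σ (σ x) = x) (hfix : ∀ t, σ t = t → t = 1) : ∀ t, σ t = t⁻¹ := by
  have hinj : Function.Injective (fun y : E => y⁻¹ * σ y) := by
    intro y y' hyy
    have h1 : y⁻¹ * σ y = y'⁻¹ * σ y' := hyy
    have h2 : σ (y' * y⁻¹) = y' * y⁻¹ := by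
      rw [map_mul, map_inv]
      have h3 : σ y' = y' * (y⁻¹ * σ y) := by rw [h1]; group
      rw [h3]; group
    have h4 := hfix _ h2
    exact (mul_inv_eq_one.mp h4).symm
  have hsurj := Finite.surjective_of_injective hinj
  intro t
  obtain ⟨y, hy⟩ := hsurj t
  have hy' : y⁻¹ * σ y = t := hy
  rw [← hy', map_mul, map_inv, hσ]
  group

open scoped IsMulCommutative in
theorem commutator_le_ker_transferCenterPow (E : Type*) [Group E] [Finite E] :
    commutator E ≤ (MonoidHom.transferCenterPow E).ker :=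
  Abelianization.commutator_subset_ker (MonoidHom.transferCenterPow E)

/-- in a finite Z-group of odd order, an involutory automorphism inverting the abelianization
has no non-identity fixed points -/
theorem zgroup_invol_fixed {E : Type*} [Group E] [Finite E] [IsZGroup E]
    (hodd : Odd (Nat.card E)) (σ : E ≃* E) (hσ : ∀ x, σ (σ x) = x)
    (hI : ∀ y : E, y * σ y ∈ commutator E) : ∀ t : E, σ t = t → t = 1 := by
  classical
  intro t ht
  by_contra ht1
  haveI hcyc : IsCyclic (commutator E) := IsZGroup.isCyclic_commutator E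
  have hcop := IsZGroup.coprime_commutator_index E
  have hcomm : ∀ u v : E, u ∈ commutator E → v ∈ commutator E → u * v = v * u := by
    intro u v hu hv
    letI := IsCyclic.commGroup (α := commutator E)
    have h0 := mul_comm (⟨u, hu⟩ : commutator E) ⟨v, hv⟩
    exact congrArg Subtype.val h0
  have htE' : t ∈ commutator E := by
    apply odd_mem_of_sq_mem hodd
    have h0 := hI t
    rwa [ht] at h0
  have hord1 : orderOf t ≠ 1 := fun h => ht1 (orderOf_eq_one_iff.mp h)
  obtain ⟨q, hq, hqd⟩ := Nat.exists_prime_and_dvd hord1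
  haveI : Fact q.Prime := ⟨hq⟩
  obtain ⟨t', ht'def⟩ : ∃ t' : E, t' = t ^ (orderOf t / q) := ⟨_, rfl⟩
  have hordt' : orderOf t' = q := by
    rw [ht'def]; exact orderOf_pow_orderOf_div (orderOf_pos t).ne' hqd
  have hσt' : σ t' = t' := by rw [ht'def, map_pow, ht]
  have ht'E' : t' ∈ commutator E := by rw [ht'def]; exact pow_mem htE' _
  have hqE : q ∣ Nat.card E := hqd.trans (orderOf_dvd_natCard t)
  have hq2 : q ≠ 2 := by
    intro h2
    rw [h2] at hqE
    obtain ⟨j, hj⟩ := hodd
    omega
  obtain ⟨P⟩ : Nonempty (Sylow q E) := inferInstance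
  obtain ⟨m, hm⟩ : ∃ m, m = Nat.card (P : Subgroup E) := ⟨_, rfl⟩
  have hmpos : 0 < m := by rw [hm]; exact Nat.card_pos
  have hqm : q ∣ m := by rw [hm]; exact P.dvd_card_of_dvd_card hqE
  have hPpow : ∀ x : E, x ∈ (P : Subgroup E) → x ^ m = 1 := by
    intro x hx
    have h1 : (⟨x, hx⟩ : (P : Subgroup E)) ^ Nat.card (P : Subgroup E) = 1 := pow_card_eq_one'
    have h2 := congrArg Subtype.val h1
    rw [hm]
    exact h2
  have hqcardE' : q ∣ Nat.card (commutator E) := by
    have h1 : orderOf (⟨t', ht'E'⟩ : commutator E) ∣ Nat.card (commutator E) :=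
      orderOf_dvd_natCard _
    rwa [← Subgroup.orderOf_coe, hordt'] at h1
  have hqidx : ¬ q ∣ (commutator E).index := by
    intro hd
    have h0 := Nat.eq_one_of_dvd_coprimes hcop hqcardE' hd
    exact hq.one_lt.ne' h0
  have hPle : (P : Subgroup E) ≤ commutator E := by
    intro x hx
    obtain ⟨k, hk⟩ := (P.2 ⟨x, hx⟩)
    have hx1 : x ^ q ^ k = 1 := by
      have h0 := congrArg Subtype.val hk
      simpa using h0
    rw [← QuotientGroup.eq_one_iff]
    have o1 : orderOf (x : E ⧸ commutator E) ∣ q ^ k := by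
      apply orderOf_dvd_of_pow_eq_one
      rw [← QuotientGroup.mk_pow, hx1]; rfl
    have o2 : orderOf (x : E ⧸ commutator E) ∣ (commutator E).index := by
      rw [Subgroup.index]; exact orderOf_dvd_natCard _
    have o3 : Nat.Coprime (q ^ k) (commutator E).index :=
      Nat.Coprime.pow_left k ((Nat.Prime.coprime_iff_not_dvd hq).mpr hqidx)
    have o4 : orderOf (x : E ⧸ commutator E) = 1 := Nat.eq_one_of_dvd_coprimes o3 o1 o2
    exact orderOf_eq_one_iff.mp o4
  have hchar : ∀ z : E, z ∈ commutator E → z ^ m = 1 → z ∈ (P : Subgroup E) := by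
    intro z hz hzm
    let _ : Fintype (commutator E) := Fintype.ofFinite _
    have hle := IsCyclic.card_pow_eq_one_le (α := commutator E) hmpos
    obtain ⟨S, hS⟩ : ∃ S : Finset (commutator E),
        S = Finset.univ.filter (fun a : commutator E => a ^ m = 1) := ⟨_, rfl⟩
    obtain ⟨T, hT⟩ : ∃ T : Finset (commutator E),
        T = Finset.univ.filter (fun a : commutator E => (a : E) ∈ (P : Subgroup E)) := ⟨_, rfl⟩
    have hTS : T ⊆ S := by
      intro a ha
      rw [hT, Finset.mem_filter] at ha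
      rw [hS, Finset.mem_filter]
      refine ⟨Finset.mem_univ _, ?_⟩
      apply Subtype.ext
      have h2 := hPpow _ ha.2
      simpa using h2
    have hTcard : T.card = m := by
      have h1 : Nat.card ((P : Subgroup E).subgroupOf (commutator E)) = T.card := by
        rw [Nat.card_eq_fintype_card, Fintype.card_subtype, hT]
        rfl
      rw [← h1, hm]
      exact Nat.card_congr (Subgroup.subgroupOfEquivOfLe hPle).toEquiv
    have hTeq : T = S := Finset.eq_of_subset_of_card_le hTS (by rw [hTcard, hS]; exact hle)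
    have hzS : (⟨z, hz⟩ : commutator E) ∈ S := by
      rw [hS, Finset.mem_filter]
      exact ⟨Finset.mem_univ _, Subtype.ext (by simpa using hzm)⟩
    rw [← hTeq, hT, Finset.mem_filter] at hzS
    exact hzS.2
  have hconjP : ∀ y x : E, x ∈ (P : Subgroup E) → y * x * y⁻¹ ∈ (P : Subgroup E) := by
    intro y x hx
    apply hchar
    · exact (inferInstance : (commutator E).Normal).conj_mem x (hPle hx) y
    · rw [conj_pow, hPpow x hx, mul_one, mul_inv_cancel]
  have hσE' : ∀ x : E, x ∈ commutator E → σ x ∈ commutator E := by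
    intro x hx
    have h0 : σ x = x⁻¹ * (x * σ x) := by group
    rw [h0]
    exact mul_mem (inv_mem hx) (hI x)
  have hσP : ∀ x : E, x ∈ (P : Subgroup E) → σ x ∈ (P : Subgroup E) := by
    intro x hx
    apply hchar _ (hσE' x (hPle hx))
    rw [← map_pow, hPpow x hx, map_one]
  have ht'P : t' ∈ (P : Subgroup E) := by
    apply hchar _ ht'E'
    obtain ⟨c, hc⟩ := hqm
    rw [hc, pow_mul, ← hordt', pow_orderOf_eq_one, one_pow]
  -- σ fixes P pointwise
  have : IsCyclic (P : Subgroup E) := inferInstance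
  obtain ⟨g₀, hg₀⟩ := IsCyclic.exists_generator (α := (P : Subgroup E))
  have hσg : σ (g₀ : E) ∈ (P : Subgroup E) := hσP _ g₀.2
  obtain ⟨k, hk⟩ := Subgroup.mem_zpowers_iff.mp (hg₀ ⟨σ g₀, hσg⟩)
  have hk' : σ (g₀ : E) = (g₀ : E) ^ k := by
    have h0 := congrArg Subtype.val hk
    simpa using h0.symm
  have hgen : ∀ x : E, x ∈ (P : Subgroup E) → ∃ j : ℤ, x = (g₀ : E) ^ j := by
    intro x hx
    obtain ⟨j, hj⟩ := Subgroup.mem_zpowers_iff.mp (hg₀ ⟨x, hx⟩)
    refine ⟨j, ?_⟩
    have h0 := congrArg Subtype.val hj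
    simpa using h0.symm
  have hpow : ∀ x : E, x ∈ (P : Subgroup E) → σ x = x ^ k := by
    intro x hx
    obtain ⟨j, hj⟩ := hgen x hx
    rw [hj, map_zpow, hk', ← zpow_mul, ← zpow_mul, mul_comm]
  have h1 : (g₀ : E) ^ (k * k) = (g₀ : E) := by
    have h0 := hσ (g₀ : E)
    rw [hk', map_zpow, hk', ← zpow_mul] at h0
    exact h0
  have hord : orderOf (g₀ : E) = m := by
    rw [Subgroup.orderOf_coe, orderOf_eq_card_of_forall_mem_zpowers hg₀, hm]
  have d1 : (m : ℤ) ∣ k * k - 1 := by
    rw [← hord, orderOf_dvd_iff_zpow_eq_one, zpow_sub, zpow_one, h1, mul_inv_cancel]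
  have h2 : t' ^ k = t' := by rw [← hpow t' ht'P]; exact hσt'
  have d2 : (q : ℤ) ∣ k - 1 := by
    rw [← hordt', orderOf_dvd_iff_zpow_eq_one, zpow_sub, zpow_one, h2, mul_inv_cancel]
  obtain ⟨r, hr⟩ := IsPGroup.iff_card.mp P.2
  have d3 : ¬ (q : ℤ) ∣ k + 1 := by
    intro hd
    have h0 : (q : ℤ) ∣ (k + 1) - (k - 1) := dvd_sub hd d2
    have e2 : (k + 1) - (k - 1) = ((2 : ℕ) : ℤ) := by push_cast; ring
    rw [e2] at h0
    have h3 := Int.natCast_dvd_natCast.mp h0
    exact hq2 ((Nat.prime_dvd_prime_iff_eq hq Nat.prime_two).mp h3)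
  have d4 : IsCoprime ((q : ℤ) ^ r) (k + 1) :=
    IsCoprime.pow_left ((Prime.coprime_iff_not_dvd (Nat.prime_iff_prime_int.mp hq)).mpr d3)
  have d5 : (m : ℤ) ∣ k - 1 := by
    have e3 : k * k - 1 = (k - 1) * (k + 1) := by ring
    rw [e3] at d1
    have e4 : (m : ℤ) = (q : ℤ) ^ r := by rw [hm, hr]; push_cast; rfl
    rw [e4] at d1 ⊢
    exact d4.dvd_of_dvd_mul_right d1
  have h3 : (g₀ : E) ^ k = g₀ := by
    have h0 : (g₀ : E) ^ (k - 1) = 1 := by
      rw [← orderOf_dvd_iff_zpow_eq_one, hord]; exact d5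
    rw [zpow_sub, zpow_one, mul_inv_eq_one] at h0
    exact h0
  have hfixP : ∀ x : E, x ∈ (P : Subgroup E) → σ x = x := by
    intro x hx
    obtain ⟨j, hj⟩ := hgen x hx
    rw [hj, map_zpow, hk', h3]
  -- E centralizes P
  have hcent : ∀ y x : E, x ∈ (P : Subgroup E) → x * y = y * x := by
    intro y x hx
    have hw := hfixP _ (hconjP y x hx)
    rw [map_mul, map_mul, map_inv, hfixP x hx] at hw
    have c1 : y⁻¹ * σ y ∈ Subgroup.centralizer ({x} : Set E) := by
      rw [Subgroup.mem_centralizer_iff]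
      intro x' hx'
      rw [Set.mem_singleton_iff] at hx'
      rw [hx']
      have h0 : x * (y⁻¹ * σ y) = y⁻¹ * (y * x * y⁻¹) * σ y := by group
      rw [h0, ← hw]; group
    have c2 : y * σ y ∈ Subgroup.centralizer ({x} : Set E) := by
      rw [Subgroup.mem_centralizer_iff]
      intro x' hx'
      rw [Set.mem_singleton_iff] at hx'
      rw [hx']
      exact hcomm _ _ (hPle hx) (hI y)
    have c3 : y * y ∈ Subgroup.centralizer ({x} : Set E) := by
      have h0 : y * y = (y * σ y) * (y⁻¹ * σ y)⁻¹ := by group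
      rw [h0]
      exact mul_mem c2 (inv_mem c1)
    have c4 := odd_mem_of_sq_mem hodd _ c3
    rw [Subgroup.mem_centralizer_iff] at c4
    exact c4 x rfl
  have hPcenter : (P : Subgroup E) ≤ Subgroup.center E := by
    intro x hx
    rw [Subgroup.mem_center_iff]
    intro y
    exact (hcent y x hx).symm
  have hker : t' ∈ (MonoidHom.transferCenterPow E).ker :=
    commutator_le_ker_transferCenterPow E ht'E'
  have hpw : t' ^ (Subgroup.center E).index = 1 := by
    have h0 := congrArg Subtype.val (MonoidHom.mem_ker.mp hker)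
    rw [MonoidHom.transferCenterPow_apply] at h0
    exact h0
  have e1 : q ∣ (Subgroup.center E).index := by
    rw [← hordt']; exact orderOf_dvd_of_pow_eq_one hpw
  have e2 : (Subgroup.center E).index ∣ (P : Subgroup E).index := Subgroup.index_dvd_of_le hPcenter
  exact P.not_dvd_index (e1.trans e2)

end Abs

end Cfsg.Agent.Lib.Helper2.Zas
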