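import Mathlib
import Cfsg.Prelude.Def_LieExceptional
import Cfsg.Agent.Lib.Helper2.Zas10
import Cfsg.Agent.Lib.Helper8.FrobKernelSq

set_option autoImplicit false

namespace Cfsg.Agent.Lib.Helper2.Zas

open Cfsg
open Cfsg.Agent.Lib.Lead

section T

/-- a homomorphism from a Hall subgroup of a non-abelian simple group to an abelian group that
is invariant under fusion is trivial -/
theorem transfer_trivial_of_fusion {G : Type*} [Group G] [Finite G] [IsSimpleGroup G]
    (hnc : ¬ ∀ x y : G, x * y = y * x) (E : Subgroup G)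
    (hcop : Nat.gcd (Nat.card E) E.index = 1) {A : Type*} [CommGroup A] (ϕ : E →* A)
    (hfus : ∀ (u : G) (hu : u ∈ E) (g₀ : G) (hk : g₀⁻¹ * u * g₀ ∈ E),
      ϕ ⟨g₀⁻¹ * u * g₀, hk⟩ = ϕ ⟨u, hu⟩) : ∀ t : E, ϕ t = 1 := by
  have hkey : ∀ (t : G) (ht : t ∈ E) (k : ℕ) (g₀ : G) (hk : g₀⁻¹ * t ^ k * g₀ ∈ E),
      ϕ ⟨g₀⁻¹ * t ^ k * g₀, hk⟩ = ϕ ⟨t, ht⟩ ^ k := by
    intro t ht k g₀ hk
    rw [hfus (t ^ k) (pow_mem ht k) g₀ hk, ← map_pow]
    rfl
  have htr : ∀ (t : G) (ht : t ∈ E), MonoidHom.transfer ϕ t = ϕ ⟨t, ht⟩ ^ E.index :=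
    fun t ht => transfer_eq_pow_of_key E ϕ t _ (hkey t ht)
  have hV : ∀ g : G, MonoidHom.transfer ϕ g = 1 := by
    intro g
    have hn : (MonoidHom.transfer ϕ).ker.Normal := inferInstance
    rcases hn.eq_bot_or_eq_top with hbot | htop
    · exfalso
      apply hnc
      intro y z
      apply (MonoidHom.ker_eq_bot_iff _).mp hbot
      rw [map_mul, map_mul, mul_comm]
    · have h0 : g ∈ (MonoidHom.transfer ϕ).ker := by rw [htop]; exact Subgroup.mem_top g
      exact MonoidHom.mem_ker.mp h0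
  intro t
  have p1 : ϕ t ^ E.index = 1 := by rw [← htr t.1 t.2]; exact hV t.1
  have p2 : ϕ t ^ Nat.card E = 1 := by rw [← map_pow, pow_card_eq_one', map_one]
  have p3 := pow_gcd_eq_one.mpr ⟨p2, p1⟩
  rw [hcop, pow_one] at p3
  exact p3

end T

section Z

variable {G Ω : Type*} [Group G] [MulAction G Ω]

/-- a two-point stabilizer of odd order is a Hall subgroup -/
theorem ZData.two_stab_coprime [Finite G] [Finite Ω] (h : ZData G Ω) {a c : Ω} (hac : a ≠ c)
    (hodd : Odd (Nat.card ↥(MulAction.stabilizer G a ⊓ MulAction.stabilizer G c : Subgroup G))) :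
    Nat.gcd (Nat.card ↥(MulAction.stabilizer G a ⊓ MulAction.stabilizer G c : Subgroup G))
      (MulAction.stabilizer G a ⊓ MulAction.stabilizer G c : Subgroup G).index = 1 := by
  obtain ⟨E, hE⟩ : ∃ E : Subgroup G, E = MulAction.stabilizer G a ⊓ MulAction.stabilizer G c :=
    ⟨_, rfl⟩
  have hdvd : Nat.card E ∣ Nat.card Ω - 2 := by rw [hE]; exact h.two_stab_dvd hac
  have hn := h.three_le
  have hidx : E.index = Nat.card Ω * (Nat.card Ω - 1) := by
    have h1 := h.card_eq hac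
    have h2 := E.index_mul_card
    rw [← hE] at h1
    rw [h1] at h2
    exact Nat.eq_of_mul_eq_mul_right Nat.card_pos h2
  have hoddE : Odd (Nat.card E) := by rw [hE]; exact hodd
  rw [← hE, hidx]
  apply Nat.Coprime.mul_right
  · rw [Nat.coprime_iff_gcd_eq_one]
    have d1 : Nat.gcd (Nat.card E) (Nat.card Ω) ∣ Nat.card E := Nat.gcd_dvd_left _ _
    have d2 : Nat.gcd (Nat.card E) (Nat.card Ω) ∣ Nat.card Ω := Nat.gcd_dvd_right _ _
    have d3 : Nat.gcd (Nat.card E) (Nat.card Ω) ∣ 2 := by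
      have h0 := Nat.dvd_sub d2 (d1.trans hdvd)
      have e2 : Nat.card Ω - (Nat.card Ω - 2) = 2 := by omega
      rwa [e2] at h0
    rcases (Nat.dvd_prime Nat.prime_two).mp d3 with h1 | h2
    · exact h1
    · exfalso
      rw [h2] at d1
      obtain ⟨j, hj⟩ := hoddE
      omega
  · rw [Nat.coprime_iff_gcd_eq_one]
    have d1 : Nat.gcd (Nat.card E) (Nat.card Ω - 1) ∣ Nat.card E := Nat.gcd_dvd_left _ _
    have d2 : Nat.gcd (Nat.card E) (Nat.card Ω - 1) ∣ Nat.card Ω - 1 := Nat.gcd_dvd_right _ _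
    have d3 : Nat.gcd (Nat.card E) (Nat.card Ω - 1) ∣ 1 := by
      have h0 := Nat.dvd_sub d2 (d1.trans hdvd)
      have e2 : Nat.card Ω - 1 - (Nat.card Ω - 2) = 1 := by omega
      rwa [e2] at h0
    exact Nat.dvd_one.mp d3

/-- a two-point stabilizer of odd order has cyclic Sylow subgroups -/
theorem ZData.two_stab_isZGroup [Finite G] [Finite Ω] (h : ZData G Ω) {a b : Ω} (hab : a ≠ b)
    (hodd : Odd (Nat.card ↥(MulAction.stabilizer G a ⊓ MulAction.stabilizer G b : Subgroup G))) :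
    IsZGroup ↥(MulAction.stabilizer G a ⊓ MulAction.stabilizer G b : Subgroup G) := by
  classical
  obtain ⟨H, hHa, hHcard, hHfix⟩ := h.exists_kernel a
  obtain ⟨E, hE⟩ : ∃ E : Subgroup G, E = MulAction.stabilizer G a ⊓ MulAction.stabilizer G b :=
    ⟨_, rfl⟩
  rw [← hE] at hodd ⊢
  have hEmem : ∀ t : G, t ∈ E ↔ t • a = a ∧ t • b = b := by
    intro t
    rw [hE, Subgroup.mem_inf, MulAction.mem_stabilizer_iff, MulAction.mem_stabilizer_iff]
  have hEA : E ≤ MulAction.stabilizer G a := by rw [hE]; exact inf_le_left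
  obtain ⟨K, hK⟩ : ∃ K : Subgroup (MulAction.stabilizer G a),
      K = H.subgroupOf (MulAction.stabilizer G a) := ⟨_, rfl⟩
  obtain ⟨Hc, hHc⟩ : ∃ Hc : Subgroup (MulAction.stabilizer G a),
      Hc = E.subgroupOf (MulAction.stabilizer G a) := ⟨_, rfl⟩
  haveI hKn : K.Normal := by
    rw [hK]
    refine ⟨fun u hu g => ?_⟩
    rw [Subgroup.mem_subgroupOf] at hu ⊢
    exact h.kernel_conj H hHa hHcard hHfix g.2 hu
  have hKne : K ≠ ⊥ := by
    have hn := h.three_le
    intro hbot
    have h1 : Nat.card K = 1 := by rw [hbot]; exact Subgroup.card_bot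
    have h2 : Nat.card K = Nat.card H := by
      rw [hK]; exact Nat.card_congr (Subgroup.subgroupOfEquivOfLe hHa).toEquiv
    omega
  have hfpf : ∀ x ∈ Hc, x ≠ 1 → K ⊓ Subgroup.centralizer {x} = ⊥ := by
    intro x hx hx1
    rw [eq_bot_iff]
    intro u hu
    rw [Subgroup.mem_bot]
    obtain ⟨huK, huC⟩ := Subgroup.mem_inf.mp hu
    rw [hK, Subgroup.mem_subgroupOf] at huK
    rw [hHc, Subgroup.mem_subgroupOf] at hx
    by_contra hu1
    have hu1' : (u : G) ≠ 1 := fun e => hu1 (Subtype.ext e)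
    have hcomm : (x : G) * (u : G) = (u : G) * (x : G) := by
      have h0 := Subgroup.mem_centralizer_iff.mp huC x rfl
      exact congrArg Subtype.val h0
    have hxab := (hEmem _).mp hx
    have f1 : (x : G) • ((u : G) • b) = (u : G) • b := by
      rw [← mul_smul, hcomm, mul_smul, hxab.2]
    have hub : (u : G) • b ≠ b := fun e => hab (hHfix _ huK hu1' b e).symm
    have hua : (u : G) • b ≠ a := by
      intro e
      have hua' : (u : G) • a = a := hHa huK
      exact hab (smul_left_cancel _ (e.trans hua'.symm)).symm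
    apply hx1
    apply Subtype.ext
    exact h.three (x : G) a b ((u : G) • b) hab (Ne.symm hub) (Ne.symm hua) hxab.1 hxab.2 f1
  have ha := Cfsg.Agent.Lib.Helper8.h8_frob_ha K Hc hKne hfpf
  have hcardc : Nat.card Hc = Nat.card E := by
    rw [hHc]; exact Nat.card_congr (Subgroup.subgroupOfEquivOfLe hEA).toEquiv
  have hZc : IsZGroup ↥Hc := by
    refine ⟨?_⟩
    intro p hp P
    haveI : Fact p.Prime := ⟨hp⟩
    by_cases hp2 : p = 2
    · have hcard : Nat.card (P : Subgroup Hc) = 1 := by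
        obtain ⟨r, hr⟩ := IsPGroup.iff_card.mp P.2
        have hdvd : Nat.card (P : Subgroup Hc) ∣ Nat.card Hc := Subgroup.card_subgroup_dvd_card _
        have hodd' := Odd.of_dvd_nat (hcardc ▸ hodd) hdvd
        rw [hr, hp2] at hodd' ⊢
        rcases Nat.eq_zero_or_pos r with h0 | h0
        · rw [h0, pow_zero]
        · exfalso
          have hev : Even (2 ^ r) := (Nat.even_pow.mpr ⟨even_two, h0.ne'⟩)
          exact (Nat.not_even_iff_odd.mpr hodd') hev
      have hss : Subsingleton (P : Subgroup Hc) := (Nat.card_eq_one_iff_unique.mp hcard).1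
      exact isCyclic_of_subsingleton
    · exact Cfsg.Agent.Lib.Helper8.h8_cyclic_of_no_elab ha p hp2 (P : Subgroup Hc) P.2
  rw [hHc] at hZc
  haveI := hZc
  exact IsZGroup.of_injective (f := (Subgroup.subgroupOfEquivOfLe hEA).symm.toMonoidHom)
    (Subgroup.subgroupOfEquivOfLe hEA).symm.injective

/-- in a simple Zassenhaus group with two-point stabilizers of odd order, an involution swapping
two points inverts their stabilizer -/
theorem swap_inverts_of_simple [Finite G] [Finite Ω] (hZ : Cfsg.IsZassenhausGroup G Ω)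
    [IsSimpleGroup G] {a b : Ω} (hab : a ≠ b)
    (hodd : Odd (Nat.card ↥(MulAction.stabilizer G a ⊓ MulAction.stabilizer G b : Subgroup G)))
    {τ : G} (hτ : τ * τ = 1) (hτa : τ • a = b) (hτb : τ • b = a) :
    ∀ t ∈ (MulAction.stabilizer G a ⊓ MulAction.stabilizer G b : Subgroup G),
      τ * t * τ⁻¹ = t⁻¹ := by
  classical
  have h := zdata hZ
  have hZg := h.two_stab_isZGroup hab hodd
  have hcop := h.two_stab_coprime hab hodd
  obtain ⟨E, hE⟩ : ∃ E : Subgroup G, E = MulAction.stabilizer G a ⊓ MulAction.stabilizer G b :=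
    ⟨_, rfl⟩
  rw [← hE] at hodd hcop hZg ⊢
  haveI := hZg
  have hEmem : ∀ t : G, t ∈ E ↔ t • a = a ∧ t • b = b := by
    intro t
    rw [hE, Subgroup.mem_inf, MulAction.mem_stabilizer_iff, MulAction.mem_stabilizer_iff]
  have hτinv : τ⁻¹ = τ := inv_eq_of_mul_eq_one_left hτ
  have hnorm : ∀ t ∈ E, τ * t * τ⁻¹ ∈ E := by
    intro t ht
    rw [hE] at ht ⊢
    exact swap_conj_mem hτa hτb ht
  have hcancel : ∀ t : G, τ * (τ * t * τ⁻¹) * τ⁻¹ = t := by
    intro t
    rw [hτinv]
    have e : τ * (τ * t * τ) * τ = (τ * τ) * t * (τ * τ) := by group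
    rw [e, hτ, one_mul, mul_one]
  let σ : ↥E ≃* ↥E :=
    { toFun := fun t => ⟨τ * t * τ⁻¹, hnorm t t.2⟩
      invFun := fun t => ⟨τ * t * τ⁻¹, hnorm t t.2⟩
      left_inv := fun t => Subtype.ext (hcancel t)
      right_inv := fun t => Subtype.ext (hcancel t)
      map_mul' := fun t t' => Subtype.ext (by
        show τ * ((t : G) * (t' : G)) * τ⁻¹ = (τ * (t : G) * τ⁻¹) * (τ * (t' : G) * τ⁻¹)
        group) }
  have hσσ : ∀ x, σ (σ x) = x := fun x => Subtype.ext (hcancel x)
  have hI : ∀ y : ↥E, y * σ y ∈ commutator ↥E := by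
    let ϕ : ↥E →* Abelianization ↥E :=
      Abelianization.of * (Abelianization.of.comp σ.toMonoidHom)
    have hϕ : ∀ y : ↥E, ϕ y = Abelianization.of y * Abelianization.of (σ y) := fun y => rfl
    have hfus : ∀ (u : G) (hu : u ∈ E) (g₀ : G) (hk : g₀⁻¹ * u * g₀ ∈ E),
        ϕ ⟨g₀⁻¹ * u * g₀, hk⟩ = ϕ ⟨u, hu⟩ := by
      intro u hu g₀ hk
      by_cases hu1 : u = 1
      · subst hu1
        have e1 : (⟨g₀⁻¹ * 1 * g₀, hk⟩ : E) = ⟨1, hu⟩ := Subtype.ext (by group)
        rw [e1]
      · have hua := ((hEmem u).mp hu).1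
        have hub := ((hEmem u).mp hu).2
        have hk' := (hEmem _).mp hk
        have f1 : u • (g₀ • a) = g₀ • a := by
          have h0 := hk'.1
          rw [mul_smul, mul_smul, inv_smul_eq_iff] at h0
          exact h0
        have f2 : u • (g₀ • b) = g₀ • b := by
          have h0 := hk'.2
          rw [mul_smul, mul_smul, inv_smul_eq_iff] at h0
          exact h0
        have g1 : g₀ • a = a ∨ g₀ • a = b := by
          by_contra hcon
          push Not at hcon
          exact hu1 (h.three u a b (g₀ • a) hab (Ne.symm hcon.2) (Ne.symm hcon.1) hua hub f1)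
        have g2 : g₀ • b = a ∨ g₀ • b = b := by
          by_contra hcon
          push Not at hcon
          exact hu1 (h.three u a b (g₀ • b) hab (Ne.symm hcon.2) (Ne.symm hcon.1) hua hub f2)
        have g3 : g₀ • a ≠ g₀ • b := fun e => hab (smul_left_cancel _ e)
        rcases g1 with g1 | g1
        · have g2' : g₀ • b = b := by
            rcases g2 with g2 | g2
            · exact absurd (g1.trans g2.symm) g3
            · exact g2
          have hg₀ : g₀ ∈ E := (hEmem _).mpr ⟨g1, g2'⟩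
          have e1 : (⟨g₀⁻¹ * u * g₀, hk⟩ : E) = (⟨g₀, hg₀⟩ : E)⁻¹ * ⟨u, hu⟩ * ⟨g₀, hg₀⟩ := rfl
          rw [e1, map_mul, map_mul, map_inv, mul_comm, mul_inv_cancel_left]
        · have g4 : g₀ • b = a := by
            rcases g2 with g2 | g2
            · exact g2
            · exact absurd (g1.trans g2.symm) g3
          have hy : τ⁻¹ * g₀ ∈ E :=
            (hEmem _).mpr ⟨by rw [mul_smul, g1, inv_smul_eq_iff, hτa],
              by rw [mul_smul, g4, inv_smul_eq_iff, hτb]⟩
          have e1 : (⟨g₀⁻¹ * u * g₀, hk⟩ : E) =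
              (⟨τ⁻¹ * g₀, hy⟩ : E)⁻¹ * σ ⟨u, hu⟩ * ⟨τ⁻¹ * g₀, hy⟩ := by
            apply Subtype.ext
            show g₀⁻¹ * u * g₀ = (τ⁻¹ * g₀)⁻¹ * (τ * u * τ⁻¹) * (τ⁻¹ * g₀)
            rw [hτinv]
            have e : (τ * g₀)⁻¹ * (τ * u * τ) * (τ * g₀) = g₀⁻¹ * u * (τ * τ) * g₀ := by group
            rw [e, hτ, mul_one]
          rw [e1, map_mul, map_mul, map_inv, mul_comm, mul_inv_cancel_left, hϕ, hϕ, hσσ, mul_comm]
    have htriv := transfer_trivial_of_fusion h.not_comm E hcop ϕ hfus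
    intro y
    have h0 := htriv y
    rw [hϕ, ← map_mul] at h0
    rw [← Abelianization.ker_of, MonoidHom.mem_ker]
    exact h0
  have hfixed := zgroup_invol_fixed hodd σ hσσ hI
  have hinvt := invol_aut_inverts σ hσσ hfixed
  intro t ht
  exact congrArg Subtype.val (hinvt ⟨t, ht⟩)

end Z

end Cfsg.Agent.Lib.Helper2.Zas
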