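import Mathlib
import Cfsg.Prelude.Def_LieExceptional
import Cfsg.Agent.Lib.Helper2.Zas11

set_option autoImplicit false

namespace Cfsg.Agent.Lib.Helper2.Zas

open Cfsg
open Cfsg.Agent.Lib.Lead

section Conj

/-- a conjugation-closed set that is not larger than the class of one of its elements is that
class -/
theorem all_conj_of_card {G : Type*} [Group G] [Fintype G] (Inv : Finset G)
    (hcl : ∀ x ∈ Inv, ∀ g : G, g * x * g⁻¹ ∈ Inv) {x : G} (hx : x ∈ Inv)
    (hC : Inv.card * Nat.card (Subgroup.centralizer ({x} : Set G)) ≤ Nat.card G) :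
    ∀ y ∈ Inv, IsConj x y := by
  classical
  have hsub : classFinset x ⊆ Inv := by
    intro y hy
    rw [mem_classFinset] at hy
    obtain ⟨c, hc⟩ := isConj_iff.mp hy
    rw [← hc]; exact hcl x hx c
  have hidx := (Subgroup.centralizer ({x} : Set G)).index_mul_card
  have hpos : 0 < Nat.card (Subgroup.centralizer ({x} : Set G)) := Nat.card_pos
  have hle : Inv.card ≤ (classFinset x).card := by
    rw [card_classFinset]
    rw [← hidx] at hC
    exact Nat.le_of_mul_le_mul_right hC hpos
  have heq := Finset.eq_of_subset_of_card_le hsub hle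
  intro y hy
  rw [← heq] at hy
  exact mem_classFinset.mp hy

end Conj

section Count2

variable {G Ω : Type*} [Group G] [MulAction G Ω]

/-- the involutions swapping two points form a coset of the two-point stabilizer when one of
them inverts it -/
theorem card_swap_of_inverts [Fintype G] [DecidableEq G] [DecidableEq Ω] {b b' : Ω} {s₀ : G}
    (hs₀ : s₀ * s₀ = 1) (hs₀b : s₀ • b = b') (hs₀b' : s₀ • b' = b)
    (hinv : ∀ t ∈ (MulAction.stabilizer G b ⊓ MulAction.stabilizer G b' : Subgroup G),
      s₀ * t * s₀⁻¹ = t⁻¹) :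
    (Finset.univ.filter (fun s : G => s * s = 1 ∧ s • b = b' ∧ s • b' = b)).card =
      Nat.card (MulAction.stabilizer G b ⊓ MulAction.stabilizer G b' : Subgroup G) := by
  classical
  letI : Fintype (MulAction.stabilizer G b ⊓ MulAction.stabilizer G b' : Subgroup G) :=
    Fintype.ofFinite _
  rw [Nat.card_eq_fintype_card, ← Finset.card_univ]
  symm
  apply Finset.card_bij (fun (t : (MulAction.stabilizer G b ⊓ MulAction.stabilizer G b' :
    Subgroup G)) _ => s₀ * (t : G))
  · intro t _
    rw [Finset.mem_filter]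
    have ht := t.2
    have hinv' := hinv _ ht
    rw [Subgroup.mem_inf, MulAction.mem_stabilizer_iff, MulAction.mem_stabilizer_iff] at ht
    refine ⟨Finset.mem_univ _, ?_, ?_, ?_⟩
    · have e : s₀ * (t : G) * (s₀ * (t : G)) = (s₀ * (t : G) * s₀⁻¹) * (s₀ * s₀) * (t : G) := by
        group
      rw [e, hinv', hs₀, mul_one, inv_mul_cancel]
    · rw [mul_smul, ht.1, hs₀b]
    · rw [mul_smul, ht.2, hs₀b']
  · intro t _ t' _ htt
    exact Subtype.ext (mul_left_cancel htt)
  · intro s hs
    rw [Finset.mem_filter] at hs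
    obtain ⟨-, hs2, hsb, hsb'⟩ := hs
    have i1 : s₀⁻¹ • b' = b := by rw [inv_smul_eq_iff, hs₀b]
    have i2 : s₀⁻¹ • b = b' := by rw [inv_smul_eq_iff, hs₀b']
    refine ⟨⟨s₀⁻¹ * s, ?_⟩, Finset.mem_univ _, ?_⟩
    · rw [Subgroup.mem_inf, MulAction.mem_stabilizer_iff, MulAction.mem_stabilizer_iff]
      constructor
      · rw [mul_smul, hsb, i1]
      · rw [mul_smul, hsb', i2]
    · show s₀ * (s₀⁻¹ * s) = s
      group

/-- the number of involutions moving a given point -/
theorem ZData.card_invol_moving [Fintype G] [DecidableEq G] [Fintype Ω] [DecidableEq Ω]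
    (h : ZData G Ω)
    (hsw : ∀ b b' : Ω, b ≠ b' → ∃ s : G, s * s = 1 ∧ s • b = b' ∧ s • b' = b ∧
      ∀ t ∈ (MulAction.stabilizer G b ⊓ MulAction.stabilizer G b' : Subgroup G),
        s * t * s⁻¹ = t⁻¹)
    {a b : Ω} (hab : a ≠ b) (c : Ω) :
    ((Finset.univ.filter (fun s : G => s * s = 1 ∧ s ≠ 1)).filter (fun s => s • c ≠ c)).card =
      (Fintype.card Ω - 1) *
        Nat.card (MulAction.stabilizer G a ⊓ MulAction.stabilizer G b : Subgroup G) := by
  classical
  set e := Nat.card (MulAction.stabilizer G a ⊓ MulAction.stabilizer G b : Subgroup G) with hedef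
  set Inv := Finset.univ.filter (fun s : G => s * s = 1 ∧ s ≠ 1) with hInv
  have hS : ∀ b b' : Ω, b ≠ b' →
      (Finset.univ.filter (fun s : G => s * s = 1 ∧ s • b = b' ∧ s • b' = b)).card = e := by
    intro b b' hbb
    obtain ⟨s₀, hs₀, hs₀b, hs₀b', hinv⟩ := hsw b b' hbb
    rw [card_swap_of_inverts hs₀ hs₀b hs₀b' hinv, h.card_two_stab hab hbb]
  have hmaps : ∀ s ∈ Inv.filter (fun s => s • c ≠ c), s • c ∈ Finset.univ.erase c := by
    intro s hs
    rw [Finset.mem_filter] at hs
    exact Finset.mem_erase.mpr ⟨hs.2, Finset.mem_univ _⟩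
  rw [Finset.card_eq_sum_card_fiberwise hmaps]
  have hfib : ∀ b' ∈ Finset.univ.erase c,
      ((Inv.filter (fun s => s • c ≠ c)).filter (fun s => s • c = b')).card = e := by
    intro b' hb'
    have hbb : c ≠ b' := fun h1 => (Finset.mem_erase.mp hb').1 h1.symm
    rw [← hS c b' hbb]
    congr 1
    ext s
    simp only [Finset.mem_filter, Finset.mem_univ, true_and, hInv]
    constructor
    · rintro ⟨⟨⟨hs2, -⟩, -⟩, hsb⟩
      refine ⟨hs2, hsb, ?_⟩
      rw [← hsb, ← mul_smul, hs2, one_smul]
    · rintro ⟨hs2, hsb, -⟩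
      refine ⟨⟨⟨hs2, ?_⟩, ?_⟩, hsb⟩
      · intro h1
        rw [h1, one_smul] at hsb
        exact hbb hsb
      · rw [hsb]
        exact fun h1 => hbb h1.symm
  rw [Finset.sum_congr rfl hfib, Finset.sum_const, smul_eq_mul,
    Finset.card_erase_of_mem (Finset.mem_univ _), Finset.card_univ]

/-- double count of involutions against the points they move -/
theorem ZData.card_invol_total [Fintype G] [DecidableEq G] [Fintype Ω] [DecidableEq Ω]
    (h : ZData G Ω)
    (hsw : ∀ b b' : Ω, b ≠ b' → ∃ s : G, s * s = 1 ∧ s • b = b' ∧ s • b' = b ∧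
      ∀ t ∈ (MulAction.stabilizer G b ⊓ MulAction.stabilizer G b' : Subgroup G),
        s * t * s⁻¹ = t⁻¹)
    {a b : Ω} (hab : a ≠ b) (k : ℕ)
    (hmv : ∀ s : G, s * s = 1 → s ≠ 1 →
      (Finset.univ.filter (fun c : Ω => s • c ≠ c)).card = k) :
    (Finset.univ.filter (fun s : G => s * s = 1 ∧ s ≠ 1)).card * k =
      Fintype.card Ω * ((Fintype.card Ω - 1) *
        Nat.card (MulAction.stabilizer G a ⊓ MulAction.stabilizer G b : Subgroup G)) := by
  classical
  set Inv := Finset.univ.filter (fun s : G => s * s = 1 ∧ s ≠ 1) with hInv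
  have hmove := fun c => h.card_invol_moving hsw hab c
  have hdouble : ∑ b : Ω, (Inv.filter (fun s => s • b ≠ b)).card =
      ∑ s ∈ Inv, (Finset.univ.filter (fun b : Ω => s • b ≠ b)).card := by
    simp only [Finset.card_filter]
    exact Finset.sum_comm
  have hmv' : ∀ s ∈ Inv, (Finset.univ.filter (fun b : Ω => s • b ≠ b)).card = k := by
    intro s hs
    rw [hInv, Finset.mem_filter] at hs
    exact hmv s hs.2.1 hs.2.2
  rw [Finset.sum_congr rfl (fun b _ => hmove b), Finset.sum_congr rfl hmv', Finset.sum_const,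
    Finset.sum_const, smul_eq_mul, smul_eq_mul, Finset.card_univ] at hdouble
  exact hdouble.symm

end Count2

end Cfsg.Agent.Lib.Helper2.Zas
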