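import Mathlib
import Cfsg.Prelude.Def_LieExceptional
import Cfsg.Agent.Lib.Helper2.Zas12

set_option autoImplicit false

namespace Cfsg.Agent.Lib.Helper2.Zas

open Cfsg
open Cfsg.Agent.Lib.Lead

section Main

variable {G Ω : Type*} [Group G] [MulAction G Ω]

/-- in a simple Zassenhaus group with two-point stabilizers of odd order `e`, all involutions
are conjugate and their number is `n e` (odd degree) or `(n - 1) e` (even degree) -/
theorem invol_main [Fintype G] [DecidableEq G] [Fintype Ω] [DecidableEq Ω]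
    (hZ : Cfsg.IsZassenhausGroup G Ω) [IsSimpleGroup G] {a b : Ω} (hab : a ≠ b)
    (hodd : Odd (Nat.card ↥(MulAction.stabilizer G a ⊓ MulAction.stabilizer G b : Subgroup G)))
    (hswap : ∀ c d : Ω, c ≠ d → ∃ s : G, s * s = 1 ∧ s • c = d ∧ s • d = c) :
    (∀ x y : G, x * x = 1 → x ≠ 1 → y * y = 1 → y ≠ 1 → IsConj x y) ∧
    (Finset.univ.filter (fun s : G => s * s = 1 ∧ s ≠ 1)).card =
      (if Odd (Fintype.card Ω) then Fintype.card Ω *
          Nat.card ↥(MulAction.stabilizer G a ⊓ MulAction.stabilizer G b : Subgroup G)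
       else (Fintype.card Ω - 1) *
          Nat.card ↥(MulAction.stabilizer G a ⊓ MulAction.stabilizer G b : Subgroup G)) := by
  classical
  have h := zdata hZ
  have hn := h.three_le
  rw [Nat.card_eq_fintype_card] at hn
  have hG := h.card_eq hab
  rw [Nat.card_eq_fintype_card (α := Ω)] at hG
  obtain ⟨n, hndef⟩ : ∃ n, n = Fintype.card Ω := ⟨_, rfl⟩
  obtain ⟨e, hedef⟩ : ∃ e, e = Nat.card ↥(MulAction.stabilizer G a ⊓ MulAction.stabilizer G b :
      Subgroup G) := ⟨_, rfl⟩
  rw [← hndef, ← hedef] at hG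
  rw [← hndef] at hn
  have hoddpair : ∀ c d : Ω, c ≠ d →
      Odd (Nat.card ↥(MulAction.stabilizer G c ⊓ MulAction.stabilizer G d : Subgroup G)) :=
    fun c d hcd => by rw [h.card_two_stab hab hcd]; exact hodd
  have hinvall : ∀ (c d : Ω), c ≠ d → ∀ s : G, s * s = 1 → s • c = d → s • d = c →
      ∀ t ∈ (MulAction.stabilizer G c ⊓ MulAction.stabilizer G d : Subgroup G),
        s * t * s⁻¹ = t⁻¹ :=
    fun c d hcd s hs hsc hsd => swap_inverts_of_simple hZ hcd (hoddpair c d hcd) hs hsc hsd
  have hsw : ∀ b b' : Ω, b ≠ b' → ∃ s : G, s * s = 1 ∧ s • b = b' ∧ s • b' = b ∧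
      ∀ t ∈ (MulAction.stabilizer G b ⊓ MulAction.stabilizer G b' : Subgroup G),
        s * t * s⁻¹ = t⁻¹ := by
    intro c d hcd
    obtain ⟨s, hs, hsc, hsd⟩ := hswap c d hcd
    exact ⟨s, hs, hsc, hsd, hinvall c d hcd s hs hsc hsd⟩
  obtain ⟨Inv, hInv⟩ : ∃ Inv : Finset G,
      Inv = Finset.univ.filter (fun s : G => s * s = 1 ∧ s ≠ 1) := ⟨_, rfl⟩
  have hmemInv : ∀ s : G, s ∈ Inv ↔ s * s = 1 ∧ s ≠ 1 := by
    intro s
    rw [hInv, Finset.mem_filter]
    exact ⟨fun hs => hs.2, fun hs => ⟨Finset.mem_univ _, hs⟩⟩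
  have hcl : ∀ x ∈ Inv, ∀ g : G, g * x * g⁻¹ ∈ Inv := by
    intro x hx g
    rw [hmemInv] at hx ⊢
    constructor
    · have e1 : g * x * g⁻¹ * (g * x * g⁻¹) = g * (x * x) * g⁻¹ := by group
      rw [e1, hx.1, mul_one, mul_inv_cancel]
    · intro h1
      apply hx.2
      have e1 : x = g⁻¹ * (g * x * g⁻¹) * g := by group
      rw [e1, h1]; group
  have hord2 : ∀ (r : G) (c d : Ω), c ≠ d → r • c = c → r • d = d → r * r = 1 → r = 1 := by
    intro r c d hcd hrc hrd hrr
    by_contra hr1
    have hmem : r ∈ (MulAction.stabilizer G c ⊓ MulAction.stabilizer G d : Subgroup G) := by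
      rw [Subgroup.mem_inf]; exact ⟨hrc, hrd⟩
    have ho := hoddpair c d hcd
    have hos : orderOf r = 2 := orderOf_eq_prime (by rw [pow_two]; exact hrr) hr1
    have hdvd : orderOf (⟨r, hmem⟩ : ↥(MulAction.stabilizer G c ⊓ MulAction.stabilizer G d :
        Subgroup G)) ∣ Nat.card ↥(MulAction.stabilizer G c ⊓ MulAction.stabilizer G d :
        Subgroup G) := orderOf_dvd_natCard _
    rw [← Subgroup.orderOf_coe] at hdvd
    have hdvd' : orderOf r ∣ Nat.card ↥(MulAction.stabilizer G c ⊓ MulAction.stabilizer G d :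
        Subgroup G) := hdvd
    rw [hos] at hdvd'
    obtain ⟨j, hj⟩ := ho
    omega
  rw [← hndef, ← hedef, ← hInv]
  by_cases hpar : Odd n
  · rw [if_pos hpar]
    have hpar' : Odd (Fintype.card Ω) := hndef ▸ hpar
    have hmv : ∀ s : G, s * s = 1 → s ≠ 1 →
        (Finset.univ.filter (fun c : Ω => s • c ≠ c)).card = n - 1 := by
      intro s hs hs1
      have h1 := h.invol_fix_odd hpar' hs hs1
      have h2 : (Finset.univ.filter (fun b : Ω => s • b = b)).card = 1 := by
        rw [← h1, Nat.card_eq_fintype_card, Fintype.card_subtype]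
        rfl
      have h3 := Finset.card_filter_add_card_filter_not (s := (Finset.univ : Finset Ω))
        (fun b : Ω => s • b = b)
      rw [h2, Finset.card_univ, ← hndef] at h3
      have h4 : (Finset.univ.filter (fun b : Ω => s • b ≠ b)).card =
          (Finset.univ.filter (fun b : Ω => ¬ s • b = b)).card := rfl
      omega
    have htot := h.card_invol_total hsw hab (n - 1) hmv
    rw [← hndef, ← hedef, ← hInv] at htot
    have hcard : Inv.card = n * e := by
      have hpos : 0 < n - 1 := by omega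
      have e1 : Inv.card * (n - 1) = (n * e) * (n - 1) := by rw [htot]; ring
      exact Nat.eq_of_mul_eq_mul_right hpos e1
    refine ⟨?_, hcard⟩
    intro x y hx hx1 hy hy1
    refine all_conj_of_card Inv hcl ((hmemInv x).mpr ⟨hx, hx1⟩) ?_ y ((hmemInv y).mpr ⟨hy, hy1⟩)
    have hc1 := h.invol_fix_odd hpar' hx hx1
    obtain ⟨c, hc⟩ : ∃ c : Ω, x • c = c := by
      obtain ⟨⟨p, hp⟩⟩ := (Nat.card_pos_iff.mp (by rw [hc1]; exact Nat.one_pos)).1
      exact ⟨p, hp⟩
    obtain ⟨H, hHc, hHcard, hHfix⟩ := h.exists_kernel c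
    have hxonly := h.invol_only hpar' hx hx1 hc
    have hCle : Subgroup.centralizer ({x} : Set G) ≤ H := by
      intro r hr
      by_cases hr1 : r = 1
      · rw [hr1]; exact H.one_mem
      have hrx : x * r = r * x := Subgroup.mem_centralizer_iff.mp hr x rfl
      have hrc : r • c = c := by
        apply hxonly
        rw [← mul_smul, hrx, mul_smul, hc]
      apply h.mem_kernel H hHc hHcard hHfix hrc
      intro d hd
      by_contra hdc
      have h1 : x • d ≠ d := fun e => hdc (hxonly d e)
      have h2 : x • d ≠ c := by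
        intro e
        exact hdc (smul_left_cancel x (e.trans hc.symm))
      have h3 : r • (x • d) = x • d := by rw [← mul_smul, ← hrx, mul_smul, hd]
      exact hr1 (h.three r c d (x • d) (Ne.symm hdc) (Ne.symm h1) (Ne.symm h2) hrc hd h3)
    have hCcard : Nat.card (Subgroup.centralizer ({x} : Set G)) ≤ n - 1 := by
      have h1 := Subgroup.card_le_of_le hCle
      rw [Nat.card_eq_fintype_card (α := Ω), ← hndef] at hHcard
      omega
    rw [hcard, hG]
    calc n * e * Nat.card (Subgroup.centralizer ({x} : Set G)) ≤ n * e * (n - 1) :=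
          Nat.mul_le_mul_left _ hCcard
      _ = n * (n - 1) * e := by ring
  · rw [if_neg hpar]
    have hev : Even (Fintype.card Ω) := hndef ▸ (Nat.not_odd_iff_even.mp hpar)
    have hfpf : ∀ s : G, s * s = 1 → s ≠ 1 → ∀ c : Ω, s • c ≠ c := by
      intro s hs hs1 c hc
      rcases h.invol_fix_even hev hs hs1 with h0 | h2
      · haveI : Nonempty (MulAction.fixedBy Ω s) := ⟨⟨c, hc⟩⟩
        have h3 := Nat.card_pos (α := MulAction.fixedBy Ω s)
        omega
      · have h3 : 1 < Nat.card (MulAction.fixedBy Ω s) := by omega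
        rw [Finite.one_lt_card_iff_nontrivial] at h3
        obtain ⟨⟨d, hd⟩, hne⟩ := exists_ne (⟨c, hc⟩ : MulAction.fixedBy Ω s)
        have hdc : d ≠ c := fun e => hne (Subtype.ext e)
        exact hs1 (hord2 s c d (Ne.symm hdc) hc hd hs)
    have hmv : ∀ s : G, s * s = 1 → s ≠ 1 →
        (Finset.univ.filter (fun c : Ω => s • c ≠ c)).card = n := by
      intro s hs hs1
      rw [Finset.filter_true_of_mem (fun b _ => hfpf s hs hs1 b), Finset.card_univ, hndef]
    have htot := h.card_invol_total hsw hab n hmv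
    rw [← hndef, ← hedef, ← hInv] at htot
    have hcard : Inv.card = (n - 1) * e := by
      have hpos : 0 < n := by omega
      have e1 : Inv.card * n = ((n - 1) * e) * n := by rw [htot]; ring
      exact Nat.eq_of_mul_eq_mul_right hpos e1
    refine ⟨?_, hcard⟩
    intro x y hx hx1 hy hy1
    refine all_conj_of_card Inv hcl ((hmemInv x).mpr ⟨hx, hx1⟩) ?_ y ((hmemInv y).mpr ⟨hy, hy1⟩)
    obtain ⟨c₀, -⟩ := h.exists_ne_ne a a
    have hfree : ∀ r ∈ Subgroup.centralizer ({x} : Set G), r • c₀ = c₀ → r = 1 := by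
      intro r hr hrc
      have hrx : x * r = r * x := Subgroup.mem_centralizer_iff.mp hr x rfl
      have hxc : x • c₀ ≠ c₀ := hfpf x hx hx1 c₀
      have hxx : x • (x • c₀) = c₀ := by rw [← mul_smul, hx, one_smul]
      have hr2 : r • (x • c₀) = x • c₀ := by rw [← mul_smul, ← hrx, mul_smul, hrc]
      have hmem : r ∈ (MulAction.stabilizer G c₀ ⊓ MulAction.stabilizer G (x • c₀) :
          Subgroup G) := by
        rw [Subgroup.mem_inf]; exact ⟨hrc, hr2⟩
      have hinv := hinvall c₀ (x • c₀) (Ne.symm hxc) x hx rfl hxx r hmem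
      have e1 : x * r * x⁻¹ = r := by rw [hrx]; group
      rw [e1] at hinv
      have hrr : r * r = 1 := by
        calc r * r = r * r⁻¹ := by rw [← hinv]
          _ = 1 := mul_inv_cancel r
      exact hord2 r c₀ (x • c₀) (Ne.symm hxc) hrc hr2 hrr
    have hCcard : Nat.card (Subgroup.centralizer ({x} : Set G)) ≤ n := by
      have hinj : Function.Injective
          (fun r : Subgroup.centralizer ({x} : Set G) => (r : G) • c₀) := by
        intro r r' hrr'
        have h1 : (r : G) • c₀ = (r' : G) • c₀ := hrr'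
        have h2 : ((r' : G)⁻¹ * (r : G)) • c₀ = c₀ := by
          rw [mul_smul, h1, inv_smul_smul]
        have h3 := hfree _ (mul_mem (inv_mem r'.2) r.2) h2
        exact Subtype.ext (inv_mul_eq_one.mp h3).symm
      have h4 := Nat.card_le_card_of_injective _ hinj
      rwa [Nat.card_eq_fintype_card (α := Ω), ← hndef] at h4
    rw [hcard, hG]
    calc (n - 1) * e * Nat.card (Subgroup.centralizer ({x} : Set G)) ≤ (n - 1) * e * n :=
          Nat.mul_le_mul_left _ hCcard
      _ = n * (n - 1) * e := by ring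

end Main

end Cfsg.Agent.Lib.Helper2.Zas
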