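import Mathlib
import Cfsg.Prelude.Def_LieExceptional
import Cfsg.Agent.Lib.Helper2.Zas13

set_option autoImplicit false

namespace Cfsg.Agent.Lib.Helper2.Zas

open Cfsg
open Cfsg.Agent.Lib.Lead

section Weight

variable {G : Type*} [Group G]

/-- the number of elements inverting `g` is a class function -/
theorem card_inverting_conj [Fintype G] [DecidableEq G] (c g : G) :
    (Finset.univ.filter (fun y : G => y * (c * g * c⁻¹) * y⁻¹ = (c * g * c⁻¹)⁻¹)).card =
      (Finset.univ.filter (fun y : G => y * g * y⁻¹ = g⁻¹)).card := by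
  symm
  apply Finset.card_bij (fun y _ => c * y * c⁻¹)
  · intro y hy
    rw [Finset.mem_filter] at hy ⊢
    refine ⟨Finset.mem_univ _, ?_⟩
    have e1 : c * y * c⁻¹ * (c * g * c⁻¹) * (c * y * c⁻¹)⁻¹ = c * (y * g * y⁻¹) * c⁻¹ := by group
    rw [e1, hy.2]; group
  · intro y _ y' _ hyy
    have := mul_right_cancel hyy
    exact mul_left_cancel this
  · intro z hz
    rw [Finset.mem_filter] at hz
    refine ⟨c⁻¹ * z * c, ?_, by group⟩
    rw [Finset.mem_filter]
    refine ⟨Finset.mem_univ _, ?_⟩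
    have e1 : c⁻¹ * z * c * g * (c⁻¹ * z * c)⁻¹ = c⁻¹ * (z * (c * g * c⁻¹) * z⁻¹) * c := by group
    rw [e1, hz.2]; group

/-- the elements inverting `g` form at most a coset of the centralizer -/
theorem card_inverting_le [Fintype G] [DecidableEq G] (g : G) :
    (Finset.univ.filter (fun y : G => y * g * y⁻¹ = g⁻¹)).card ≤
      Nat.card (Subgroup.centralizer ({g} : Set G)) := by
  classical
  rcases (Finset.univ.filter (fun y : G => y * g * y⁻¹ = g⁻¹)).eq_empty_or_nonempty with
    h0 | ⟨y₀, hy₀⟩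
  · rw [h0, Finset.card_empty]; exact Nat.zero_le _
  · have hy₀' : y₀ * g * y₀⁻¹ = g⁻¹ := (Finset.mem_filter.mp hy₀).2
    have hmem : ∀ y : {y : G // y ∈ Finset.univ.filter (fun y : G => y * g * y⁻¹ = g⁻¹)},
        y₀⁻¹ * y.1 ∈ Subgroup.centralizer ({g} : Set G) := by
      intro y
      have hy : y.1 * g * y.1⁻¹ = g⁻¹ := (Finset.mem_filter.mp y.2).2
      rw [Subgroup.mem_centralizer_iff]
      intro x hx
      rw [Set.mem_singleton_iff] at hx
      rw [hx]
      have e0 : ∀ z : G, z * g * z⁻¹ = g⁻¹ → z * g = g⁻¹ * z := by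
        intro z hz
        rw [← hz]; group
      have e1 : y.1 * g = g⁻¹ * y.1 := e0 _ hy
      have e2 : y₀⁻¹ * g⁻¹ = g * y₀⁻¹ := by
        rw [← hy₀']; group
      calc g * (y₀⁻¹ * y.1) = (g * y₀⁻¹) * y.1 := by group
        _ = y₀⁻¹ * g⁻¹ * y.1 := by rw [e2]
        _ = y₀⁻¹ * (g⁻¹ * y.1) := by group
        _ = y₀⁻¹ * (y.1 * g) := by rw [e1]
        _ = y₀⁻¹ * y.1 * g := by group
    have hinj : Function.Injective
        (fun y : {y : G // y ∈ Finset.univ.filter (fun y : G => y * g * y⁻¹ = g⁻¹)} =>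
          (⟨y₀⁻¹ * y.1, hmem y⟩ : Subgroup.centralizer ({g} : Set G))) := by
      intro y y' hyy
      have := congrArg Subtype.val hyy
      exact Subtype.ext (mul_left_cancel this)
    have := Nat.card_le_card_of_injective _ hinj
    rwa [Nat.card_eq_fintype_card, Fintype.card_coe] at this

/-- summing the number of inverting elements over a conjugacy class gives at most `|G|` -/
theorem sum_weight_class_le [Fintype G] [DecidableEq G] [DecidableEq (ConjClasses G)]
    (C : ConjClasses G) :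
    ∑ g ∈ Finset.univ.filter (fun g : G => ConjClasses.mk g = C),
      (Finset.univ.filter (fun y : G => y * g * y⁻¹ = g⁻¹)).card ≤ Fintype.card G := by
  classical
  obtain ⟨g₀, rfl⟩ := ConjClasses.mk_surjective C
  have hconst : ∀ g ∈ Finset.univ.filter (fun g : G => ConjClasses.mk g = ConjClasses.mk g₀),
      (Finset.univ.filter (fun y : G => y * g * y⁻¹ = g⁻¹)).card =
        (Finset.univ.filter (fun y : G => y * g₀ * y⁻¹ = g₀⁻¹)).card := by
    intro g hg
    have hg' := (Finset.mem_filter.mp hg).2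
    rw [ConjClasses.mk_eq_mk_iff_isConj] at hg'
    obtain ⟨c, hc⟩ := isConj_iff.mp hg'
    rw [← hc]
    exact (card_inverting_conj c g).symm
  rw [Finset.sum_congr rfl hconst, Finset.sum_const, smul_eq_mul]
  have hcls : Finset.univ.filter (fun g : G => ConjClasses.mk g = ConjClasses.mk g₀) =
      classFinset g₀ := by
    ext g
    rw [mem_classFinset, Finset.mem_filter, ConjClasses.mk_eq_mk_iff_isConj]
    exact ⟨fun hg => hg.2.symm, fun hg => ⟨Finset.mem_univ _, hg.symm⟩⟩
  rw [hcls, card_classFinset, ← Nat.card_eq_fintype_card,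
    ← (Subgroup.centralizer ({g₀} : Set G)).index_mul_card]
  exact Nat.mul_le_mul_left _ (card_inverting_le g₀)

/-- a product of two involutions is inverted by the first -/
theorem invol_pairs_le [Fintype G] [DecidableEq G] (Inv : Finset G)
    (hInv : ∀ s ∈ Inv, s * s = 1) (g : G) :
    ((Inv ×ˢ Inv).filter (fun p => p.1 * p.2 = g)).card ≤
      (Finset.univ.filter (fun y : G => y * g * y⁻¹ = g⁻¹)).card := by
  apply Finset.card_le_card_of_injOn (fun p => p.1)
  · intro p hp
    have hp' := Finset.mem_filter.mp (Finset.mem_coe.mp hp)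
    have hp1 := hInv _ (Finset.mem_product.mp hp'.1).1
    have hp2 := hInv _ (Finset.mem_product.mp hp'.1).2
    apply Finset.mem_coe.mpr
    rw [Finset.mem_filter]
    refine ⟨Finset.mem_univ _, ?_⟩
    show p.1 * g * p.1⁻¹ = g⁻¹
    rw [← hp'.2]
    have i1 : p.1⁻¹ = p.1 := inv_eq_of_mul_eq_one_left hp1
    have i2 : p.2⁻¹ = p.2 := inv_eq_of_mul_eq_one_left hp2
    rw [mul_inv_rev, i1, i2, ← mul_assoc, hp1, one_mul]
  · intro p hp q hq hpq
    have hp' := Finset.mem_filter.mp (Finset.mem_coe.mp hp)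
    have hq' := Finset.mem_filter.mp (Finset.mem_coe.mp hq)
    have h1 : p.1 = q.1 := hpq
    have h2 : p.2 = q.2 := by
      have : p.1 * p.2 = p.1 * q.2 := by rw [hp'.2, h1, hq'.2]
      exact mul_left_cancel this
    exact Prod.ext h1 h2

theorem invol_pairs_sum [Fintype G] [DecidableEq G] (Inv : Finset G)
    (hInv : ∀ s ∈ Inv, s * s = 1) (S : Finset G) :
    ((Inv ×ˢ Inv).filter (fun p => p.1 * p.2 ∈ S)).card ≤
      ∑ g ∈ S, (Finset.univ.filter (fun y : G => y * g * y⁻¹ = g⁻¹)).card := by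
  have hmaps : ∀ p ∈ (Inv ×ˢ Inv).filter (fun p => p.1 * p.2 ∈ S), p.1 * p.2 ∈ S :=
    fun p hp => (Finset.mem_filter.mp hp).2
  rw [Finset.card_eq_sum_card_fiberwise hmaps]
  apply Finset.sum_le_sum
  intro g _
  refine le_trans (Finset.card_le_card ?_) (invol_pairs_le Inv hInv g)
  intro p hp
  rw [Finset.mem_filter] at hp ⊢
  exact ⟨(Finset.mem_filter.mp hp.1).1, hp.2⟩

theorem classes_weight [Fintype G] [DecidableEq G] [DecidableEq (ConjClasses G)] (S : Finset G)
    (K : Finset (ConjClasses G)) (hS : ∀ g ∈ S, ConjClasses.mk g ∈ K) :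
    ∑ g ∈ S, (Finset.univ.filter (fun y : G => y * g * y⁻¹ = g⁻¹)).card ≤
      K.card * Fintype.card G := by
  rw [← Finset.sum_fiberwise_of_maps_to hS]
  have hle : ∀ C ∈ K, ∑ g ∈ S.filter (fun g => ConjClasses.mk g = C),
      (Finset.univ.filter (fun y : G => y * g * y⁻¹ = g⁻¹)).card ≤ Fintype.card G := by
    intro C _
    refine le_trans (Finset.sum_le_sum_of_subset ?_) (sum_weight_class_le C)
    intro g hg
    rw [Finset.mem_filter] at hg ⊢
    exact ⟨Finset.mem_univ _, hg.2⟩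
  have := Finset.sum_le_card_nsmul K _ _ hle
  rwa [smul_eq_mul] at this

end Weight

section ZW

variable {G Ω : Type*} [Group G] [MulAction G Ω]

/-- an involution `τ` with `τ τ' = g` permutes the fixed points of `g` -/
theorem invol_prod_fix {τ τ' : G} (hτ : τ * τ = 1) (hτ' : τ' * τ' = 1) {c : Ω}
    (hc : (τ * τ') • c = c) : (τ * τ') • (τ • c) = τ • c := by
  have h1 : τ • (τ' • c) = c := by rw [← mul_smul]; exact hc
  have h2 : τ' • c = τ • c := by
    have : τ • (τ • (τ' • c)) = τ • c := by rw [h1]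
    rwa [← mul_smul, hτ, one_smul] at this
  have h3 : τ' • (τ • c) = c := by rw [← h2, ← mul_smul, hτ', one_smul]
  rw [mul_smul, h3]

theorem invol_pairs_fix {τ τ' : G} (hτ : τ * τ = 1) (hτ' : τ' * τ' = 1)
    (h1 : Nat.card (MulAction.fixedBy Ω (τ * τ')) = 1) :
    ∃ c : Ω, τ • c = c ∧ τ' • c = c := by
  obtain ⟨hsub, ⟨⟨c, hc⟩⟩⟩ := Nat.card_eq_one_iff_unique.mp h1
  have h2 : (τ * τ') • (τ • c) = τ • c := invol_prod_fix hτ hτ' hc
  have h3 : τ • c = c :=
    congrArg Subtype.val (hsub.elim (⟨τ • c, h2⟩ : MulAction.fixedBy Ω (τ * τ')) ⟨c, hc⟩)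
  refine ⟨c, h3, ?_⟩
  have h4 : τ • (τ' • c) = c := by rw [← mul_smul]; exact hc
  have h5 : τ • (τ • (τ' • c)) = τ • c := by rw [h4]
  rw [← mul_smul, hτ, one_smul, h3] at h5
  exact h5

/-- conjugate elements have the same number of fixed points -/
theorem card_fixedBy_conj (c g : G) :
    Nat.card (MulAction.fixedBy Ω (c * g * c⁻¹)) = Nat.card (MulAction.fixedBy Ω g) := by
  apply Nat.card_congr
  refine ⟨fun x => ⟨c⁻¹ • x.1, ?_⟩, fun x => ⟨c • x.1, ?_⟩, ?_, ?_⟩
  · have hx : (c * g * c⁻¹) • x.1 = x.1 := x.2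
    show g • (c⁻¹ • x.1) = c⁻¹ • x.1
    conv_rhs => rw [← hx]
    rw [← mul_smul, ← mul_smul]
    congr 1; group
  · have hx : g • x.1 = x.1 := x.2
    show (c * g * c⁻¹) • (c • x.1) = c • x.1
    conv_rhs => rw [← hx]
    rw [← mul_smul, ← mul_smul]
    congr 1; group
  · intro x
    exact Subtype.ext (smul_inv_smul c x.1)
  · intro x
    exact Subtype.ext (inv_smul_smul c x.1)

theorem ZData.classes_avoiding [Fintype G] [DecidableEq G] [Fintype Ω] [DecidableEq Ω]
    (h : ZData G Ω) {a : Ω} (H : Subgroup G) (hHa : H ≤ MulAction.stabilizer G a)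
    (hHfix : ∀ u ∈ H, u ≠ 1 → ∀ c : Ω, u • c = c → c = a)
    (Inv : Finset G) (hInv : ∀ s ∈ Inv, s * s = 1) :
    Inv.card * Inv.card ≤ Inv.card +
      ((Inv ×ˢ Inv).filter (fun p => Nat.card (MulAction.fixedBy Ω (p.1 * p.2)) = 1)).card +
      Nat.card {C : ConjClasses G // ∀ g : G, ConjClasses.mk g = C → g ∉ H} *
        Fintype.card G := by
  classical
  have hn := h.three_le
  set φ : G → ℕ := fun g => Nat.card (MulAction.fixedBy Ω g) with hφ
  have hφ1 : φ 1 = Nat.card Ω := card_fixedBy_one G Ω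
  have hφle : ∀ g : G, g ≠ 1 → φ g ≤ 2 := fun g hg => h.fix_le_two hg
  set S := Finset.univ.filter (fun g : G => φ g = 0 ∨ φ g = 2) with hSdef
  set K := Finset.univ.filter
    (fun C : ConjClasses G => ∀ g : G, ConjClasses.mk g = C → g ∉ H) with hKdef
  have hK : Nat.card {C : ConjClasses G // ∀ g : G, ConjClasses.mk g = C → g ∉ H} = K.card := by
    rw [Nat.card_eq_fintype_card, Fintype.card_subtype]
  have hφconj : ∀ g g' : G, ConjClasses.mk g' = ConjClasses.mk g → φ g' = φ g := by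
    intro g g' hgg
    rw [ConjClasses.mk_eq_mk_iff_isConj] at hgg
    obtain ⟨c, hc⟩ := isConj_iff.mp hgg
    rw [← hc]
    exact (card_fixedBy_conj c g').symm
  have hmemS : ∀ g : G, g ∈ S ↔ (φ g = 0 ∨ φ g = 2) := by
    intro g
    rw [hSdef, Finset.mem_filter]; exact ⟨fun hh => hh.2, fun hh => ⟨Finset.mem_univ _, hh⟩⟩
  have hSK : ∀ g ∈ S, ConjClasses.mk g ∈ K := by
    intro g hg
    rw [hmemS] at hg
    rw [hKdef, Finset.mem_filter]
    refine ⟨Finset.mem_univ _, ?_⟩
    intro g' hg' hg'H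
    have h1 := hφconj g g' hg'
    by_cases hg1 : g' = 1
    · rw [hg1, hφ1] at h1
      omega
    · have h2 : φ g' = 1 := (card_fix_eq_one_iff (hHa hg'H)).mpr (hHfix g' hg'H hg1)
      omega
  have e3 : ∀ g : G, 1 = (if g = 1 then 1 else 0) + (if φ g = 1 then 1 else 0) +
      (if g ∈ S then 1 else 0) := by
    intro g
    by_cases hg : g = 1
    · subst hg
      rw [if_pos rfl, if_neg (by rw [hφ1]; omega), if_neg (by rw [hmemS, hφ1]; omega)]
    · have := hφle g hg
      rw [if_neg hg]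
      by_cases h1 : φ g = 1
      · rw [if_pos h1, if_neg (by rw [hmemS]; omega)]
      · rw [if_neg h1, if_pos (by rw [hmemS]; omega)]
  have hpart : (Inv ×ˢ Inv).card = ((Inv ×ˢ Inv).filter (fun p => p.1 * p.2 = 1)).card +
      ((Inv ×ˢ Inv).filter (fun p => φ (p.1 * p.2) = 1)).card +
      ((Inv ×ˢ Inv).filter (fun p => p.1 * p.2 ∈ S)).card := by
    rw [Finset.card_eq_sum_ones, Finset.sum_congr rfl (fun p _ => e3 (p.1 * p.2))]
    simp only [Finset.sum_add_distrib, Finset.card_filter]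
  have hPe : ((Inv ×ˢ Inv).filter (fun p => p.1 * p.2 = 1)).card ≤ Inv.card := by
    apply Finset.card_le_card_of_injOn (fun p => p.1)
    · intro p hp
      have hp' := Finset.mem_filter.mp (Finset.mem_coe.mp hp)
      exact Finset.mem_coe.mpr (Finset.mem_product.mp hp'.1).1
    · intro p hp q hq hpq
      have hp' := Finset.mem_filter.mp (Finset.mem_coe.mp hp)
      have hq' := Finset.mem_filter.mp (Finset.mem_coe.mp hq)
      have h1 : p.1 = q.1 := hpq
      have h2 : p.2 = q.2 := by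
        have : p.1 * p.2 = p.1 * q.2 := by rw [hp'.2, h1, hq'.2]
        exact mul_left_cancel this
      exact Prod.ext h1 h2
  have hPS := le_trans (invol_pairs_sum Inv hInv S) (classes_weight S K hSK)
  rw [Finset.card_product] at hpart
  rw [hK]
  have hj : ((Inv ×ˢ Inv).filter (fun p => φ (p.1 * p.2) = 1)).card =
      ((Inv ×ˢ Inv).filter (fun p => Nat.card (MulAction.fixedBy Ω (p.1 * p.2)) = 1)).card := rfl
  omega

/-- in odd degree, a product of two involutions with exactly one fixed point is a product of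
two distinct involutions fixing the same point -/
theorem ZData.invol_pairs_one_fix_odd [Fintype G] [DecidableEq G] [Fintype Ω] [DecidableEq Ω]
    (h : ZData G Ω) (hodd : Odd (Fintype.card Ω))
    (hswap : ∀ b b' : Ω, b ≠ b' → ∃ s : G, s * s = 1 ∧ s • b = b' ∧ s • b' = b)
    {a b : Ω} (hab : a ≠ b) (Inv : Finset G) (hInv : ∀ s : G, s ∈ Inv ↔ s * s = 1 ∧ s ≠ 1) :
    ((Inv ×ˢ Inv).filter (fun p => Nat.card (MulAction.fixedBy Ω (p.1 * p.2)) = 1)).card +
        Inv.card ≤
      Inv.card * Nat.card (MulAction.stabilizer G a ⊓ MulAction.stabilizer G b : Subgroup G) := by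
  classical
  obtain ⟨e, hedef⟩ : ∃ e, e = Nat.card ↥(MulAction.stabilizer G a ⊓ MulAction.stabilizer G b :
      Subgroup G) := ⟨_, rfl⟩
  obtain ⟨P, hPdef⟩ : ∃ P : Finset (G × G), P = (Inv ×ˢ Inv).filter
      (fun p => Nat.card (MulAction.fixedBy Ω (p.1 * p.2)) = 1) := ⟨_, rfl⟩
  rw [← hedef, ← hPdef]
  have hmaps : ∀ p ∈ P, p.1 ∈ Inv := by
    intro p hp
    rw [hPdef] at hp
    exact (Finset.mem_product.mp (Finset.mem_filter.mp hp).1).1
  rw [Finset.card_eq_sum_card_fiberwise hmaps]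
  have hfib : ∀ τ ∈ Inv, (P.filter (fun p => p.1 = τ)).card + 1 ≤ e := by
    intro τ hτ
    obtain ⟨hτ2, hτ1⟩ := (hInv τ).mp hτ
    have hfix1 := h.invol_fix_odd hodd hτ2 hτ1
    obtain ⟨c, hc⟩ : ∃ c : Ω, τ • c = c := by
      obtain ⟨⟨p, hp⟩⟩ := (Nat.card_pos_iff.mp (by rw [hfix1]; exact Nat.one_pos)).1
      exact ⟨p, hp⟩
    have honly := h.invol_only hodd hτ2 hτ1 hc
    have hcard := h.card_invol_fix hodd hswap hab c
    rw [hedef, ← hcard]
    have hτmem : τ ∈ Finset.univ.filter (fun s : G => s * s = 1 ∧ s ≠ 1 ∧ s • c = c) := by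
      rw [Finset.mem_filter]; exact ⟨Finset.mem_univ _, hτ2, hτ1, hc⟩
    rw [← Finset.card_erase_add_one hτmem]
    apply Nat.add_le_add_right
    apply Finset.card_le_card_of_injOn (fun p => p.2)
    · intro p hp
      have hp' := Finset.mem_filter.mp (Finset.mem_coe.mp hp)
      have hp'' := hp'.1
      rw [hPdef] at hp''
      have hp3 := Finset.mem_filter.mp hp''
      obtain ⟨hp1, hp2⟩ := Finset.mem_product.mp hp3.1
      obtain ⟨hq2, hq1⟩ := (hInv _).mp hp2
      have hpτ : p.1 = τ := hp'.2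
      apply Finset.mem_coe.mpr
      rw [Finset.mem_erase, Finset.mem_filter]
      have hfp : Nat.card (MulAction.fixedBy Ω (τ * p.2)) = 1 := by rw [← hpτ]; exact hp3.2
      obtain ⟨c', hc'1, hc'2⟩ := invol_pairs_fix hτ2 hq2 hfp
      have hcc : c' = c := honly c' hc'1
      refine ⟨?_, Finset.mem_univ _, hq2, hq1, by rw [← hcc]; exact hc'2⟩
      intro heq
      have heq' : p.2 = τ := heq
      rw [heq', hτ2, card_fixedBy_one] at hfp
      have := h.three_le
      omega
    · intro p hp q hq hpq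
      have hp' := Finset.mem_filter.mp (Finset.mem_coe.mp hp)
      have hq' := Finset.mem_filter.mp (Finset.mem_coe.mp hq)
      exact Prod.ext (hp'.2.trans hq'.2.symm) hpq
  calc ∑ τ ∈ Inv, (P.filter (fun p => p.1 = τ)).card + Inv.card
      = ∑ τ ∈ Inv, ((P.filter (fun p => p.1 = τ)).card + 1) := by
        rw [Finset.sum_add_distrib, Finset.sum_const, smul_eq_mul, mul_one]
    _ ≤ ∑ τ ∈ Inv, e := Finset.sum_le_sum hfib
    _ = Inv.card * e := by rw [Finset.sum_const, smul_eq_mul]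

end ZW

section ClassesMain

variable {G Ω : Type*} [Group G] [MulAction G Ω]

/-- in a simple Zassenhaus group with two-point stabilizers of odd order `e < n - 1`, at least
`e` conjugacy classes avoid the kernel of a point stabilizer -/
theorem classes_main [Fintype G] [DecidableEq G] [Fintype Ω] [DecidableEq Ω]
    (hZ : Cfsg.IsZassenhausGroup G Ω) [IsSimpleGroup G] {a b : Ω} (hab : a ≠ b)
    (hodd : Odd (Nat.card ↥(MulAction.stabilizer G a ⊓ MulAction.stabilizer G b : Subgroup G)))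
    (hswap : ∀ c d : Ω, c ≠ d → ∃ s : G, s * s = 1 ∧ s • c = d ∧ s • d = c)
    (hlt : Nat.card ↥(MulAction.stabilizer G a ⊓ MulAction.stabilizer G b : Subgroup G) + 1 <
      Fintype.card Ω)
    (H : Subgroup G) (hHa : H ≤ MulAction.stabilizer G a)
    (hHfix : ∀ u ∈ H, u ≠ 1 → ∀ c : Ω, u • c = c → c = a) :
    Nat.card ↥(MulAction.stabilizer G a ⊓ MulAction.stabilizer G b : Subgroup G) ≤
      Nat.card {C : ConjClasses G // ∀ g : G, ConjClasses.mk g = C → g ∉ H} := by
  classical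
  have h := zdata hZ
  have hn := h.three_le
  rw [Nat.card_eq_fintype_card] at hn
  have hG := h.card_eq hab
  rw [Nat.card_eq_fintype_card (α := Ω), Nat.card_eq_fintype_card (α := G)] at hG
  obtain ⟨-, hcard⟩ := invol_main hZ hab hodd hswap
  have hepos : 0 < Nat.card ↥(MulAction.stabilizer G a ⊓ MulAction.stabilizer G b :
      Subgroup G) := Nat.card_pos
  have hoddpair : ∀ c d : Ω, c ≠ d →
      Odd (Nat.card ↥(MulAction.stabilizer G c ⊓ MulAction.stabilizer G d : Subgroup G)) :=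
    fun c d hcd => by rw [h.card_two_stab hab hcd]; exact hodd
  obtain ⟨n, hndef⟩ : ∃ n, n = Fintype.card Ω := ⟨_, rfl⟩
  obtain ⟨e, hedef⟩ : ∃ e, e = Nat.card ↥(MulAction.stabilizer G a ⊓ MulAction.stabilizer G b :
      Subgroup G) := ⟨_, rfl⟩
  obtain ⟨K, hKdef⟩ : ∃ K, K = Nat.card {C : ConjClasses G //
      ∀ g : G, ConjClasses.mk g = C → g ∉ H} := ⟨_, rfl⟩
  obtain ⟨Inv, hInv⟩ : ∃ Inv : Finset G,
      Inv = Finset.univ.filter (fun s : G => s * s = 1 ∧ s ≠ 1) := ⟨_, rfl⟩
  have hmemInv : ∀ s : G, s ∈ Inv ↔ s * s = 1 ∧ s ≠ 1 := by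
    intro s
    rw [hInv, Finset.mem_filter]
    exact ⟨fun hs => hs.2, fun hs => ⟨Finset.mem_univ _, hs⟩⟩
  have hmain := h.classes_avoiding H hHa hHfix Inv (fun s hs => ((hmemInv s).mp hs).1)
  rw [← hndef, ← hedef, ← hInv] at hcard
  rw [← hndef, ← hedef] at hG hlt
  rw [← hedef] at hepos
  rw [← hndef] at hn
  rw [← hKdef] at hmain ⊢
  rw [← hedef]
  obtain ⟨m, hm⟩ : ∃ m, n = m + 1 := ⟨n - 1, by omega⟩
  have hm1 : m + 1 - 1 = m := by omega
  rw [hm, hm1] at hG hcard
  rw [hG] at hmain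
  have hmpos : 0 < m := by omega
  by_cases hpar : Odd n
  · rw [← hm, if_pos hpar, hm] at hcard
    have hP1 := h.invol_pairs_one_fix_odd (hndef ▸ hpar) hswap hab Inv hmemInv
    rw [← hedef] at hP1
    rw [hcard] at hmain hP1
    have hpos : 0 < (m + 1) * m * e := Nat.mul_pos (Nat.mul_pos (Nat.succ_pos m) hmpos) hepos
    have key : (m + 1) * m * e * e ≤ (m + 1) * m * e * K := by nlinarith [hmain, hP1]
    exact Nat.le_of_mul_le_mul_left key hpos
  · rw [← hm, if_neg hpar] at hcard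
    have hev : Even (Fintype.card Ω) := hndef ▸ (Nat.not_odd_iff_even.mp hpar)
    have hord2 : ∀ (r : G) (c d : Ω), c ≠ d → r • c = c → r • d = d → r * r = 1 → r = 1 := by
      intro r c d hcd hrc hrd hrr
      by_contra hr1
      have hmem : r ∈ (MulAction.stabilizer G c ⊓ MulAction.stabilizer G d : Subgroup G) := by
        rw [Subgroup.mem_inf]; exact ⟨hrc, hrd⟩
      have ho := hoddpair c d hcd
      have hos : orderOf r = 2 := orderOf_eq_prime (by rw [pow_two]; exact hrr) hr1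
      have hdvd : orderOf (⟨r, hmem⟩ : ↥(MulAction.stabilizer G c ⊓ MulAction.stabilizer G d :
          Subgroup G)) ∣ Nat.card ↥(MulAction.stabilizer G c ⊓ MulAction.stabilizer G d :
          Subgroup G) := orderOf_dvd_natCard _
      rw [← Subgroup.orderOf_coe] at hdvd
      have hdvd' : orderOf r ∣ Nat.card ↥(MulAction.stabilizer G c ⊓ MulAction.stabilizer G d :
          Subgroup G) := hdvd
      rw [hos] at hdvd'
      obtain ⟨j, hj⟩ := ho
      omega
    have hfpf : ∀ s : G, s * s = 1 → s ≠ 1 → ∀ c : Ω, s • c ≠ c := by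
      intro s hs hs1 c hc
      rcases h.invol_fix_even hev hs hs1 with h0 | h2
      · haveI : Nonempty (MulAction.fixedBy Ω s) := ⟨⟨c, hc⟩⟩
        have h3 := Nat.card_pos (α := MulAction.fixedBy Ω s)
        omega
      · have h3 : 1 < Nat.card (MulAction.fixedBy Ω s) := by omega
        rw [Finite.one_lt_card_iff_nontrivial] at h3
        obtain ⟨⟨d, hd⟩, hne⟩ := exists_ne (⟨c, hc⟩ : MulAction.fixedBy Ω s)
        have hdc : d ≠ c := fun e => hne (Subtype.ext e)
        exact hs1 (hord2 s c d (Ne.symm hdc) hc hd hs)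
    have hP1 : ((Inv ×ˢ Inv).filter
        (fun p => Nat.card (MulAction.fixedBy Ω (p.1 * p.2)) = 1)).card = 0 := by
      rw [Finset.card_eq_zero, Finset.filter_eq_empty_iff]
      intro p hp h1
      obtain ⟨hp1, hp2⟩ := Finset.mem_product.mp hp
      obtain ⟨c, hc, -⟩ := invol_pairs_fix ((hmemInv _).mp hp1).1 ((hmemInv _).mp hp2).1 h1
      exact hfpf p.1 ((hmemInv _).mp hp1).1 ((hmemInv _).mp hp1).2 c hc
    rw [hP1, hcard] at hmain
    have hpos : 0 < m * e := Nat.mul_pos hmpos hepos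
    have key : m * e * (m * e) ≤ m * e * (1 + K * (m + 1)) := by nlinarith [hmain]
    have key2 : m * e ≤ 1 + K * (m + 1) := Nat.le_of_mul_le_mul_left key hpos
    by_contra hK
    push_neg at hK
    have h4 : m * (K + 1) ≤ m * e := Nat.mul_le_mul_left _ hK
    nlinarith

end ClassesMain

end Cfsg.Agent.Lib.Helper2.Zas
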