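import Mathlib
import Cfsg.Prelude.Def_LieExceptional
import Cfsg.Agent.Lib.Helper2.Zas14

set_option autoImplicit false

namespace Cfsg.Agent.Lib.Helper2.Zas

open Cfsg
open Cfsg.Agent.Lib.Lead

section HallTransfer

/-- an odd prime power dividing `(k+1)(k-1)` divides one of the factors -/
theorem prime_pow_dvd_cases {q r k : ℕ} (hq : q.Prime) (hq2 : q ≠ 2)
    (hdvd : q ^ r ∣ (k + 1) * (k - 1)) : q ^ r ∣ k + 1 ∨ q ^ r ∣ k - 1 := by
  by_cases h1 : q ∣ k - 1
  · right
    have h2 : ¬ q ∣ k + 1 := by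
      intro h2
      have h3 : q ∣ (k + 1) - (k - 1) := Nat.dvd_sub h2 h1
      have h4 : q ∣ 2 := by
        rcases Nat.eq_zero_or_pos k with h0 | h0
        · subst h0
          have : q ∣ 1 := h2
          exact dvd_trans this (one_dvd 2)
        · have e : (k + 1) - (k - 1) = 2 := by omega
          rwa [e] at h3
      exact hq2 ((Nat.prime_dvd_prime_iff_eq hq Nat.prime_two).mp h4)
    have hc : Nat.Coprime (q ^ r) (k + 1) :=
      Nat.Coprime.pow_left r ((Nat.Prime.coprime_iff_not_dvd hq).mpr h2)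
    exact hc.dvd_of_dvd_mul_left hdvd
  · left
    have hc : Nat.Coprime (q ^ r) (k - 1) :=
      Nat.Coprime.pow_left r ((Nat.Prime.coprime_iff_not_dvd hq).mpr h1)
    exact hc.dvd_of_dvd_mul_right hdvd

/-- Let `E` be a Hall subgroup of odd order of `G` with cyclic Sylow subgroups, and `σ` an
involutive automorphism of `E` such that `y ↦ y σ(y)` modulo `E'` is invariant under fusion.
If `G` has no normal `q`-complement for the primes `q` dividing `|E|`, then `σ` inverts
`E / E'`. -/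
theorem hall_invol_trivial {G : Type*} [Group G] [Finite G] (E : Subgroup G)
    (hcop : Nat.gcd (Nat.card E) E.index = 1) (hodd : Odd (Nat.card E)) [IsZGroup ↥E]
    (σ : ↥E ≃* ↥E) (hσσ : ∀ x, σ (σ x) = x)
    (hfus : ∀ (u : G) (hu : u ∈ E) (g₀ : G) (hk : g₀⁻¹ * u * g₀ ∈ E),
      (Abelianization.of (⟨g₀⁻¹ * u * g₀, hk⟩ : E) *
          Abelianization.of (σ ⟨g₀⁻¹ * u * g₀, hk⟩) : Abelianization E) =
        Abelianization.of (⟨u, hu⟩ : E) * Abelianization.of (σ ⟨u, hu⟩))
    (hnil : ∀ q : ℕ, q.Prime → q ∣ Nat.card E →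
      ¬ ∃ N : Subgroup G, N.Normal ∧ N.index = q ^ (Nat.card G).factorization q) :
    ∀ y : ↥E, y * σ y ∈ commutator ↥E := by
  classical
  haveI : IsCyclic (Abelianization ↥E) := IsZGroup.isCyclic_abelianization
  let ϕ : ↥E →* Abelianization ↥E := Abelianization.of * (Abelianization.of.comp σ.toMonoidHom)
  have hϕ : ∀ y : ↥E, ϕ y = Abelianization.of y * Abelianization.of (σ y) := fun y => rfl
  have hkey : ∀ (t : G) (ht : t ∈ E) (k : ℕ) (g₀ : G) (hk : g₀⁻¹ * t ^ k * g₀ ∈ E),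
      ϕ ⟨g₀⁻¹ * t ^ k * g₀, hk⟩ = ϕ ⟨t, ht⟩ ^ k := by
    intro t ht k g₀ hk
    rw [hϕ, hfus (t ^ k) (pow_mem ht k) g₀ hk, ← hϕ, ← map_pow]
    rfl
  have htr : ∀ (t : G) (ht : t ∈ E), MonoidHom.transfer ϕ t = ϕ ⟨t, ht⟩ ^ E.index :=
    fun t ht => transfer_eq_pow_of_key E ϕ t _ (hkey t ht)
  obtain ⟨z, hz⟩ := IsCyclic.exists_generator (α := Abelianization ↥E)
  have hm : orderOf z = Nat.card (Abelianization ↥E) := orderOf_eq_card_of_forall_mem_zpowers hz
  have hmpos : 0 < orderOf z := by rw [hm]; exact Nat.card_pos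
  have hpow : ∀ x : Abelianization ↥E, ∃ j : ℕ, z ^ j = x := by
    intro x
    have := mem_powers_iff_mem_zpowers.mpr (hz x)
    exact (Submonoid.mem_powers_iff _ _).mp this
  obtain ⟨t₀, ht₀⟩ : ∃ t₀ : ↥E, Abelianization.of t₀ = z := QuotientGroup.mk_surjective z
  let s : Abelianization ↥E →* Abelianization ↥E := Abelianization.map σ.toMonoidHom
  have hs : ∀ t : ↥E, s (Abelianization.of t) = Abelianization.of (σ t) :=
    fun t => Abelianization.map_of _ t
  obtain ⟨k₀, hk₀⟩ := hpow (s z)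
  obtain ⟨k, hkdef⟩ : ∃ k, k = k₀ + orderOf z := ⟨_, rfl⟩
  have hk : z ^ k = s z := by rw [hkdef, pow_add, pow_orderOf_eq_one, mul_one, hk₀]
  have hk1 : 1 ≤ k := by omega
  have hss : s (s z) = z := by
    rw [← ht₀, hs, hs, hσσ]
  have hsz : ∀ j : ℕ, s (z ^ j) = z ^ (k * j) := by
    intro j
    rw [map_pow, ← hk, ← pow_mul]
  have hkk : orderOf z ∣ (k + 1) * (k - 1) := by
    have h1 : z ^ (k * k) = z := by rw [← hsz k, hk, hss]
    have h2 : (k + 1) * (k - 1) + 1 = k * k := by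
      obtain ⟨w, rfl⟩ : ∃ w, k = w + 1 := ⟨k - 1, by omega⟩
      rw [Nat.add_sub_cancel]; ring
    rw [← h2, pow_succ] at h1
    apply orderOf_dvd_of_pow_eq_one
    exact mul_eq_right.mp h1
  have hϕt : ∀ t : ↥E, ∀ j : ℕ, z ^ j = Abelianization.of t → ϕ t = z ^ (j * (1 + k)) := by
    intro t j hj
    rw [hϕ, ← hs, ← hj, hsz, ← pow_add]
    congr 1; ring
  by_contra hcon
  push Not at hcon
  obtain ⟨y, hy⟩ := hcon
  have hϕy : ϕ y ≠ 1 := by
    intro h0
    apply hy
    rw [← Abelianization.ker_of, MonoidHom.mem_ker, map_mul]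
    exact h0
  have hnd : ¬ orderOf z ∣ 1 + k := by
    intro hd
    apply hϕy
    obtain ⟨j, hj⟩ := hpow (Abelianization.of y)
    rw [hϕt y j hj, pow_mul', orderOf_dvd_iff_pow_eq_one.mp hd, one_pow]
  have hne1 : 1 + k ≠ 0 := by omega
  have hne2 : orderOf z ≠ 0 := by omega
  have hex : ∃ q : ℕ, q.Prime ∧ ¬ (orderOf z).factorization q ≤ (1 + k).factorization q := by
    by_contra hall
    push Not at hall
    exact hnd ((Nat.factorization_prime_le_iff_dvd hne2 hne1).mp hall)
  obtain ⟨q, hq, hqr⟩ := hex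
  obtain ⟨r, hr⟩ : ∃ r, r = (orderOf z).factorization q := ⟨_, rfl⟩
  rw [← hr] at hqr
  have hqr' : ¬ q ^ r ∣ 1 + k := fun hd => hqr ((hq.pow_dvd_iff_le_factorization hne1).mp hd)
  have hqrm : q ^ r ∣ orderOf z := by rw [hr]; exact Nat.ordProj_dvd _ _
  have hrpos : 0 < r := by
    by_contra h0
    have : r = 0 := by omega
    rw [this, pow_zero] at hqr'
    exact hqr' (one_dvd _)
  have hqm : q ∣ orderOf z := dvd_trans (dvd_pow_self q hrpos.ne') hqrm
  have hmidx : orderOf z = (commutator ↥E).index := hm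
  have hmE : orderOf z ∣ Nat.card E := by
    rw [hmidx]; exact Subgroup.index_dvd_card _
  have hqE : q ∣ Nat.card E := dvd_trans hqm hmE
  have hq2 : q ≠ 2 := by
    intro h2
    rw [h2] at hqE
    obtain ⟨j, hj⟩ := hodd
    omega
  have hqk : q ^ r ∣ k - 1 := by
    rcases prime_pow_dvd_cases hq hq2 (dvd_trans hqrm hkk) with h1 | h1
    · exact absurd (by rwa [add_comm] at h1) hqr'
    · exact h1
  have hq1 : ¬ q ∣ E.index := by
    intro hd
    have := Nat.dvd_gcd hqE hd
    rw [hcop] at this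
    exact hq.one_lt.ne' (Nat.dvd_one.mp this)
  obtain ⟨c, hc⟩ : ∃ c, c = orderOf z / q ^ r := ⟨_, rfl⟩
  have hy₀ : orderOf (z ^ c) = q ^ r := by rw [hc]; exact orderOf_pow_orderOf_div hne2 hqrm
  let ψ : G →* Abelianization ↥E := (powMonoidHom c).comp (MonoidHom.transfer ϕ)
  have hψ : ∀ g, ψ g = MonoidHom.transfer ϕ g ^ c := fun g => rfl
  have hrange : ψ.range = Subgroup.zpowers (z ^ c) := by
    apply le_antisymm
    · rintro x ⟨g, rfl⟩
      obtain ⟨i, hi⟩ := hpow (MonoidHom.transfer ϕ g)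
      rw [hψ, ← hi, ← pow_mul, mul_comm, pow_mul]
      exact Subgroup.npow_mem_zpowers _ _
    · rw [Subgroup.zpowers_le]
      have hcop2 : Nat.Coprime (2 * E.index) (q ^ r) := by
        apply Nat.Coprime.pow_right
        apply Nat.Coprime.mul_left
        · exact (Nat.coprime_primes Nat.prime_two hq).mpr (Ne.symm hq2)
        · rw [Nat.coprime_comm]; exact (Nat.Prime.coprime_iff_not_dvd hq).mpr hq1
      have h1lt : 1 < q ^ r := Nat.one_lt_pow hrpos.ne' hq.one_lt
      obtain ⟨j, -, hj⟩ := Nat.exists_mul_mod_eq_one_of_coprime hcop2 h1lt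
      refine ⟨((t₀ ^ j : ↥E) : G), ?_⟩
      rw [hψ, htr _ (t₀ ^ j).2]
      have h5 : ϕ ⟨((t₀ ^ j : ↥E) : G), (t₀ ^ j).2⟩ = z ^ (j * (1 + k)) :=
        hϕt (t₀ ^ j) j (by rw [map_pow, ht₀])
      rw [h5, ← pow_mul, ← pow_mul]
      have e1 : j * (1 + k) * (E.index * c) = c * ((1 + k) * E.index * j) := by ring
      rw [e1, pow_mul, ← pow_mod_orderOf (z ^ c), hy₀]
      have e2 : (1 + k) * E.index * j % q ^ r = 1 := by
        obtain ⟨w, hw⟩ := hqk
        have e3 : 1 + k = 2 + q ^ r * w := by omega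
        rw [e3]
        have e4 : (2 + q ^ r * w) * E.index * j = 2 * E.index * j + q ^ r * (w * E.index * j) := by
          ring
        rw [e4, Nat.add_mul_mod_self_left]
        exact hj
      rw [e2, pow_one]
  have hidx : ψ.ker.index = q ^ r := by
    rw [Subgroup.index_ker, hrange, Nat.card_zpowers, hy₀]
  have hfac : (Nat.card G).factorization q = r := by
    have hG : Nat.card G = E.index * Nat.card E := (Subgroup.index_mul_card E).symm
    have hE' : Nat.card E = (commutator ↥E).index * Nat.card (commutator ↥E) :=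
      (Subgroup.index_mul_card _).symm
    have hcc := IsZGroup.coprime_commutator_index ↥E
    have hq3 : ¬ q ∣ Nat.card (commutator ↥E) := by
      intro hd
      have hqi : q ∣ (commutator ↥E).index := by rw [← hmidx]; exact hqm
      have := Nat.dvd_gcd hd hqi
      rw [Nat.Coprime.gcd_eq_one hcc] at this
      exact hq.one_lt.ne' (Nat.dvd_one.mp this)
    have n1 : E.index ≠ 0 := Subgroup.index_ne_zero_of_finite
    have n2 : Nat.card E ≠ 0 := Nat.card_pos.ne'
    have n3 : (commutator ↥E).index ≠ 0 := Subgroup.index_ne_zero_of_finite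
    have n4 : Nat.card (commutator ↥E) ≠ 0 := Nat.card_pos.ne'
    rw [hG, Nat.factorization_mul n1 n2, hE', Nat.factorization_mul n3 n4]
    simp only [Finsupp.add_apply]
    rw [Nat.factorization_eq_zero_of_not_dvd hq1, Nat.factorization_eq_zero_of_not_dvd hq3,
      ← hmidx, ← hr]
    omega
  exact hnil q hq hqE ⟨ψ.ker, inferInstance, by rw [hidx, hfac]⟩

end HallTransfer

section ZNoCompl

variable {G Ω : Type*} [Group G] [MulAction G Ω]

/-- in a Zassenhaus group with two-point stabilizers of odd order `d` and no normal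
`q`-complements for the primes `q` dividing `d`, an involution swapping two points inverts their
stabilizer -/
theorem swap_inverts_of_nocompl [Finite G] [Finite Ω] (hZ : Cfsg.IsZassenhausGroup G Ω)
    {a b : Ω} (hab : a ≠ b)
    (hodd : Odd (Nat.card ↥(MulAction.stabilizer G a ⊓ MulAction.stabilizer G b : Subgroup G)))
    (hnil : ∀ q : ℕ, q.Prime →
      q ∣ Nat.card ↥(MulAction.stabilizer G a ⊓ MulAction.stabilizer G b : Subgroup G) →
      ¬ ∃ N : Subgroup G, N.Normal ∧ N.index = q ^ (Nat.card G).factorization q)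
    {τ : G} (hτ : τ * τ = 1) (hτa : τ • a = b) (hτb : τ • b = a) :
    ∀ t ∈ (MulAction.stabilizer G a ⊓ MulAction.stabilizer G b : Subgroup G),
      τ * t * τ⁻¹ = t⁻¹ := by
  classical
  have h := zdata hZ
  have hZg := h.two_stab_isZGroup hab hodd
  have hcop := h.two_stab_coprime hab hodd
  obtain ⟨E, hE⟩ : ∃ E : Subgroup G, E = MulAction.stabilizer G a ⊓ MulAction.stabilizer G b :=
    ⟨_, rfl⟩
  rw [← hE] at hodd hcop hZg hnil ⊢
  haveI := hZg
  have hEmem : ∀ t : G, t ∈ E ↔ t • a = a ∧ t • b = b := by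
    intro t
    rw [hE, Subgroup.mem_inf, MulAction.mem_stabilizer_iff, MulAction.mem_stabilizer_iff]
  have hτinv : τ⁻¹ = τ := inv_eq_of_mul_eq_one_left hτ
  have hnorm : ∀ t ∈ E, τ * t * τ⁻¹ ∈ E := by
    intro t ht
    rw [hE] at ht ⊢
    exact swap_conj_mem hτa hτb ht
  have hcancel : ∀ t : G, τ * (τ * t * τ⁻¹) * τ⁻¹ = t := by
    intro t
    rw [hτinv]
    have e : τ * (τ * t * τ) * τ = (τ * τ) * t * (τ * τ) := by group
    rw [e, hτ, one_mul, mul_one]
  let σ : ↥E ≃* ↥E :=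
    { toFun := fun t => ⟨τ * t * τ⁻¹, hnorm t t.2⟩
      invFun := fun t => ⟨τ * t * τ⁻¹, hnorm t t.2⟩
      left_inv := fun t => Subtype.ext (hcancel t)
      right_inv := fun t => Subtype.ext (hcancel t)
      map_mul' := fun t t' => Subtype.ext (by
        show τ * ((t : G) * (t' : G)) * τ⁻¹ = (τ * (t : G) * τ⁻¹) * (τ * (t' : G) * τ⁻¹)
        group) }
  have hσσ : ∀ x, σ (σ x) = x := fun x => Subtype.ext (hcancel x)
  have hI : ∀ y : ↥E, y * σ y ∈ commutator ↥E := by
    let ϕ : ↥E →* Abelianization ↥E :=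
      Abelianization.of * (Abelianization.of.comp σ.toMonoidHom)
    have hϕ : ∀ y : ↥E, ϕ y = Abelianization.of y * Abelianization.of (σ y) := fun y => rfl
    have hfus : ∀ (u : G) (hu : u ∈ E) (g₀ : G) (hk : g₀⁻¹ * u * g₀ ∈ E),
        ϕ ⟨g₀⁻¹ * u * g₀, hk⟩ = ϕ ⟨u, hu⟩ := by
      intro u hu g₀ hk
      by_cases hu1 : u = 1
      · subst hu1
        have e1 : (⟨g₀⁻¹ * 1 * g₀, hk⟩ : E) = ⟨1, hu⟩ := Subtype.ext (by group)
        rw [e1]
      · have hua := ((hEmem u).mp hu).1
        have hub := ((hEmem u).mp hu).2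
        have hk' := (hEmem _).mp hk
        have f1 : u • (g₀ • a) = g₀ • a := by
          have h0 := hk'.1
          rw [mul_smul, mul_smul, inv_smul_eq_iff] at h0
          exact h0
        have f2 : u • (g₀ • b) = g₀ • b := by
          have h0 := hk'.2
          rw [mul_smul, mul_smul, inv_smul_eq_iff] at h0
          exact h0
        have g1 : g₀ • a = a ∨ g₀ • a = b := by
          by_contra hcon
          push Not at hcon
          exact hu1 (h.three u a b (g₀ • a) hab (Ne.symm hcon.2) (Ne.symm hcon.1) hua hub f1)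
        have g2 : g₀ • b = a ∨ g₀ • b = b := by
          by_contra hcon
          push Not at hcon
          exact hu1 (h.three u a b (g₀ • b) hab (Ne.symm hcon.2) (Ne.symm hcon.1) hua hub f2)
        have g3 : g₀ • a ≠ g₀ • b := fun e => hab (smul_left_cancel _ e)
        rcases g1 with g1 | g1
        · have g2' : g₀ • b = b := by
            rcases g2 with g2 | g2
            · exact absurd (g1.trans g2.symm) g3
            · exact g2
          have hg₀ : g₀ ∈ E := (hEmem _).mpr ⟨g1, g2'⟩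
          have e1 : (⟨g₀⁻¹ * u * g₀, hk⟩ : E) = (⟨g₀, hg₀⟩ : E)⁻¹ * ⟨u, hu⟩ * ⟨g₀, hg₀⟩ := rfl
          rw [e1, map_mul, map_mul, map_inv, mul_comm, mul_inv_cancel_left]
        · have g4 : g₀ • b = a := by
            rcases g2 with g2 | g2
            · exact g2
            · exact absurd (g1.trans g2.symm) g3
          have hy : τ⁻¹ * g₀ ∈ E :=
            (hEmem _).mpr ⟨by rw [mul_smul, g1, inv_smul_eq_iff, hτa],
              by rw [mul_smul, g4, inv_smul_eq_iff, hτb]⟩
          have e1 : (⟨g₀⁻¹ * u * g₀, hk⟩ : E) =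
              (⟨τ⁻¹ * g₀, hy⟩ : E)⁻¹ * σ ⟨u, hu⟩ * ⟨τ⁻¹ * g₀, hy⟩ := by
            apply Subtype.ext
            show g₀⁻¹ * u * g₀ = (τ⁻¹ * g₀)⁻¹ * (τ * u * τ⁻¹) * (τ⁻¹ * g₀)
            rw [hτinv]
            have e : (τ * g₀)⁻¹ * (τ * u * τ) * (τ * g₀) = g₀⁻¹ * u * (τ * τ) * g₀ := by group
            rw [e, hτ, mul_one]
          rw [e1, map_mul, map_mul, map_inv, mul_comm, mul_inv_cancel_left, hϕ, hϕ, hσσ, mul_comm]
    exact hall_invol_trivial E hcop hodd σ hσσ (fun u hu g₀ hk => hfus u hu g₀ hk) hnil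
  have hfixed := zgroup_invol_fixed hodd σ hσσ hI
  have hinvt := invol_aut_inverts σ hσσ hfixed
  intro t ht
  exact congrArg Subtype.val (hinvt ⟨t, ht⟩)

/-- the two-point stabilizer is then cyclic, self-centralizing and inverted by every element
swapping the two points -/
theorem two_stab_of_nocompl [Finite G] [Finite Ω] (hZ : Cfsg.IsZassenhausGroup G Ω)
    {a b : Ω} (hab : a ≠ b)
    (hodd : Odd (Nat.card ↥(MulAction.stabilizer G a ⊓ MulAction.stabilizer G b : Subgroup G)))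
    (hnil : ∀ q : ℕ, q.Prime →
      q ∣ Nat.card ↥(MulAction.stabilizer G a ⊓ MulAction.stabilizer G b : Subgroup G) →
      ¬ ∃ N : Subgroup G, N.Normal ∧ N.index = q ^ (Nat.card G).factorization q)
    {τ : G} (hτ : τ * τ = 1) (hτa : τ • a = b) (hτb : τ • b = a) :
    IsCyclic ↥(MulAction.stabilizer G a ⊓ MulAction.stabilizer G b : Subgroup G) ∧
    Subgroup.centralizer ((MulAction.stabilizer G a ⊓ MulAction.stabilizer G b : Subgroup G) :
      Set G) = MulAction.stabilizer G a ⊓ MulAction.stabilizer G b ∧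
    ∀ s : G, s • a = b → s • b = a →
      ∀ t ∈ (MulAction.stabilizer G a ⊓ MulAction.stabilizer G b : Subgroup G),
        s * t * s⁻¹ = t⁻¹ := by
  classical
  have h := zdata hZ
  have hZg := h.two_stab_isZGroup hab hodd
  have hinv := swap_inverts_of_nocompl hZ hab hodd hnil hτ hτa hτb
  obtain ⟨E, hE⟩ : ∃ E : Subgroup G, E = MulAction.stabilizer G a ⊓ MulAction.stabilizer G b :=
    ⟨_, rfl⟩
  rw [← hE] at hodd hZg hinv ⊢
  haveI := hZg
  have hEmem : ∀ t : G, t ∈ E ↔ t • a = a ∧ t • b = b := by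
    intro t
    rw [hE, Subgroup.mem_inf, MulAction.mem_stabilizer_iff, MulAction.mem_stabilizer_iff]
  have hcommG : ∀ x ∈ E, ∀ y ∈ E, x * y = y * x := by
    intro x hx y hy
    have h1 := hinv (x * y) (mul_mem hx hy)
    have h2 := hinv x hx
    have h3 := hinv y hy
    have h4 : τ * (x * y) * τ⁻¹ = (τ * x * τ⁻¹) * (τ * y * τ⁻¹) := by group
    rw [h4, h2, h3] at h1
    have h5 : (x⁻¹ * y⁻¹)⁻¹ = ((x * y)⁻¹)⁻¹ := by rw [h1]
    rw [mul_inv_rev, inv_inv, inv_inv, inv_inv] at h5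
    exact h5.symm
  have hcomm : ∀ x y : ↥E, x * y = y * x := fun x y => Subtype.ext (hcommG x x.2 y y.2)
  have hbot : commutator ↥E = ⊥ := by
    rw [eq_bot_iff, commutator_def, Subgroup.commutator_le]
    intro g₁ _ g₂ _
    rw [Subgroup.mem_bot, commutatorElement_eq_one_iff_mul_comm]
    exact hcomm g₁ g₂
  haveI : IsCyclic (Abelianization ↥E) := IsZGroup.isCyclic_abelianization
  have hcyc : IsCyclic ↥E := by
    apply isCyclic_of_injective (Abelianization.of : ↥E →* Abelianization ↥E)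
    rw [injective_iff_map_eq_one]
    intro x hx
    have hx' : x ∈ (Abelianization.of : ↥E →* Abelianization ↥E).ker := MonoidHom.mem_ker.mpr hx
    rw [Abelianization.ker_of, hbot, Subgroup.mem_bot] at hx'
    exact hx'
  have hswapinv : ∀ s : G, s • a = b → s • b = a → ∀ t ∈ E, s * t * s⁻¹ = t⁻¹ := by
    intro s hsa hsb t ht
    have hy : τ⁻¹ * s ∈ E :=
      (hEmem _).mpr ⟨by rw [mul_smul, hsa, inv_smul_eq_iff, hτa],
        by rw [mul_smul, hsb, inv_smul_eq_iff, hτb]⟩
    have e1 : s * t * s⁻¹ = τ * ((τ⁻¹ * s) * t * (τ⁻¹ * s)⁻¹) * τ⁻¹ := by group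
    have e2 : (τ⁻¹ * s) * t * (τ⁻¹ * s)⁻¹ = t := by
      rw [hcommG _ hy t ht, mul_assoc, mul_inv_cancel, mul_one]
    rw [e1, e2]
    exact hinv t ht
  refine ⟨hcyc, ?_, hswapinv⟩
  obtain ⟨t₁, ht₁1, ht₁a, ht₁b⟩ := h.exists_two_fix hab
  have ht₁E : t₁ ∈ E := (hEmem _).mpr ⟨ht₁a, ht₁b⟩
  apply le_antisymm
  · intro x hx
    have hxt : t₁ * x = x * t₁ := Subgroup.mem_centralizer_iff.mp hx t₁ ht₁E
    have f1 : t₁ • (x • a) = x • a := by rw [← mul_smul, hxt, mul_smul, ht₁a]
    have f2 : t₁ • (x • b) = x • b := by rw [← mul_smul, hxt, mul_smul, ht₁b]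
    have g1 : x • a = a ∨ x • a = b := by
      by_contra hcon
      push Not at hcon
      exact ht₁1 (h.three t₁ a b (x • a) hab (Ne.symm hcon.2) (Ne.symm hcon.1) ht₁a ht₁b f1)
    have g2 : x • b = a ∨ x • b = b := by
      by_contra hcon
      push Not at hcon
      exact ht₁1 (h.three t₁ a b (x • b) hab (Ne.symm hcon.2) (Ne.symm hcon.1) ht₁a ht₁b f2)
    have g3 : x • a ≠ x • b := fun e => hab (smul_left_cancel _ e)
    rcases g1 with g1 | g1
    · have g2' : x • b = b := by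
        rcases g2 with g2 | g2
        · exact absurd (g1.trans g2.symm) g3
        · exact g2
      exact (hEmem _).mpr ⟨g1, g2'⟩
    · exfalso
      have g4 : x • b = a := by
        rcases g2 with g2 | g2
        · exact g2
        · exact absurd (g1.trans g2.symm) g3
      have h1 := hswapinv x g1 g4 t₁ ht₁E
      have h2 : x * t₁ * x⁻¹ = t₁ := by rw [← hxt]; group
      rw [h2] at h1
      have h3 : t₁ * t₁ = 1 := by
        calc t₁ * t₁ = t₁ * t₁⁻¹ := by rw [← h1]
          _ = 1 := mul_inv_cancel t₁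
      have hos : orderOf t₁ = 2 := orderOf_eq_prime (by rw [pow_two]; exact h3) ht₁1
      have hdvd : orderOf (⟨t₁, ht₁E⟩ : ↥E) ∣ Nat.card ↥E := orderOf_dvd_natCard _
      rw [← Subgroup.orderOf_coe] at hdvd
      have hdvd' : orderOf t₁ ∣ Nat.card ↥E := hdvd
      rw [hos] at hdvd'
      obtain ⟨j, hj⟩ := hodd
      omega
  · intro x hx
    rw [Subgroup.mem_centralizer_iff]
    intro y hy
    exact hcommG y hy x hx

end ZNoCompl

end Cfsg.Agent.Lib.Helper2.Zas
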